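import Cfsg.Agent.Lib.Forms.OrthDecTheorem

/-!
Overgroups of decomposition stabilisers in the small cases: a finite set of vectors kept by the
stabiliser and by one further element of Ω, but not by Ω.
-/

set_option autoImplicit false

namespace Cfsg.Agent.Lib.Forms

open Matrix QuadraticMap Cfsg.Agent.Lib.Classical.Quad Cfsg.Agent.Lib.Classical.QuadOmega

variable {ι : Type} [Fintype ι] [DecidableEq ι] {F : Type*} [Field F] [Fintype F]
  {Q : QuadraticForm F (ι → F)} {t k : ℕ}

lemma mem_stabilizing {S : Set (ι → F)} {g : GL ι F}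
    (h : ∀ v ∈ S, (g : Matrix ι ι F) *ᵥ v ∈ S) :
    g ∈ Cfsg.stabilizing (Cfsg.glToMat ι F) S := fun v => by
  refine ⟨h v, fun hv => ?_⟩
  have hinj : Function.Injective fun x : S => (⟨(g : Matrix ι ι F) *ᵥ x.1, h x.1 x.2⟩ : S) :=
    fun a b e => Subtype.ext (gl_mulVec_injective g (congrArg Subtype.val e))
  obtain ⟨u, hu⟩ := (Finite.injective_iff_surjective.1 hinj) ⟨_, hv⟩
  rw [← gl_mulVec_injective g (congrArg Subtype.val hu)]
  exact u.2

/-- Ω moves a non-singular vector to every vector of the same value. -/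
lemma exists_omega_map (hQ : Nd Q) (hn : 13 ≤ Fintype.card ι) {v w : ι → F} (hv : Q v ≠ 0)
    (h : Q w = Q v) : ∃ g ∈ Cfsg.Geo.omegaGL ⇑Q, (g : Matrix ι ι F) *ᵥ v = w := by
  have hn' : Module.finrank F (ι → F) = Fintype.card ι := Module.finrank_fintype_fun_eq_card _
  have hreg : Reg F (ι → F) := Or.inr (by omega)
  obtain ⟨g, hg⟩ : ∃ g : isoG Q, g.1 v = w := by
    obtain ⟨g, hg | hg⟩ := exists_map_eq hQ hreg hv h
    · exact ⟨g, hg⟩
    · refine ⟨g * refl Q v, ?_⟩
      rw [Subgroup.coe_mul, LinearEquiv.mul_apply, refl_apply hv, polar_self, map_sub, map_smul, hg,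
        nsmul_eq_mul, mul_div_cancel_right₀ _ hv]
      push_cast
      module
  obtain ⟨s, z, hs, hz, hsz, hperp⟩ := exists_hyp_perp hQ ![w] (by omega)
  have hp : ∀ c : F, polar Q w (c • s + z) = 0 ∧ Q (c • s + z) = c := fun c => by
    have h0 := hperp 0
    simp only [Matrix.cons_val_fin_one] at h0
    refine ⟨by rw [polar_add_right, polar_smul_right, h0.1, h0.2]; simp, ?_⟩
    exact pair_nonsing hs hz hsz c
  have hfix : ∀ c : F, c ≠ 0 → (refl Q (c • s + z)).1 w = w := fun c hc =>
    refl_apply_perp (by rw [(hp c).2]; exact hc) (hp c).1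
  obtain ⟨ρ, hρ, hcom⟩ : ∃ ρ : isoG Q, ρ.1 w = w ∧ ρ * g ∈ commutator (isoG Q) := by
    have h1 : Q ((1 : F) • s + z) ≠ 0 := by rw [(hp 1).2]; exact one_ne_zero
    by_cases h2 : (2 : F) = 0
    · rcases Int.units_eq_one_or (dick hQ g) with hd | hd
      · exact ⟨1, rfl, by rw [one_mul, mem_commutator_iff_two hQ hreg h2]; exact hd⟩
      · exact ⟨refl Q ((1 : F) • s + z), hfix 1 one_ne_zero, by
          rw [mem_commutator_iff_two hQ hreg h2, map_mul, hd, dick_refl hQ h1]; rfl⟩
    · obtain ⟨c, hc, hcs⟩ := exists_sign (F := F) h2 (spn hQ g)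
      have hc' : Q (c • s + z) ≠ 0 := by rw [(hp c).2]; exact hc
      have hsq : spn hQ g * spn hQ g = 1 := Int.units_mul_self _
      rcases Int.units_eq_one_or (dick hQ g) with hd | hd
      · refine ⟨refl Q (c • s + z) * refl Q ((1 : F) • s + z), ?_, ?_⟩
        · rw [Subgroup.coe_mul, LinearEquiv.mul_apply, hfix 1 one_ne_zero, hfix c hc]
        · rw [mem_commutator_iff hQ h2, map_mul, map_mul, map_mul, map_mul, hd, dick_refl hQ hc',
            dick_refl hQ h1, spn_refl hQ h2 hc', spn_refl hQ h2 h1, (hp c).2, (hp 1).2, hcs, sqSign_one,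
            mul_one, mul_one]
          exact ⟨by simp, hsq⟩
      · refine ⟨refl Q (c • s + z), hfix c hc, ?_⟩
        rw [mem_commutator_iff hQ h2, map_mul, map_mul, hd, dick_refl hQ hc', spn_refl hQ h2 hc',
          (hp c).2, hcs]
        exact ⟨by simp, hsq⟩
  refine ⟨isoMat Q (ρ * g), ?_, ?_⟩
  · refine ⟨(isoEquiv (Q := Q) ⇑Q (LinearEquiv.refl F _) fun _ => rfl).symm (ρ * g), ?_, rfl⟩
    rw [SetLike.mem_coe, mem_omega_iff ⇑Q (LinearEquiv.refl F _) fun _ => rfl,
      MulEquiv.apply_symm_apply]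
    exact hcom
  · rw [isoMat_mulVec, Subgroup.coe_mul, LinearEquiv.mul_apply, hg, hρ]

variable {D : Fin t → Submodule F (ι → F)}

/-- The vectors of one value lying in a member. -/
def blockLevel (Q : QuadraticForm F (ι → F)) (D : Fin t → Submodule F (ι → F)) (μ : F) :
    Set (ι → F) :=
  {v | Q v = μ ∧ ∃ i, v ∈ D i}

lemma blockLevel_inv {g : GL ι F}
    (hg : g ∈ Cfsg.Geo.decompositionStabilizer D ⊓ Cfsg.Geo.omegaGL ⇑Q) {μ : F} {v : ι → F}
    (hv : v ∈ blockLevel Q D μ) : (g : Matrix ι ι F) *ᵥ v ∈ blockLevel Q D μ := by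
  obtain ⟨⟨σ, hσ⟩, hgΩ⟩ := hg
  obtain ⟨hQv, i, hi⟩ := hv
  exact ⟨by rw [mem_isometryGroup_of_omega hgΩ, hQv], σ i, by
    rw [← hσ i, ← Matrix.toLin'_apply]; exact Submodule.mem_map_of_mem hi⟩

/-- A set kept by the stabiliser and one further element, but not by Ω, gives an overgroup. -/
lemma overgroup_of_set (hQ : Nd Q) (hn : 13 ≤ Fintype.card ι) (T : Set (ι → F))
    (hT : ∀ g ∈ Cfsg.Geo.decompositionStabilizer D ⊓ Cfsg.Geo.omegaGL ⇑Q,
      ∀ v ∈ T, (g : Matrix ι ι F) *ᵥ v ∈ T)
    {g : GL ι F} (hgΩ : g ∈ Cfsg.Geo.omegaGL ⇑Q) (hgT : ∀ v ∈ T, (g : Matrix ι ι F) *ᵥ v ∈ T)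
    {y : ι → F} {i j : Fin t} (hy : y ∈ D i) (hy' : ∀ l, (g : Matrix ι ι F) *ᵥ y ∈ D l → l = i)
    {e : ι → F} (he : e ∈ D i) (hej : (g : Matrix ι ι F) *ᵥ e ∉ D j) (hij : j = i)
    {v w : ι → F} (hv : v ∈ T) (hQv : Q v ≠ 0) (hw : w ∉ T) (hQw : Q w = Q v) :
    ∃ K : Subgroup (GL ι F), Cfsg.Geo.decompositionStabilizer D ⊓ Cfsg.Geo.omegaGL ⇑Q < K ∧
      K < Cfsg.Geo.omegaGL ⇑Q := by
  subst hij
  refine ⟨Cfsg.stabilizing (Cfsg.glToMat ι F) T ⊓ Cfsg.Geo.omegaGL ⇑Q,
    lt_of_le_of_ne (le_inf (fun h hh => mem_stabilizing (hT h hh)) inf_le_right) fun eq => ?_,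
    lt_of_le_of_ne inf_le_right fun eq => ?_⟩
  · have hgK : g ∈ Cfsg.Geo.decompositionStabilizer D ⊓ Cfsg.Geo.omegaGL ⇑Q := by
      rw [eq]; exact ⟨mem_stabilizing hgT, hgΩ⟩
    obtain ⟨σ, hσ⟩ := hgK.1
    have him : ∀ x ∈ D j, (g : Matrix ι ι F) *ᵥ x ∈ D (σ j) := fun x hx => by
      rw [← hσ j, ← Matrix.toLin'_apply]; exact Submodule.mem_map_of_mem hx
    exact hej (hy' _ (him y hy) ▸ him e he)
  · obtain ⟨h, hh, hhv⟩ := exists_omega_map hQ hn hQv hQw
    have hhK : h ∈ Cfsg.stabilizing (Cfsg.glToMat ι F) T := by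
      have : h ∈ Cfsg.stabilizing (Cfsg.glToMat ι F) T ⊓ Cfsg.Geo.omegaGL ⇑Q := by
        rw [eq]; exact hh
      exact this.1
    exact hw (hhv ▸ (hhK v).1 hv)

/-- The facts about a decomposition used here. -/
structure SmallDec (Q : QuadraticForm F (ι → F)) (k : ℕ) (D : Fin t → Submodule F (ι → F)) : Prop where
  nd : Nd Q
  big : 13 ≤ Fintype.card ι
  le4 : k ≤ 4
  dec : Cfsg.Geo.IsOrthogonalMDecomposition ⇑Q k D

namespace SmallDec

variable (h : SmallDec Q k D)
include h

lemma four : 4 ≤ t := by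
  have h1 := card_of_mdecomp h.dec.decomp.decomp
  have h2 := h.le4
  have h3 := h.big
  by_contra hc
  have : t * k ≤ 3 * 4 := Nat.mul_le_mul (by omega) h2
  omega

lemma orth {i j : Fin t} (hij : i ≠ j) {a b : ι → F} (ha : a ∈ D i) (hb : b ∈ D j) :
    polar Q a b = 0 := h.dec.decomp.orthogonal i j hij a ha b hb

lemma nd_block {i : Fin t} {a : ι → F} (ha : a ∈ D i) (ha0 : a ≠ 0) : ∃ b ∈ D i, polar Q a b ≠ 0 :=
  (h.dec.decomp.nondegenerate i a ha ha0).2

lemma eq_zero_of_mem {i j : Fin t} (hij : i ≠ j) {a : ι → F} (hi : a ∈ D i) (hj : a ∈ D j) : a = 0 := by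
  by_contra h0
  obtain ⟨b, hb, hne⟩ := h.nd_block hi h0
  exact hne (by rw [polar_comm]; exact h.orth hij hb hj)

lemma transport {μ : F} {i₀ : Fin t} {v : ι → F} (hv : v ∈ D i₀) (hQv : Q v = μ) (i : Fin t) :
    ∃ u ∈ D i, Q u = μ := by
  obtain ⟨φ, hφ⟩ := h.dec.isometric i₀ i
  exact ⟨φ ⟨v, hv⟩, (φ _).2, (hφ _).trans hQv⟩

lemma polar_iso {i j : Fin t} (φ : D i ≃ₗ[F] D j) (hφ : ∀ w, Q (φ w : ι → F) = Q (w : ι → F))
    (a b : D i) : polar Q (φ a : ι → F) (φ b : ι → F) = polar Q (a : ι → F) (b : ι → F) := by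
  simp only [polar, ← Submodule.coe_add, ← map_add, hφ]

lemma exists_outside {μ : F} (hμ : μ ≠ 0) {i : Fin t} {v : ι → F} (hv : v ∈ D i) (hQv : Q v = μ) :
    ∃ w, Q w = μ ∧ ∀ l, w ∉ D l := by
  have hv0 : v ≠ 0 := fun e => hμ (by rw [← hQv, e, map_zero])
  obtain ⟨d, hd, hvd⟩ := h.nd_block hv hv0
  obtain ⟨C, hC⟩ := exists_isCompl (D i)
  have hdim : 3 ≤ Module.finrank F ↥(C ⊓ perpK Q ![v, d]) := by
    have h1 := finrank_perpK (Q := Q) ![v, d]
    have h2 := Submodule.finrank_sup_add_finrank_inf_eq C (perpK Q ![v, d])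
    have h3 := Submodule.finrank_le (C ⊔ perpK Q ![v, d])
    have h4 := Submodule.finrank_add_eq_of_isCompl hC
    rw [h.dec.decomp.decomp.finrank_eq, Module.finrank_fintype_fun_eq_card] at h4
    rw [Module.finrank_fintype_fun_eq_card] at h1 h3
    have := h.big
    have := h.le4
    omega
  obtain ⟨s, hs, hs0, hQs⟩ := exists_sing_in Q hdim
  have hsp := mem_perpK.1 hs.2
  have hsv : polar Q v s = 0 := by simpa using hsp 0
  have hsd : polar Q d s = 0 := by simpa using hsp 1
  refine ⟨v + s, by rw [QuadraticMap.map_add ⇑Q, hQv, hQs, hsv, add_zero, add_zero], fun l hl => ?_⟩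
  rcases eq_or_ne l i with rfl | hne
  · have : s ∈ D l := by simpa using (D l).sub_mem hl hv
    exact hs0 (Submodule.disjoint_def.1 hC.disjoint s this hs.1)
  · have := h.orth hne hl hd
    rw [polar_add_left, polar_comm Q s d, hsd, add_zero] at this
    exact hvd this

/-- Frames in odd characteristic: in each block two vectors of the value are equal up to sign or
orthogonal. -/
theorem frame_overgroup (h2 : (2 : F) ≠ 0) (hk : 2 ≤ k) {μ : F} (hμ : μ ≠ 0) {i₀ : Fin t}
    (hex : ∃ v ∈ D i₀, Q v = μ)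
    (hS : ∀ i, ∀ a ∈ D i, ∀ b ∈ D i, Q a = μ → Q b = μ → b = a ∨ b = -a ∨ polar Q a b = 0) :
    ∃ K : Subgroup (GL ι F), Cfsg.Geo.decompositionStabilizer D ⊓ Cfsg.Geo.omegaGL ⇑Q < K ∧
      K < Cfsg.Geo.omegaGL ⇑Q := by
  obtain ⟨v₀, hv₀, hQv₀⟩ := hex
  have h4 := h.four
  let j : Fin 4 → Fin t := fun r => ⟨r.1, by omega⟩
  have hj : ∀ r s, r ≠ s → j r ≠ j s := fun r s hrs e => hrs (Fin.ext (congrArg Fin.val e :))
  choose u hu hQu using fun i => h.transport hv₀ hQv₀ i
  have hu0 : ∀ i, u i ≠ 0 := fun i e => hμ (by rw [← hQu i, e, map_zero])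
  set A := u (j 0) - u (j 1) with hA
  set B := u (j 2) - u (j 3) with hB
  have hQd : ∀ r s, r ≠ s → Q (u (j r) - u (j s)) = 2 * μ := fun r s hrs => by
    rw [sub_eq_add_neg, QuadraticMap.map_add ⇑Q, QuadraticMap.map_neg, hQu, hQu, polar_neg_right,
      h.orth (hj r s hrs) (hu _) (hu _)]
    ring
  have hQA : Q A = 2 * μ := hQd 0 1 (by decide)
  have hQB : Q B = 2 * μ := hQd 2 3 (by decide)
  have hQA0 : Q A ≠ 0 := by rw [hQA]; exact mul_ne_zero h2 hμ
  have hQB0 : Q B ≠ 0 := by rw [hQB]; exact mul_ne_zero h2 hμ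
  have hswap : ∀ r s, r ≠ s → (refl Q (u (j r) - u (j s))).1 (u (j r)) = u (j s) := fun r s hrs => by
    have hq : Q (u (j r) - u (j s)) ≠ 0 := by rw [hQd r s hrs]; exact mul_ne_zero h2 hμ
    rw [refl_apply hq, polar_sub_right, h.orth (hj r s hrs) (hu _) (hu _), polar_self, hQu,
      hQd r s hrs, sub_zero, nsmul_eq_mul, Nat.cast_ofNat, div_self (mul_ne_zero h2 hμ), one_smul,
      sub_sub_cancel]
  have step : ∀ r s, r ≠ s → ∀ x ∈ blockLevel Q D μ,
      (refl Q (u (j r) - u (j s))).1 x ∈ blockLevel Q D μ := by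
    intro r s hrs x hx
    have hq : Q (u (j r) - u (j s)) ≠ 0 := by rw [hQd r s hrs]; exact mul_ne_zero h2 hμ
    obtain ⟨hQx, l, hl⟩ := hx
    have case : ∀ r s, r ≠ s → l = j r → (refl Q (u (j r) - u (j s))).1 x ∈ blockLevel Q D μ := by
      intro r s hrs hlr
      have hq : Q (u (j r) - u (j s)) ≠ 0 := by rw [hQd r s hrs]; exact mul_ne_zero h2 hμ
      subst hlr
      refine ⟨by rw [iso_Q, hQx], ?_⟩
      rcases hS (j r) _ (hu _) x hl (hQu _) hQx with e | e | e
      · exact ⟨j s, by rw [e, hswap r s hrs]; exact hu _⟩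
      · exact ⟨j s, by rw [e, map_neg, hswap r s hrs]; exact (D _).neg_mem (hu _)⟩
      · refine ⟨j r, ?_⟩
        rw [refl_apply_perp hq (by rw [polar_sub_right, polar_comm Q x, e,
          h.orth (hj r s hrs) hl (hu _), sub_zero])]
        exact hl
    rcases eq_or_ne l (j r) with hlr | hlr
    · exact case r s hrs hlr
    rcases eq_or_ne l (j s) with hls | hls
    · rw [show refl Q (u (j r) - u (j s)) = refl Q (u (j s) - u (j r)) by
        rw [← neg_sub (u (j s)) (u (j r)), ← neg_one_smul F, refl_smul (by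
          rw [hQd s r hrs.symm]; exact mul_ne_zero h2 hμ) (neg_ne_zero.2 one_ne_zero)]]
      exact case s r hrs.symm hls
    refine ⟨by rw [iso_Q, hQx], l, ?_⟩
    rw [refl_apply_perp hq (by rw [polar_sub_right, h.orth hlr hl (hu _), h.orth hls hl (hu _),
      sub_zero])]
    exact hl
  obtain ⟨y, hy, hy0, hye⟩ : ∃ y ∈ D (j 0), y ≠ 0 ∧ polar Q y (u (j 0)) = 0 := by
    have h1 := finrank_perpIn (Q := Q) (D (j 0)) (u (j 0))
    rw [h.dec.decomp.decomp.finrank_eq] at h1
    obtain ⟨y, hy, hy0⟩ := Submodule.exists_mem_ne_zero_of_ne_bot (p := perpIn Q (D (j 0)) (u (j 0)))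
      fun e => by rw [e, finrank_bot] at h1; omega
    exact ⟨y, (mem_perpIn.1 hy).1, hy0, by rw [polar_comm]; exact (mem_perpIn.1 hy).2⟩
  obtain ⟨w, hQw, hw⟩ := h.exists_outside hμ hv₀ hQv₀
  have hgy : (rr Q A B : Matrix ι ι F) *ᵥ y = y := by
    rw [rr_mulVec, refl_apply_perp (w := B) hQB0 (by rw [hB, polar_sub_right,
      h.orth (hj 0 2 (by decide)) hy (hu _), h.orth (hj 0 3 (by decide)) hy (hu _), sub_zero]),
      refl_apply_perp (w := A) hQA0 (by rw [hA, polar_sub_right, hye,
      h.orth (hj 0 1 (by decide)) hy (hu _), sub_zero])]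
  refine overgroup_of_set h.nd h.big (blockLevel Q D μ) (fun g hg v hv => blockLevel_inv hg hv)
    (g := rr Q A B) (refl_pair_omega h.nd (Or.inr (by
      rw [Module.finrank_fintype_fun_eq_card]; have := h.big; omega)) hQA0 (by rw [hQB, hQA]))
    (fun x hx => by rw [rr_mulVec]; exact step 0 1 (by decide) _ (step 2 3 (by decide) x hx))
    hy (fun l hl => by_contra fun hne => hy0 (h.eq_zero_of_mem (Ne.symm hne) hy (hgy ▸ hl)))
    (hu (j 0)) ?_ rfl (v := v₀) ⟨hQv₀, i₀, hv₀⟩ (by rw [hQv₀]; exact hμ)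
    (fun hwT => hwT.2.elim hw) (by rw [hQw, hQv₀])
  intro hm
  rw [rr_mulVec, refl_apply_perp (w := B) hQB0 (by rw [hB, polar_sub_right,
    h.orth (hj 0 2 (by decide)) (hu _) (hu _), h.orth (hj 0 3 (by decide)) (hu _) (hu _), sub_zero]),
    hA, hswap 0 1 (by decide)] at hm
  exact hu0 _ (h.eq_zero_of_mem (hj 1 0 (by decide)) (hu _) hm)

/-- A hyperbolic pair in a block of dimension two of plus type. -/
lemma exists_pair_two (hk : k = 2) (i : Fin t) (hp : Cfsg.Geo.IsPlusTypeOn ⇑Q (D i)) :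
    ∃ s ∈ D i, ∃ z ∈ D i, Q s = 0 ∧ Q z = 0 ∧ polar Q s z = 1 ∧
      ∀ x ∈ D i, x = polar Q z x • s + polar Q s x • z := by
  obtain ⟨U, hU, hts, hd⟩ := hp
  rw [h.dec.decomp.decomp.finrank_eq, hk] at hd
  obtain ⟨s, hs, hs0⟩ := U.exists_mem_ne_zero_of_ne_bot fun e => by rw [e, finrank_bot] at hd; omega
  obtain ⟨y, hy, hsy⟩ := h.nd_block (hU hs) hs0
  have hQs := hts s hs
  set y₁ := (polar Q s y)⁻¹ • y with hy₁
  have h1 : polar Q s y₁ = 1 := by rw [hy₁, polar_smul_right, smul_eq_mul, inv_mul_cancel₀ hsy]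
  have hy₁D : y₁ ∈ D i := (D i).smul_mem _ hy
  clear_value y₁
  set z := y₁ + (-Q y₁) • s with hz
  have hzD : z ∈ D i := (D i).add_mem hy₁D ((D i).smul_mem _ (hU hs))
  have hsz : polar Q s z = 1 := by
    rw [hz, polar_add_right, polar_smul_right, polar_self_sing hQs, h1]; simp
  have hQz : Q z = 0 := by
    rw [hz, QuadraticMap.map_add ⇑Q, QuadraticMap.map_smul, hQs, polar_smul_right, polar_comm Q y₁ s, h1]
    simp
  refine ⟨s, hU hs, z, hzD, hQs, hQz, hsz, fun x hx => ?_⟩
  have hli : LinearIndependent F ![s, z] := by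
    rw [LinearIndependent.pair_iff]
    intro p q e
    have e1 := congrArg (polar Q s) e
    simp [polar_add_right, polar_smul_right, polar_self_sing hQs, hsz] at e1
    have e2 := congrArg (polar Q z) e
    simp [polar_add_right, polar_smul_right, polar_self_sing hQz, polar_comm Q z s, hsz] at e2
    exact ⟨e2, e1⟩
  have hspan : Submodule.span F (Set.range ![s, z]) = D i := Submodule.eq_of_le_of_finrank_le
    (Submodule.span_le.2 (by rintro _ ⟨r, rfl⟩; fin_cases r <;> [exact hU hs; exact hzD]))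
    (by rw [finrank_span_eq_card hli, Fintype.card_fin, h.dec.decomp.decomp.finrank_eq, hk])
  rw [← hspan] at hx
  obtain ⟨c, rfl⟩ := (Submodule.mem_span_range_iff_exists_fun F).1 hx
  simp [Fin.sum_univ_two, polar_add_right, polar_smul_right, polar_self_sing hQs,
    polar_self_sing hQz, hsz, polar_comm Q z s]

/-- Plus-type planes over the fields with two and four elements. -/
theorem plus_two_four_overgroup (hk : k = 2) (hp : ∀ i, Cfsg.Geo.IsPlusTypeOn ⇑Q (D i))
    (hq : Fintype.card F = 2 ∨ Fintype.card F = 4) :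
    ∃ K : Subgroup (GL ι F), Cfsg.Geo.decompositionStabilizer D ⊓ Cfsg.Geo.omegaGL ⇑Q < K ∧
      K < Cfsg.Geo.omegaGL ⇑Q := by
  have ht : 7 ≤ t := by
    have h1 := card_of_mdecomp h.dec.decomp.decomp; have := h.big; rw [hk] at h1; omega
  have hcast : ((Fintype.card F : ℕ) : F) = 0 := FiniteField.cast_card_eq_zero F
  have h2 : (2 : F) = 0 := by
    rcases hq with e | e <;> rw [e] at hcast
    · simpa using hcast
    · have : (2 : F) * 2 = 0 := by rw [← hcast]; norm_num
      simpa using this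
  have hneg : ∀ x : F, -x = x := fun x => by linear_combination -x * h2
  have hcube : ∀ x : F, x ≠ 0 → x ^ 3 = 1 := fun x hx => by
    have := FiniteField.pow_card_sub_one_eq_one x hx
    rcases hq with e | e <;> rw [e] at this
    · simp at this; rw [this]; simp
    · simpa using this
  choose s hs z hz hQs hQz hsz hcoord using fun i => h.exists_pair_two hk i (hp i)
  -- values of the polar form between vectors of value one in a block
  have hpol : ∀ i, ∀ a ∈ D i, ∀ b ∈ D i, Q a = 1 → Q b = 1 → polar Q a b = 0 ∨ polar Q a b = 1 := by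
    intro i a ha b hb hQa hQb
    have expand : ∀ p ∈ D i, Q p = polar Q (z i) p * polar Q (s i) p := fun p hp => by
      conv_lhs => rw [hcoord i p hp]
      rw [QuadraticMap.map_add ⇑Q, QuadraticMap.map_smul, QuadraticMap.map_smul, hQs, hQz,
        polar_smul_left, polar_smul_right, hsz]
      simp
    rw [expand a ha] at hQa
    rw [expand b hb] at hQb
    have hab : polar Q a b = polar Q (z i) a * polar Q (s i) b + polar Q (s i) a * polar Q (z i) b := by
      conv_lhs => rw [hcoord i a ha]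
      rw [polar_add_left, polar_smul_left, polar_smul_left, smul_eq_mul, smul_eq_mul]
    set w := polar Q (z i) a * polar Q (s i) b
    have hw : w * (polar Q (s i) a * polar Q (z i) b) = 1 := by
      simp only [w]; linear_combination hQb + (polar Q (s i) b * polar Q (z i) b) * hQa
    have hw3 : w ^ 3 = 1 := hcube w (left_ne_zero_of_mul_eq_one hw)
    have hw' : polar Q (s i) a * polar Q (z i) b = w ^ 2 := by
      linear_combination (w ^ 2) * hw - (polar Q (s i) a * polar Q (z i) b) * hw3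
    rw [hab, hw']
    have : (w - 1) * (w + w ^ 2 + 1) = 0 := by linear_combination hw3
    rcases mul_eq_zero.1 this with e | e
    · left; linear_combination h2 + (w + 2) * e
    · right; linear_combination e - h2
  set T : Set (ι → F) := (AddSubgroup.closure (blockLevel Q D 1) : Set (ι → F)) with hTdef
  have hbase : ∀ x ∈ blockLevel Q D 1, ∀ y ∈ blockLevel Q D 1, polar Q x y = 0 ∨ polar Q x y = 1 := by
    rintro x ⟨hQx, i, hi⟩ y ⟨hQy, l, hl⟩
    rcases eq_or_ne i l with rfl | hne
    · exact hpol i x hi y hl hQx hQy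
    · exact Or.inl (h.orth hne hi hl)
  have hrat : ∀ x ∈ T, ∀ y ∈ blockLevel Q D 1, polar Q x y = 0 ∨ polar Q x y = 1 := by
    intro x hx y hy
    induction hx using AddSubgroup.closure_induction with
    | mem x hx => exact hbase x hx y hy
    | zero => exact Or.inl (polar_zero_left Q y)
    | add a b _ _ ha hb =>
      rw [polar_add_left]
      rcases ha with e | e <;> rcases hb with e' | e' <;> rw [e, e']
      · simp
      · simp
      · simp
      · left; linear_combination h2
    | neg a _ ha => rw [polar_neg_left, hneg]; exact ha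
  let j : Fin 7 → Fin t := fun r => ⟨r.1, by omega⟩
  have hj : ∀ r r', r ≠ r' → j r ≠ j r' := fun r r' hr e => hr (Fin.ext (congrArg Fin.val e :))
  let a : Fin 7 → (ι → F) := fun r => s (j r) + z (j r)
  have haD : ∀ r, a r ∈ D (j r) := fun r => (D _).add_mem (hs _) (hz _)
  have hQa : ∀ r, Q (a r) = 1 := fun r => by
    simp only [a]; rw [QuadraticMap.map_add ⇑Q, hQs, hQz, hsz]; simp
  have haS : ∀ r, a r ∈ blockLevel Q D 1 := fun r => ⟨hQa r, _, haD r⟩
  have haa : ∀ r r', r ≠ r' → polar Q (a r) (a r') = 0 := fun r r' hr => h.orth (hj r r' hr) (haD r) (haD r')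
  set A := a 0 + a 1 + a 2 with hA
  set B := a 3 + a 4 + a 5 with hB
  have Q3 : ∀ x y z : ι → F, polar Q x y = 0 → polar Q x z = 0 → polar Q y z = 0 →
      Q (x + y + z) = Q x + Q y + Q z := fun x y z e1 e2 e3 => by
    rw [QuadraticMap.map_add ⇑Q, QuadraticMap.map_add ⇑Q, polar_add_left, e1, e2, e3]
    simp
  have hQsum : ∀ p q r, p ≠ q → p ≠ r → q ≠ r → Q (a p + a q + a r) = 1 := fun p q r h1 h2' h3 => by
    rw [Q3 _ _ _ (haa p q h1) (haa p r h2') (haa q r h3), hQa, hQa, hQa]
    linear_combination h2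
  have hQA : Q A = 1 := hQsum 0 1 2 (by decide) (by decide) (by decide)
  have hQB : Q B = 1 := hQsum 3 4 5 (by decide) (by decide) (by decide)
  have hAT : A ∈ T := AddSubgroup.add_mem _ (AddSubgroup.add_mem _ (AddSubgroup.subset_closure (haS 0))
    (AddSubgroup.subset_closure (haS 1))) (AddSubgroup.subset_closure (haS 2))
  have hBT : B ∈ T := AddSubgroup.add_mem _ (AddSubgroup.add_mem _ (AddSubgroup.subset_closure (haS 3))
    (AddSubgroup.subset_closure (haS 4))) (AddSubgroup.subset_closure (haS 5))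
  have hrefl : ∀ C ∈ T, Q C = 1 → (∀ v ∈ T, polar Q v C = 0 ∨ polar Q v C = 1) →
      ∀ v ∈ T, (refl Q C).1 v ∈ T := by
    intro C hC hQC hpC v hv
    rw [refl_apply (by rw [hQC]; exact one_ne_zero), hQC, div_one]
    rcases hpC v hv with e | e <;> rw [e]
    · simpa using hv
    · rw [one_smul]; exact AddSubgroup.sub_mem _ hv hC
  have hsum3 : ∀ p q r v, v ∈ T → (polar Q v (a p + a q + a r) = 0 ∨ polar Q v (a p + a q + a r) = 1) := by
    intro p q r v hv
    rw [polar_add_right, polar_add_right]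
    rcases hrat v hv _ (haS p) with e | e <;> rcases hrat v hv _ (haS q) with e' | e' <;>
      rcases hrat v hv _ (haS r) with e'' | e'' <;> rw [e, e', e''] <;>
      first | (left; simp; done) | (right; simp; done) | (left; linear_combination h2) |
        (right; linear_combination h2)
  obtain ⟨hQA0, hQB0⟩ : Q A ≠ 0 ∧ Q B ≠ 0 := by rw [hQA, hQB]; exact ⟨one_ne_zero, one_ne_zero⟩
  -- the vector of value one outside
  obtain ⟨w, hw, hQw⟩ : ∃ w, w ∉ T ∧ Q w = 1 := by
    rcases hq with e | e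
    · refine ⟨s (j 0) + a 1, fun hwT => ?_, ?_⟩
      · have hone : ∀ x : F, x ≠ 0 → x = 1 := fun x hx => by
          have := FiniteField.pow_card_sub_one_eq_one x hx
          rw [e] at this; simpa using this
        have hzero : ∀ x ∈ T, polar Q x (a 0) = 0 := by
          intro x hx
          induction hx using AddSubgroup.closure_induction with
          | mem x hx =>
            obtain ⟨hQx, l, hl⟩ := hx
            rcases eq_or_ne l (j 0) with rfl | hne
            · have hc := hcoord _ x hl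
              rw [hc, QuadraticMap.map_add ⇑Q, QuadraticMap.map_smul, QuadraticMap.map_smul, hQs, hQz,
                polar_smul_left, polar_smul_right, hsz] at hQx
              simp at hQx
              rw [hc, hone _ (left_ne_zero_of_mul_eq_one hQx), hone _ (right_ne_zero_of_mul_eq_one hQx),
                one_smul, one_smul]
              change polar Q (a 0) (a 0) = 0
              rw [polar_self, hQa, nsmul_eq_mul, Nat.cast_ofNat, mul_one, h2]
            · exact h.orth hne hl (haD 0)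
          | zero => exact polar_zero_left Q _
          | add p q _ _ hp hq => rw [polar_add_left, hp, hq, add_zero]
          | neg p _ hp => rw [polar_neg_left, hp, neg_zero]
        have h1 := hzero _ hwT
        rw [polar_add_left, haa 1 0 (by decide), add_zero] at h1
        simp only [a] at h1
        rw [polar_add_right, polar_self_sing (hQs _), hsz, zero_add] at h1
        exact one_ne_zero h1
      · rw [QuadraticMap.map_add ⇑Q, hQs, hQa, h.orth (hj 0 1 (by decide)) (hs _) (haD 1), zero_add,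
          add_zero]
    · obtain ⟨ω, hω0, hω1⟩ := exists_ne_zero_ne_one (F := F) (by omega)
      refine ⟨a 0 + ω • a 1 + ω • a 2, fun hwT => ?_, ?_⟩
      · have hd : ω • s (j 1) + ω⁻¹ • z (j 1) ∈ blockLevel Q D 1 := ⟨by
          rw [QuadraticMap.map_add ⇑Q, QuadraticMap.map_smul, QuadraticMap.map_smul, hQs, hQz,
            polar_smul_left, polar_smul_right, hsz]
          simp [hω0], j 1, (D _).add_mem ((D _).smul_mem _ (hs _)) ((D _).smul_mem _ (hz _))⟩
        have hval : polar Q (a 0 + ω • a 1 + ω • a 2) (ω • s (j 1) + ω⁻¹ • z (j 1)) = ω := by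
          have hmem := (D (j 1)).add_mem ((D (j 1)).smul_mem ω (hs (j 1))) ((D (j 1)).smul_mem ω⁻¹ (hz (j 1)))
          rw [polar_add_left, polar_add_left, polar_smul_left, polar_smul_left,
            h.orth (hj 0 1 (by decide)) (haD 0) hmem, h.orth (hj 2 1 (by decide)) (haD 2) hmem]
          simp only [a]
          simp [polar_add_left, polar_add_right, polar_smul_right, polar_self_sing (hQs _),
            polar_self_sing (hQz _), polar_comm Q (z (j 1)) (s (j 1)), hsz]
          have h3 := hcube ω hω0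
          have : (ω - 1) * (ω + ω ^ 2 + 1) = 0 := by linear_combination h3
          have h4 := (mul_eq_zero.1 this).resolve_left (sub_ne_zero.2 hω1)
          field_simp
          linear_combination h4 - ω * h2
        rcases hrat _ hwT _ hd with e' | e' <;> rw [hval] at e'
        · exact hω0 e'
        · exact hω1 e'
      · rw [Q3 _ _ _ (by rw [polar_smul_right, haa 0 1 (by decide), smul_zero])
          (by rw [polar_smul_right, haa 0 2 (by decide), smul_zero])
          (by rw [polar_smul_right, polar_smul_left, haa 1 2 (by decide), smul_zero, smul_zero]),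
          QuadraticMap.map_smul, QuadraticMap.map_smul, hQa, hQa, hQa]
        simp only [smul_eq_mul]
        linear_combination (ω * ω) * h2
  have hg : ∀ v ∈ T, (rr Q A B : Matrix ι ι F) *ᵥ v ∈ T := fun v hv => by
    rw [rr_mulVec]
    exact hrefl A hAT hQA (hsum3 0 1 2) _ (hrefl B hBT hQB (hsum3 3 4 5) v hv)
  have hgs : (rr Q A B : Matrix ι ι F) *ᵥ s (j 0) = s (j 0) - A := by
    rw [rr_mulVec, refl_apply_perp (w := B) hQB0 (by
      rw [hB, polar_add_right, polar_add_right, h.orth (hj 0 3 (by decide)) (hs _) (haD 3),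
        h.orth (hj 0 4 (by decide)) (hs _) (haD 4), h.orth (hj 0 5 (by decide)) (hs _) (haD 5)]
      simp), refl_apply hQA0, hQA, div_one]
    suffices e : polar Q (s (j 0)) A = 1 by rw [e, one_smul]
    rw [hA, polar_add_right, polar_add_right, h.orth (hj 0 1 (by decide)) (hs _) (haD 1),
      h.orth (hj 0 2 (by decide)) (hs _) (haD 2)]
    simp only [a]
    rw [polar_add_right, polar_self_sing (hQs _), hsz]
    simp
  have hnot : ∀ l, (rr Q A B : Matrix ι ι F) *ᵥ s (j 0) ∉ D l := by
    intro l hl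
    rw [hgs] at hl
    have key : ∀ r : Fin 7, (r = 1 ∨ r = 2) → l = j r := by
      intro r hr
      by_contra hne
      have h1 := h.orth hne hl (hs (j r))
      have hr0 : (0 : Fin 7) ≠ r := by rcases hr with rfl | rfl <;> decide
      have hrr : polar Q (a r) (s (j r)) = 1 := by
        simp only [a]; rw [polar_add_left, polar_self_sing (hQs _), polar_comm Q (z _) (s _), hsz]; simp
      rw [polar_sub_left, h.orth (hj 0 r hr0) (hs _) (hs _), hA, polar_add_left, polar_add_left,
        h.orth (hj 0 r hr0) (haD 0) (hs _)] at h1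
      rcases hr with rfl | rfl
      · rw [hrr, h.orth (hj 2 1 (by decide)) (haD 2) (hs _)] at h1; simp at h1
      · rw [hrr, h.orth (hj 1 2 (by decide)) (haD 1) (hs _)] at h1; simp at h1
    exact hj 1 2 (by decide) ((key 1 (Or.inl rfl)).symm.trans (key 2 (Or.inr rfl)))
  exact overgroup_of_set h.nd h.big T (fun g hg v hv => by
    induction hv using AddSubgroup.closure_induction with
    | mem x hx => exact AddSubgroup.subset_closure (blockLevel_inv hg hx)
    | zero => rw [mulVec_zero]; exact AddSubgroup.zero_mem _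
    | add p q _ _ hp hq => rw [mulVec_add]; exact AddSubgroup.add_mem _ hp hq
    | neg p _ hp => rw [mulVec_neg]; exact AddSubgroup.neg_mem _ hp)
    (refl_pair_omega h.nd (Or.inr (by rw [Module.finrank_fintype_fun_eq_card]; have := h.big; omega))
      hQA0 (by rw [hQB, hQA])) hg (hs (j 0)) (fun l hl => absurd hl (hnot l)) (hs (j 0)) (hnot _) rfl
    (AddSubgroup.subset_closure (haS 0)) (by rw [hQa]; exact one_ne_zero) hw (by rw [hQw, hQa])

end SmallDec

end Cfsg.Agent.Lib.Forms
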