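import Cfsg.Agent.Lib.Forms.TensorFrameData
import Cfsg.Agent.Lib.Forms.OrthDecOver
import Cfsg.Agent.Lib.Forms.UnitaryStd

/-!
Tensor stabilisers with a framed factor are not maximal.
-/

set_option autoImplicit false

namespace Cfsg.Agent.Lib.Forms

open Matrix Cfsg.Geo Kronecker
open scoped commutatorElement

variable {F : Type*} [Field F] {ι α β : Type} [Fintype ι] [DecidableEq ι] [Fintype α] [DecidableEq α]
  [Fintype β] [DecidableEq β]

lemma exists_alt_transv {f : (α → F) → (α → F) → F} (S : Sesq (RingHom.id F) f)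
    (hsep : ∀ x, (∀ y, f x y = 0) → x = 0) (hskew : ∀ x y, f x y = - f y x) (halt : ∀ x, f x x = 0)
    (v : α → F) :
    ∃ R : GL α F, (∀ p q, f ((R : Matrix α α F) *ᵥ p) ((R : Matrix α α F) *ᵥ q) = f p q) ∧
      ∀ x, (R : Matrix α α F) *ᵥ x = x + f x v • v := by
  set M := prefMat f S.add_left S.smul_left 1 v with hM
  have hMx : ∀ x, M *ᵥ x = x + f x v • v := fun x => by
    simp [hM, prefMat, LinearMap.toMatrix'_mulVec]
  have hiso : ∀ p q, f (M *ᵥ p) (M *ᵥ q) = f p q := fun p q => by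
    rw [hMx, hMx, S.add_left, S.add_right, S.add_right, S.smul_left, S.smul_right, S.smul_left,
      S.smul_right, RingHom.id_apply, halt, hskew v q]
    ring
  exact ⟨Matrix.GeneralLinearGroup.mkOfDetNeZero M
    (exists_mul_eq_one f S.zero_left hsep M hiso), hiso, hMx⟩

lemma det_rankOne {f : (ι → F) → (ι → F) → F} {σ : F →+* F} (S : Sesq σ f) {R : GL ι F} {κ : F}
    {v : ι → F} (hR : ∀ x, (R : Matrix ι ι F) *ᵥ x = x + (κ * f x v) • v) :
    (R : Matrix ι ι F).det = 1 + κ * f v v := by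
  set φ : ι → F := fun j => κ * f (Pi.single j 1) v with hφ
  have hlin : ∀ x, φ ⬝ᵥ x = κ * f x v := fun x => by
    conv_rhs => rw [pi_eq_sum_univ' x, S.sum_left, Finset.mul_sum]
    refine Finset.sum_congr rfl fun j _ => ?_
    rw [S.smul_left, hφ]; ring
  have hM : (R : Matrix ι ι F) =
      1 + Matrix.replicateCol Unit v * Matrix.replicateRow Unit φ := by
    refine Matrix.ext_iff_mulVec.2 fun x => ?_
    rw [hR, Matrix.add_mulVec, Matrix.one_mulVec, ← Matrix.vecMulVec_eq, Matrix.vecMulVec_mulVec,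
      op_smul_eq_smul, hlin]
  rw [hM, Matrix.det_one_add_replicateCol_mul_replicateRow, hlin]

namespace TFrame

variable {σ : F →+* F} {f : (ι → F) → (ι → F) → F} {fA : (α → F) → (α → F) → F}
  {fB : (β → F) → (β → F) → F} {T : TData σ f fA fB} {r : ℕ} (S : TFrame T r)

/-- A rank-one element at a vector in two blocks moves a vector out of every block. -/
lemma moved_of_rankOne {l m : Fin r} (hlm : l ≠ m) {p q : α → F} (hp : p ≠ 0) (hqp : fA q p ≠ 0)
    (hind : ∀ k : F, q + k • p ≠ 0) {g : GL ι F} {κ : F} (hκ : κ ≠ 0)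
    (hg : ∀ x, (g : Matrix ι ι F) *ᵥ x = x +
      (κ * f x (S.Φ (Pi.single l p + Pi.single m p))) • S.Φ (Pi.single l p + Pi.single m p)) :
    ∃ v ∈ S.D l, ∀ j, (g : Matrix ι ι F) *ᵥ v ∉ S.D j := by
  refine ⟨S.Φ (Pi.single l q), ⟨q, (S.Φ_single l q).symm⟩, fun j => ?_⟩
  have hk : f (S.Φ (Pi.single l q)) (S.Φ (Pi.single l p + Pi.single m p)) = T.c * S.ε * fA q p := by
    rw [S.form_Φ, Finset.sum_eq_single l]
    · simp [hlm]
    · intro i _ hi; simp [Pi.single_eq_of_ne hi, T.sesqA.zero_left]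
    · simp
  rw [hg, hk, ← map_smul, ← map_add]
  refine S.notMem_D ?_
  rcases eq_or_ne j l with rfl | hj
  · refine ⟨m, Ne.symm hlm, ?_⟩
    simp [Pi.single_eq_of_ne (Ne.symm hlm), hκ, T.c_ne, S.ε_ne, hqp, hp]
  · refine ⟨l, Ne.symm hj, ?_⟩
    simpa [Pi.single_eq_of_ne hlm] using hind _

end TFrame

/-- Symplectic tensor product with a frame. -/
theorem symp_tensor_overgroup {f : (ι → F) → (ι → F) → F} {fA : (α → F) → (α → F) → F}
    {fB : (β → F) → (β → F) → F} {T : TData (RingHom.id F) f fA fB} {r : ℕ} (S : TFrame T r)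
    (hf : Cfsg.Geo.IsSymplecticForm f) (hA : Cfsg.Geo.IsSymplecticForm fA) (hr : 2 ≤ r)
    (hcard : 2 ≤ Fintype.card α) (Tg : Subgroup (GL ι F)) (hT : ∀ g ∈ Tg, T.Acts g)
    (G : Subgroup (GL ι F))
    (hG : ∀ g : GL ι F, g ∈ G ↔ ∀ x y, f ((g : Matrix ι ι F) *ᵥ x) ((g : Matrix ι ι F) *ᵥ y) = f x y) :
    ∃ K : Subgroup (GL ι F), Tg ⊓ G < K ∧ K < G := by
  classical
  haveI : Nonempty α := Fintype.card_pos_iff.1 (by omega)
  have sepA : ∀ x, (∀ y, fA x y = 0) → x = 0 := fun x hx => by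
    by_contra h0; obtain ⟨y, hy⟩ := (hA.nondegenerate x h0).2; exact hy (hx y)
  have sepf : ∀ x, (∀ y, f x y = 0) → x = 0 := fun x hx => by
    by_contra h0; obtain ⟨y, hy⟩ := (hf.nondegenerate x h0).2; exact hy (hx y)
  obtain ⟨a⟩ := ‹Nonempty α›
  set p : α → F := Pi.single a 1
  have hp0 : p ≠ 0 := fun e => by simpa [p] using congrFun e a
  obtain ⟨q, hq⟩ := (hA.nondegenerate p hp0).1
  obtain ⟨R, hR, hRx⟩ := exists_alt_transv T.sesqA sepA hA.skew hA.alternating p
  let l : Fin r := ⟨0, by omega⟩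
  let m : Fin r := ⟨1, by omega⟩
  have hlm : l ≠ m := fun e => by simp [l, m] at e
  refine S.overgroup G Tg (fun g hg => (hG g).1 hg) hT (A₀ := R) (fun s hs => ?_) hlm
    ((hG _).2 (S.blockHom_iso fun j => ?_)) ?_
  · have e1 := congrArg (fun M : Matrix α α F => M *ᵥ p) hs
    simp only [hRx, Matrix.smul_mulVec, one_mulVec, hA.alternating, zero_smul, add_zero] at e1
    have hs1 : s = 1 := by
      have := congrFun e1 a
      simpa [p] using this.symm
    have e2 := congrArg (fun M : Matrix α α F => M *ᵥ q) hs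
    simp only [hRx, Matrix.smul_mulVec, one_mulVec, hs1, one_smul, add_eq_left] at e2
    exact hp0 ((smul_eq_zero.1 e2).resolve_left hq)
  · rcases eq_or_ne j l with rfl | hj
    · simpa using hR
    · simp [Pi.mulSingle_eq_of_ne hj]
  · obtain ⟨g, hg, hgx⟩ := exists_alt_transv T.sesq sepf hf.skew hf.alternating
      (S.Φ (Pi.single l p + Pi.single m p))
    obtain ⟨v, hv, hgv⟩ := S.moved_of_rankOne hlm hp0 hq (fun k hk => hq (by
      rw [eq_neg_of_add_eq_zero_left hk, ← neg_smul, T.sesqA.smul_left, hA.alternating, mul_zero]))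
      one_ne_zero (g := g) (fun x => by rw [hgx, one_mul])
    exact ⟨g, (hG g).2 hg, l, v, hv, hgv⟩

lemma eq_or_eq_three : ∀ x y z : ZMod 3, x ≠ 0 → y ≠ 0 → z ≠ 0 → x = y ∨ x = z ∨ y = z := by decide

lemma three_eq_zero [Fintype F] (hq : Fintype.card F = 3) : (3 : F) = 0 := by
  have h := Nat.cast_card_eq_zero F
  rw [hq] at h
  exact_mod_cast h

/-- Orthogonal tensor product with a frame, over three elements. -/
theorem orth_tensor_overgroup [Fintype F] (hq : Fintype.card F = 3) {Q : QuadraticForm F (ι → F)}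
    (hQ : Cfsg.Agent.Lib.Classical.QuadOmega.Nd Q) (hn : 13 ≤ Fintype.card ι)
    {n : ℕ} {fA : (Fin n → F) → (Fin n → F) → F} {fB : (β → F) → (β → F) → F}
    {T : TData (RingHom.id F) (QuadraticMap.polar ⇑Q) fA fB} {r : ℕ} (S : TFrame T r)
    (hA : Cfsg.Geo.IsSymmetricForm fA) (hn3 : 3 ≤ n) (hr : 2 ≤ r)
    (Tg : Subgroup (GL ι F)) (hT : ∀ g ∈ Tg, T.Acts g) :
    ∃ K : Subgroup (GL ι F), Tg ⊓ omegaGL ⇑Q < K ∧ K < omegaGL ⇑Q := by
  classical
  haveI : Fact (Nat.Prime 3) := ⟨Nat.prime_three⟩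
  haveI : Nonempty (Fin n) := ⟨⟨0, by omega⟩⟩
  have h3 := three_eq_zero hq
  have h2 : (2 : F) ≠ 0 := fun h => one_ne_zero (show (1 : F) = 0 by linear_combination h3 - h)
  let φ := ZMod.ringEquivOfPrime F Nat.prime_three hq
  let B : LinearMap.BilinForm F (Fin n → F) := LinearMap.mk₂ F fA hA.bilinear.add_left
    (fun c x v => by rw [hA.bilinear.smul_left, smul_eq_mul]) hA.bilinear.add_right
    (fun c v x => by rw [hA.bilinear.smul_right, smul_eq_mul])
  have sepA : ∀ x, (∀ y, fA x y = 0) → x = 0 := fun x hx => by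
    by_contra h0; obtain ⟨y, hy⟩ := (hA.nondegenerate x h0).2; exact hy (hx y)
  obtain ⟨b, a, ha, hb⟩ := exists_diag_basis h2 B ⟨hA.symm⟩ ⟨sepA, fun x hx => by
    by_contra h0; obtain ⟨y, hy⟩ := (hA.nondegenerate x h0).1; exact hy (hx y)⟩
  have hd : Module.finrank F (Fin n → F) = n := by simp
  let i₀ : Fin (Module.finrank F (Fin n → F)) := ⟨0, by omega⟩
  let i₁ : Fin (Module.finrank F (Fin n → F)) := ⟨1, by omega⟩
  let i₂ : Fin (Module.finrank F (Fin n → F)) := ⟨2, by omega⟩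
  obtain ⟨i, j, k, hij, hik, hjk, haij⟩ : ∃ i j k, i ≠ j ∧ i ≠ k ∧ j ≠ k ∧ a i = a j := by
    have h01 : i₀ ≠ i₁ := fun e => by simp [i₀, i₁] at e
    have h02 : i₀ ≠ i₂ := fun e => by simp [i₀, i₂] at e
    have h12 : i₁ ≠ i₂ := fun e => by simp [i₁, i₂] at e
    rcases eq_or_eq_three (φ.symm (a i₀)) (φ.symm (a i₁)) (φ.symm (a i₂)) (by simpa using ha i₀)
      (by simpa using ha i₁) (by simpa using ha i₂) with e | e | e
    · exact ⟨i₀, i₁, i₂, h01, h02, h12, φ.symm.injective e⟩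
    · exact ⟨i₀, i₂, i₁, h02, h01, h12.symm, φ.symm.injective e⟩
    · exact ⟨i₁, i₂, i₀, h12, h01.symm, h02.symm, φ.symm.injective e⟩
  have hf : ∀ x y, fA (b x) (b y) = if x = y then a x else 0 := hb
  set w := b i + b j with hw
  have hww : fA w w = 2 * a i := by
    simp [hw, T.sesqA.add_left, T.sesqA.add_right, hf, hij, hij.symm, ← haij]; ring
  have hvw : fA (b i) w = a i := by simp [hw, T.sesqA.add_right, hf, hij]
  obtain ⟨R₁, R₂, h₁, h₂', hns⟩ := exists_commutator_nonscalar T.sesqA sepA (fun x y => hA.symm x y)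
    (κv := -2 / fA (b i) (b i)) (κw := -2 / fA w w) (v := b i) (w := w) (z := b k)
    (by rw [hf, if_pos rfl, RingHom.id_apply]; field_simp [ha i]; ring)
    (by rw [hww, RingHom.id_apply]; field_simp [ha i]; ring)
    (by rw [hf, if_pos rfl]; simp [h2, ha i]) (by rw [hww]; simp [h2, ha i])
    (by rw [hf, if_pos rfl]; exact ha i) (by rw [hvw]; exact ha i)
    (by
      rw [LinearIndependent.pair_iff' (b.ne_zero i)]
      intro c hc
      have := congrArg (fun x => b.repr x j) hc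
      simp [hw, hij] at this)
    (b.ne_zero k) (by rw [hf, if_neg hik.symm]) (by simp [hw, T.sesqA.add_right, hf, hik.symm, hjk.symm])
  let l : Fin r := ⟨0, by omega⟩
  let m : Fin r := ⟨1, by omega⟩
  have hlm : l ≠ m := fun e => by simp [l, m] at e
  have hQpol : ∀ x, QuadraticMap.polar ⇑Q x x = 2 * Q x := fun x => by
    rw [QuadraticMap.polar_self, nsmul_eq_mul]; norm_num
  have hiso : ∀ R : GL (Fin n) F,
      (∀ p q, fA ((R : Matrix (Fin n) (Fin n) F) *ᵥ p) ((R : Matrix (Fin n) (Fin n) F) *ᵥ q) = fA p q) →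
      S.blockHom (Pi.mulSingle l R) ∈ Cfsg.isometryGroup F ⇑Q := by
    intro R hR x _
    have h := S.blockHom_iso (A := Pi.mulSingle l R) (fun j => by
      rcases eq_or_ne j l with rfl | hj
      · simpa using hR
      · simp [Pi.mulSingle_eq_of_ne hj]) x x
    rw [hQpol, hQpol] at h
    exact mul_left_cancel₀ h2 h
  refine S.overgroup (omegaGL ⇑Q) Tg (fun g hg x y => ?_) hT hns hlm ?_ ?_
  · obtain ⟨⟨g, hgi⟩, -, rfl⟩ := hg
    have h : ∀ z, Q ((g : Matrix ι ι F) *ᵥ z) = Q z := fun z => hgi z 0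
    show QuadraticMap.polar ⇑Q ((g : Matrix ι ι F) *ᵥ x) ((g : Matrix ι ι F) *ᵥ y) = _
    simp only [QuadraticMap.polar]
    rw [← mulVec_add, h, h, h]
  · refine ⟨⁅(⟨_, hiso R₁ h₁⟩ : ↥(Cfsg.isometryGroup F ⇑Q)), ⟨_, hiso R₂ h₂'⟩⁆,
      Subgroup.commutator_mem_commutator (Subgroup.mem_top _) (Subgroup.mem_top _), ?_⟩
    simp [commutatorElement_def, ← map_inv, ← map_mul, Pi.mulSingle_inv, Pi.mulSingle_mul]
  · set v := S.Φ (Pi.single l (b i)) with hv
    set v' := S.Φ (Pi.single l w + Pi.single m w) with hv'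
    have e1 : QuadraticMap.polar ⇑Q v v = T.c * S.ε * a i := by
      rw [hv, S.form_Φ, Finset.sum_eq_single l]
      · simp [hf]
      · intro c _ hc; simp [Pi.single_eq_of_ne hc, T.sesqA.zero_left]
      · simp
    have e2 : QuadraticMap.polar ⇑Q v' v' = T.c * S.ε * a i := by
      rw [hv', S.form_Φ, Finset.sum_eq_add l m hlm]
      · simp [hlm, hlm.symm, hww]
        exact Or.inl (by linear_combination a i * h3)
      · intro c _ hc; simp [Pi.single_eq_of_ne hc.1, Pi.single_eq_of_ne hc.2, T.sesqA.zero_left]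
      · simp
      · simp
    rw [hQpol] at e1 e2
    have hQv : Q v ≠ 0 := fun h0 => by
      rw [h0, mul_zero] at e1
      exact mul_ne_zero (mul_ne_zero T.c_ne S.ε_ne) (ha i) e1.symm
    obtain ⟨g, hg, hgv⟩ := exists_omega_map hQ hn hQv (mul_left_cancel₀ h2 (e2.trans e1.symm))
    refine ⟨g, hg, l, v, ⟨b i, (S.Φ_single l _).symm⟩, fun c => ?_⟩
    rw [hgv]
    refine S.notMem_D ?_
    have hw0 : w ≠ 0 := fun e => by rw [e, T.sesqA.zero_right] at hvw; exact ha i hvw.symm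
    rcases eq_or_ne c l with rfl | hc
    · exact ⟨m, hlm.symm, by simp [hlm, hlm.symm, hw0]⟩
    · exact ⟨l, hc.symm, by simp [hlm, hw0]⟩

/-- Unitary tensor product with a frame, over four elements. -/
theorem unitary_tensor_overgroup [Fintype F] (hF : Fintype.card F = 4) (σ : F ≃+* F)
    (hσ : ∀ x, σ x = x ^ 2) (hσne : σ ≠ RingEquiv.refl F)
    {f : (ι → F) → (ι → F) → F} (hf : Cfsg.Geo.IsUnitaryFormPow 2 f)
    {n : ℕ} {fA : (Fin n → F) → (Fin n → F) → F} {fB : (β → F) → (β → F) → F}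
    {T : TData σ.toRingHom f fA fB} {r : ℕ} (S : TFrame T r)
    (hA : Cfsg.Geo.IsUnitaryFormPow 2 fA) (hn3 : 3 ≤ n) (hr : 2 ≤ r)
    (Tg : Subgroup (GL ι F)) (hT : ∀ g ∈ Tg, T.Acts g) (G : Subgroup (GL ι F))
    (hG : ∀ g : GL ι F, g ∈ G ↔
      (∀ x y, f ((g : Matrix ι ι F) *ᵥ x) ((g : Matrix ι ι F) *ᵥ y) = f x y) ∧
        g ∈ Cfsg.Geo.specialLinear ι F) :
    ∃ K : Subgroup (GL ι F), Tg ⊓ G < K ∧ K < G := by
  classical
  haveI : Nonempty (Fin n) := ⟨⟨0, by omega⟩⟩
  haveI : CharP F 2 := charP_of_card_eq_prime_pow (f := 2) (p := 2) (by rw [hF]; norm_num)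
  have h2 : (2 : F) = 0 := CharP.cast_eq_zero F 2
  have hinv : ∀ a, σ (σ a) = a := fun a => by
    rw [hσ, hσ, ← pow_mul, show 2 * 2 = 4 from rfl, ← hF, FiniteField.pow_card]
  have sepA : ∀ x, (∀ y, fA x y = 0) → x = 0 := fun x hx => by
    by_contra h0; obtain ⟨y, hy⟩ := (hA.nondegenerate x h0).2; exact hy (hx y)
  have sepf : ∀ x, (∀ y, f x y = 0) → x = 0 := fun x hx => by
    by_contra h0; obtain ⟨y, hy⟩ := (hf.nondegenerate x h0).2; exact hy (hx y)
  have hermA : ∀ x y, fA x y = σ.toRingHom (fA y x) := fun x y => by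
    show _ = σ _; rw [hσ]; exact hA.herm x y
  have hermf : ∀ x y, f x y = σ.toRingHom (f y x) := fun x y => by
    show _ = σ _; rw [hσ]; exact hf.herm x y
  obtain ⟨κ, hκ0, hκ1⟩ : ∃ κ : F, κ ≠ 0 ∧ κ ≠ 1 := by
    obtain ⟨a, -, ha⟩ := Finset.exists_mem_notMem_of_card_lt_card
      (s := ({0, 1} : Finset F)) (t := Finset.univ) (lt_of_le_of_lt Finset.card_le_two
        (by rw [Finset.card_univ, hF]; norm_num))
    simp only [Finset.mem_insert, Finset.mem_singleton, not_or] at ha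
    exact ⟨a, ha⟩
  have hκ : κ + σ κ + κ * σ κ * 1 = 0 := by
    have h3 : κ ^ 3 = 1 := by
      have := FiniteField.pow_card_sub_one_eq_one κ hκ0
      rwa [hF] at this
    rw [hσ]
    have : (κ - 1) * (κ + κ ^ 2 + κ * κ ^ 2 * 1) = 0 := by linear_combination (κ) * h3
    exact (mul_eq_zero.1 this).resolve_left (sub_ne_zero.2 hκ1)
  obtain ⟨u, hu⟩ := exists_orthonormal_family σ hσne hinv n (Fin n → F) fA hA.add_left hA.smul_left
    hermA (fun x hx => (hA.nondegenerate x hx).2) (by simp)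
  let i : Fin n := ⟨0, by omega⟩
  let j : Fin n := ⟨1, by omega⟩
  let k : Fin n := ⟨2, by omega⟩
  have hij : i ≠ j := fun e => by simp [i, j] at e
  have hik : i ≠ k := fun e => by simp [i, k] at e
  have hjk : j ≠ k := fun e => by simp [j, k] at e
  have hne : ∀ c, u c ≠ 0 := fun c e => by
    have h := hu c c
    rw [e, T.sesqA.zero_left, if_pos rfl] at h
    exact zero_ne_one h
  set w := u i + u j + u k with hw
  have hww : fA w w = 1 := by
    simp [hw, T.sesqA.add_left, T.sesqA.add_right, hu, hij, hik, hjk, hij.symm, hik.symm, hjk.symm]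
    linear_combination h2
  have hz0 : u j + u k ≠ 0 := fun e => by
    have h := congrArg (fun x => fA x (u j)) e
    simp [T.sesqA.add_left, T.sesqA.zero_left, hu, hjk.symm] at h
  obtain ⟨R₁, R₂, h₁, h₂', hns⟩ := exists_commutator_nonscalar T.sesqA sepA hermA
    (κv := κ) (κw := κ) (v := u i) (w := w) (z := u j + u k)
    (by rw [hu, if_pos rfl]; exact hκ) (by rw [hww]; exact hκ) hκ0 hκ0
    (by rw [hu, if_pos rfl]; exact one_ne_zero)
    (by simp [hw, T.sesqA.add_right, hu, hij, hik])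
    (by
      rw [LinearIndependent.pair_iff' (hne i)]
      intro c hc
      have := congrArg (fun x => fA x (u j)) hc
      simp [hw, T.sesqA.add_left, T.sesqA.smul_left, hu, hij, hjk.symm] at this)
    hz0 (by simp [T.sesqA.add_left, hu, hij.symm, hik.symm])
    (by simp [hw, T.sesqA.add_left, T.sesqA.add_right, hu, hij.symm, hik.symm, hjk, hjk.symm]
        linear_combination h2)
  let l : Fin r := ⟨0, by omega⟩
  let m : Fin r := ⟨1, by omega⟩
  have hlm : l ≠ m := fun e => by simp [l, m] at e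
  have hblk : ∀ R : GL (Fin n) F,
      (∀ p q, fA ((R : Matrix (Fin n) (Fin n) F) *ᵥ p) ((R : Matrix (Fin n) (Fin n) F) *ᵥ q) = fA p q) →
      ∀ x y, f ((S.blockHom (Pi.mulSingle l R) : Matrix ι ι F) *ᵥ x)
        ((S.blockHom (Pi.mulSingle l R) : Matrix ι ι F) *ᵥ y) = f x y :=
    fun R hR => S.blockHom_iso fun c => by
      rcases eq_or_ne c l with rfl | hc
      · simpa using hR
      · simp [Pi.mulSingle_eq_of_ne hc]
  have hinvR : ∀ R : GL (Fin n) F,
      (∀ p q, fA ((R : Matrix (Fin n) (Fin n) F) *ᵥ p) ((R : Matrix (Fin n) (Fin n) F) *ᵥ q) = fA p q) →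
      ∀ p q, fA (((R⁻¹ : GL (Fin n) F) : Matrix (Fin n) (Fin n) F) *ᵥ p)
        (((R⁻¹ : GL (Fin n) F) : Matrix (Fin n) (Fin n) F) *ᵥ q) = fA p q := fun R hR p q => by
    rw [← hR, mulVec_mulVec, mulVec_mulVec, ← Units.val_mul, mul_inv_cancel, Units.val_one,
      one_mulVec, one_mulVec]
  refine S.overgroup G Tg (fun g hg => ((hG g).1 hg).1) hT hns hlm ((hG _).2 ⟨?_, ?_⟩) ?_
  · refine hblk _ fun p q => ?_
    simp only [Units.val_mul, ← mulVec_mulVec]
    rw [h₁, h₂', hinvR R₁ h₁, hinvR R₂ h₂']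
  · show Matrix.GeneralLinearGroup.det (S.blockHom (Pi.mulSingle l (R₁ * R₂ * R₁⁻¹ * R₂⁻¹))) = 1
    simp only [Pi.mulSingle_mul, Pi.mulSingle_inv, map_mul, map_inv]
    rw [mul_comm (Matrix.GeneralLinearGroup.det _) (Matrix.GeneralLinearGroup.det _),
      mul_inv_cancel_right, mul_inv_cancel]
  · set w' := S.Φ (Pi.single l (u i) + Pi.single m (u i)) with hw'
    have hiso : f w' w' = 0 := by
      rw [hw', S.form_Φ, Finset.sum_eq_add l m hlm]
      · simp [hlm, hlm.symm, hu]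
        exact Or.inr (by linear_combination h2)
      · intro c _ hc; simp [Pi.single_eq_of_ne hc.1, Pi.single_eq_of_ne hc.2, T.sesqA.zero_left]
      · simp
      · simp
    obtain ⟨g, hg, hgx⟩ := exists_pref T.sesq sepf hermf (κ := (1 : F)) (v := w') (by
      rw [hiso, mul_zero, add_zero, map_one]; linear_combination h2)
    have hdet := det_rankOne T.sesq hgx
    rw [hiso, mul_zero, add_zero] at hdet
    obtain ⟨v, hv, hgv⟩ := S.moved_of_rankOne hlm (p := u i) (q := u i + u j) (hne i)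
      (by simp [T.sesqA.add_left, hu, hij.symm]) (fun c hc => by
        have := congrArg (fun x => fA x (u j)) hc
        simp [T.sesqA.add_left, T.sesqA.smul_left, T.sesqA.zero_left, hu, hij] at this) one_ne_zero
      (g := g) hgx
    exact ⟨g, (hG g).2 ⟨hg, Units.ext hdet⟩, l, v, hv, hgv⟩

end Cfsg.Agent.Lib.Forms
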