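import Cfsg.Agent.Lib.Forms.Transvection

/-!
Rational vectors for a subfield and the subfield group.
-/

set_option autoImplicit false

namespace Cfsg.Agent.Lib.Forms

open Matrix Cfsg.Geo

variable {ι : Type} [Fintype ι] [DecidableEq ι] {F : Type*} [Field F] {F₀ : Subfield F}

/-- A vector with entries in the subfield, moved by `P`. -/
def ratVec (P : GL ι F) (u : ι → F₀) : ι → F := (P : Matrix ι ι F) *ᵥ fun i => (u i : F)

variable {P : GL ι F}

lemma ratVec_zero : ratVec P (0 : ι → F₀) = 0 := by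
  rw [ratVec, show (fun i => ((0 : ι → F₀) i : F)) = 0 from rfl, mulVec_zero]

lemma ratVec_add (u v : ι → F₀) : ratVec P (u + v) = ratVec P u + ratVec P v := by
  rw [ratVec, ratVec, ratVec, ← mulVec_add]; rfl

lemma ratVec_smul (c : F₀) (u : ι → F₀) : ratVec P (c • u) = (c : F) • ratVec P u := by
  rw [ratVec, ratVec, ← mulVec_smul]; rfl

lemma ratVec_injective : Function.Injective (ratVec (F₀ := F₀) P) := fun u v h => by
  funext i
  exact Subtype.ext (congrFun (gl_mulVec_injective P h) i)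

lemma ratVec_ne_zero {u : ι → F₀} (hu : u ≠ 0) : ratVec P u ≠ 0 := fun h =>
  hu (ratVec_injective (h.trans ratVec_zero.symm))

lemma mulVec_map_mulVec (g₀ : Matrix ι ι F₀) (u : ι → F₀) :
    g₀.map (F₀.subtype) *ᵥ (fun i => (u i : F)) = fun i => ((g₀ *ᵥ u) i : F) := by
  funext i
  simp [mulVec, dotProduct]

/-- Two maps agreeing on the rational vectors are equal. -/
lemma gl_ext_ratVec {g h : GL ι F}
    (e : ∀ u : ι → F₀, (g : Matrix ι ι F) *ᵥ ratVec P u = (h : Matrix ι ι F) *ᵥ ratVec P u) :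
    g = h := by
  have key : g * P = h * P := by
    refine gl_ext fun x => ?_
    rw [pi_eq_sum_univ' x, mulVec_sum, mulVec_sum]
    refine Finset.sum_congr rfl fun i _ => ?_
    have hi := e (Pi.single i 1)
    rw [ratVec, show (fun j => ((Pi.single i 1 : ι → F₀) j : F)) = Pi.single i 1 by
      funext j; rcases eq_or_ne j i with rfl | h <;> simp [*]] at hi
    rw [mul_mulVec', mul_mulVec']
    simp only [mulVec_smul]
    rw [hi]
  exact mul_right_cancel key

lemma mem_subfieldSubgroup_iff {g : GL ι F} :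
    g ∈ subfieldSubgroup F₀ P ↔ ∃ (g₀ : GL ι F₀) (c : Fˣ),
      ∀ u, (g : Matrix ι ι F) *ᵥ ratVec P u =
        (c : F) • ratVec P ((g₀ : Matrix ι ι F₀) *ᵥ u) := by
  have hval : ∀ (g₀ : GL ι F₀) (k : GL ι F) (c : Fˣ),
      (k : Matrix ι ι F) = (c : F) • 1 → ∀ u,
      ((P * (Matrix.GeneralLinearGroup.map (F₀.subtype : F₀ →+* F) g₀ * k) * P⁻¹ : GL ι F) :
        Matrix ι ι F) *ᵥ ratVec P u = (c : F) • ratVec P ((g₀ : Matrix ι ι F₀) *ᵥ u) := by
    intro g₀ k c hk u
    rw [ratVec, mul_mulVec', inv_mulVec_mulVec, mul_mulVec', mul_mulVec', hk, smul_mulVec,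
      one_mulVec, mulVec_smul, mulVec_smul]
    congr 2
    exact mulVec_map_mulVec _ _
  constructor
  · rintro ⟨x, hx, rfl⟩
    have hcomm : ∀ (k : GL ι F), k ∈ scalars ι F → ∀ y : GL ι F, k * y = y * k := by
      intro k hk y
      obtain ⟨c, hc⟩ := (mem_scalars_iff k).1 hk
      refine Units.ext ?_
      rw [Units.val_mul, Units.val_mul, hc, smul_mul_assoc, one_mul, mul_smul_comm, mul_one]
    obtain ⟨g₀, c, hg⟩ : ∃ (g₀ : GL ι F₀), ∃ k ∈ scalars ι F,
        x = Matrix.GeneralLinearGroup.map (F₀.subtype : F₀ →+* F) g₀ * k := by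
      have hle : (Matrix.GeneralLinearGroup.map (n := ι) (F₀.subtype : F₀ →+* F)).range ⊔
          scalars ι F ≤
          { carrier := {x | ∃ (g₀ : GL ι F₀), ∃ k ∈ scalars ι F,
              x = Matrix.GeneralLinearGroup.map (F₀.subtype : F₀ →+* F) g₀ * k}
            one_mem' := ⟨1, 1, one_mem _, by simp⟩
            mul_mem' := by
              rintro _ _ ⟨a, k, hk, rfl⟩ ⟨b, l, hl, rfl⟩
              refine ⟨a * b, k * l, mul_mem hk hl, ?_⟩
              rw [map_mul, mul_assoc, ← mul_assoc k, hcomm k hk, ← mul_assoc, ← mul_assoc,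
                ← mul_assoc]
            inv_mem' := by
              rintro _ ⟨a, k, hk, rfl⟩
              exact ⟨a⁻¹, k⁻¹, inv_mem hk, by rw [map_inv, _root_.mul_inv_rev, hcomm _ (inv_mem hk)]⟩ } :=
        sup_le (by rintro _ ⟨a, rfl⟩; exact ⟨a, 1, one_mem _, by simp⟩)
          (fun k hk => ⟨1, k, hk, by simp⟩)
      exact hle hx
    obtain ⟨d, hd⟩ := (mem_scalars_iff c).1 hg.1
    refine ⟨g₀, d, fun u => ?_⟩
    rw [← hval g₀ c d hd u]
    congr 2
    simp [hg.2]
  · rintro ⟨g₀, c, hg⟩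
    let k : GL ι F := Units.map (Matrix.scalar ι : F →+* Matrix ι ι F).toMonoidHom c
    have hk : k ∈ scalars ι F := ⟨c, rfl⟩
    refine ⟨Matrix.GeneralLinearGroup.map (F₀.subtype : F₀ →+* F) g₀ * k,
      mul_mem (Subgroup.mem_sup_left ⟨g₀, rfl⟩) (Subgroup.mem_sup_right hk), ?_⟩
    refine gl_ext_ratVec (F₀ := F₀) (P := P) fun u => ?_
    rw [hg u, ← hval g₀ k c (by simp [k, Matrix.smul_one_eq_diagonal]) u]
    rfl

/-- A matrix carrying every rational line to a rational line lies in the subfield group. -/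
lemma mem_subfieldSubgroup_of_lines {g : GL ι F}
    (hg : ∀ u : ι → F₀, u ≠ 0 → ∃ (c : F) (u' : ι → F₀),
      (g : Matrix ι ι F) *ᵥ ratVec P u = c • ratVec P u') :
    g ∈ subfieldSubgroup F₀ P := by
  classical
  rcases isEmpty_or_nonempty ι with hι | ⟨⟨i₀⟩⟩
  · exact mem_subfieldSubgroup_iff.2 ⟨1, 1, fun u => funext fun i => isEmptyElim i⟩
  have hne : ∀ i : ι, (Pi.single i (1 : F₀) : ι → F₀) ≠ 0 := fun i => by simp
  choose c a ha using fun i => hg (Pi.single i (1 : F₀)) (hne i)
  have gne : ∀ u : ι → F₀, u ≠ 0 → (g : Matrix ι ι F) *ᵥ ratVec P u ≠ 0 := fun u hu h =>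
    ratVec_ne_zero hu (gl_mulVec_injective g (by simpa using h))
  have hc : ∀ i, c i ≠ 0 := fun i e => gne _ (hne i) (by rw [ha, e, zero_smul])
  have hrat : ∀ i, ∃ r : F₀, c i = (r : F) * c i₀ := by
    intro i
    rcases eq_or_ne i i₀ with rfl | hi
    · exact ⟨1, by simp⟩
    obtain ⟨μ, b, hb⟩ := hg (Pi.single i 1 + Pi.single i₀ 1) (fun e => by
      have := congrFun e i
      simp [hi] at this)
    rw [ratVec_add, mulVec_add, ha, ha] at hb
    have hμ : μ ≠ 0 := fun e => gne (Pi.single i 1 + Pi.single i₀ 1) (fun e' => by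
      have := congrFun e' i
      simp [hi] at this) (by rw [ratVec_add, mulVec_add, ha, ha, hb, e, zero_smul])
    -- read off in rational coordinates
    have hcoord : ∀ j, c i * (a i j : F) + c i₀ * (a i₀ j : F) = μ * (b j : F) := fun j => by
      simp only [ratVec, ← mulVec_smul, ← mulVec_add] at hb
      have := congrFun (gl_mulVec_injective P hb) j
      simpa using this
    -- the vectors `a i`, `a i₀` are independent
    obtain ⟨j, k, hjk⟩ : ∃ j k, a i j * a i₀ k - a i k * a i₀ j ≠ 0 := by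
      by_contra hcon
      push Not at hcon
      obtain ⟨j, hj⟩ : ∃ j, a i₀ j ≠ 0 := by
        by_contra hcon'
        push Not at hcon'
        exact gne _ (hne i₀) (by rw [ha, show a i₀ = 0 from funext hcon', ratVec_zero, smul_zero])
      have e : a i = (a i j / a i₀ j) • a i₀ := funext fun k => by
        have := hcon j k
        simp only [Pi.smul_apply, smul_eq_mul]
        field_simp
        linear_combination -this
      have h1 : (g : Matrix ι ι F) *ᵥ ratVec P (Pi.single i (1 : F₀)) =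
          (g : Matrix ι ι F) *ᵥ
            ((c i * ((a i j / a i₀ j : F₀) : F) / c i₀) • ratVec P (Pi.single i₀ (1 : F₀))) := by
        rw [mulVec_smul, ha, ha]
        conv_lhs => rw [e, ratVec_smul, smul_smul]
        rw [smul_smul, div_mul_cancel₀ _ (hc i₀)]
      have h2 := gl_mulVec_injective g h1
      rw [ratVec, ratVec, ← mulVec_smul] at h2
      have h3 := congrFun (gl_mulVec_injective P h2) i
      simp [hi] at h3
    set Δ : F₀ := a i j * a i₀ k - a i k * a i₀ j
    set A : F₀ := b j * a i₀ k - b k * a i₀ j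
    set B : F₀ := a i j * b k - a i k * b j
    have hΔ : (Δ : F) ≠ 0 := by simpa using hjk
    have e1 : c i * (Δ : F) = μ * (A : F) := by
      simp only [Δ, A]; push_cast
      linear_combination (a i₀ k : F) * hcoord j - (a i₀ j : F) * hcoord k
    have e2 : c i₀ * (Δ : F) = μ * (B : F) := by
      simp only [Δ, B]; push_cast
      linear_combination (a i j : F) * hcoord k - (a i k : F) * hcoord j
    have hB : (B : F) ≠ 0 := fun e => mul_ne_zero (hc i₀) hΔ (by rw [e2, e, mul_zero])
    refine ⟨A / B, ?_⟩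
    push_cast
    field_simp
    exact mul_right_cancel₀ hΔ (by linear_combination (B : F) * e1 - (A : F) * e2)
  choose r hr using hrat
  let g₀ : Matrix ι ι F₀ := Matrix.of fun k i => r i * a i k
  have hgu : ∀ u, (g : Matrix ι ι F) *ᵥ ratVec P u = c i₀ • ratVec P (g₀ *ᵥ u) := by
    intro u
    have e0 : ratVec P u = ∑ i, (u i : F) • ratVec P (Pi.single i (1 : F₀)) := by
      simp only [ratVec, ← mulVec_smul, ← mulVec_sum]
      congr 1
      funext j
      simp [Finset.sum_apply, Pi.single_apply, apply_ite (Subtype.val : F₀ → F)]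
    rw [e0, mulVec_sum]
    simp only [mulVec_smul, ha, smul_smul]
    simp only [ratVec, ← mulVec_smul, ← mulVec_sum]
    congr 1
    funext j
    simp only [Finset.sum_apply, Pi.smul_apply, smul_eq_mul, g₀, mulVec, dotProduct,
      Matrix.of_apply, AddSubmonoidClass.coe_finsetSum, MulMemClass.coe_mul, Finset.mul_sum]
    exact Finset.sum_congr rfl fun i _ => by rw [hr i]; ring
  have hunit : IsUnit g₀ := Matrix.mulVec_injective_iff_isUnit.1 fun u v e => by
    by_contra huv
    exact gne (u - v) (sub_ne_zero.2 huv) (by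
      rw [hgu, mulVec_sub, e, sub_self, ratVec_zero, smul_zero])
  obtain ⟨g₁, hg₁⟩ := hunit
  exact mem_subfieldSubgroup_iff.2 ⟨g₁, Units.mk0 (c i₀) (hc i₀), fun u => by rw [hgu, hg₁]; rfl⟩

end Cfsg.Agent.Lib.Forms
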