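import Cfsg.Prelude.Def_ClassicalGeometry

/-!
The stabiliser of a non-degenerate subspace is the product of two isometry groups.
-/

set_option autoImplicit false

namespace Cfsg.Agent.Lib.Forms

open Matrix

lemma exists_mul_eq_one {α : Type*} [Fintype α] [DecidableEq α] {F : Type*} [Field F]
    (f : (α → F) → (α → F) → F) (h0 : ∀ a, f 0 a = 0) (hsep : ∀ a, (∀ a', f a a' = 0) → a = 0)
    (M : Matrix α α F) (hM : ∀ u v, f (M *ᵥ u) (M *ᵥ v) = f u v) : M.det ≠ 0 := by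
  intro hd
  obtain ⟨v, hv, hMv⟩ := Matrix.exists_mulVec_eq_zero_iff.2 hd
  exact hv (hsep v fun a' => by rw [← hM, hMv, h0])

theorem stab_equiv_prod {F : Type*} [Field F] {ι α β : Type} [Fintype ι] [DecidableEq ι]
    [Fintype α] [DecidableEq α] [Fintype β] [DecidableEq β]
    {H H₁ H₂ : Type*} [Group H] [Group H₁] [Group H₂]
    (t : H →* Matrix ι ι F) (t₁ : H₁ →* Matrix α α F) (t₂ : H₂ →* Matrix β β F)
    (ht : Function.Injective t) (ht₁ : Function.Injective t₁) (ht₂ : Function.Injective t₂)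
    (f : (ι → F) → (ι → F) → F) (f₁ : (α → F) → (α → F) → F) (f₂ : (β → F) → (β → F) → F)
    (hH : ∀ h u v, f (t h *ᵥ u) (t h *ᵥ v) = f u v)
    (hH' : ∀ M, (∀ u v, f (M *ᵥ u) (M *ᵥ v) = f u v) → ∃ h, t h = M)
    (hH₁ : ∀ h u v, f₁ (t₁ h *ᵥ u) (t₁ h *ᵥ v) = f₁ u v)
    (hH₁' : ∀ M, (∀ u v, f₁ (M *ᵥ u) (M *ᵥ v) = f₁ u v) → ∃ h, t₁ h = M)
    (hH₂ : ∀ h u v, f₂ (t₂ h *ᵥ u) (t₂ h *ᵥ v) = f₂ u v)
    (hH₂' : ∀ M, (∀ u v, f₂ (M *ᵥ u) (M *ᵥ v) = f₂ u v) → ∃ h, t₂ h = M)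
    (h₁0 : ∀ a, f₁ 0 a = 0) (h₁0' : ∀ a, f₁ a 0 = 0) (h₂0 : ∀ a, f₂ 0 a = 0) (h₂0' : ∀ a, f₂ a 0 = 0)
    (hsep₁ : ∀ a, (∀ a', f₁ a a' = 0) → a = 0)
    (E : ((α → F) × (β → F)) ≃ₗ[F] (ι → F))
    (hE : ∀ x y, f (E x) (E y) = f₁ x.1 y.1 + f₂ x.2 y.2)
    (W : Set (ι → F)) (hW : ∀ v, v ∈ W ↔ (E.symm v).2 = 0) :
    Nonempty (↥(Cfsg.stabilizing t W) ≃* H₁ × H₂) := by
  let M : H₁ × H₂ → Matrix ι ι F := fun p => LinearMap.toMatrix'
    (E.toLinearMap ∘ₗ ((t₁ p.1).mulVecLin.prodMap (t₂ p.2).mulVecLin) ∘ₗ E.symm.toLinearMap)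
  have hMv : ∀ p v, M p *ᵥ v = E (t₁ p.1 *ᵥ (E.symm v).1, t₂ p.2 *ᵥ (E.symm v).2) := fun p v => by
    simp [M, LinearMap.toMatrix'_mulVec]
  have hMiso : ∀ p u v, f (M p *ᵥ u) (M p *ᵥ v) = f u v := fun p u v => by
    rw [hMv, hMv, hE, hH₁, hH₂, ← hE, E.apply_symm_apply, E.apply_symm_apply]
  choose Φ hΦ using fun p => hH' (M p) (hMiso p)
  have hΦmem : ∀ p, Φ p ∈ Cfsg.stabilizing t W := by
    intro p v
    rw [hΦ, hMv, hW, hW, E.symm_apply_apply]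
    refine ⟨fun h => by simp only [h, Matrix.mulVec_zero], fun h => ?_⟩
    have := congrArg (fun b => t₂ p.2⁻¹ *ᵥ b) h
    simpa [mulVec_mulVec, ← map_mul] using this
  have hmul : ∀ p r, (⟨Φ (p * r), hΦmem _⟩ : ↥(Cfsg.stabilizing t W)) =
      ⟨Φ p, hΦmem _⟩ * ⟨Φ r, hΦmem _⟩ := by
    intro p r
    refine Subtype.ext (ht (Matrix.ext_iff_mulVec.2 fun v => ?_))
    rw [Subgroup.coe_mul, map_mul, hΦ, hΦ, hΦ, ← mulVec_mulVec, hMv, hMv, hMv, E.symm_apply_apply,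
      Prod.fst_mul, Prod.snd_mul, map_mul, map_mul, mulVec_mulVec, mulVec_mulVec]
  let φ : H₁ × H₂ →* ↥(Cfsg.stabilizing t W) := MonoidHom.mk' (fun p => ⟨Φ p, hΦmem p⟩) hmul
  refine ⟨(MulEquiv.ofBijective φ ⟨fun p r e => ?_, fun g => ?_⟩).symm⟩
  · have e' : M p = M r := by
      rw [← hΦ, ← hΦ]; exact congrArg (fun z : ↥(Cfsg.stabilizing t W) => t z) e
    refine Prod.ext (ht₁ (Matrix.ext_iff_mulVec.2 fun a => ?_)) (ht₂ (Matrix.ext_iff_mulVec.2 fun b => ?_))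
    · have := congrArg (fun N => N *ᵥ E (a, 0)) e'
      simp only [hMv, E.symm_apply_apply] at this
      exact congrArg Prod.fst (E.injective this)
    · have := congrArg (fun N => N *ᵥ E (0, b)) e'
      simp only [hMv, E.symm_apply_apply] at this
      exact congrArg Prod.snd (E.injective this)
  · let g' : ((α → F) × (β → F)) →ₗ[F] ((α → F) × (β → F)) :=
      E.symm.toLinearMap ∘ₗ (t g.1).mulVecLin ∘ₗ E.toLinearMap
    have hg' : ∀ x, E (g' x) = t g.1 *ᵥ E x := fun x => by simp [g']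
    have hiso : ∀ x y, f₁ (g' x).1 (g' y).1 + f₂ (g' x).2 (g' y).2 = f₁ x.1 y.1 + f₂ x.2 y.2 := by
      intro x y
      rw [← hE, ← hE, hg', hg', hH]
    have h2 : ∀ a, (g' (a, 0)).2 = 0 := by
      intro a
      have := (g.2 (E (a, 0))).1 ((hW _).2 (by rw [E.symm_apply_apply]))
      rw [← hg', hW, E.symm_apply_apply] at this
      exact this
    have h1 : ∀ b, (g' (0, b)).1 = 0 := by
      intro b
      refine hsep₁ _ fun a => ?_
      set v := t (g.1⁻¹) *ᵥ E (a, 0) with hv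
      have hgv : t g.1 *ᵥ v = E (a, 0) := by
        rw [hv, mulVec_mulVec, ← map_mul, mul_inv_cancel, map_one, one_mulVec]
      have hvW : v ∈ W := (g.2 v).2 (by rw [hgv, hW, E.symm_apply_apply])
      have hgx : g' (E.symm v) = (a, 0) := E.injective (by rw [hg', E.apply_symm_apply, hgv])
      have := hiso (0, b) (E.symm v)
      rw [hgx, (hW v).1 hvW, h₂0', h₂0', h₁0] at this
      simpa using this
    let A := LinearMap.toMatrix' ((LinearMap.fst F _ _) ∘ₗ g' ∘ₗ (LinearMap.inl F (α → F) (β → F)))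
    let B := LinearMap.toMatrix' ((LinearMap.snd F _ _) ∘ₗ g' ∘ₗ (LinearMap.inr F (α → F) (β → F)))
    have hA : ∀ a, A *ᵥ a = (g' (a, 0)).1 := fun a => by simp [A, LinearMap.toMatrix'_mulVec]
    have hB : ∀ b, B *ᵥ b = (g' (0, b)).2 := fun b => by simp [B, LinearMap.toMatrix'_mulVec]
    obtain ⟨p₁, hp₁⟩ := hH₁' A fun u v => by
      have := hiso (u, 0) (v, 0)
      rw [h2, h2, h₂0] at this
      rw [hA, hA]
      simpa using this
    obtain ⟨p₂, hp₂⟩ := hH₂' B fun u v => by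
      have := hiso (0, u) (0, v)
      rw [h1, h1, h₁0] at this
      rw [hB, hB]
      simpa using this
    refine ⟨(p₁, p₂), Subtype.ext (ht ?_)⟩
    show t (Φ (p₁, p₂)) = t g.1
    rw [hΦ]
    refine Matrix.ext_iff_mulVec.2 fun v => ?_
    obtain ⟨⟨a, b⟩, rfl⟩ := E.surjective v
    rw [hMv, E.symm_apply_apply, ← hg', hp₁, hp₂, hA, hB]
    congr 1
    have : g' (a, b) = g' (a, 0) + g' (0, b) := by rw [← map_add]; simp
    rw [this]
    refine Prod.ext ?_ ?_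
    · simp [h1]
    · simp [h2]

end Cfsg.Agent.Lib.Forms
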