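import Cfsg.Prelude.Def_GeometricClasses
import Cfsg.Agent.Lib.Forms.StabProd

/-!
A tensor factor with a unique orthogonal frame: the tensor stabiliser preserves an orthogonal
decomposition, so it lies in a strictly larger decomposition stabiliser.
-/

set_option autoImplicit false

namespace Cfsg.Agent.Lib.Forms

open Matrix Cfsg.Geo Kronecker

variable {F : Type*} [Field F]

/-- A form linear in the first slot and `σ`-semilinear in the second. -/
structure Sesq (σ : F →+* F) {α : Type} (f : (α → F) → (α → F) → F) : Prop where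
  add_left : ∀ x y v, f (x + y) v = f x v + f y v
  smul_left : ∀ (c : F) (x v : α → F), f (c • x) v = c * f x v
  add_right : ∀ v x y, f v (x + y) = f v x + f v y
  smul_right : ∀ (c : F) (v x : α → F), f v (c • x) = σ c * f v x

namespace Sesq

variable {σ : F →+* F} {α : Type} {f : (α → F) → (α → F) → F} (S : Sesq σ f)
include S

lemma zero_left (v : α → F) : f 0 v = 0 := by
  have := S.smul_left 0 0 v
  rwa [zero_smul, zero_mul] at this

lemma zero_right (v : α → F) : f v 0 = 0 := by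
  have := S.smul_right 0 v 0
  rwa [zero_smul, map_zero, zero_mul] at this

lemma sum_left {κ : Type*} (s : Finset κ) (x : κ → α → F) (v : α → F) :
    f (∑ i ∈ s, x i) v = ∑ i ∈ s, f (x i) v := by
  classical
  induction s using Finset.induction_on with
  | empty => simp [S.zero_left]
  | insert a s ha ih => rw [Finset.sum_insert ha, Finset.sum_insert ha, S.add_left, ih]

lemma sum_right {κ : Type*} (s : Finset κ) (x : κ → α → F) (v : α → F) :
    f v (∑ i ∈ s, x i) = ∑ i ∈ s, f v (x i) := by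
  classical
  induction s using Finset.induction_on with
  | empty => simp [S.zero_right]
  | insert a s ha ih => rw [Finset.sum_insert ha, Finset.sum_insert ha, S.add_right, ih]

lemma formOfGram_eq [Fintype α] [DecidableEq α] (x y : α → F) :
    formOfGram σ (gramMatrix f) x y = f x y := by
  conv_rhs => rw [pi_eq_sum_univ' x, pi_eq_sum_univ' y]
  rw [S.sum_left]
  refine Finset.sum_congr rfl fun a _ => ?_
  rw [S.smul_left, S.sum_right, Finset.mul_sum]
  refine Finset.sum_congr rfl fun b _ => ?_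
  rw [S.smul_right]
  simp only [gramMatrix]
  ring

end Sesq

lemma formOfGram_kron {α β : Type} [Fintype α] [Fintype β] (σ : F →+* F) (G : Matrix α α F)
    (H : Matrix β β F) (p q : α → F) (v w : β → F) :
    formOfGram σ (G ⊗ₖ H) (fun z => p z.1 * v z.2) (fun z => q z.1 * w z.2) =
      formOfGram σ G p q * formOfGram σ H v w := by
  simp only [formOfGram, Fintype.sum_prod_type, kroneckerMap_apply, map_mul]
  rw [Finset.sum_mul_sum]
  refine Finset.sum_congr rfl fun a _ => Finset.sum_congr rfl fun b _ => ?_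
  rw [Finset.sum_mul_sum]
  refine Finset.sum_congr rfl fun a' _ => Finset.sum_congr rfl fun b' _ => ?_
  ring

variable {ι α β : Type} [Fintype ι] [DecidableEq ι] [Fintype α] [DecidableEq α] [Fintype β]
  [DecidableEq β]

/-- A form on `F^ι` presented as a tensor product. -/
structure TData (σ : F →+* F) (f : (ι → F) → (ι → F) → F) (fA : (α → F) → (α → F) → F)
    (fB : (β → F) → (β → F) → F) where
  τ : (α → F) →ₗ[F] (β → F) →ₗ[F] (ι → F)
  c : F
  c_ne : c ≠ 0
  card : Fintype.card ι = Fintype.card α * Fintype.card β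
  pair : ∀ p q v w, f (τ p v) (τ q w) = c * (fA p q * fB v w)
  inj : ∀ {r : ℕ} (u : Fin r → β → F), LinearIndependent F u →
    ∀ x : Fin r → α → F, ∑ l, τ (x l) (u l) = 0 → x = 0
  sesq : Sesq σ f
  sesqA : Sesq σ fA
  sesqB : Sesq σ fB

/-- The elements that act factorwise. -/
def TData.Acts {σ : F →+* F} {f : (ι → F) → (ι → F) → F} {fA : (α → F) → (α → F) → F}
    {fB : (β → F) → (β → F) → F} (T : TData σ f fA fB) (g : GL ι F) : Prop :=
  ∃ (a : GL α F) (b : GL β F), ∀ p v, (g : Matrix ι ι F) *ᵥ T.τ p v =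
    T.τ ((a : Matrix α α F) *ᵥ p) ((b : Matrix β β F) *ᵥ v)

/-- An orthogonal frame of the second factor. -/
structure TFrame {σ : F →+* F} {f : (ι → F) → (ι → F) → F} {fA : (α → F) → (α → F) → F}
    {fB : (β → F) → (β → F) → F} (T : TData σ f fA fB) (r : ℕ) where
  u : Fin r → β → F
  li : LinearIndependent F u
  hr : r = Fintype.card β
  ε : F
  ε_ne : ε ≠ 0
  norm : ∀ l m, fB (u l) (u m) = if l = m then ε else 0
  nondeg : ∃ p q, fA p q ≠ 0
  frame : ∀ (b : GL β F) (lam : F), lam ≠ 0 →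
    (∀ v w, fB ((b : Matrix β β F) *ᵥ v) ((b : Matrix β β F) *ᵥ w) = lam * fB v w) →
    ∀ l, ∃ m, ∃ d : F, (b : Matrix β β F) *ᵥ u l = d • u m

namespace TFrame

variable {σ : F →+* F} {f : (ι → F) → (ι → F) → F} {fA : (α → F) → (α → F) → F}
  {fB : (β → F) → (β → F) → F} {T : TData σ f fA fB} {r : ℕ} (S : TFrame T r)

/-- The coordinates along the frame. -/
noncomputable def Φ : (Fin r → α → F) ≃ₗ[F] (ι → F) :=
  LinearEquiv.ofBijective (∑ l, (T.τ.flip (S.u l)).comp (LinearMap.proj l))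
    (by
      have h : Function.Injective (∑ l, (T.τ.flip (S.u l)).comp (LinearMap.proj l) :
          (Fin r → α → F) →ₗ[F] (ι → F)) := by
        rw [injective_iff_map_eq_zero]
        intro x hx
        exact T.inj S.u S.li x (by simpa using hx)
      refine ⟨h, (LinearMap.injective_iff_surjective_of_finrank_eq_finrank ?_).1 h⟩
      rw [Module.finrank_pi_fintype]
      simp [T.card, S.hr, mul_comm])

lemma Φ_apply (x : Fin r → α → F) : S.Φ x = ∑ l, T.τ (x l) (S.u l) := by
  change (∑ l, (T.τ.flip (S.u l)).comp (LinearMap.proj l) : (Fin r → α → F) →ₗ[F] (ι → F)) x = _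
  simp

lemma Φ_single (l : Fin r) (p : α → F) : S.Φ (Pi.single l p) = T.τ p (S.u l) := by
  rw [S.Φ_apply, Finset.sum_eq_single l]
  · simp
  · intro m _ hm; simp [hm]
  · simp

lemma form_Φ (x y : Fin r → α → F) : f (S.Φ x) (S.Φ y) = T.c * S.ε * ∑ l, fA (x l) (y l) := by
  rw [S.Φ_apply, S.Φ_apply, T.sesq.sum_left, Finset.mul_sum]
  refine Finset.sum_congr rfl fun l _ => ?_
  rw [T.sesq.sum_right, Finset.sum_eq_single l]
  · rw [T.pair, S.norm, if_pos rfl]; ring
  · intro m _ hm; rw [T.pair, S.norm, if_neg (Ne.symm hm)]; ring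
  · simp

/-- The blocks. -/
def D (l : Fin r) : Submodule F (ι → F) := LinearMap.range (T.τ.flip (S.u l))

lemma mem_D {l : Fin r} {x : ι → F} : x ∈ S.D l ↔ ∃ p, T.τ p (S.u l) = x := Iff.rfl

lemma notMem_D {x : Fin r → α → F} {l : Fin r} (h : ∃ m, m ≠ l ∧ x m ≠ 0) : S.Φ x ∉ S.D l := by
  rintro ⟨p, hp⟩
  obtain ⟨m, hm, hxm⟩ := h
  rw [LinearMap.flip_apply, ← S.Φ_single] at hp
  refine hxm ?_
  rw [← S.Φ.injective hp, Pi.single_eq_of_ne hm]

lemma finrank_D (l : Fin r) : Module.finrank F (S.D l) = Fintype.card α := by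
  rw [D, LinearMap.finrank_range_of_inj, Module.finrank_fintype_fun_eq_card]
  intro p q hpq
  rw [LinearMap.flip_apply, LinearMap.flip_apply, ← S.Φ_single, ← S.Φ_single] at hpq
  exact Pi.single_injective l (S.Φ.injective hpq)

lemma disjoint_D [Nonempty α] {l m : Fin r} (h : S.D l = S.D m) : l = m := by
  by_contra hne
  obtain ⟨a⟩ := ‹Nonempty α›
  have h1 : S.Φ (Pi.single l (Pi.single a 1)) ∈ S.D m := h ▸ ⟨_, (S.Φ_single l _).symm⟩
  refine S.notMem_D ⟨l, hne, ?_⟩ h1
  rw [Pi.single_eq_same]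
  intro h0
  simpa using congrFun h0 a

lemma mem_stab [Nonempty α] {g : GL ι F} (hg : T.Acts g)
    (hf : ∀ x y, f ((g : Matrix ι ι F) *ᵥ x) ((g : Matrix ι ι F) *ᵥ y) = f x y) :
    g ∈ decompositionStabilizer S.D := by
  obtain ⟨a, b, hab⟩ := hg
  obtain ⟨p, q, hpq⟩ := S.nondeg
  set p' := (a : Matrix α α F) *ᵥ p
  set q' := (a : Matrix α α F) *ᵥ q
  have hkey : ∀ v w, fA p' q' * fB ((b : Matrix β β F) *ᵥ v) ((b : Matrix β β F) *ᵥ w) =
      fA p q * fB v w := by
    intro v w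
    have h := hf (T.τ p v) (T.τ q w)
    rw [hab, hab, T.pair, T.pair] at h
    exact mul_left_cancel₀ T.c_ne h
  have hr0 : ∀ l : Fin r, fA p' q' ≠ 0 := fun l h0 => by
    have h := hkey (S.u l) (S.u l)
    rw [h0, zero_mul, S.norm, if_pos rfl] at h
    exact mul_ne_zero hpq S.ε_ne h.symm
  have hfr : ∀ l, ∃ m, (S.D l).map (Matrix.toLin' (g : Matrix ι ι F)) = S.D m := by
    intro l
    obtain ⟨m, d, hd⟩ := S.frame b (fA p q / fA p' q') (div_ne_zero hpq (hr0 l))
      (fun v w => by rw [div_mul_eq_mul_div, eq_div_iff (hr0 l), mul_comm, hkey]) l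
    refine ⟨m, Submodule.eq_of_le_of_finrank_le ?_ ?_⟩
    · rintro _ ⟨_, ⟨x, rfl⟩, rfl⟩
      refine ⟨d • ((a : Matrix α α F) *ᵥ x), ?_⟩
      rw [Matrix.toLin'_apply, LinearMap.flip_apply, LinearMap.flip_apply, hab, hd, map_smul,
        map_smul, LinearMap.smul_apply]
    · rw [S.finrank_D, ← S.finrank_D l]
      refine le_of_eq (Submodule.equivMapOfInjective _ ?_ _).finrank_eq
      intro x y hxy
      have := congrArg (fun w => ((g⁻¹ : GL ι F) : Matrix ι ι F) *ᵥ w) hxy
      simpa [Matrix.toLin'_apply, mulVec_mulVec, ← Units.val_mul] using this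
  choose π hπ using hfr
  have hinj : Function.Injective π := by
    intro l m h
    apply S.disjoint_D
    have e := (hπ l).trans ((congrArg S.D h).trans (hπ m).symm)
    refine Submodule.map_injective_of_injective ?_ e
    intro x y hxy
    have := congrArg (fun w => ((g⁻¹ : GL ι F) : Matrix ι ι F) *ᵥ w) hxy
    simpa [Matrix.toLin'_apply, mulVec_mulVec, ← Units.val_mul] using this
  exact ⟨Equiv.ofBijective π (Finite.injective_iff_bijective.1 hinj), hπ⟩

/-- Block-diagonal elements. -/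
noncomputable def blockHom : (Fin r → GL α F) →* GL ι F :=
  MonoidHom.toHomUnits
    { toFun := fun A => LinearMap.toMatrix'
        (S.Φ.toLinearMap ∘ₗ (LinearMap.pi fun l => ((A l : Matrix α α F)).mulVecLin ∘ₗ
          LinearMap.proj l) ∘ₗ S.Φ.symm.toLinearMap)
      map_one' := by
        refine Matrix.ext_iff_mulVec.2 fun x => ?_
        obtain ⟨y, rfl⟩ := S.Φ.surjective x
        simp [LinearMap.toMatrix'_mulVec]
      map_mul' := fun A B => by
        refine Matrix.ext_iff_mulVec.2 fun x => ?_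
        obtain ⟨y, rfl⟩ := S.Φ.surjective x
        rw [← mulVec_mulVec]
        simp only [LinearMap.toMatrix'_mulVec, LinearMap.comp_apply, LinearEquiv.coe_coe,
          S.Φ.symm_apply_apply]
        congr 1
        funext l
        simp [mulVec_mulVec] }

lemma blockHom_Φ (A : Fin r → GL α F) (x : Fin r → α → F) :
    (S.blockHom A : Matrix ι ι F) *ᵥ S.Φ x = S.Φ fun l => (A l : Matrix α α F) *ᵥ x l := by
  simp only [blockHom, MonoidHom.coe_toHomUnits, MonoidHom.coe_mk, OneHom.coe_mk,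
    LinearMap.toMatrix'_mulVec, LinearMap.comp_apply, LinearEquiv.coe_coe, S.Φ.symm_apply_apply]
  congr 1

lemma blockHom_iso {A : Fin r → GL α F}
    (hA : ∀ l p q, fA ((A l : Matrix α α F) *ᵥ p) ((A l : Matrix α α F) *ᵥ q) = fA p q) (x y : ι → F) :
    f ((S.blockHom A : Matrix ι ι F) *ᵥ x) ((S.blockHom A : Matrix ι ι F) *ᵥ y) = f x y := by
  obtain ⟨x, rfl⟩ := S.Φ.surjective x
  obtain ⟨y, rfl⟩ := S.Φ.surjective y
  simp only [S.blockHom_Φ, S.form_Φ, hA]

lemma blockHom_mem_stab (A : Fin r → GL α F) : S.blockHom A ∈ decompositionStabilizer S.D := by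
  refine ⟨1, fun l => Submodule.eq_of_le_of_finrank_le ?_ ?_⟩
  · rintro _ ⟨_, ⟨x, rfl⟩, rfl⟩
    refine ⟨(A l : Matrix α α F) *ᵥ x, ?_⟩
    rw [Matrix.toLin'_apply, LinearMap.flip_apply, LinearMap.flip_apply, ← S.Φ_single,
      ← S.Φ_single, S.blockHom_Φ]
    congr 1
    funext m
    rcases eq_or_ne m l with rfl | hm
    · simp
    · simp [Pi.single_eq_of_ne hm]
  · rw [Equiv.Perm.one_apply]
    refine le_of_eq (Submodule.equivMapOfInjective _ ?_ _).finrank_eq
    intro x y hxy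
    have := congrArg (fun w => (((S.blockHom A)⁻¹ : GL ι F) : Matrix ι ι F) *ᵥ w) hxy
    simpa [Matrix.toLin'_apply, mulVec_mulVec, ← Units.val_mul] using this

lemma not_acts [Nonempty α] {A₀ : GL α F} (hA₀ : ∀ s : F, (A₀ : Matrix α α F) ≠ s • 1) {l m : Fin r}
    (hlm : l ≠ m) : ¬ T.Acts (S.blockHom (Pi.mulSingle l A₀)) := by
  rintro ⟨a, b, hab⟩
  have key : ∀ k p, S.Φ (Pi.single k (((Pi.mulSingle l A₀ : Fin r → GL α F) k : Matrix α α F) *ᵥ p)) =
      T.τ ((a : Matrix α α F) *ᵥ p) ((b : Matrix β β F) *ᵥ S.u k) := by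
    intro k p
    rw [← hab, ← S.Φ_single, S.blockHom_Φ]
    congr 1
    funext j
    rcases eq_or_ne j k with rfl | hj
    · simp
    · simp [Pi.single_eq_of_ne hj]
  have hB : LinearIndependent F S.u := S.li
  have hspan : Submodule.span F (Set.range S.u) = ⊤ :=
    Submodule.eq_top_of_finrank_eq (by
      rw [finrank_span_eq_card hB, Module.finrank_fintype_fun_eq_card, Fintype.card_fin, S.hr])
  have hcoord : ∀ k, ∃ d : Fin r → F, (b : Matrix β β F) *ᵥ S.u k = ∑ j, d j • S.u j := fun k => by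
    obtain ⟨d, hd⟩ := (Submodule.mem_span_range_iff_exists_fun F).1
      (hspan ▸ Submodule.mem_top : (b : Matrix β β F) *ᵥ S.u k ∈ Submodule.span F (Set.range S.u))
    exact ⟨d, hd.symm⟩
  obtain ⟨d, hd⟩ := hcoord m
  obtain ⟨d', hd'⟩ := hcoord l
  have hexp : ∀ (x : α → F) (d : Fin r → F), T.τ x (∑ j, d j • S.u j) = S.Φ fun j => d j • x := by
    intro x d
    rw [S.Φ_apply, map_sum]
    refine Finset.sum_congr rfl fun j _ => ?_
    rw [map_smul, map_smul, LinearMap.smul_apply]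
  have e1 : ∀ p, p = d m • ((a : Matrix α α F) *ᵥ p) := fun p => by
    have h := key m p
    rw [hd, hexp, Pi.mulSingle_eq_of_ne hlm.symm, Units.val_one, one_mulVec] at h
    simpa using congrFun (S.Φ.injective h) m
  have e2 : ∀ p, (A₀ : Matrix α α F) *ᵥ p = d' l • ((a : Matrix α α F) *ᵥ p) := fun p => by
    have h := key l p
    rw [hd', hexp, Pi.mulSingle_eq_same] at h
    simpa using congrFun (S.Φ.injective h) l
  have hdm : d m ≠ 0 := by
    intro h0
    obtain ⟨i⟩ := ‹Nonempty α›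
    have := congrFun (e1 (Pi.single i 1)) i
    simp [h0] at this
  refine hA₀ (d' l / d m) (Matrix.ext_iff_mulVec.2 fun p => ?_)
  rw [e2, Matrix.smul_mulVec, one_mulVec]
  conv_rhs => rw [e1 p, smul_smul, div_mul_cancel₀ _ hdm]

/-- The decomposition stabiliser lies strictly between. -/
theorem overgroup [Nonempty α] (G Tg : Subgroup (GL ι F))
    (hG : ∀ g ∈ G, ∀ x y, f ((g : Matrix ι ι F) *ᵥ x) ((g : Matrix ι ι F) *ᵥ y) = f x y)
    (hT : ∀ g ∈ Tg, T.Acts g) {A₀ : GL α F} (hA₀ : ∀ s : F, (A₀ : Matrix α α F) ≠ s • 1)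
    {l m : Fin r} (hlm : l ≠ m) (hblock : S.blockHom (Pi.mulSingle l A₀) ∈ G)
    (hmove : ∃ g ∈ G, ∃ (k : Fin r) (v : ι → F), v ∈ S.D k ∧
      ∀ j, (g : Matrix ι ι F) *ᵥ v ∉ S.D j) :
    ∃ K : Subgroup (GL ι F), Tg ⊓ G < K ∧ K < G := by
  refine ⟨decompositionStabilizer S.D ⊓ G,
    lt_of_le_of_ne (fun g hg => ⟨S.mem_stab (hT g hg.1) (hG g hg.2), hg.2⟩) fun eq => ?_,
    lt_of_le_of_ne inf_le_right fun eq => ?_⟩
  · have : S.blockHom (Pi.mulSingle l A₀) ∈ Tg ⊓ G := by
      rw [eq]; exact ⟨S.blockHom_mem_stab _, hblock⟩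
    exact S.not_acts hA₀ hlm (hT _ this.1)
  · obtain ⟨g, hg, k, v, hv, hgv⟩ := hmove
    have hgK : g ∈ decompositionStabilizer S.D := by
      have : g ∈ decompositionStabilizer S.D ⊓ G := by rw [eq]; exact hg
      exact this.1
    obtain ⟨π, hπ⟩ := hgK
    refine hgv (π k) ?_
    rw [← hπ k, ← Matrix.toLin'_apply]
    exact Submodule.mem_map_of_mem hv

end TFrame

/-- `x ↦ x + κ f(x, v) v`. -/
def prefMat (f : (α → F) → (α → F) → F) (hf : ∀ x y v, f (x + y) v = f x v + f y v)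
    (hf' : ∀ (c : F) (x v : α → F), f (c • x) v = c * f x v) (κ : F) (v : α → F) : Matrix α α F :=
  LinearMap.toMatrix' ({ toFun := fun x => x + (κ * f x v) • v
                         map_add' := fun x y => by rw [hf, mul_add, add_smul]; abel
                         map_smul' := fun c x => by
                           rw [hf', RingHom.id_apply, smul_add, smul_smul, mul_left_comm] } :
    (α → F) →ₗ[F] (α → F))

lemma exists_pref {σ : F →+* F} {f : (α → F) → (α → F) → F} (S : Sesq σ f)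
    (hsep : ∀ x, (∀ y, f x y = 0) → x = 0) (hherm : ∀ x y, f x y = σ (f y x)) {κ : F} {v : α → F}
    (hκ : κ + σ κ + κ * σ κ * f v v = 0) :
    ∃ R : GL α F, (∀ p q, f ((R : Matrix α α F) *ᵥ p) ((R : Matrix α α F) *ᵥ q) = f p q) ∧
      ∀ x, (R : Matrix α α F) *ᵥ x = x + (κ * f x v) • v := by
  set M := prefMat f S.add_left S.smul_left κ v with hM
  have hMx : ∀ x, M *ᵥ x = x + (κ * f x v) • v := fun x => by
    simp [hM, prefMat, LinearMap.toMatrix'_mulVec]
  have hiso : ∀ p q, f (M *ᵥ p) (M *ᵥ q) = f p q := fun p q => by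
    rw [hMx, hMx, S.add_left, S.add_right, S.add_right, S.smul_left, S.smul_right, S.smul_left,
      S.smul_right, map_mul, ← hherm v q]
    linear_combination f p v * f v q * hκ
  exact ⟨Matrix.GeneralLinearGroup.mkOfDetNeZero M
    (exists_mul_eq_one f S.zero_left hsep M hiso), hiso, hMx⟩

/-- Two rank-one isometries whose commutator is not scalar. -/
lemma exists_commutator_nonscalar {σ : F →+* F} {f : (α → F) → (α → F) → F} (S : Sesq σ f)
    (hsep : ∀ x, (∀ y, f x y = 0) → x = 0) (hherm : ∀ x y, f x y = σ (f y x)) {κv κw : F}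
    {v w z : α → F} (hv : κv + σ κv + κv * σ κv * f v v = 0)
    (hw : κw + σ κw + κw * σ κw * f w w = 0) (hκv : κv ≠ 0) (hκw : κw ≠ 0)
    (hvv : f v v ≠ 0) (hvw : f v w ≠ 0) (hli : LinearIndependent F ![v, w]) (hz : z ≠ 0)
    (hzv : f z v = 0) (hzw : f z w = 0) :
    ∃ R₁ R₂ : GL α F, (∀ p q, f ((R₁ : Matrix α α F) *ᵥ p) ((R₁ : Matrix α α F) *ᵥ q) = f p q) ∧
      (∀ p q, f ((R₂ : Matrix α α F) *ᵥ p) ((R₂ : Matrix α α F) *ᵥ q) = f p q) ∧
      ∀ s : F, ((R₁ * R₂ * R₁⁻¹ * R₂⁻¹ : GL α F) : Matrix α α F) ≠ s • 1 := by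
  obtain ⟨R₁, h₁, e₁⟩ := exists_pref S hsep hherm hv
  obtain ⟨R₂, h₂, e₂⟩ := exists_pref S hsep hherm hw
  refine ⟨R₁, R₂, h₁, h₂, fun s hs => ?_⟩
  have hfix₁ : (R₁ : Matrix α α F) *ᵥ z = z := by rw [e₁, hzv, mul_zero, zero_smul, add_zero]
  have hfix₂ : (R₂ : Matrix α α F) *ᵥ z = z := by rw [e₂, hzw, mul_zero, zero_smul, add_zero]
  have hinv : ∀ R : GL α F, (R : Matrix α α F) *ᵥ z = z → ((R⁻¹ : GL α F) : Matrix α α F) *ᵥ z = z :=
    fun R h => by
      conv_lhs => rw [← h]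
      rw [mulVec_mulVec, ← Units.val_mul, inv_mul_cancel, Units.val_one, one_mulVec]
  have hs1 : s = 1 := by
    have e := congrArg (fun M : Matrix α α F => M *ᵥ z) hs
    simp only [Units.val_mul, ← mulVec_mulVec, hinv _ hfix₁, hinv _ hfix₂, hfix₁, hfix₂,
      Matrix.smul_mulVec, one_mulVec] at e
    obtain ⟨i, hi⟩ := Function.ne_iff.1 hz
    have := congrFun e i
    simp only [Pi.smul_apply, smul_eq_mul] at this
    exact (mul_right_cancel₀ hi (by rw [one_mul]; exact this)).symm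
  have hcomm : R₁ * R₂ = R₂ * R₁ := by
    have h1 : R₁ * R₂ * R₁⁻¹ * R₂⁻¹ = 1 := Units.ext (by rw [hs, hs1, one_smul, Units.val_one])
    rwa [mul_inv_eq_one, mul_inv_eq_iff_eq_mul] at h1
  have e := congrArg (fun R : GL α F => (R : Matrix α α F) *ᵥ v) hcomm
  simp only [Units.val_mul, ← mulVec_mulVec] at e
  set a := κw * f v w
  have ha : a ≠ 0 := mul_ne_zero hκw hvw
  have e3 : (R₁ : Matrix α α F) *ᵥ v = (1 + κv * f v v) • v := by rw [e₁, add_smul, one_smul]
  rw [e₂ v, mulVec_add, mulVec_smul, e3, mulVec_smul, e₂ v, e₁ w] at e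
  have h2 := (LinearIndependent.pair_iff.1 hli (a * (κv * f w v)) (a - (1 + κv * f v v) * a) (by
    rw [← sub_eq_zero] at e
    rw [← e]
    module)).2
  exact mul_ne_zero hκv hvv ((mul_eq_zero.1 (show a * (κv * f v v) = 0 by
    linear_combination -h2)).resolve_left ha)

end Cfsg.Agent.Lib.Forms
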