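import Cfsg.Agent.Lib.Forms.MonomialMax

/-!
Maximality of the stabiliser of a decomposition into coordinate blocks in `SL`.
-/

set_option autoImplicit false

namespace Cfsg.Agent.Lib.Forms

open Matrix Cfsg.Geo

variable {ι : Type} [Fintype ι] [DecidableEq ι] {F : Type*} [Field F] {t m : ℕ}

/-- The subspaces `D` are the coordinate blocks of `e`. -/
structure Blocks (e : ι ≃ Fin t × Fin m) (D : Fin t → Submodule F (ι → F)) : Prop where
  mem_iff : ∀ i (x : ι → F), x ∈ D i ↔ ∀ l, (e l).1 ≠ i → x l = 0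
  rank : ∀ i, Module.finrank F (D i) = m

variable {e : ι ≃ Fin t × Fin m} {D : Fin t → Submodule F (ι → F)}

lemma Blocks.mem_stab (h : Blocks e D) {g : GL ι F} (π : Equiv.Perm (Fin t))
    (hg : ∀ i, ∀ x ∈ D i, (g : Matrix ι ι F) *ᵥ x ∈ D (π i)) : g ∈ decompositionStabilizer D :=
  ⟨π, fun i => Submodule.eq_of_le_of_finrank_eq (map_le_of_mulVec_mem (hg i))
    (by rw [finrank_map_gl, h.rank, h.rank])⟩

lemma Blocks.tv_mem (h : Blocks e D) {a φ : ι → F} (hφ : φ ⬝ᵥ a = 0) (i : Fin t)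
    (ha : ∀ l, (e l).1 ≠ i → a l = 0) (hf : ∀ l, (e l).1 ≠ i → φ l = 0) :
    tv a φ ∈ decompositionStabilizer D ⊓ specialLinear ι F := by
  refine ⟨h.mem_stab 1 fun k x hx => ?_, tv_mem_specialLinear a φ⟩
  rw [tv_mulVec hφ, Equiv.Perm.one_apply]
  rcases eq_or_ne k i with rfl | hk
  · exact (D k).add_mem hx ((D k).smul_mem _ ((h.mem_iff k a).2 ha))
  · have : φ ⬝ᵥ x = 0 := Finset.sum_eq_zero fun l _ => by
      by_cases hl : (e l).1 = i
      · rw [(h.mem_iff k x).1 hx l (by rw [hl]; exact hk.symm), mul_zero]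
      · rw [hf l hl, zero_mul]
    simpa [this] using hx

lemma Blocks.single_tv_mem (h : Blocks e D) {a b : ι} (hab : a ≠ b) (hblk : (e a).1 = (e b).1)
    (c : F) : tv (Pi.single a 1) (c • Pi.single b 1) ∈
      decompositionStabilizer D ⊓ specialLinear ι F := by
  refine h.tv_mem (by simp [hab.symm]) (e a).1 (fun l hl => ?_) (fun l hl => ?_)
  · exact Pi.single_eq_of_ne (fun e' => hl (by rw [e'])) _
  · simp [Pi.single_eq_of_ne (show l ≠ b from fun e' => hl (by rw [e', hblk]))]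

lemma Blocks.mono_mem (h : Blocks e D) (σ : Equiv.Perm ι) (π : Equiv.Perm (Fin t))
    (hσ : ∀ l, (e (σ l)).1 = π (e l).1) (d : ι → Fˣ) (hd : (mono σ d : Matrix ι ι F).det = 1) :
    mono σ d ∈ decompositionStabilizer D ⊓ specialLinear ι F := by
  refine ⟨h.mem_stab π fun i x hx => (h.mem_iff _ _).2 fun l hl => ?_, (mem_specialLinear _).2 hd⟩
  refine Finset.sum_eq_zero fun k _ => ?_
  show (mono σ d : Matrix ι ι F) l k * x k = 0
  rw [mono_apply]
  split_ifs with hk
  · rw [(h.mem_iff i x).1 hx k fun e' => hl (by rw [hk, hσ, e']), mul_zero]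
  · rw [zero_mul]

lemma Blocks.exists_mixed (h : Blocks e D) {g : GL ι F} (hg : g ∉ decompositionStabilizer D) :
    ∃ i, ∃ a ∈ D i, ∀ j, (g : Matrix ι ι F) *ᵥ a ∉ D j := by
  classical
  by_contra hcon
  push Not at hcon
  have hdisj : ∀ i j (x : ι → F), x ∈ D i → x ∈ D j → i ≠ j → x = 0 := by
    intro i j x hi hj hij
    ext l
    by_cases hl : (e l).1 = i
    · exact (h.mem_iff j x).1 hj l (by rw [hl]; exact hij)
    · exact (h.mem_iff i x).1 hi l hl
  have hone : ∀ i, ∃ j, ∀ a ∈ D i, (g : Matrix ι ι F) *ᵥ a ∈ D j := by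
    intro i
    by_contra hc
    push Not at hc
    obtain ⟨j₀, -⟩ := hcon i 0 (D i).zero_mem
    obtain ⟨a, ha, haj⟩ := hc j₀
    obtain ⟨j, hj⟩ := hcon i a ha
    obtain ⟨a', ha', haj'⟩ := hc j
    obtain ⟨j', hj'⟩ := hcon i a' ha'
    obtain ⟨k, hk⟩ := hcon i (a + a') ((D i).add_mem ha ha')
    rw [mulVec_add] at hk
    have hjj : j ≠ j' := fun e' => haj' (e' ▸ hj')
    rcases eq_or_ne k j with rfl | hkj
    · have := (D k).sub_mem hk hj
      rw [add_sub_cancel_left] at this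
      exact haj' this
    · have hz : (g : Matrix ι ι F) *ᵥ a ≠ 0 := fun h0 => haj (by rw [h0]; exact (D j₀).zero_mem)
      rcases eq_or_ne k j' with rfl | hkj'
      · have := (D k).sub_mem hk hj'
        rw [add_sub_cancel_right] at this
        exact hz (hdisj _ _ _ this hj hkj)
      · obtain ⟨l, hl⟩ := Function.ne_iff.1 hz
        have hlj : (e l).1 = j := by
          by_contra hne
          exact hl ((h.mem_iff j _).1 hj l hne)
        have h1 := (h.mem_iff k _).1 hk l (by rw [hlj]; exact hkj.symm)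
        rw [Pi.add_apply, (h.mem_iff j' _).1 hj' l (by rw [hlj]; exact hjj), add_zero] at h1
        exact hl h1
  choose f hf using hone
  have heq : ∀ i, (D i).map (Matrix.toLin' (g : Matrix ι ι F)) = D (f i) := fun i =>
    Submodule.eq_of_le_of_finrank_eq (map_le_of_mulVec_mem (hf i))
      (by rw [finrank_map_gl, h.rank, h.rank])
  have hinj : Function.Injective f := by
    intro i j hij
    by_contra hne
    have he : D i = D j := Submodule.map_injective_of_injective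
      (f := Matrix.toLin' (g : Matrix ι ι F))
      (fun x y hxy => gl_mulVec_injective g (by simpa using hxy)) (by rw [heq, heq, hij])
    have hb : D i = ⊥ := (Submodule.eq_bot_iff _).2 fun x hx => hdisj i j x hx (he ▸ hx) hne
    have hr := h.rank i
    rw [hb, finrank_bot] at hr
    obtain ⟨a, ha, haj⟩ : ∃ a ∈ D i, False := by
      refine absurd (show g ∈ decompositionStabilizer D from h.mem_stab 1 fun k x hx => ?_) hg
      have hk := h.rank k
      rw [← hr, Submodule.finrank_eq_zero] at hk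
      rw [hk, Submodule.mem_bot] at hx
      simp [hx]
    exact haj
  exact hg ⟨Equiv.ofBijective f (Finite.injective_iff_bijective.1 hinj), heq⟩

/-- The map `x ↦ x + u (χ ⬝ x) c`. -/
def reflMat (c χ : ι → F) (u : F) : Matrix ι ι F := 1 + u • vecMulVec c χ

lemma reflMat_mul (c χ : ι → F) (hc : χ ⬝ᵥ c = 1) (u v : F) :
    reflMat c χ u * reflMat c χ v = reflMat c χ (u + v + u * v) := by
  simp only [reflMat, add_mul, mul_add, one_mul, mul_one, Matrix.smul_mul, Matrix.mul_smul,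
    vecMulVec_mul_vecMulVec, hc, one_smul, smul_smul, add_smul]
  module

/-- The pseudo-reflection with centre `c`, functional `χ` and determinant `s`. -/
def refl (c χ : ι → F) (hc : χ ⬝ᵥ c = 1) (s : Fˣ) : GL ι F where
  val := reflMat c χ ((s : F) - 1)
  inv := reflMat c χ ((s : F)⁻¹ - 1)
  val_inv := by
    rw [reflMat_mul c χ hc, show (s : F) - 1 + ((s : F)⁻¹ - 1) + ((s : F) - 1) * ((s : F)⁻¹ - 1) = 0
      by have := s.ne_zero; field_simp; ring]
    simp [reflMat]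
  inv_val := by
    rw [reflMat_mul c χ hc, show (s : F)⁻¹ - 1 + ((s : F) - 1) + ((s : F)⁻¹ - 1) * ((s : F) - 1) = 0
      by have := s.ne_zero; field_simp; ring]
    simp [reflMat]

lemma refl_det (c χ : ι → F) (hc : χ ⬝ᵥ c = 1) (s : Fˣ) :
    (refl c χ hc s : Matrix ι ι F).det = s := by
  show (reflMat c χ _).det = _
  rw [reflMat, ← smul_vecMulVec, vecMulVec_eq Unit, det_one_add_replicateCol_mul_replicateRow]
  simp [hc]

lemma refl_mulVec (c χ : ι → F) (hc : χ ⬝ᵥ c = 1) (s : Fˣ) (x : ι → F) :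
    (refl c χ hc s : Matrix ι ι F) *ᵥ x = x + (((s : F) - 1) * (χ ⬝ᵥ x)) • c := by
  show reflMat c χ _ *ᵥ x = _
  rw [reflMat, add_mulVec, one_mulVec, smul_mulVec, vecMulVec_mulVec, op_smul_eq_smul, smul_smul]

lemma vecMul_refl_inv (c χ : ι → F) (hc : χ ⬝ᵥ c = 1) (s : Fˣ) (φ : ι → F) :
    φ ᵥ* (((refl c χ hc s)⁻¹ : GL ι F) : Matrix ι ι F) =
      φ + (((s : F)⁻¹ - 1) * (φ ⬝ᵥ c)) • χ := by
  show φ ᵥ* reflMat c χ _ = _
  rw [reflMat, vecMul_add, vecMul_one, vecMul_smul, vecMul_vecMulVec, smul_smul]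

/-- Support in the block `i`. -/
def InBlk (e : ι ≃ Fin t × Fin m) (i : Fin t) (x : ι → F) : Prop := ∀ l, (e l).1 ≠ i → x l = 0

lemma InBlk.dot_eq_zero {i j : Fin t} {x y : ι → F} (hx : InBlk e i x) (hy : InBlk e j y)
    (hij : i ≠ j) : x ⬝ᵥ y = 0 :=
  Finset.sum_eq_zero fun l _ => by
    by_cases hl : (e l).1 = i
    · rw [hy l (by rw [hl]; exact hij), mul_zero]
    · rw [hx l hl, zero_mul]

lemma inBlk_single (l : ι) (c : F) : InBlk e (e l).1 (Pi.single l c) :=
  fun _ hk => Pi.single_eq_of_ne (fun e' => hk (by rw [e'])) _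

lemma exists_other_in_block (hm : 2 ≤ m) (l : ι) : ∃ l', l' ≠ l ∧ (e l').1 = (e l).1 := by
  haveI : Nontrivial (Fin m) := Fin.nontrivial_iff_two_le.2 hm
  obtain ⟨k, hk⟩ := exists_ne (e l).2
  exact ⟨e.symm ((e l).1, k), fun e' => hk (by rw [← e', e.apply_symm_apply]), by simp⟩

/-- A transvection whose centre is in a block and whose functional is outside that block. -/
def HasCross (e : ι ≃ Fin t × Fin m) (G : Subgroup (GL ι F)) : Prop :=
  ∃ i, ∃ c φ : ι → F, InBlk e i c ∧ c ≠ 0 ∧ (∀ l, (e l).1 = i → φ l = 0) ∧ φ ≠ 0 ∧ tv c φ ∈ G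

theorem Blocks.cross_of_kernel (h : Blocks e D) {G : Subgroup (GL ι F)}
    (hG : decompositionStabilizer D ⊓ specialLinear ι F ≤ G) {b ψ : ι → F} (hψb : ψ ⬝ᵥ b = 0)
    (hP : tv b ψ ∈ G) {i : Fin t} {c : ι → F} (hc : InBlk e i c) (hψc : ψ ⬝ᵥ c = 0)
    (hind : ∀ s : F, ∃ l, (e l).1 = i ∧ c l ≠ s * b l) (hb : ∃ l, (e l).1 = i ∧ b l ≠ 0)
    (hoff : ∃ l, (e l).1 ≠ i ∧ ψ l ≠ 0) : HasCross e G := by
  classical
  let bi : ι → F := fun l => if (e l).1 = i then b l else 0
  have hc0 : c ≠ 0 := fun h0 => by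
    obtain ⟨l, -, hl⟩ := hind 0
    simp [h0] at hl
  have hbi : bi ∉ Submodule.span F {c} := by
    rw [Submodule.mem_span_singleton]
    rintro ⟨a, ha⟩
    obtain ⟨l₀, hl₀, hbl⟩ := hb
    have ha0 : a ≠ 0 := fun h0 => hbl (by
      have := congrFun ha l₀; simp [bi, hl₀, h0] at this; exact this.symm)
    obtain ⟨l, hl, hcl⟩ := hind a⁻¹
    refine hcl ?_
    have := congrFun ha l
    simp [bi, hl] at this
    rw [← this]; field_simp
  obtain ⟨φ, hφb, hφc⟩ := exists_dot_eq_one hbi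
  let φi : ι → F := fun l => if (e l).1 = i then φ l else 0
  have hφi : InBlk e i φi := fun l hl => if_neg hl
  have h1 : φi ⬝ᵥ b = 1 := by
    rw [← hφb]
    exact Finset.sum_congr rfl fun l _ => by simp only [φi, bi]; split_ifs <;> simp
  have h2 : φi ⬝ᵥ c = 0 := by
    rw [← hφc c (Submodule.mem_span_singleton_self c)]
    exact Finset.sum_congr rfl fun l _ => by
      simp only [φi]; split_ifs with hl
      · rfl
      · simp [hc l hl]
  have h3 := G.mul_mem (G.mul_mem (G.mul_mem hP (hG (h.tv_mem h2 i hc hφi))) (G.inv_mem hP))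
    (G.inv_mem (hG (h.tv_mem h2 i hc hφi)))
  rw [tv_commutator hψb h2 hψc, h1] at h3
  -- drop the part of the functional inside the block
  let ψo : ι → F := fun l => if (e l).1 = i then 0 else ψ l
  let ψi : ι → F := fun l => if (e l).1 = i then ψ l else 0
  have hsplit : ψ = ψo + ψi := funext fun l => by simp [ψo, ψi]; split_ifs <;> simp
  have hψo : ψo ⬝ᵥ c = 0 := Finset.sum_eq_zero fun l _ => by
    by_cases hl : (e l).1 = i
    · simp [ψo, hl]
    · simp [hc l hl]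
  have hψi : ψi ⬝ᵥ c = 0 := by
    rw [hsplit, add_dotProduct, hψo, zero_add] at hψc; exact hψc
  have h4 := G.mul_mem h3 (hG (h.tv_mem hψi i hc (fun l hl => by simp [ψi, hl])))
  rw [tv_add (by simp [hψc]) hψi] at h4
  refine ⟨i, c, _, hc, hc0, fun l hl => ?_, fun h0 => ?_, h4⟩
  · simp only [Pi.add_apply, Pi.smul_apply, ψi, if_pos hl, smul_eq_mul]
    ring
  · obtain ⟨l, hl, hψl⟩ := hoff
    have := congrFun h0 l
    simp [ψi, hl] at this
    exact hψl this

theorem Blocks.hasCross (h : Blocks e D) [Fintype F] (hm : 2 ≤ m)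
    (hq : m = 2 → 3 ≤ Fintype.card F ∧ 3 ≤ t) {G : Subgroup (GL ι F)}
    (hG : decompositionStabilizer D ⊓ specialLinear ι F ≤ G) {g : GL ι F} (hg : g ∈ G)
    (hgn : g ∉ decompositionStabilizer D) : HasCross e G := by
  classical
  obtain ⟨i₀, a, ha, hmix⟩ := h.exists_mixed hgn
  have ha' : InBlk e i₀ a := (h.mem_iff _ _).1 ha
  have ha0 : a ≠ 0 := fun h0 => hmix i₀ (by simp [h0])
  obtain ⟨l₀, hl₀⟩ := Function.ne_iff.1 ha0
  simp only [Pi.zero_apply] at hl₀
  have hl₀i : (e l₀).1 = i₀ := by by_contra hne; exact hl₀ (ha' l₀ hne)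
  obtain ⟨l₁, hl₁, hl₁i⟩ := exists_other_in_block (e := e) hm l₀
  obtain ⟨φ, hφ, hφ0, hφa⟩ : ∃ φ : ι → F, InBlk e i₀ φ ∧ φ ≠ 0 ∧ φ ⬝ᵥ a = 0 := by
    refine ⟨a l₀ • Pi.single l₁ 1 - a l₁ • Pi.single l₀ 1, fun l hl => ?_, fun h0 => ?_, ?_⟩
    · have h1 : l ≠ l₀ := fun e' => hl (by rw [e', hl₀i])
      have h2 : l ≠ l₁ := fun e' => hl (by rw [e', hl₁i, hl₀i])
      simp [h1, h2]
    · have := congrFun h0 l₁
      simp [hl₁, hl₀] at this
    · simp [sub_dotProduct]; ring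
  have hP := G.mul_mem (G.mul_mem hg (hG (h.tv_mem hφa i₀ ha' hφ))) (G.inv_mem hg)
  rw [tv_conj g hφa] at hP
  set b := (g : Matrix ι ι F) *ᵥ a with hbdef
  set ψ := φ ᵥ* ((g⁻¹ : GL ι F) : Matrix ι ι F) with hψdef
  have hψb : ψ ⬝ᵥ b = 0 := by rw [hψdef, hbdef, vecMul_inv_dot, hφa]
  have hψ0 : ψ ≠ 0 := fun h0 => hφ0 (by
    have := congrArg (· ᵥ* (g : Matrix ι ι F)) h0
    simpa [hψdef, vecMul_vecMul, ← Units.val_mul] using this)
  obtain ⟨p, hp⟩ := Function.ne_iff.1 hψ0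
  simp only [Pi.zero_apply] at hp
  -- a block meeting the centre, with the functional not inside it
  have hne : ∀ i, ∃ l, (e l).1 ≠ i ∧ b l ≠ 0 := fun i => by
    by_contra hcon
    push Not at hcon
    exact hmix i ((h.mem_iff _ _).2 hcon)
  obtain ⟨k₀, hk₀, hbk₀⟩ := hne (e p).1
  set i := (e k₀).1 with hi
  obtain ⟨k₁, hk₁, hk₁i⟩ := exists_other_in_block (e := e) hm k₀
  have hb : ∃ l, (e l).1 = i ∧ b l ≠ 0 := ⟨k₀, rfl, hbk₀⟩
  have hoff : ∃ l, (e l).1 ≠ i ∧ ψ l ≠ 0 := ⟨p, fun e' => hk₀ (by rw [e']), hp⟩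
  by_cases hψ1 : ψ k₁ = 0
  · refine h.cross_of_kernel hG hψb hP (c := Pi.single k₁ 1)
      (by rw [hi, ← hk₁i]; exact inBlk_single k₁ 1) (by simp [hψ1]) (fun s => ?_) hb hoff
    rcases eq_or_ne s 0 with rfl | hs
    · exact ⟨k₁, hk₁i, by simp⟩
    · exact ⟨k₀, rfl, by simp [Ne.symm hk₁, hs, hbk₀]⟩
  let bi : ι → F := fun l => if (e l).1 = i then b l else 0
  let ψi : ι → F := fun l => if (e l).1 = i then ψ l else 0
  by_cases hψbi : ψ ⬝ᵥ bi = 0
  swap
  · refine h.cross_of_kernel hG hψb hP (c := ψ k₁ • Pi.single k₀ 1 - ψ k₀ • Pi.single k₁ 1)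
      (fun l hl => ?_) (by simp [dotProduct_sub]; ring) (fun s => ?_) hb hoff
    · have h1 : l ≠ k₀ := fun e' => hl (by rw [e'])
      have h2 : l ≠ k₁ := fun e' => hl (by rw [e', hk₁i])
      simp [h1, h2]
    · by_contra hcon
      push Not at hcon
      have hc : (ψ k₁ • Pi.single k₀ 1 - ψ k₀ • Pi.single k₁ 1 : ι → F) = s • bi := by
        ext l
        by_cases hl : (e l).1 = i
        · rw [hcon l hl]; simp [bi, hl]
        · have h1 : l ≠ k₀ := fun e' => hl (by rw [e'])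
          have h2 : l ≠ k₁ := fun e' => hl (by rw [e', hk₁i])
          simp [h1, h2, bi, hl]
      have hd := congrArg (ψ ⬝ᵥ ·) hc
      simp [dotProduct_sub] at hd
      rw [mul_comm (ψ k₁), sub_self, eq_comm, mul_eq_zero] at hd
      have hs : s = 0 := by
        rcases hd with hd | hd
        · exact hd
        · exact absurd hd hψbi
      have := congrFun hc k₀
      simp [hs, Ne.symm hk₁, hψ1] at this
  by_cases hm2 : m = 2
  swap
  · -- three coordinates in the block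
    obtain ⟨k₂, hk₂0, hk₂1, hk₂i⟩ : ∃ k₂, k₂ ≠ k₀ ∧ k₂ ≠ k₁ ∧ (e k₂).1 = i := by
      obtain ⟨r, hr⟩ : ∃ r : Fin m, r ∉ ({(e k₀).2, (e k₁).2} : Finset (Fin m)) := by
        by_contra hcon
        push Not at hcon
        have := Finset.card_le_card
          (show (Finset.univ : Finset (Fin m)) ⊆ {(e k₀).2, (e k₁).2} from fun r _ => hcon r)
        rw [Finset.card_univ, Fintype.card_fin] at this
        have := Finset.card_le_two (a := (e k₀).2) (b := (e k₁).2)
        omega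
      simp only [Finset.mem_insert, Finset.mem_singleton, not_or] at hr
      exact ⟨e.symm (i, r), fun e' => hr.1 (by rw [← e', e.apply_symm_apply]),
        fun e' => hr.2 (by rw [← e', e.apply_symm_apply]), by simp⟩
    refine h.cross_of_kernel hG hψb hP (c := ψ k₂ • Pi.single k₁ 1 - ψ k₁ • Pi.single k₂ 1)
      (fun l hl => ?_) (by simp [dotProduct_sub]; ring) (fun s => ?_) hb hoff
    · have h1 : l ≠ k₁ := fun e' => hl (by rw [e', hk₁i])
      have h2 : l ≠ k₂ := fun e' => hl (by rw [e', hk₂i])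
      simp [h1, h2]
    · rcases eq_or_ne s 0 with rfl | hs
      · exact ⟨k₂, hk₂i, by simp [hk₂1, hψ1]⟩
      · exact ⟨k₀, rfl, by simp [Ne.symm hk₁, Ne.symm hk₂0, hs, hbk₀]⟩
  -- two-dimensional blocks: move the functional by a torus
  obtain ⟨hq3, ht3⟩ := hq hm2
  obtain ⟨s, hs0, hs1⟩ : ∃ s : F, s ≠ 0 ∧ s ≠ 1 := by
    by_contra hcon
    push Not at hcon
    have := Finset.card_le_card (show (Finset.univ : Finset F) ⊆ {0, 1} from fun x _ => by
      by_cases hx : x = 0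
      · simp [hx]
      · simp [hcon x hx])
    rw [Finset.card_univ] at this
    have := Finset.card_le_two (a := (0 : F)) (b := 1)
    omega
  obtain ⟨k', hk', hbk'⟩ := hne i
  obtain ⟨j, hji, hjk'⟩ : ∃ j : Fin t, j ≠ i ∧ j ≠ (e k').1 := by
    by_contra hcon
    push Not at hcon
    have := Finset.card_le_card (show (Finset.univ : Finset (Fin t)) ⊆ {i, (e k').1} from fun x _ => by
      by_cases hx : x = i
      · simp [hx]
      · simp [hcon x hx])
    rw [Finset.card_univ, Fintype.card_fin] at this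
    have := Finset.card_le_two (a := i) (b := (e k').1)
    omega
  obtain ⟨cj, χ, hcj, hχ, hχc, hχb⟩ : ∃ cj χ : ι → F, InBlk e j cj ∧ InBlk e j χ ∧ χ ⬝ᵥ cj = 1 ∧
      χ ⬝ᵥ b = 0 := by
    haveI : Nontrivial (Fin m) := Fin.nontrivial_iff_two_le.2 hm
    obtain ⟨u, v, huv⟩ := exists_pair_ne (Fin m)
    set p₀ := e.symm (j, u)
    set p₁ := e.symm (j, v)
    have h01 : p₀ ≠ p₁ := fun e' => huv (by simpa [p₀, p₁] using e')
    have i0 : InBlk e j (Pi.single p₀ (1 : F)) := by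
      convert inBlk_single (e := e) p₀ (1 : F); simp [p₀]
    have i1 : InBlk e j (Pi.single p₁ (1 : F)) := by
      convert inBlk_single (e := e) p₁ (1 : F); simp [p₁]
    by_cases hb0 : b p₀ = 0
    · exact ⟨Pi.single p₀ 1, Pi.single p₀ 1, i0, i0, by simp, by simp [hb0]⟩
    · refine ⟨(b p₀)⁻¹ • Pi.single p₁ 1, b p₀ • Pi.single p₁ 1 - b p₁ • Pi.single p₀ 1,
        fun l hl => by simp [i1 l hl], fun l hl => by simp [i1 l hl, i0 l hl], ?_, ?_⟩
      · simp [sub_dotProduct, h01, h01.symm, hb0]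
      · simp [sub_dotProduct]; ring
  let ci : ι → F := (ψ k₁)⁻¹ • Pi.single k₁ 1
  have hci : InBlk e i ci := fun l hl => by
    simp [ci, Pi.single_eq_of_ne (show l ≠ k₁ from fun e' => hl (by rw [e', hk₁i]))]
  have hψii : InBlk e i ψi := fun l hl => if_neg hl
  have hψic : ψi ⬝ᵥ ci = 1 := by simp [ci, ψi, hk₁i, hψ1, hi]
  have hψib : ψi ⬝ᵥ b = 0 := by
    rw [← hψbi]
    exact Finset.sum_congr rfl fun l _ => by simp only [ψi, bi]; split_ifs <;> simp
  set R := refl ci ψi hψic (Units.mk0 s hs0) * refl cj χ hχc (Units.mk0 s hs0)⁻¹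
  have hR : R ∈ decompositionStabilizer D ⊓ specialLinear ι F := by
    refine ⟨?_, (mem_specialLinear _).2 ?_⟩
    · refine mul_mem (h.mem_stab 1 fun k x hx => ?_) (h.mem_stab 1 fun k x hx => ?_)
      all_goals
        rw [refl_mulVec, Equiv.Perm.one_apply]
      · rcases eq_or_ne k i with e' | hk
        · subst e'
          exact (D _).add_mem hx ((D _).smul_mem _ ((h.mem_iff _ _).2 hci))
        · simpa [hψii.dot_eq_zero ((h.mem_iff _ _).1 hx) hk.symm] using hx
      · rcases eq_or_ne k j with rfl | hk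
        · exact (D _).add_mem hx ((D _).smul_mem _ ((h.mem_iff _ _).2 hcj))
        · simpa [hχ.dot_eq_zero ((h.mem_iff _ _).1 hx) hk.symm] using hx
    · rw [Units.val_mul, det_mul, refl_det, refl_det]; simp [hs0]
  have hRb : (R : Matrix ι ι F) *ᵥ b = b := by
    have e1 : (refl cj χ hχc (Units.mk0 s hs0)⁻¹ : Matrix ι ι F) *ᵥ b = b := by
      rw [refl_mulVec, hχb]; simp
    rw [mul_mulVec', e1, refl_mulVec, hψib]; simp
  set ψ' := ψ ᵥ* ((R⁻¹ : GL ι F) : Matrix ι ι F) with hψ'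
  have h3 := G.mul_mem (G.mul_mem (hG hR) hP) (G.inv_mem (hG hR))
  rw [tv_conj R hψb, hRb] at h3
  have hψ'b : ψ' ⬝ᵥ b = 0 := by rw [← hRb, hψ', vecMul_inv_dot, hψb]
  have hψc : ψ ⬝ᵥ ci = 1 := by simp [ci, hψ1]
  have hψ'' : ψ' - ψ = (s⁻¹ - 1) • ψi + ((s - 1) * (ψ ⬝ᵥ cj)) • χ := by
    rw [hψ', _root_.mul_inv_rev, Units.val_mul, ← vecMul_vecMul, vecMul_refl_inv, vecMul_refl_inv,
      add_dotProduct, smul_dotProduct, hχ.dot_eq_zero hci hji, hψc]
    simp
    abel
  have h4 := G.mul_mem h3 (G.inv_mem hP)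
  rw [tv_inv hψb, tv_add hψ'b (by simp [hψb]), ← sub_eq_add_neg, hψ''] at h4
  have h5 : ((s⁻¹ - 1) • ψi + ((s - 1) * (ψ ⬝ᵥ cj)) • χ) ⬝ᵥ b = 0 := by simp [hψib, hχb]
  obtain ⟨k'', hk'', hk''i⟩ := exists_other_in_block (e := e) hm k'
  refine h.cross_of_kernel hG h5 h4 (i := (e k').1) (c := Pi.single k'' 1)
    (by rw [← hk''i]; exact inBlk_single k'' 1) ?_ (fun u => ?_) ⟨k', rfl, hbk'⟩ ⟨k₁, ?_, ?_⟩
  · have e1 : ψi k'' = 0 := hψii _ (by rw [hk''i]; exact hk')
    have e2 : χ k'' = 0 := hχ _ (by rw [hk''i]; exact hjk'.symm)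
    simp [e1, e2]
  · rcases eq_or_ne u 0 with rfl | hu
    · exact ⟨k'', hk''i, by simp⟩
    · exact ⟨k', rfl, by simp [Ne.symm hk'', hu, hbk']⟩
  · rw [hk₁i]; exact hk'.symm
  · have e1 : χ k₁ = 0 := hχ _ (by rw [hk₁i]; exact hji.symm)
    simp [e1, ψi, hk₁i, hψ1, sub_eq_zero, hs1, hi]

theorem Blocks.specialLinear_le_of_cross (h : Blocks e D) (hm : 2 ≤ m)
    {G : Subgroup (GL ι F)} (hG : decompositionStabilizer D ⊓ specialLinear ι F ≤ G)
    (hcr : HasCross e G) : specialLinear ι F ≤ G := by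
  classical
  obtain ⟨i, c, φ, hc, hc0, hφ, hφ0, hmem⟩ := hcr
  obtain ⟨la, hla⟩ := Function.ne_iff.1 hc0
  obtain ⟨lb, hlb⟩ := Function.ne_iff.1 hφ0
  simp only [Pi.zero_apply] at hla hlb
  have hlai : (e la).1 = i := by by_contra hne; exact hla (hc la hne)
  have hlbk : (e lb).1 ≠ i := fun he => hlb (hφ lb he)
  have hφc : φ ⬝ᵥ c = 0 := Finset.sum_eq_zero fun l _ => by
    by_cases hl : (e l).1 = i
    · rw [hφ l hl, zero_mul]
    · rw [hc l hl, mul_zero]
  set k := (e lb).1 with hk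
  -- change the functional
  have step1 : ∀ (c φ : ι → F), InBlk e i c → φ ⬝ᵥ c = 0 → tv c φ ∈ G → ∀ u v : ι, (e u).1 = k →
      (e v).1 = k → u ≠ v → φ u ≠ 0 → ∀ x : F, tv c (x • Pi.single v 1) ∈ G := by
    intro c φ hc hφc hmem u v hu hv huv hne x
    have hcv : c v = 0 := hc v (by rw [hv]; exact hlbk)
    have hu' := hG (h.single_tv_mem huv (hu.trans hv.symm) (-x / φ u))
    have := G.mul_mem (G.mul_mem (G.mul_mem hu' hmem) (G.inv_mem hu')) (G.inv_mem hmem)
    rw [tv_commutator (by simp [huv.symm]) hφc (by simp [hcv])] at this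
    convert this using 2
    rw [smul_smul]
    congr 1
    simp
    field_simp
  -- change the centre
  have step2 : ∀ (c φ : ι → F), (∀ l, (e l).1 = i → φ l = 0) → φ ⬝ᵥ c = 0 → tv c φ ∈ G →
      ∀ u v : ι, (e u).1 = i → (e v).1 = i → u ≠ v → c u ≠ 0 → tv (Pi.single v 1) φ ∈ G := by
    intro c φ hφ hφc hmem u v hu hv huv hne
    have hu' := hG (h.single_tv_mem huv.symm (hv.trans hu.symm) (-(c u)⁻¹))
    have := G.mul_mem (G.mul_mem (G.mul_mem hmem hu') (G.inv_mem hmem)) (G.inv_mem hu')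
    rw [tv_commutator hφc (by simp [huv]) (by simp [hφ v hv])] at this
    convert this using 2
    simp [hne]
  obtain ⟨lb', hlb', hlb'k⟩ := exists_other_in_block (e := e) hm lb
  obtain ⟨la', hla', hla'i⟩ := exists_other_in_block (e := e) hm la
  have hA : tv (Pi.single la' 1) ((1 : F) • Pi.single lb' 1) ∈ G := by
    refine step2 c _ (fun l hl => ?_) ?_ (step1 c φ hc hφc hmem lb lb' hk.symm hlb'k hlb'.symm hlb 1)
      la la' hlai (hla'i.trans hlai) hla'.symm hla
    · simp [Pi.single_eq_of_ne (show l ≠ lb' from fun e' => hlbk (by rw [hk, ← hlb'k, ← e', hl]))]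
    · simp [hc lb' (by rw [hlb'k]; exact hlbk)]
  have hdot : ∀ a b : ι, (e a).1 = i → (e b).1 = k → ∀ x : F,
      (x • Pi.single b 1 : ι → F) ⬝ᵥ Pi.single a 1 = 0 := by
    intro a b ha hb x
    have : b ≠ a := fun e' => hlbk (by rw [← hb, e', ha])
    simp [this]
  have hzero : ∀ b : ι, (e b).1 = k → ∀ (x : F) (l : ι), (e l).1 = i →
      (x • Pi.single b (1 : F) : ι → F) l = 0 := by
    intro b hb x l hl
    simp [Pi.single_eq_of_ne (show l ≠ b from fun e' => hlbk (by rw [← hb, ← e', hl]))]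
  -- every centre with the functional `lb'`
  have hall1 : ∀ a, (e a).1 = i → tv (Pi.single a 1) ((1 : F) • Pi.single lb' 1) ∈ G := by
    intro a ha
    rcases eq_or_ne a la' with rfl | hne
    · exact hA
    exact step2 _ _ (hzero lb' hlb'k 1) (hdot la' lb' (hla'i.trans hlai) hlb'k 1) hA la' a
      (hla'i.trans hlai) ha hne.symm (by simp)
  have hall2 : ∀ a b, (e a).1 = i → (e b).1 = k → ∀ x : F,
      tv (Pi.single a 1) (x • Pi.single b 1) ∈ G := by
    intro a b ha hb x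
    have hin : InBlk e i (Pi.single a (1 : F)) := ha ▸ inBlk_single a 1
    have hne1 : ∀ b, (e b).1 = k → b ≠ lb' → ∀ x : F, tv (Pi.single a 1) (x • Pi.single b 1) ∈ G :=
      fun b hb hne x => step1 _ _ hin (hdot a lb' ha hlb'k 1) (hall1 a ha) lb' b hlb'k hb hne.symm
        (by simp) x
    rcases eq_or_ne b lb' with rfl | hne
    · exact step1 _ _ hin (hdot a lb ha rfl 1) (hne1 lb rfl hlb'.symm 1) lb b rfl hb hlb'.symm
        (by simp) x
    · exact hne1 b hb hne x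
  refine specialLinear_le_of_elem G fun a b x hab => ?_
  by_cases hblk : (e a).1 = (e b).1
  · exact hG (h.single_tv_mem hab hblk x)
  obtain ⟨π, hπi, hπk⟩ := exists_perm_two (a := i) (b := k) (Ne.symm hlbk) hblk
  let σ : Equiv.Perm ι := (e.trans (Equiv.prodCongr π (Equiv.refl _))).trans e.symm
  have hσ : ∀ l, (e (σ l)).1 = π (e l).1 := fun l => by simp [σ]
  set a₀ := σ.symm a with ha₀
  set b₀ := σ.symm b with hb₀
  have ha₀i : (e a₀).1 = i := π.injective (by rw [← hσ, ha₀, σ.apply_symm_apply, hπi])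
  have hb₀k : (e b₀).1 = k := π.injective (by rw [← hσ, hb₀, σ.apply_symm_apply, hπk])
  obtain ⟨o, ho, hob⟩ : ∃ o, o ≠ a₀ ∧ o ≠ b₀ := by
    obtain ⟨o, ho, hoi⟩ := exists_other_in_block (e := e) hm a₀
    exact ⟨o, ho, fun e' => hlbk (by rw [← hb₀k, ← e', hoi, ha₀i])⟩
  obtain ⟨d, hd, hdet⟩ := exists_mono_det_one σ (fun _ => (1 : Fˣ)) o
  have hd' := hG (h.mono_mem σ π hσ d hdet)
  have := G.mul_mem (G.mul_mem hd' (hall2 a₀ b₀ ha₀i hb₀k x)) (G.inv_mem hd')
  have hne : a₀ ≠ b₀ := fun e' => hab (by simpa [ha₀, hb₀] using congrArg σ e')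
  rw [mono_conj_tv _ _ (by simp [hne]), show σ a₀ = a from σ.apply_symm_apply a] at this
  convert this using 2
  ext l
  obtain ⟨l', rfl⟩ := σ.surjective l
  rw [Equiv.symm_apply_apply, hd a₀ ho.symm, Units.val_one, one_mul]
  rcases eq_or_ne l' b₀ with rfl | hl
  · rw [hd _ hob.symm]; simp [hb₀]
  · have : σ l' ≠ b := fun e' => hl (by rw [hb₀, ← e', σ.symm_apply_apply])
    simp [hl, this]

theorem Blocks.isMaximal (h : Blocks e D) [Fintype F] (ht : 2 ≤ t) (hm : 0 < m)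
    (hn : 6 ≤ Fintype.card ι) (h1 : ¬ (m = 1 ∧ Fintype.card F ≤ 4))
    (h2 : ¬ (m = 2 ∧ Fintype.card F = 2)) :
    IsMaximalIn (specialLinear ι F) (decompositionStabilizer D ⊓ specialLinear ι F) := by
  classical
  have hcard : Fintype.card ι = t * m := by rw [Fintype.card_congr e]; simp
  refine isMaximalIn_of inf_le_right ?_ fun M hle hM g hg hgn => ?_
  · haveI : Nontrivial (Fin t) := Fin.nontrivial_iff_two_le.2 ht
    obtain ⟨i, k, hik⟩ := exists_pair_ne (Fin t)
    set a := e.symm (i, ⟨0, hm⟩)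
    set b := e.symm (k, ⟨0, hm⟩)
    have hab : a ≠ b := fun e' => hik (by simpa [a, b] using e')
    refine ⟨tv (Pi.single a 1) ((1 : F) • Pi.single b 1), tv_mem_specialLinear _ _, fun hs => ?_⟩
    obtain ⟨π, hπ⟩ := hs.1
    have hmem : Pi.single b (1 : F) ∈ D k := (h.mem_iff _ _).2 fun l hl =>
      Pi.single_eq_of_ne (fun e' => hl (by simp [e', b])) _
    have := Submodule.mem_map_of_mem (f := Matrix.toLin'
      ((tv (Pi.single a 1) ((1 : F) • Pi.single b 1) : GL ι F) : Matrix ι ι F)) hmem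
    rw [hπ, Matrix.toLin'_apply, tv_mulVec (by simp [hab.symm]), h.mem_iff] at this
    by_cases hπk : π k = i
    · have := this b (by simp [b, hπk, hik.symm])
      simp [hab.symm] at this
    · have := this a (by simp [a, Ne.symm hπk])
      simp [hab] at this
  have hgs : g ∉ decompositionStabilizer D := fun hs => hgn ⟨hs, hM hg⟩
  rcases Nat.lt_or_ge m 2 with hm1 | hm2
  · obtain rfl : m = 1 := by omega
    have hq : 5 ≤ Fintype.card F := by
      by_contra hq
      exact h1 ⟨rfl, by omega⟩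
    have hπ : ∀ σ : Equiv.Perm ι, ∃ π : Equiv.Perm (Fin t), ∀ l, (e (σ l)).1 = π (e l).1 := by
      intro σ
      let f : ι ≃ Fin t := e.trans (Equiv.prodUnique (Fin t) (Fin 1))
      refine ⟨(f.symm.trans σ).trans f, fun l => ?_⟩
      show f (σ l) = f (σ (f.symm (f l)))
      simp
    refine specialLinear_le_of_hasMono hq hn M hM (fun σ d hd => ?_) hg fun hmono => ?_
    · obtain ⟨π, hπ⟩ := hπ σ
      exact hle (h.mono_mem σ π hπ d hd)
    · obtain ⟨σ, d, rfl⟩ := hmono.exists_eq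
      obtain ⟨π, hπ⟩ := hπ σ
      exact hgs (h.mono_mem σ π hπ d ((mem_specialLinear _).1 (hM hg))).1
  · refine h.specialLinear_le_of_cross hm2 hle (h.hasCross hm2 (fun e2 => ⟨?_, ?_⟩) hle hg hgs)
    · have := Fintype.one_lt_card (α := F)
      by_contra hq
      exact h2 ⟨e2, by omega⟩
    · subst e2; omega

end Cfsg.Agent.Lib.Forms
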