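import Cfsg.Agent.Lib.Forms.SympWreath
import Cfsg.Agent.Lib.Forms.BlockMax

/-!
The number of non-zero components with respect to a decomposition, and subgroups fixing it.
-/

set_option autoImplicit false

namespace Cfsg.Agent.Lib.Forms

open Matrix Cfsg.Geo

variable {ι : Type} [Fintype ι] [DecidableEq ι] {F : Type*} [Field F] {t : ℕ}

/-- The invertible matrices fixing a function. -/
def fixFun {α : Type*} (f : (ι → F) → α) : Subgroup (GL ι F) where
  carrier := {g | ∀ x, f ((g : Matrix ι ι F) *ᵥ x) = f x}
  one_mem' x := by simp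
  mul_mem' {a b} ha hb x := by rw [mul_mulVec', ha, hb]
  inv_mem' {a} ha x := by
    conv_rhs => rw [← mulVec_inv_mulVec a x, ha]

lemma mem_fixFun {α : Type*} {f : (ι → F) → α} {g : GL ι F} :
    g ∈ fixFun f ↔ ∀ x, f ((g : Matrix ι ι F) *ᵥ x) = f x := Iff.rfl

/-- The sum of the members other than the `i`-th. -/
def complDec (D : Fin t → Submodule F (ι → F)) (i : Fin t) : Submodule F (ι → F) :=
  ⨆ j, ⨆ (_ : j ≠ i), D j

open Classical in
/-- The number of non-zero components. -/
noncomputable def countFun (D : Fin t → Submodule F (ι → F)) (x : ι → F) : F :=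
  ∑ i, if x ∈ complDec D i then 0 else 1

lemma stab_le_fixFun (D : Fin t → Submodule F (ι → F)) :
    decompositionStabilizer D ≤ fixFun (countFun D) := by
  classical
  rintro g ⟨σ, hσ⟩ x
  have hmap : ∀ i, (complDec D i).map (Matrix.toLin' (g : Matrix ι ι F)) = complDec D (σ i) := by
    intro i
    simp only [complDec, Submodule.map_iSup, hσ]
    exact Equiv.iSup_congr σ fun j => by simp [σ.injective.eq_iff]
  have hmem : ∀ i, (g : Matrix ι ι F) *ᵥ x ∈ complDec D (σ i) ↔ x ∈ complDec D i := fun i => by
    rw [← hmap, Submodule.mem_map]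
    constructor
    · rintro ⟨y, hy, hyx⟩
      rw [Matrix.toLin'_apply] at hyx
      rwa [← gl_mulVec_injective g hyx]
    · exact fun h => ⟨x, h, Matrix.toLin'_apply _ _⟩
  rw [countFun, countFun, ← Equiv.sum_comp σ]
  exact Finset.sum_congr rfl fun i _ => by simp only [hmem]

lemma mem_complDec_iff {D : Fin t → Submodule F (ι → F)} (hind : iSupIndep D)
    {p : Fin t → (ι → F)} (hp : ∀ i, p i ∈ D i) (i : Fin t) :
    ∑ j, p j ∈ complDec D i ↔ p i = 0 := by
  classical
  have hrest : ∑ j ∈ Finset.univ.erase i, p j ∈ complDec D i := by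
    refine Submodule.sum_mem _ fun j hj => ?_
    exact Submodule.mem_iSup_of_mem j (Submodule.mem_iSup_of_mem (Finset.ne_of_mem_erase hj) (hp j))
  rw [← Finset.add_sum_erase _ _ (Finset.mem_univ i), Submodule.add_mem_iff_left _ hrest]
  refine ⟨fun h => ?_, fun h => h ▸ Submodule.zero_mem _⟩
  exact Submodule.disjoint_def.1 (hind i) _ (hp i) h

open Classical in
lemma countFun_sum {D : Fin t → Submodule F (ι → F)} (hind : iSupIndep D)
    {p : Fin t → (ι → F)} (hp : ∀ i, p i ∈ D i) :
    countFun D (∑ j, p j) = ∑ i, if p i = 0 then 0 else 1 :=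
  Finset.sum_congr rfl fun i _ => by simp only [mem_complDec_iff hind hp]

lemma countFun_of_mem {D : Fin t → Submodule F (ι → F)} (hind : iSupIndep D) {i : Fin t}
    {a : ι → F} (ha : a ∈ D i) (ha0 : a ≠ 0) : countFun D a = 1 := by
  classical
  have hp : ∀ j, (if j = i then a else 0) ∈ D j := fun j => by
    split_ifs with h
    · exact h ▸ ha
    · exact Submodule.zero_mem _
  have he : a = ∑ j, (if j = i then a else 0) := by simp
  conv_lhs => rw [he]
  rw [countFun_sum hind hp, Finset.sum_eq_single i (fun j _ hj => by simp [hj]) (by simp)]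
  simp [ha0]

lemma countFun_add {D : Fin t → Submodule F (ι → F)} (hind : iSupIndep D) {i j : Fin t} (hij : i ≠ j)
    {a b : ι → F} (ha : a ∈ D i) (hb : b ∈ D j) (ha0 : a ≠ 0) (hb0 : b ≠ 0) :
    countFun D (a + b) = 2 := by
  classical
  let p : Fin t → (ι → F) := fun k => if k = i then a else if k = j then b else 0
  have hp : ∀ k, p k ∈ D k := fun k => by
    simp only [p]
    split_ifs with h1 h2
    · exact h1 ▸ ha
    · exact h2 ▸ hb
    · exact Submodule.zero_mem _
  have he : a + b = ∑ k, p k := by
    rw [Fintype.sum_eq_add i j hij (fun k hk => by simp [p, hk.1, hk.2])]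
    simp [p, hij.symm]
  rw [he, countFun_sum hind hp, Fintype.sum_eq_add i j hij (fun k hk => by simp [p, hk.1, hk.2])]
  simp [p, hij.symm, ha0, hb0, one_add_one_eq_two]

/-- Three or four members of a family. -/
lemma exists_finset_card {k : ℕ} (hk : k ≤ t) : ∃ S : Finset (Fin t), S.card = k := by
  obtain ⟨S, -, hS⟩ := Finset.exists_subset_card_eq (s := (Finset.univ : Finset (Fin t))) (n := k)
    (by simpa using hk)
  exact ⟨S, hS⟩

/-- Preservation of the count by an alternating transvection over two elements, for planes. -/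
lemma sympT_mem_fixFun {B : LinearMap.BilinForm F (ι → F)} (hA : B.IsAlt)
    {D : Fin t → Submodule F (ι → F)} (h : OrthDec B 2 D) (hind : iSupIndep D)
    (h2 : ∀ c : F, c = 0 ∨ c = 1) (S : Finset (Fin t)) (hS : (S.card : F) = 1)
    (a : Fin t → (ι → F)) (ha : ∀ i, a i ∈ D i) (ha0 : ∀ i ∈ S, a i ≠ 0) :
    sympT B (∑ i ∈ S, a i) 1 ∈ fixFun (countFun D) := by
  classical
  intro x
  set v := ∑ i ∈ S, a i with hv
  have htwo : (2 : F) = 0 := by
    rcases h2 2 with e | e
    · exact e
    · exact absurd (show (1 : F) = 0 by linear_combination e) one_ne_zero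
  obtain ⟨p, hp, rfl⟩ := h.exists_parts x
  set c := B (∑ i, p i) v with hc
  let q : Fin t → (ι → F) := fun i => p i + (if i ∈ S then c • a i else 0)
  have hq : ∀ i, q i ∈ D i := fun i => (D i).add_mem (hp i) (by
    split_ifs
    · exact (D i).smul_mem _ (ha i)
    · exact Submodule.zero_mem _)
  have hqs : ((sympT B v 1 : GL ι F) : Matrix ι ι F) *ᵥ (∑ i, p i) = ∑ i, q i := by
    rw [sympT_mulVec hA, one_mul, ← hc, Finset.sum_add_distrib, Finset.sum_ite_mem,
      Finset.univ_inter, hv, Finset.smul_sum]
  rw [hqs, countFun_sum hind hq, countFun_sum hind hp]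
  have hcS : c = ∑ i ∈ S, B (p i) (a i) := by
    rw [hc, hv, map_sum]
    exact Finset.sum_congr rfl fun i _ => h.apply_sum_mem hp (ha i)
  have key : ∀ i, (if q i = 0 then (0 : F) else 1) =
      (if p i = 0 then (0 : F) else 1) + (if i ∈ S then c * (1 + B (p i) (a i)) else 0) := by
    intro i
    simp only [q]
    by_cases hi : i ∈ S
    swap
    · simp [hi]
    simp only [if_pos hi]
    rcases h2 c with e | e
    · simp [e]
    rw [e, one_smul, one_mul]
    by_cases hp0 : p i = 0
    · simp [hp0, ha0 i hi]
    by_cases hpa : p i + a i = 0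
    · have hb : B (p i) (a i) = 0 := by
        rw [eq_neg_of_add_eq_zero_left hpa]; simp [hA.self_eq_zero]
      simp [hp0, hpa, hb, one_add_one_eq_two, htwo]
    · have hb : B (p i) (a i) = 1 := by
        refine (h2 _).resolve_left fun hb => ?_
        have hli : LinearIndependent F ![p i, a i] := by
          rw [LinearIndependent.pair_iff]
          intro u w huw
          rcases h2 u with e1 | e1 <;> rcases h2 w with e2 | e2 <;>
            rw [e1, e2] at huw <;> simp only [zero_smul, one_smul, zero_add, add_zero] at huw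
          · exact ⟨e1, e2⟩
          · exact absurd huw (ha0 i hi)
          · exact absurd huw hp0
          · exact absurd huw hpa
        have hsp : Submodule.span F (Set.range ![p i, a i]) = D i := by
          refine Submodule.eq_of_le_of_finrank_eq ?_ ?_
          · rw [Submodule.span_le]
            rintro _ ⟨k, rfl⟩
            fin_cases k
            · exact hp i
            · exact ha i
          · rw [finrank_span_eq_card hli, h.rank]; rfl
        obtain ⟨z, hz, hzz⟩ := h.nd i (a i) (ha i) (ha0 i hi)
        rw [← hsp, Matrix.range_cons, Matrix.range_cons, Matrix.range_empty, Set.union_empty,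
          Set.singleton_union, Submodule.mem_span_pair] at hz
        obtain ⟨u, w, rfl⟩ := hz
        apply hzz
        rw [map_add, map_smul, map_smul, hA.self_eq_zero, ← hA.neg_eq (p i) (a i), hb]
        simp
      simp [hp0, hpa, hb, one_add_one_eq_two, htwo]
  rw [Finset.sum_congr rfl (fun i _ => key i), Finset.sum_add_distrib, Finset.sum_ite_mem,
    Finset.univ_inter, ← Finset.mul_sum, Finset.sum_add_distrib, Finset.sum_const, nsmul_one, hS,
    ← hcS]
  rcases h2 c with e | e
  · simp [e]
  · simp [e, one_add_one_eq_two, htwo]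

end Cfsg.Agent.Lib.Forms
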