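import Cfsg.Agent.Lib.Forms.BlockCount

/-!
The decomposition stabiliser in `SL` is not maximal for the small fields.
-/

set_option autoImplicit false

namespace Cfsg.Agent.Lib.Forms

open Matrix Cfsg.Geo

variable {ι : Type} [Fintype ι] [DecidableEq ι] {F : Type*} [Field F] {t m : ℕ}

lemma exists_dual_vec (L : (ι → F) →ₗ[F] F) : ∃ φ : ι → F, ∀ x, φ ⬝ᵥ x = L x :=
  ⟨(dotProductEquiv F ι).symm L, fun x =>
    LinearMap.congr_fun ((dotProductEquiv F ι).apply_symm_apply L) x⟩

variable (B : Module.Basis (Fin t × Fin m) F (ι → F)) {D : Fin t → Submodule F (ι → F)}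

open Classical in
lemma countFun_repr (hind : iSupIndep D) (hB : ∀ l, B l ∈ D l.1) (x : ι → F) :
    countFun D x = ∑ i, if ∀ k, B.repr x (i, k) = 0 then 0 else 1 := by
  let p : Fin t → (ι → F) := fun i => ∑ k, B.repr x (i, k) • B (i, k)
  have hp : ∀ i, p i ∈ D i := fun i => Submodule.sum_mem _ fun k _ => (D i).smul_mem _ (hB (i, k))
  have hx : x = ∑ i, p i := by
    conv_lhs => rw [← B.sum_repr x, Fintype.sum_prod_type]
  conv_lhs => rw [hx]
  rw [countFun_sum hind hp]
  refine Finset.sum_congr rfl fun i _ => ?_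
  have : p i = 0 ↔ ∀ k, B.repr x (i, k) = 0 := by
    refine ⟨fun h => ?_, fun h => by simp [p, h]⟩
    exact Fintype.linearIndependent_iff.1
      (B.linearIndependent.comp (fun k : Fin m => (i, k)) (fun a b hab => by simpa using hab))
      (fun k => B.repr x (i, k)) h
  simp only [this]

lemma repr_block_eq_zero {D : Fin t → Submodule F (ι → F)} (hind : iSupIndep D)
    (hB : ∀ l, B l ∈ D l.1) {j : Fin t} {x : ι → F} (hx : x ∈ D j) {i : Fin t} (hij : i ≠ j)
    (k : Fin m) : B.repr x (i, k) = 0 := by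
  classical
  have hp : ∀ i, (∑ k, B.repr x (i, k) • B (i, k)) ∈ D i :=
    fun i => Submodule.sum_mem _ fun k _ => (D i).smul_mem _ (hB (i, k))
  have hxm : ∑ i, ∑ k, B.repr x (i, k) • B (i, k) ∈ complDec D i := by
    rw [← Fintype.sum_prod_type (f := fun l => B.repr x l • B l), B.sum_repr]
    exact Submodule.mem_iSup_of_mem j (Submodule.mem_iSup_of_mem hij.symm hx)
  exact Fintype.linearIndependent_iff.1
    (B.linearIndependent.comp (fun k : Fin m => (i, k)) (fun a b hab => by simpa using hab))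
    (fun k => B.repr x (i, k)) ((mem_complDec_iff hind hp i).1 hxm) k

/-- An element outside the stabiliser: the image of a basis vector has two components. -/
lemma notMem_stab_of_two (hind : iSupIndep D) (hB : ∀ l, B l ∈ D l.1) {g : GL ι F}
    {l a b : Fin t × Fin m} (hab : a.1 ≠ b.1)
    (ha : B.repr ((g : Matrix ι ι F) *ᵥ B l) a ≠ 0) (hb : B.repr ((g : Matrix ι ι F) *ᵥ B l) b ≠ 0) :
    g ∉ decompositionStabilizer D := by
  rintro ⟨σ, hσ⟩
  have := Submodule.mem_map_of_mem (f := Matrix.toLin' (g : Matrix ι ι F)) (hB l)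
  rw [hσ, Matrix.toLin'_apply] at this
  have h1 : a.1 = σ l.1 := by
    by_contra hne; exact ha (repr_block_eq_zero B hind hB this hne a.2)
  have h2 : b.1 = σ l.1 := by
    by_contra hne; exact hb (repr_block_eq_zero B hind hB this hne b.2)
  exact hab (h1.trans h2.symm)

open Classical in
lemma countFun_one (B : Module.Basis (Fin t × Fin 1) F (ι → F)) [Fintype F] (hind : iSupIndep D)
    (hB : ∀ l, B l ∈ D l.1) (x : ι → F) :
    countFun D x = ∑ i, B.repr x (i, 0) ^ (Fintype.card F - 1) := by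
  rw [countFun_repr B hind hB]
  refine Finset.sum_congr rfl fun i _ => ?_
  have : 1 < Fintype.card F := Fintype.one_lt_card
  by_cases h : B.repr x (i, 0) = 0
  · rw [if_pos (fun k => by rw [Subsingleton.elim k 0]; exact h), h, zero_pow (by omega)]
  · rw [if_neg (fun hk => h (hk 0)), FiniteField.pow_card_sub_one_eq_one _ h]

/-- A pseudo-reflection on the sum of the lines in `S`, fixing the count. -/
lemma exists_refl_fixFun (B : Module.Basis (Fin t × Fin 1) F (ι → F)) [Fintype F]
    (hind : iSupIndep D) (hB : ∀ l, B l ∈ D l.1) (S : Finset (Fin t)) (hS : (S.card : F) = 1)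
    (s : Fˣ) (hid : ∀ r : Fin t → F, ∑ i ∈ S, (r i + ((s : F) - 1) * ∑ j ∈ S, r j) ^
      (Fintype.card F - 1) = ∑ i ∈ S, r i ^ (Fintype.card F - 1)) :
    ∃ g : GL ι F, g ∈ fixFun (countFun D) ∧ (g : Matrix ι ι F).det = s ∧
      ∀ l, (g : Matrix ι ι F) *ᵥ B l =
        B l + if l.1 ∈ S then ((s : F) - 1) • ∑ i ∈ S, B (i, 0) else 0 := by
  classical
  obtain ⟨φ, hφ⟩ := exists_dual_vec (∑ i ∈ S, B.coord (i, 0))
  set v := ∑ i ∈ S, B (i, 0) with hv
  have hφx : ∀ x, φ ⬝ᵥ x = ∑ i ∈ S, B.repr x (i, 0) := fun x => by simp [hφ]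
  have hrepr : ∀ i : Fin t, B.repr v (i, 0) = if i ∈ S then 1 else 0 := fun i => by
    simp [hv, Finsupp.single_apply, Prod.ext_iff]
  have hc : φ ⬝ᵥ v = 1 := by
    rw [hφx, Finset.sum_congr rfl (fun i hi => by rw [hrepr, if_pos hi]), Finset.sum_const,
      nsmul_one, hS]
  refine ⟨refl v φ hc s, fun x => ?_, refl_det v φ hc s, fun l => ?_⟩
  · rw [countFun_one B hind hB, countFun_one B hind hB, refl_mulVec, hφx,
      ← Finset.sum_add_sum_compl S]
    conv_rhs => rw [← Finset.sum_add_sum_compl S]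
    congr 1
    · rw [← hid fun i => B.repr x (i, 0)]
      exact Finset.sum_congr rfl fun i hi => by simp [hrepr, hi]
    · exact Finset.sum_congr rfl fun i hi => by simp [hrepr, Finset.mem_compl.1 hi]
  · rw [refl_mulVec, hφx]
    congr 1
    have : ∀ i : Fin t, B.repr (B l) (i, 0) = if i = l.1 then 1 else 0 := fun i => by
      simp [Finsupp.single_apply, Prod.ext_iff, Subsingleton.elim l.2 0, eq_comm]
    simp only [this, Finset.sum_ite_eq']
    split_ifs <;> simp

lemma field_two_cases [Fintype F] (hq : Fintype.card F = 2) (c : F) : c = 0 ∨ c = 1 := by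
  classical
  by_contra hc
  push Not at hc
  have := Finset.card_le_card (Finset.subset_univ ({0, 1, c} : Finset F))
  rw [Finset.card_univ, hq, Finset.card_insert_of_notMem (by simp [Ne.symm hc.1]),
    Finset.card_pair (Ne.symm hc.2)] at this
  omega

lemma two_eq_zero_of_card_two [Fintype F] (hq : Fintype.card F = 2) : (2 : F) = 0 := by
  have := Nat.cast_card_eq_zero F
  rwa [hq, Nat.cast_ofNat] at this

/-- The witness: `K` lies strictly between. -/
theorem exists_between_of_witness (hind : iSupIndep D) (hB : ∀ l, B l ∈ D l.1) (hm : 0 < m)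
    (ht : 2 ≤ t) {g : GL ι F} (hg : g ∈ fixFun (countFun D)) (hdet : (g : Matrix ι ι F).det = 1)
    (hns : g ∉ decompositionStabilizer D) :
    ∃ K : Subgroup (GL ι F), decompositionStabilizer D ⊓ specialLinear ι F < K ∧
      K < specialLinear ι F := by
  classical
  haveI : Nontrivial (Fin t) := Fin.nontrivial_iff_two_le.2 ht
  obtain ⟨i, j, hij⟩ := exists_pair_ne (Fin t)
  refine ⟨fixFun (countFun D) ⊓ specialLinear ι F, lt_of_le_not_ge
    (inf_le_inf_right _ (stab_le_fixFun D)) (fun hle => hns (hle ⟨hg, (mem_specialLinear g).2 hdet⟩).1),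
    lt_of_le_not_ge inf_le_right fun hle => ?_⟩
  set a := B (i, ⟨0, hm⟩)
  set b := B (j, ⟨0, hm⟩)
  obtain ⟨φ, hφ⟩ := exists_dual_vec (B.coord (j, ⟨0, hm⟩))
  have hφa : φ ⬝ᵥ a = 0 := by simp [hφ, a, hij]
  have hφb : φ ⬝ᵥ b = 1 := by simp [hφ, b]
  have h := (hle (tv_mem_specialLinear a φ)).1 b
  rw [tv_mulVec hφa, hφb, one_smul, countFun_of_mem hind (hB (j, ⟨0, hm⟩)) (B.ne_zero _),
    countFun_add hind hij.symm (hB (j, ⟨0, hm⟩)) (hB (i, ⟨0, hm⟩)) (B.ne_zero _) (B.ne_zero _)] at h
  exact one_ne_zero (α := F) (by linear_combination h)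

/-- A transvection witness for two elements and lines. -/
lemma exists_witness_two_one (B : Module.Basis (Fin t × Fin 1) F (ι → F)) [Fintype F]
    (hq : Fintype.card F = 2) (hind : iSupIndep D) (hB : ∀ l, B l ∈ D l.1) (ht : 3 ≤ t) :
    ∃ g : GL ι F, g ∈ fixFun (countFun D) ∧ (g : Matrix ι ι F).det = 1 ∧
      g ∉ decompositionStabilizer D := by
  classical
  let i0 : Fin t := ⟨0, by omega⟩
  let i1 : Fin t := ⟨1, by omega⟩
  let i2 : Fin t := ⟨2, by omega⟩
  obtain ⟨φ, hφ⟩ := exists_dual_vec (B.coord (i2, 0))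
  set v := B (i0, 0) + B (i1, 0)
  have hv : φ ⬝ᵥ v = 0 := by simp [hφ, v, i0, i1, i2]
  refine ⟨tv v φ, fun x => ?_, tv_det v φ, notMem_stab_of_two B hind hB (l := (i2, 0))
    (a := (i0, 0)) (b := (i1, 0)) (by simp [i0, i1]) ?_ ?_⟩
  · rw [countFun_one B hind hB, countFun_one B hind hB, tv_mulVec hv, hq]
    simp only [pow_one, map_add, map_smul, Finsupp.add_apply, Finsupp.smul_apply, smul_eq_mul,
      Finset.sum_add_distrib, ← Finset.mul_sum]
    simp [v, Finset.sum_add_distrib, Finsupp.single_apply, Prod.ext_iff, one_add_one_eq_two,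
      two_eq_zero_of_card_two hq]
    simp [mul_add, Finset.sum_add_distrib]
    linear_combination (φ ⬝ᵥ x) * two_eq_zero_of_card_two hq
  · rw [tv_mulVec hv, hφ]; simp [v, i0, i1, i2, Finsupp.single_apply, Prod.ext_iff]
  · rw [tv_mulVec hv, hφ]; simp [v, i0, i1, i2, Finsupp.single_apply, Prod.ext_iff]

/-- The witness for two elements and planes. -/
lemma exists_witness_two_two (B : Module.Basis (Fin t × Fin 2) F (ι → F)) [Fintype F]
    (hq : Fintype.card F = 2) (hind : iSupIndep D) (hB : ∀ l, B l ∈ D l.1) (ht : 3 ≤ t) :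
    ∃ g : GL ι F, g ∈ fixFun (countFun D) ∧ (g : Matrix ι ι F).det = 1 ∧
      g ∉ decompositionStabilizer D := by
  classical
  let i0 : Fin t := ⟨0, by omega⟩
  let i1 : Fin t := ⟨1, by omega⟩
  let i2 : Fin t := ⟨2, by omega⟩
  let S : Finset (Fin t) := {i0, i1, i2}
  have hS : S.card = 3 := by simp [S, i0, i1, i2]
  have h2 := two_eq_zero_of_card_two hq
  obtain ⟨φ, hφ⟩ := exists_dual_vec (∑ i ∈ S, B.coord (i, 1))
  have hφx : ∀ x, φ ⬝ᵥ x = ∑ i ∈ S, B.repr x (i, 1) := fun x => by simp [hφ]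
  set v := ∑ i ∈ S, B (i, 0) with hv
  have hr0 : ∀ i : Fin t, B.repr v (i, 0) = if i ∈ S then 1 else 0 := fun i => by
    simp [hv, Finsupp.single_apply, Prod.ext_iff]
  have hr1 : ∀ i : Fin t, B.repr v (i, 1) = 0 := fun i => by
    simp [hv, Finsupp.single_apply, Prod.ext_iff]
  have hvφ : φ ⬝ᵥ v = 0 := by simp [hφx, hr1]
  refine ⟨tv v φ, fun x => ?_, tv_det v φ, notMem_stab_of_two B hind hB (l := (i0, 1))
    (a := (i1, 0)) (b := (i2, 0)) (by simp [i1, i2]) ?_ ?_⟩
  · rw [countFun_repr B hind hB, countFun_repr B hind hB, tv_mulVec hvφ]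
    set c := φ ⬝ᵥ x with hc
    have key : ∀ i, (if ∀ k, B.repr (x + c • v) (i, k) = 0 then (0 : F) else 1) =
        (if ∀ k, B.repr x (i, k) = 0 then 0 else 1) +
          (if i ∈ S then c * (1 + B.repr x (i, 1)) else 0) := by
      intro i
      simp only [Fin.forall_fin_two, map_add, map_smul, Finsupp.add_apply, Finsupp.smul_apply,
        smul_eq_mul, hr0, hr1]
      by_cases hi : i ∈ S
      swap
      · simp [hi]
      simp only [if_pos hi]
      rcases field_two_cases hq c with e | e <;>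
        rcases field_two_cases hq (B.repr x (i, 0)) with e0 | e0 <;>
        rcases field_two_cases hq (B.repr x (i, 1)) with e1 | e1 <;>
        simp [e, e0, e1, one_add_one_eq_two, h2]
    rw [Finset.sum_congr rfl (fun i _ => key i), Finset.sum_add_distrib, Finset.sum_ite_mem,
      Finset.univ_inter, ← Finset.mul_sum, Finset.sum_add_distrib, ← hφx, Finset.sum_const,
      nsmul_one, hS, ← hc]
    rcases field_two_cases hq c with e | e <;> simp [e]
    linear_combination 2 * h2
  · rw [tv_mulVec hvφ, hφx]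
    simp [hr0, S, i0, i1, i2, Finsupp.single_apply, Prod.ext_iff]
  · rw [tv_mulVec hvφ, hφx]
    simp [hr0, S, i0, i1, i2, Finsupp.single_apply, Prod.ext_iff]

/-- The witness for three and four elements and lines. -/
lemma exists_witness_one (B : Module.Basis (Fin t × Fin 1) F (ι → F)) [Fintype F]
    (hind : iSupIndep D) (hB : ∀ l, B l ∈ D l.1) (ht : 8 ≤ t) (k : ℕ) (hk : 3 ≤ k) (hk' : k ≤ 4)
    (hk1 : (k : F) = 1) (s : Fˣ) (hs : (s : F) ≠ 1)
    (hid : ∀ u : Fˣ, u = s ∨ u = s⁻¹ → ∀ S : Finset (Fin t), S.card = k → ∀ r : Fin t → F,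
      ∑ i ∈ S, (r i + ((u : F) - 1) * ∑ j ∈ S, r j) ^ (Fintype.card F - 1) =
        ∑ i ∈ S, r i ^ (Fintype.card F - 1)) :
    ∃ g : GL ι F, g ∈ fixFun (countFun D) ∧ (g : Matrix ι ι F).det = 1 ∧
      g ∉ decompositionStabilizer D := by
  classical
  let f1 : Fin k ↪ Fin t := ⟨fun a => ⟨a, by omega⟩, fun a b h => Fin.ext (by simpa using h)⟩
  let f2 : Fin k ↪ Fin t := ⟨fun a => ⟨k + a, by omega⟩, fun a b h => Fin.ext (by simpa using h)⟩
  set S1 := Finset.univ.map f1
  set S2 := Finset.univ.map f2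
  have hc1 : S1.card = k := by simp [S1]
  have hc2 : S2.card = k := by simp [S2]
  obtain ⟨g1, hg1, hd1, hv1⟩ := exists_refl_fixFun B hind hB S1 (by rw [hc1, hk1]) s
    (hid s (Or.inl rfl) S1 hc1)
  obtain ⟨g2, hg2, hd2, hv2⟩ := exists_refl_fixFun B hind hB S2 (by rw [hc2, hk1]) s⁻¹
    (hid s⁻¹ (Or.inr rfl) S2 hc2)
  have hmem : ∀ a : Fin k, f1 a ∈ S1 := fun a => Finset.mem_map_of_mem _ (Finset.mem_univ a)
  have hnot : ∀ a : Fin k, f1 a ∉ S2 := fun a h => by
    obtain ⟨b, -, hb⟩ := Finset.mem_map.1 h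
    have := congrArg Fin.val hb
    change k + (b : ℕ) = (a : ℕ) at this
    omega
  let a0 : Fin k := ⟨0, by omega⟩
  let a1 : Fin k := ⟨1, by omega⟩
  let a2 : Fin k := ⟨2, by omega⟩
  have himg : ((g1 * g2 : GL ι F) : Matrix ι ι F) *ᵥ B (f1 a0, 0) =
      B (f1 a0, 0) + ((s : F) - 1) • ∑ i ∈ S1, B (i, 0) := by
    rw [mul_mulVec', hv2, if_neg (hnot a0), add_zero, hv1, if_pos (hmem a0)]
  refine ⟨g1 * g2, mul_mem hg1 hg2, by rw [Units.val_mul, det_mul, hd1, hd2]; simp,
    notMem_stab_of_two B hind hB (l := (f1 a0, 0)) (a := (f1 a1, 0)) (b := (f1 a2, 0))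
      (fun e => by have := f1.injective e; simp [a1, a2] at this) ?_ ?_⟩
  all_goals
    rw [himg]
    simp [Finsupp.single_apply, Prod.ext_iff, hmem, a0, a1, a2, sub_eq_zero, hs]

theorem exists_between_linear [Fintype F] (hind : iSupIndep D) (hB : ∀ l, B l ∈ D l.1)
    (h : (m = 1 ∧ Fintype.card F ≤ 4) ∨ (m = 2 ∧ Fintype.card F = 2)) (hn : 8 ≤ t * m) (ht : 3 ≤ t) :
    ∃ K : Subgroup (GL ι F), decompositionStabilizer D ⊓ specialLinear ι F < K ∧
      K < specialLinear ι F := by
  classical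
  rcases h with ⟨rfl, hq⟩ | ⟨rfl, hq⟩
  swap
  · obtain ⟨g, h1, h2, h3⟩ := exists_witness_two_two B hq hind hB ht
    exact exists_between_of_witness B hind hB (by omega) (by omega) h1 h2 h3
  obtain ⟨g, h1, h2, h3⟩ : ∃ g : GL ι F, g ∈ fixFun (countFun D) ∧
      (g : Matrix ι ι F).det = 1 ∧ g ∉ decompositionStabilizer D := by
    have h1 := Fintype.one_lt_card (α := F)
    have h0 := Nat.cast_card_eq_zero F
    rcases (show Fintype.card F = 2 ∨ Fintype.card F = 3 ∨ Fintype.card F = 4 by omega) with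
      hq2 | hq3 | hq4
    · exact exists_witness_two_one B hq2 hind hB ht
    · rw [hq3, Nat.cast_ofNat] at h0
      refine exists_witness_one B hind hB (by omega) 4 (by norm_num) le_rfl
        (by push_cast; linear_combination h0) (-1) (fun e => ?_) ?_
      · rw [Units.val_neg, Units.val_one] at e
        exact one_ne_zero (α := F) (by linear_combination h0 + e)
      · intro u hu S hS r
        have hu' : (u : F) = -1 := by rcases hu with rfl | rfl <;> simp
        rw [hu', hq3]
        set σ := ∑ j ∈ S, r j with hσ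
        have hexp : ∀ i, (r i + (-1 - 1) * σ) ^ (3 - 1) = r i ^ (3 - 1) + -4 * σ * r i + 4 * σ ^ 2 :=
          fun i => by norm_num; ring
        simp only [hexp, Finset.sum_add_distrib, Finset.sum_const, hS, nsmul_eq_mul,
          ← Finset.mul_sum, ← hσ]
        push_cast
        linear_combination (4 * σ ^ 2) * h0
    · rw [hq4, Nat.cast_ofNat] at h0
      have h2 : (2 : F) = 0 := by
        have : (2 : F) * 2 = 0 := by linear_combination h0
        simpa using this
      obtain ⟨s, hs0, hs1⟩ : ∃ s : F, s ≠ 0 ∧ s ≠ 1 := by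
        by_contra hcon
        push Not at hcon
        have := Finset.card_le_card (show (Finset.univ : Finset F) ⊆ {0, 1} from fun x _ => by
          by_cases hx : x = 0
          · simp [hx]
          · simp [hcon x hx])
        rw [Finset.card_univ] at this
        have := Finset.card_le_two (a := (0 : F)) (b := 1)
        omega
      have hroot : ∀ u : F, u ≠ 0 → u ≠ 1 → u ^ 2 + u + 1 = 0 := fun u u0 u1 => by
        have h3 := FiniteField.pow_card_sub_one_eq_one u u0
        rw [hq4] at h3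
        have : (u - 1) * (u ^ 2 + u + 1) = 0 := by linear_combination h3
        exact (mul_eq_zero.1 this).resolve_left (sub_ne_zero.2 u1)
      refine exists_witness_one B hind hB (by omega) 3 le_rfl (by norm_num)
        (by push_cast; linear_combination h2) (Units.mk0 s hs0) (by simpa using hs1) ?_
      intro u hu S hS r
      have hur : (u : F) ^ 2 + u + 1 = 0 := by
        refine hroot _ u.ne_zero ?_
        rcases hu with rfl | rfl <;> simpa using hs1
      have hsq : ∑ i ∈ S, r i ^ 2 = (∑ i ∈ S, r i) ^ 2 := by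
        haveI : CharP F 2 := CharTwo.of_one_ne_zero_of_two_eq_zero one_ne_zero h2
        exact (CharTwo.sum_sq S r).symm
      rw [hq4]
      set σ := ∑ j ∈ S, r j
      set c := (u : F) - 1
      have hexp : ∀ i, (r i + c * σ) ^ (4 - 1) =
          r i ^ (4 - 1) + c * σ * r i ^ 2 + c ^ 2 * σ ^ 2 * r i + c ^ 3 * σ ^ 3 := fun i => by
        norm_num
        linear_combination (c * σ * r i ^ 2 + c ^ 2 * σ ^ 2 * r i) * h2
      simp only [hexp, Finset.sum_add_distrib, ← Finset.mul_sum, hsq, Finset.sum_const, hS,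
        nsmul_eq_mul]
      push_cast
      have hc : c + c ^ 2 + 3 * c ^ 3 = 0 := by
        simp only [c]
        linear_combination (3 * (u : F) - 11) * hur + (8 * (u : F) + 4) * h2
      linear_combination σ ^ 3 * hc
  exact exists_between_of_witness B hind hB (by omega) (by omega) h1 h2 h3

end Cfsg.Agent.Lib.Forms
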