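import Cfsg.Agent.Lib.PStab.Dickson

/-!
Subgroups of `SL(2, F)` generated by root elements with many parameters.
-/

set_option autoImplicit false

namespace Cfsg.Agent.Lib.Forms

open Matrix
open scoped MatrixGroups
open Cfsg.Agent.Lib.PStab

variable {F : Type*} [Field F]

local notation "M₂" => Matrix (Fin 2) (Fin 2) F

/-- The parameters of the upper root elements in a group. -/
def upperParams (K : Subgroup SL(2, F)) : AddSubgroup F where
  carrier := {a | ux a ∈ K}
  add_mem' {a b} ha hb := by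
    show ux (a + b) ∈ K
    rw [← ux_mul]; exact mul_mem ha hb
  zero_mem' := by show ux (0 : F) ∈ K; rw [ux_zero]; exact one_mem K
  neg_mem' {a} ha := by
    show ux (-a) ∈ K
    rw [← ux_inv]; exact inv_mem ha

lemma mem_upperParams {K : Subgroup SL(2, F)} {a : F} : a ∈ upperParams K ↔ ux a ∈ K := Iff.rfl

lemma upper_of_conj {g : SL(2, F)} {a a' : F} (ha : a ≠ 0) (h : g * ux a * g⁻¹ = ux a') :
    (g : M₂) 1 0 = 0 := by
  have e := congrArg (fun k : SL(2, F) => (k : M₂) 1 0) h
  simp [coe_ux, mul_apply_two, coe_inv_two, Matrix.adjugate_fin_two] at e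
  have e' : a * (g : M₂) 1 0 ^ 2 = 0 := by linear_combination -e
  exact eq_zero_of_pow_eq_zero ((mul_eq_zero.1 e').resolve_left ha)

/-- The first column determines the coset of the upper triangular subgroup. -/
lemma upper_of_col {g k : SL(2, F)}
    (h : (g : M₂) 0 0 * (k : M₂) 1 0 = (g : M₂) 1 0 * (k : M₂) 0 0) :
    ((g⁻¹ * k : SL(2, F)) : M₂) 1 0 = 0 := by
  simp [mul_apply_two, coe_inv_two, Matrix.adjugate_fin_two]
  linear_combination h

/-- The finite points of the orbit of infinity. -/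
def orbitPts (K : Subgroup SL(2, F)) : Set F :=
  {v | ∃ g ∈ K, (g : M₂) 1 0 ≠ 0 ∧ (g : M₂) 0 0 = v * (g : M₂) 1 0}

variable {K : Subgroup SL(2, F)}

lemma add_inv_mem_orbitPts {a b : F} (ha : a ∈ upperParams K) (hb : b ≠ 0) (hy : uy b ∈ K) :
    a + b⁻¹ ∈ orbitPts K := by
  refine ⟨ux a * uy b, mul_mem ha hy, ?_, ?_⟩
  · simp [coe_ux, coe_uy, mul_apply_two, hb]
  · simp [coe_ux, coe_uy, mul_apply_two]
    field_simp
    ring

section Odd

variable {p : ℕ} [hp : Fact p.Prime] [CharP F p] [Finite F]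

/-- In odd characteristic the finite orbit points form one coset of the parameters. -/
lemma orbit_coset_odd (hp2 : p ≠ 2) {b : F} (hb : b ≠ 0) (hy : uy b ∈ K)
    (hA : 6 ≤ Nat.card (upperParams K)) {v : F} (hv : v ∈ orbitPts K) :
    v - b⁻¹ ∈ upperParams K := by
  classical
  set φ : K →* SL(2, F) := K.subtype
  have hφ : Function.Injective φ := Subtype.coe_injective
  -- the upper root group as a subgroup
  let U : Subgroup K :=
    { carrier := {k | ∃ a, (k : SL(2, F)) = ux a}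
      one_mem' := ⟨0, by rw [ux_zero]; rfl⟩
      mul_mem' := by
        rintro x y ⟨a, ha⟩ ⟨c, hc⟩
        exact ⟨a + c, by rw [Subgroup.coe_mul, ha, hc, ux_mul]⟩
      inv_mem' := by
        rintro x ⟨a, ha⟩
        exact ⟨-a, by rw [Subgroup.coe_inv, ha, ux_inv]⟩ }
  have hUcard : Nat.card U = Nat.card (upperParams K) := by
    refine (Nat.card_congr (Equiv.ofBijective
      (fun a : upperParams K => (⟨⟨ux (a : F), a.2⟩, ⟨_, rfl⟩⟩ : U)) ⟨fun a c h => ?_, fun w => ?_⟩)).symm
    · have := congrArg (fun w : U => (((w : K) : SL(2, F)) : M₂) 0 1) h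
      simpa [coe_ux] using this
    · obtain ⟨a, ha⟩ := w.2
      exact ⟨⟨a, show ux a ∈ K by rw [← ha]; exact (w : K).2⟩, Subtype.ext (Subtype.ext ha.symm)⟩
  have hUp : IsPGroup p U := fun w => by
    obtain ⟨a, ha⟩ := w.2
    refine ⟨1, Subtype.ext (Subtype.ext ?_)⟩
    simp only [SubmonoidClass.coe_pow, pow_one, ha, ux_pow_p]
    rfl
  obtain ⟨a₀, ha₀K, ha₀⟩ : ∃ a₀ : F, ux a₀ ∈ K ∧ a₀ ≠ 0 := by
    haveI : Nontrivial (upperParams K) := Finite.one_lt_card_iff_nontrivial.1 (by omega)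
    obtain ⟨a, ha⟩ := exists_ne (0 : upperParams K)
    exact ⟨a, a.2, fun e => ha (Subtype.ext e)⟩
  -- it is a Sylow subgroup
  have hUmax : ∀ T : Subgroup K, IsPGroup p T → U ≤ T → T = U := by
    intro T hT hUT
    haveI := hT.isNilpotent
    by_contra hne
    have hlt : U.subgroupOf T < ⊤ := by
      rw [lt_top_iff_ne_top, Ne, Subgroup.subgroupOf_eq_top]
      exact fun hle => hne (le_antisymm hle hUT)
    obtain ⟨w, hwN, hw⟩ := SetLike.exists_of_lt (normalizerCondition_of_isNilpotent _ hlt)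
    refine hw ?_
    have h1 := (Subgroup.mem_normalizer_iff.1 hwN ⟨⟨ux a₀, ha₀K⟩, hUT ⟨a₀, rfl⟩⟩).1
      (by exact (⟨a₀, rfl⟩ : ∃ a, ux a₀ = ux a))
    obtain ⟨a', ha'⟩ := Subgroup.mem_subgroupOf.1 h1
    have hup := upper_of_conj (g := ((w : K) : SL(2, F))) ha₀ (by simpa using ha')
    obtain ⟨k, hk⟩ := hT w
    have hk' : ((w : K) : SL(2, F)) ^ p ^ k = 1 := by
      have := congrArg (fun z : T => ((z : K) : SL(2, F))) hk
      simpa using this
    exact Subgroup.mem_subgroupOf.2 ⟨_, eq_ux_of_trace (trace_eq_two hk') hup⟩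
  let S : Sylow p K := ⟨U, hUp, fun {T} hT h => hUmax T hT h⟩
  have hN : ∀ k : K, k ∈ Subgroup.normalizer (S : Set K) →
      ((k : SL(2, F)) : M₂) 1 0 = 0 := fun k hk => by
    obtain ⟨a', ha'⟩ := (Subgroup.mem_normalizer_iff.1 hk ⟨ux a₀, ha₀K⟩).1 ⟨a₀, rfl⟩
    exact upper_of_conj ha₀ (by simpa using ha')
  -- the count
  have hn1 : 1 < Nat.card (Sylow p K) := by
    rw [S.card_eq_index_normalizer]
    refine Subgroup.one_lt_index_of_ne_top fun e => ?_
    have := hN ⟨uy b, hy⟩ (by rw [e]; exact Subgroup.mem_top _)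
    simp [coe_uy, hb] at this
  have hn : Nat.card (Sylow p K) = 1 + Nat.card S := by
    obtain ⟨z, hz⟩ := exists_eq_neg_one hp2 φ hφ hn1
    have hbot : (S : Subgroup K) ≠ ⊥ := fun e => by
      have h1 : Nat.card U = 1 := by rw [show U = (⊥ : Subgroup K) from e, Subgroup.card_bot]
      omega
    refine ((isSL2Like hp2 φ hφ hz).card_sylow hp2 S hbot hn1).resolve_right fun h => ?_
    obtain ⟨j, hj⟩ := IsPGroup.iff_card.1 hUp
    have hdvd : Nat.card U ∣ 120 := h.1 ▸ Subgroup.card_subgroup_dvd_card U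
    have hpodd : Odd (Nat.card U) := hj ▸ (hp.out.odd_of_ne_two hp2).pow
    have h8 : Nat.card U ∣ 15 :=
      (Nat.Coprime.dvd_of_dvd_mul_right ((Nat.coprime_two_right.2 hpodd).pow_right 3)
        (show Nat.card U ∣ 15 * 2 ^ 3 from hdvd))
    have h15 : Nat.card U ∈ Nat.divisors 15 := Nat.mem_divisors.2 ⟨h8, by norm_num⟩
    rw [show Nat.divisors 15 = {1, 3, 5, 15} by decide] at h15
    simp only [Finset.mem_insert, Finset.mem_singleton] at h15
    have h15' : Nat.card U = 15 := by omega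
    have hp15 : p ∣ 15 := by
      rw [← h15', hj]
      refine dvd_pow_self p fun e => ?_
      rw [e, pow_zero] at hj; omega
    have hpj := hj ▸ h15'
    rcases (Nat.prime_dvd_prime_iff_eq hp.out Nat.prime_three).or
      (Iff.refl (p = 5)) |>.1 ((Nat.Prime.dvd_mul hp.out).1 (show p ∣ 3 * 5 from hp15) |>.imp_right
        (Nat.prime_dvd_prime_iff_eq hp.out (by norm_num)).1) with rfl | rfl
    · have : 5 ∣ 3 ^ j := by rw [hpj]; norm_num
      have := (by norm_num : Nat.Prime 5).dvd_of_dvd_pow this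
      norm_num at this
    · have : 3 ∣ 5 ^ j := by rw [hpj]; norm_num
      have := Nat.prime_three.dvd_of_dvd_pow this
      norm_num at this
  -- orbit points give distinct cosets
  let N := Subgroup.normalizer (S : Set K)
  have hidx : N.index = 1 + Nat.card (upperParams K) := by
    rw [← S.card_eq_index_normalizer, hn, ← hUcard]
  choose g hgK hg10 hg00 using fun v : orbitPts K => v.2
  let Φ : Option (orbitPts K) → K ⧸ N := fun o =>
    o.elim (QuotientGroup.mk (1 : K)) fun v => QuotientGroup.mk (⟨g v, hgK v⟩ : K)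
  have hΦ : Function.Injective Φ := by
    have key : ∀ x : K, x ∈ N → ((x : SL(2, F)) : M₂) 1 0 = 0 := hN
    rintro (_ | v) (_ | w) h
    · rfl
    · exfalso
      have := key _ (QuotientGroup.eq.1 h)
      simp [hg10 w] at this
    · exfalso
      have := key _ (QuotientGroup.eq.1 h.symm)
      simp [hg10 v] at this
    · have h' := key _ (QuotientGroup.eq.1 h)
      simp [mul_apply_two, coe_inv_two, Matrix.adjugate_fin_two, hg00 v, hg00 w] at h'
      have h3 : ((v : F) - w) * ((g v : M₂) 1 0 * (g w : M₂) 1 0) = 0 := by linear_combination h'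
      have := (mul_eq_zero.1 h3).resolve_right (mul_ne_zero (hg10 v) (hg10 w))
      rw [Subtype.ext (sub_eq_zero.1 this)]
  have hle : Nat.card (orbitPts K) ≤ Nat.card (upperParams K) := by
    have h1 := Nat.card_le_card_of_injective Φ hΦ
    rw [Finite.card_option, ← Subgroup.index_eq_card, hidx] at h1
    omega
  let Ψ : upperParams K → orbitPts K := fun a => ⟨(a : F) + b⁻¹, add_inv_mem_orbitPts a.2 hb hy⟩
  have hΨ : Function.Injective Ψ := fun a c h => Subtype.ext (add_right_cancel (congrArg Subtype.val h))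
  obtain ⟨a, ha⟩ := (Function.Injective.bijective_of_nat_card_le hΨ hle).2 ⟨v, hv⟩
  have : (a : F) + b⁻¹ = v := congrArg Subtype.val ha
  rw [← this, add_sub_cancel_right]
  exact a.2

end Odd

section Two

variable [CharP F 2] [Finite F]

lemma invol_trace {t : SL(2, F)} (ht : t * t = 1) : (t : M₂) 0 0 = (t : M₂) 1 1 := by
  have h : t⁻¹ = t := inv_eq_of_mul_eq_one_right ht
  have := congrArg (fun k : SL(2, F) => (k : M₂) 0 0) h
  simpa [coe_inv_two, Matrix.adjugate_fin_two] using this.symm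

lemma invol_upper {t : SL(2, F)} (ht : t * t = 1) (h10 : (t : M₂) 1 0 = 0) :
    t = ux ((t : M₂) 0 1) := by
  haveI : Fact (Nat.Prime 2) := ⟨Nat.prime_two⟩
  exact eq_ux_of_trace (trace_eq_two (p := 2) (k := 1) (by rw [pow_one, pow_two, ht])) h10

omit [Finite F] in
lemma ux_sq (a : F) : ux a * ux a = 1 := by rw [ux_mul, CharTwo.add_self_eq_zero, ux_zero]

/-- Two upper involutions in `K` are conjugate to a common lower one. -/
lemma exists_conj_invol {a : F} (haK : ux a ∈ K) (ha : a ≠ 0) {t : SL(2, F)} (htK : t ∈ K)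
    (ht : t * t = 1) (h10 : (t : M₂) 1 0 ≠ 0) : ∃ c ∈ K, c * ux a * c⁻¹ = t := by
  set u := ux a with hu
  have hu2 : u * u = 1 := ux_sq a
  have hui : u⁻¹ = u := inv_eq_of_mul_eq_one_right hu2
  have hti : t⁻¹ = t := inv_eq_of_mul_eq_one_right ht
  set r := u * t with hr
  have hconj : u * r * u⁻¹ = r⁻¹ := by
    rw [hr, _root_.mul_inv_rev, hui, hti, ← mul_assoc u u t, hu2, one_mul]
  rcases Nat.even_or_odd (orderOf r) with ⟨j, hj⟩ | ⟨j, hj⟩
  · exfalso
    have hpos : 0 < orderOf r := orderOf_pos r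
    set w := r ^ j with hw
    have hw2 : w * w = 1 := by rw [hw, ← pow_add, ← hj, pow_orderOf_eq_one]
    have hw1 : w ≠ 1 := by
      intro e
      have := orderOf_le_of_pow_eq_one (by omega) e
      omega
    have hwi : w⁻¹ = w := inv_eq_of_mul_eq_one_right hw2
    have hwu : u * w * u⁻¹ = w := by rw [hw, ← conj_pow, hconj, inv_pow, ← hw, hwi]
    have hcu : Commute w u := by
      show w * u = u * w
      conv_lhs => rw [← hwu]
      rw [inv_mul_cancel_right]
    obtain ⟨h1, -⟩ := commute_ux ha hcu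
    have hcr : Commute w r := (Commute.refl r).pow_left j
    have hct : Commute w t := by
      have : t = u⁻¹ * r := by rw [hr, inv_mul_cancel_left]
      rw [this]; exact hcu.inv_right.mul_right hcr
    rw [invol_upper hw2 h1] at hct hw1
    have he : (w : M₂) 0 1 ≠ 0 := fun e => hw1 (by rw [e, ux_zero])
    exact h10 (commute_ux he hct.symm).1
  · refine ⟨r ^ j, pow_mem (mul_mem haK htK) j, ?_⟩
    have hswap : u * (r ^ j)⁻¹ = r ^ j * u := by
      have h := congrArg (· ^ j) hconj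
      simp only [conj_pow, inv_pow] at h
      calc u * (r ^ j)⁻¹ = u * (u * r ^ j * u⁻¹) := by rw [h]
        _ = r ^ j * u := by rw [hui, ← mul_assoc, ← mul_assoc, hu2, one_mul]
    have hrj : r ^ j * r ^ j = r⁻¹ :=
      eq_inv_of_mul_eq_one_left (by rw [← pow_add, ← pow_succ, ← two_mul, ← hj, pow_orderOf_eq_one])
    rw [mul_assoc, hswap, ← mul_assoc, hrj, hr, _root_.mul_inv_rev, inv_mul_cancel_right, hti]

/-- In characteristic two the finite orbit points form one coset of the parameters. -/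
lemma orbit_coset_two {b : F} (hb : b ≠ 0) (hy : uy b ∈ K)
    (hA : 3 ≤ Nat.card (upperParams K)) {v : F} (hv : v ∈ orbitPts K) :
    v - b⁻¹ ∈ upperParams K := by
  classical
  set A := upperParams K with hAdef
  obtain ⟨a₀, ha₀⟩ : ∃ a₀ : A, a₀ ≠ 0 := by
    haveI : Nontrivial A := Finite.one_lt_card_iff_nontrivial.1 (by omega)
    exact exists_ne 0
  have ha₀' : (a₀ : F) ≠ 0 := fun e => ha₀ (Subtype.ext e)
  set u := ux (a₀ : F) with hu
  have hsq : ∀ x y : F, x * x = y * y → x = y := fun x y h => by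
    have : (x - y) * (x - y) = 0 := by
      linear_combination h + (y * y - x * y) * CharTwo.two_eq_zero (R := F)
    exact sub_eq_zero.1 (mul_self_eq_zero.1 this)
  have hyy : uy b * uy b = 1 := by rw [uy_mul, CharTwo.add_self_eq_zero, uy_zero]
  have hy10 : (uy b : M₂) 1 0 ≠ 0 := by simp [coe_uy, hb]
  -- the diagonal entries
  let D : Set F := {l | ∃ g ∈ K, (g : M₂) 1 0 = 0 ∧ (g : M₂) 0 0 = l}
  have hDne : ∀ l ∈ D, l ≠ 0 := by
    rintro _ ⟨g, -, h1, rfl⟩ h0
    have := det_eq g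
    rw [h1, h0] at this; simp at this
  have hDact : ∀ l ∈ D, ∀ a ∈ A, l ^ 2 * a ∈ A := by
    rintro _ ⟨g, hg, h1, rfl⟩ a ha
    show ux _ ∈ K
    rw [← conj_ux_of_upper h1]
    exact mul_mem (mul_mem hg ha) (inv_mem hg)
  have htrans : ∀ a : A, a ≠ 0 → ∃ l ∈ D, l ^ 2 * (a₀ : F) = a := by
    intro a ha
    have ha' : (a : F) ≠ 0 := fun e => ha (Subtype.ext e)
    obtain ⟨c₁, hc₁, e₁⟩ := exists_conj_invol a₀.2 ha₀' hy hyy hy10
    obtain ⟨c₂, hc₂, e₂⟩ := exists_conj_invol a.2 ha' hy hyy hy10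
    have e : (c₂⁻¹ * c₁) * ux (a₀ : F) * (c₂⁻¹ * c₁)⁻¹ = ux (a : F) := by
      calc (c₂⁻¹ * c₁) * ux (a₀ : F) * (c₂⁻¹ * c₁)⁻¹ = c₂⁻¹ * (c₁ * ux (a₀ : F) * c₁⁻¹) * c₂ := by
            group
        _ = ux (a : F) := by rw [e₁, ← e₂]; group
    have h10 := upper_of_conj ha₀' e
    refine ⟨_, ⟨_, mul_mem (inv_mem hc₂) hc₁, h10, rfl⟩, ?_⟩
    have := congrArg (fun k : SL(2, F) => (k : M₂) 0 1) ((conj_ux_of_upper h10 _).symm.trans e)
    simpa [coe_ux] using this
  have hDcard : Nat.card D + 1 = Nat.card A := by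
    let f : D → {a : A // a ≠ 0} := fun l => ⟨⟨(l : F) ^ 2 * a₀, hDact _ l.2 _ a₀.2⟩, fun e => by
      have e' : (l : F) ^ 2 * a₀ = 0 := congrArg Subtype.val e
      exact mul_ne_zero (pow_ne_zero 2 (hDne _ l.2)) ha₀' e'⟩
    have hf : Function.Bijective f := by
      refine ⟨fun l m h => Subtype.ext (hsq _ _ ?_), fun a => ?_⟩
      · have h' : (l : F) ^ 2 * a₀ = (m : F) ^ 2 * a₀ :=
          congrArg (fun a : {a : A // a ≠ 0} => ((a : A) : F)) h
        simpa [pow_two] using mul_right_cancel₀ ha₀' h'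
      · obtain ⟨l, hl, e⟩ := htrans a.1 a.2
        exact ⟨⟨l, hl⟩, Subtype.ext (Subtype.ext e)⟩
    rw [Nat.card_eq_of_bijective f hf, ← Finite.card_option,
      Nat.card_congr (Equiv.optionSubtypeNe (0 : A))]
  -- the upper triangular part and the whole group
  let N : Set SL(2, F) := {g | g ∈ K ∧ (g : M₂) 1 0 = 0}
  choose d hdK hd10 hd00 using fun l : D => l.2
  have hNcard : Nat.card N = Nat.card D * Nat.card A := by
    rw [← Nat.card_prod]
    refine (Nat.card_eq_of_bijective (fun x : D × A => (⟨d x.1 * ux (x.2 : F),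
      mul_mem (hdK _) x.2.2, by simp [coe_ux, mul_apply_two, hd10]⟩ : N)) ⟨fun x y h => ?_, ?_⟩).symm
    · have h' := congrArg (fun w : N => (((w : SL(2, F)) : M₂) 0 0, ((w : SL(2, F)) : M₂) 0 1)) h
      simp [coe_ux, mul_apply_two, hd00] at h'
      have h1 : x.1 = y.1 := Subtype.ext h'.1
      refine Prod.ext h1 (Subtype.ext ?_)
      have h2 := h'.2
      rw [h1] at h2
      exact mul_left_cancel₀ (hDne _ y.1.2) (add_right_cancel h2)
    · rintro ⟨g, hgK, hg⟩
      let l : D := ⟨_, g, hgK, hg, rfl⟩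
      have h1 : (((d l)⁻¹ * g : SL(2, F)) : M₂) 1 0 = 0 :=
        upper_of_col (by rw [hg, hd10]; ring)
      have hdet := det_eq g
      have hdet' := det_eq (d l)
      rw [hg, mul_zero, sub_zero] at hdet
      rw [hd10, mul_zero, sub_zero, hd00] at hdet'
      have hd11 : (d l : M₂) 1 1 = (g : M₂) 1 1 :=
        mul_left_cancel₀ (hDne _ l.2) (hdet'.trans hdet.symm)
      have ht2 : (((d l)⁻¹ * g : SL(2, F)) : M₂) 0 0 + (((d l)⁻¹ * g : SL(2, F)) : M₂) 1 1 = 2 := by
        simp [mul_apply_two, coe_inv_two, Matrix.adjugate_fin_two, hg, hd10, hd00, hd11]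
        have hl11 : (l : F) * (g : M₂) 1 1 = 1 := hdet
        linear_combination hdet + hl11
      have e := eq_ux_of_trace ht2 h1
      refine ⟨(l, ⟨_, show ux _ ∈ K from e ▸ mul_mem (inv_mem (hdK l)) hgK⟩), Subtype.ext ?_⟩
      show d l * _ = g
      rw [← e, mul_inv_cancel_left]
  let O := orbitPts K
  choose o hoK ho10 ho00 using fun w : O => w.2
  have hKcard : Nat.card K = (Nat.card O + 1) * Nat.card N := by
    rw [← Finite.card_option, ← Nat.card_prod]
    refine (Nat.card_eq_of_bijective (fun x : Option O × N => (⟨(x.1.elim 1 o) * (x.2 : SL(2, F)),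
      mul_mem (by rcases x.1 with _ | w <;> first | exact one_mem K | exact hoK w) x.2.2.1⟩ : K))
      ⟨?_, ?_⟩).symm
    · rintro ⟨x, n⟩ ⟨y, m⟩ h
      have h' : x.elim 1 o * (n : SL(2, F)) = y.elim 1 o * m := congrArg Subtype.val h
      have hn0 : ∀ n : N, ((n : SL(2, F)) : M₂) 0 0 ≠ 0 := fun n =>
        hDne _ ⟨_, n.2.1, n.2.2, rfl⟩
      have hxy : x = y := by
        have e := congrArg (fun k : SL(2, F) => ((k : M₂) 0 0, (k : M₂) 1 0)) h'
        rcases x with _ | v <;> rcases y with _ | w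
        · rfl
        · simp [mul_apply_two, n.2.2, m.2.2] at e
          rcases e.2 with h3 | h3 <;> first | exact absurd h3 (ho10 w) | exact absurd h3 (hn0 m)
        · simp [mul_apply_two, n.2.2, m.2.2] at e
          rcases e.2 with h3 | h3 <;> first | exact absurd h3 (ho10 v) | exact absurd h3 (hn0 n)
        · simp [mul_apply_two, n.2.2, m.2.2, ho00] at e
          have : ((v : F) - w) * ((o v : M₂) 1 0 * ((n : SL(2, F)) : M₂) 0 0) = 0 := by
            linear_combination e.1 - (w : F) * e.2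
          rw [Subtype.ext (sub_eq_zero.1 ((mul_eq_zero.1 this).resolve_right
            (mul_ne_zero (ho10 v) (hn0 n))))]
      subst hxy
      exact Prod.ext rfl (Subtype.ext (mul_left_cancel h'))
    · rintro ⟨g, hg⟩
      by_cases h10 : (g : M₂) 1 0 = 0
      · exact ⟨(none, ⟨g, hg, h10⟩), Subtype.ext (one_mul g)⟩
      · let w : O := ⟨(g : M₂) 0 0 / (g : M₂) 1 0, g, hg, h10, (div_mul_cancel₀ _ h10).symm⟩
        have h1 : (((o w)⁻¹ * g : SL(2, F)) : M₂) 1 0 = 0 := upper_of_col (by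
          rw [ho00 w]
          show (g : M₂) 0 0 / (g : M₂) 1 0 * _ * _ = _
          field_simp)
        exact ⟨(some w, ⟨_, mul_mem (inv_mem (hoK w)) hg, h1⟩), Subtype.ext (mul_inv_cancel_left _ _)⟩
  -- involutions outside
  let J : Set SL(2, F) := {t | t ∈ K ∧ t * t = 1 ∧ (t : M₂) 1 0 ≠ 0}
  choose c hcK hc using fun t : J => exists_conj_invol a₀.2 ha₀' t.2.1 t.2.2.1 t.2.2.2
  -- all involutions
  let I : Set SL(2, F) := {t | t ∈ K ∧ t * t = 1 ∧ t ≠ 1}
  have hall : ∀ t : I, ∃ k ∈ K, k * u * k⁻¹ = t := by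
    rintro ⟨t, htK, ht, ht1⟩
    by_cases h10 : (t : M₂) 1 0 = 0
    · have e := invol_upper ht h10
      obtain ⟨c₁, hc₁, e₁⟩ := exists_conj_invol a₀.2 ha₀' hy hyy hy10
      obtain ⟨c₂, hc₂, e₂⟩ := exists_conj_invol (show ux ((t : M₂) 0 1) ∈ K from e ▸ htK)
        (fun h => ht1 (by rw [e, h, ux_zero])) hy hyy hy10
      refine ⟨c₂⁻¹ * c₁, mul_mem (inv_mem hc₂) hc₁, ?_⟩
      rw [← e] at e₂
      calc c₂⁻¹ * c₁ * u * (c₂⁻¹ * c₁)⁻¹ = c₂⁻¹ * (c₁ * u * c₁⁻¹) * c₂ := by group
        _ = t := by rw [hu, e₁, ← e₂]; group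
    · exact exists_conj_invol a₀.2 ha₀' htK ht h10
  choose k hkK hk using hall
  have hKI : Nat.card K = Nat.card I * Nat.card A := by
    rw [← Nat.card_prod]
    refine (Nat.card_eq_of_bijective (fun x : I × A => (⟨k x.1 * ux (x.2 : F),
      mul_mem (hkK _) x.2.2⟩ : K)) ⟨fun x y h => ?_, ?_⟩).symm
    · have h' : k x.1 * ux (x.2 : F) = k y.1 * ux (y.2 : F) := congrArg Subtype.val h
      have key : ∀ a : F, ux a * u * (ux a)⁻¹ = u := fun a => by
        rw [hu, ux_inv, ux_mul, ux_mul]; congr 1; ring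
      have h1 : x.1 = y.1 := Subtype.ext (by
        calc (x.1 : SL(2, F)) = k x.1 * ux (x.2 : F) * u * (k x.1 * ux (x.2 : F))⁻¹ := by
              rw [_root_.mul_inv_rev]
              rw [show k x.1 * ux (x.2 : F) * u * ((ux (x.2 : F))⁻¹ * (k x.1)⁻¹) =
                k x.1 * (ux (x.2 : F) * u * (ux (x.2 : F))⁻¹) * (k x.1)⁻¹ by group, key, hk]
          _ = y.1 := by
              rw [h', _root_.mul_inv_rev]
              rw [show k y.1 * ux (y.2 : F) * u * ((ux (y.2 : F))⁻¹ * (k y.1)⁻¹) =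
                k y.1 * (ux (y.2 : F) * u * (ux (y.2 : F))⁻¹) * (k y.1)⁻¹ by group, key, hk])
      rw [h1] at h'
      refine Prod.ext h1 (Subtype.ext ?_)
      simpa [coe_ux] using congrArg (fun w : SL(2, F) => (w : M₂) 0 1) (mul_left_cancel h')
    · rintro ⟨g, hg⟩
      let t : I := ⟨g * u * g⁻¹, mul_mem (mul_mem hg a₀.2) (inv_mem hg), by
        rw [show g * u * g⁻¹ * (g * u * g⁻¹) = g * (u * u) * g⁻¹ by group, hu, ux_sq]; group,
        fun e => ha₀' (by
          have e' : u = 1 := by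
            rw [show u = g⁻¹ * (g * u * g⁻¹) * g by group, e]; group
          simpa [hu, coe_ux] using congrArg (fun w : SL(2, F) => (w : M₂) 0 1) e')⟩
      have hcomm : Commute ((k t)⁻¹ * g) u := by
        show _ * _ = _ * _
        have e : k t * u * (k t)⁻¹ = g * u * g⁻¹ := hk t
        calc (k t)⁻¹ * g * u = (k t)⁻¹ * (g * u * g⁻¹) * g := by group
          _ = u * ((k t)⁻¹ * g) := by rw [← e]; group
      obtain ⟨h10, h00⟩ := commute_ux ha₀' hcomm
      have hdet := det_eq ((k t)⁻¹ * g)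
      rw [h10, mul_zero, sub_zero, ← h00] at hdet
      have h1 : (((k t)⁻¹ * g : SL(2, F)) : M₂) 0 0 = 1 := hsq _ _ (by rw [hdet, one_mul])
      have e := eq_ux_of_trace (g := (k t)⁻¹ * g) (by rw [← h00, h1, one_add_one_eq_two]) h10
      refine ⟨(t, ⟨_, show ux _ ∈ K from e ▸ mul_mem (inv_mem (hkK t)) hg⟩), Subtype.ext ?_⟩
      show k t * _ = g
      rw [← e, mul_inv_cancel_left]
  have hIJ : Nat.card I = Nat.card J + (Nat.card A - 1) := by
    have hJI : J ⊆ I := fun t ht => ⟨ht.1, ht.2.1, fun e => ht.2.2 (by rw [e]; simp)⟩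
    have hdiff : I \ J = (fun a : F => ux a) '' ({a : F | a ∈ A} \ {0}) := by
      ext t
      constructor
      · rintro ⟨⟨htK, ht, ht1⟩, hnot⟩
        have h10 : (t : M₂) 1 0 = 0 := by
          by_contra h; exact hnot ⟨htK, ht, h⟩
        have e := invol_upper ht h10
        exact ⟨_, ⟨show ux _ ∈ K from e ▸ htK, fun h => ht1 (by rw [e, Set.mem_singleton_iff.1 h, ux_zero])⟩,
          e.symm⟩
      · rintro ⟨a, ⟨ha, ha0⟩, rfl⟩
        exact ⟨⟨ha, ux_sq a, fun e => ha0 (by
          simpa [coe_ux] using congrArg (fun w : SL(2, F) => (w : M₂) 0 1) e)⟩,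
          fun h => h.2.2 (by simp [coe_ux])⟩
    have h1 := Set.ncard_diff_add_ncard_of_subset hJI (Set.toFinite I)
    rw [hdiff, Set.ncard_image_of_injective _ (fun x y h => by
      simpa [coe_ux] using congrArg (fun w : SL(2, F) => (w : M₂) 0 1) h),
      Set.ncard_diff_singleton_of_mem (show (0 : F) ∈ {a : F | a ∈ A} from A.zero_mem)] at h1
    rw [Nat.card_coe_set_eq, Nat.card_coe_set_eq, ← h1,
      show ({a : F | a ∈ A}).ncard = Nat.card A from (Nat.card_coe_set_eq _).symm]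
    omega
  have hJcard : Nat.card J = Nat.card O * Nat.card D := by
    have h2 : (Nat.card O + 1) * (Nat.card D * Nat.card A) = Nat.card I * Nat.card A := by
      rw [← hNcard, ← hKcard, hKI]
    rw [← mul_assoc] at h2
    have h3 := Nat.eq_of_mul_eq_mul_right (by omega) h2
    rw [add_mul, one_mul, hIJ] at h3
    omega
  -- every point has a full torus
  let T : Set (O × D) := {x | ∃ g ∈ K, (g : M₂) 1 0 = 0 ∧ (g : M₂) 0 0 = (x.2 : F) ∧
    (g : M₂) 0 1 = (x.1 : F) * ((g : M₂) 1 1 - (g : M₂) 0 0)}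
  have hT : T = Set.univ := by
    let ρ : J → O := fun t => ⟨((t : SL(2, F)) : M₂) 0 0 / ((t : SL(2, F)) : M₂) 1 0,
      t, t.2.1, t.2.2.2, (div_mul_cancel₀ _ t.2.2.2).symm⟩
    let R : O → SL(2, F) := fun w => if h : ∃ t, ρ t = w then (h.choose : SL(2, F)) else 1
    have hR : ∀ t : J, ∃ s : J, ρ s = ρ t ∧ R (ρ t) = s := fun t => by
      have h : ∃ s, ρ s = ρ t := ⟨t, rfl⟩
      exact ⟨h.choose, h.choose_spec, dif_pos h⟩
    choose s hs hsR using hR
    have hfix : ∀ t : J, ((R (ρ t) * (t : SL(2, F)) : SL(2, F)) : M₂) 1 0 = 0 ∧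
        ((R (ρ t) * (t : SL(2, F)) : SL(2, F)) : M₂) 0 1 = (ρ t : F) *
          (((R (ρ t) * (t : SL(2, F)) : SL(2, F)) : M₂) 1 1 -
            ((R (ρ t) * (t : SL(2, F)) : SL(2, F)) : M₂) 0 0) := by
      intro t
      rw [hsR]
      obtain ⟨-, hS2, hS⟩ := (s t).2
      obtain ⟨-, hT2, hT'⟩ := t.2
      have eS : (((s t : J) : SL(2, F)) : M₂) 0 0 = (ρ t : F) * (((s t : J) : SL(2, F)) : M₂) 1 0 := by
        rw [← hs t]; exact (div_mul_cancel₀ _ hS).symm
      have eT : ((t : SL(2, F)) : M₂) 0 0 = (ρ t : F) * ((t : SL(2, F)) : M₂) 1 0 :=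
        (div_mul_cancel₀ _ hT').symm
      have tS := invol_trace hS2
      have tT := invol_trace hT2
      have dS := det_eq ((s t : J) : SL(2, F))
      have dT := det_eq (t : SL(2, F))
      set P := (ρ t : F)
      constructor
      · simp only [mul_apply_two, ← tS, eS, eT]
        linear_combination ((((s t : J) : SL(2, F)) : M₂) 1 0 * P * ((t : SL(2, F)) : M₂) 1 0) *
          CharTwo.two_eq_zero (R := F)
      · simp only [mul_apply_two, ← tT, ← tS, eS, eT] at dS dT ⊢
        set x := (((s t : J) : SL(2, F)) : M₂) 1 0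
        set y := ((t : SL(2, F)) : M₂) 1 0
        set β := (((s t : J) : SL(2, F)) : M₂) 0 1
        set γ := ((t : SL(2, F)) : M₂) 0 1
        clear_value P x y β γ
        linear_combination (β * P * y) * CharTwo.two_eq_zero (R := F)
    let Θ : J → T := fun t => ⟨(ρ t, ⟨_, R (ρ t) * t, by
        rw [hsR]; exact mul_mem (s t).2.1 t.2.1, (hfix t).1, rfl⟩),
      R (ρ t) * t, by rw [hsR]; exact mul_mem (s t).2.1 t.2.1, (hfix t).1, rfl, (hfix t).2⟩
    have hΘ : Function.Injective Θ := by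
      intro t t' h
      have h1 : ρ t = ρ t' := congrArg (fun x : T => (x : O × D).1) h
      have h2 : ((R (ρ t) * (t : SL(2, F)) : SL(2, F)) : M₂) 0 0 =
          ((R (ρ t') * (t' : SL(2, F)) : SL(2, F)) : M₂) 0 0 :=
        congrArg (fun x : T => ((x : O × D).2 : F)) h
      obtain ⟨a1, a2⟩ := hfix t
      obtain ⟨b1, b2⟩ := hfix t'
      rw [← h1] at b1 b2 h2
      set g := R (ρ t) * (t : SL(2, F))
      set g' := R (ρ t) * (t' : SL(2, F))
      have dg := det_eq g
      have dg' := det_eq g'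
      rw [a1, mul_zero, sub_zero] at dg
      rw [b1, mul_zero, sub_zero, ← h2] at dg'
      have h3 : (g : M₂) 1 1 = (g' : M₂) 1 1 :=
        mul_left_cancel₀ (left_ne_zero_of_mul (dg.symm ▸ one_ne_zero)) (dg.trans dg'.symm)
      exact Subtype.ext (mul_left_cancel (sl_ext h2 (by rw [a2, b2, h2, h3]) (a1.trans b1.symm) h3))
    have hle := Nat.card_le_card_of_injective Θ hΘ
    rw [hJcard, ← Nat.card_prod] at hle
    exact (Set.eq_univ_iff_ncard T).2
      (le_antisymm (Set.ncard_le_card T) (hle.trans_eq (Nat.card_coe_set_eq T)))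
  -- two fixed points of equal diagonal differ by a parameter
  obtain ⟨l, hl1⟩ : ∃ l : D, (l : F) ≠ 1 := by
    by_contra h
    push Not at h
    have : Nat.card D ≤ 1 := Finite.card_le_one_iff_subsingleton.2
      ⟨fun x y => Subtype.ext ((h x).trans (h y).symm)⟩
    omega
  have h0 : b⁻¹ ∈ O := by simpa using add_inv_mem_orbitPts A.zero_mem hb hy
  obtain ⟨g, hgK, hg10, hg00, hg01⟩ : ((⟨b⁻¹, h0⟩ : O), l) ∈ T := hT ▸ Set.mem_univ _
  obtain ⟨g', hg'K, hg'10, hg'00, hg'01⟩ : ((⟨v, hv⟩ : O), l) ∈ T := hT ▸ Set.mem_univ _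
  set L := (l : F) with hL
  have hL0 : L ≠ 0 := hDne _ l.2
  have dg := det_eq g
  have dg' := det_eq g'
  rw [hg10, mul_zero, sub_zero, hg00] at dg
  rw [hg'10, mul_zero, sub_zero, hg'00] at dg'
  have h11 : (g : M₂) 1 1 = (g' : M₂) 1 1 := mul_left_cancel₀ hL0 (dg.trans dg'.symm)
  have hup : ((g⁻¹ * g' : SL(2, F)) : M₂) 1 0 = 0 := upper_of_col (by rw [hg10, hg'10]; ring)
  have htr : ((g⁻¹ * g' : SL(2, F)) : M₂) 0 0 + ((g⁻¹ * g' : SL(2, F)) : M₂) 1 1 = 2 := by
    simp [mul_apply_two, coe_inv_two, Matrix.adjugate_fin_two, hg10, hg'10, hg00, hg'00, ← h11]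
    linear_combination 2 * dg
  have hmem : (L ^ 2) * ((g⁻¹ * g' : SL(2, F)) : M₂) 0 1 ∈ A :=
    hDact L l.2 _ (show ux _ ∈ K from eq_ux_of_trace htr hup ▸ mul_mem (inv_mem hgK) hg'K)
  set δ := v - b⁻¹ with hδ
  have hval : (1 - L ^ 2) * δ ∈ A := by
    have e : (1 - L ^ 2) * δ = L ^ 2 * ((g⁻¹ * g' : SL(2, F)) : M₂) 0 1 := by
      simp [mul_apply_two, coe_inv_two, Matrix.adjugate_fin_two, hg01, hg'01, hg00, hg'00, ← h11, hδ]
      linear_combination -(v - b⁻¹) * (L * (g : M₂) 1 1 + 1 - L ^ 2) * dg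
    rw [e]; exact hmem
  have hne : 1 - L ^ 2 ≠ 0 := fun e => hl1 (hsq L 1 (by linear_combination -e))
  let μ : A → A := fun a => ⟨(1 - L ^ 2) * (a : F), by
    rw [sub_mul, one_mul]; exact A.sub_mem a.2 (hDact L l.2 _ a.2)⟩
  have hμ : Function.Injective μ := fun a a' h =>
    Subtype.ext (mul_left_cancel₀ hne (congrArg Subtype.val h))
  obtain ⟨a, ha⟩ := (Finite.injective_iff_surjective.1 hμ) ⟨_, hval⟩
  rw [← mul_left_cancel₀ hne (congrArg Subtype.val ha : (1 - L ^ 2) * (a : F) = _)]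
  exact a.2

end Two

/-- Hua's identity. -/
lemma hua {a c : F} (ha : a ≠ 0) (hc : c ≠ 0) (h : a * c ≠ 1) :
    a - (a⁻¹ + (c⁻¹ - a)⁻¹)⁻¹ = a * c * a := by
  have h' : 1 - c * a ≠ 0 := fun e => h (by linear_combination -e)
  field_simp
  grind

/-- An additive subgroup closed under inversion and containing one is a subfield. -/
lemma mul_mem_of_inv_closed [Finite F] {p : ℕ} [Fact p.Prime] [CharP F p] {A : AddSubgroup F}
    (h1 : (1 : F) ∈ A) (hinv : ∀ a ∈ A, a ≠ 0 → a⁻¹ ∈ A) {x y : F} (hx : x ∈ A) (hy : y ∈ A) :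
    x * y ∈ A := by
  have key : ∀ a ∈ A, ∀ c ∈ A, a * c * a ∈ A := by
    intro a ha c hc
    rcases eq_or_ne a 0 with rfl | ha0
    · simp [A.zero_mem]
    rcases eq_or_ne c 0 with rfl | hc0
    · simp [A.zero_mem]
    by_cases h : a * c = 1
    · rw [h, one_mul]; exact ha
    rw [← hua ha0 hc0 h]
    have h2 : c⁻¹ - a ≠ 0 := fun e => h (by
      rw [← sub_eq_zero.1 e, inv_mul_cancel₀ hc0])
    have h3 := A.sub_mem (hinv c hc hc0) ha
    have h4 := A.add_mem (hinv a ha ha0) (hinv _ h3 h2)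
    by_cases h5 : a⁻¹ + (c⁻¹ - a)⁻¹ = 0
    · rw [h5, _root_.inv_zero, sub_zero]; exact ha
    · exact A.sub_mem ha (hinv _ h4 h5)
  have sq : ∀ a ∈ A, a * a ∈ A := fun a ha => by simpa using key a ha 1 h1
  by_cases hp2 : p = 2
  · subst hp2
    let s : A → A := fun a => ⟨(a : F) * a, sq a a.2⟩
    have hs : Function.Injective s := fun a a' h => by
      have h' : (a : F) * a = (a' : F) * a' := congrArg Subtype.val h
      have : ((a : F) - a') * ((a : F) - a') = 0 := by
        linear_combination h' + ((a' : F) * a' - (a : F) * a') * CharTwo.two_eq_zero (R := F)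
      exact Subtype.ext (sub_eq_zero.1 (mul_self_eq_zero.1 this))
    obtain ⟨a, ha⟩ := (Finite.injective_iff_surjective.1 hs) ⟨x, hx⟩
    have : (a : F) * a = x := congrArg Subtype.val ha
    rw [← this, mul_right_comm]
    exact key a a.2 y hy
  · have h2 : x * y + x * y ∈ A := by
      have := A.sub_mem (A.sub_mem (sq _ (A.add_mem hx hy)) (sq x hx)) (sq y hy)
      convert this using 1
      ring
    obtain ⟨m, hm⟩ := (Fact.out : p.Prime).odd_of_ne_two hp2
    have h3 := A.nsmul_mem h2 (m + 1)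
    have e : (m + 1) • (x * y + x * y) = x * y := by
      have hp0 : ((2 * m + 1 : ℕ) : F) = 0 := by rw [← hm]; exact CharP.cast_eq_zero F p
      push_cast at hp0
      rw [nsmul_eq_mul]; push_cast
      linear_combination (x * y) * hp0
    rwa [e] at h3

/-- There is no proper field strictly above a subfield of prime degree. -/
lemma subfield_eq_top_of_lt [Finite F] {F₀ E : Subfield F} {r : ℕ} (hr : r.Prime)
    (hcard : Nat.card F = Nat.card F₀ ^ r) (hle : F₀ ≤ E) (hlt : Nat.card F₀ < Nat.card E) :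
    E = ⊤ := by
  letI : Algebra F₀ E := (Subfield.inclusion hle).toAlgebra
  haveI : Fintype F := Fintype.ofFinite F
  haveI : Fintype F₀ := Fintype.ofFinite F₀
  haveI : Fintype E := Fintype.ofFinite E
  obtain ⟨j, hj⟩ : ∃ j, Nat.card E = Nat.card F₀ ^ j :=
    ⟨Module.finrank F₀ E, by
      rw [Nat.card_eq_fintype_card, Nat.card_eq_fintype_card, Module.card_eq_pow_finrank (K := F₀)]⟩
  obtain ⟨i, hi⟩ : ∃ i, Nat.card F = Nat.card E ^ i :=
    ⟨Module.finrank E F, by
      rw [Nat.card_eq_fintype_card, Nat.card_eq_fintype_card, Module.card_eq_pow_finrank (K := E)]⟩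
  have hq : 2 ≤ Nat.card F₀ := Finite.one_lt_card
  have hji : j * i = r := by
    rw [hi, hj, ← pow_mul] at hcard
    exact Nat.pow_right_injective hq hcard
  rcases (Nat.dvd_prime hr).1 (Dvd.intro i hji) with h | h
  · rw [h, pow_one] at hj; omega
  · have hi1 : i = 1 := by
      rw [h] at hji
      exact (Nat.mul_eq_left hr.ne_zero).1 hji
    rw [hi1, pow_one] at hi
    refine SetLike.coe_injective ?_
    rw [Subfield.coe_top]
    refine (Set.eq_univ_iff_ncard _).2 ?_
    rw [← Nat.card_coe_set_eq]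
    exact hi.symm

/-- Root elements with a large parameter space for a prime index subfield give all of them. -/
theorem ux_mem_of_large [Finite F] {F₀ : Subfield F} {r : ℕ} (hr : r.Prime)
    (hcard : Nat.card F = Nat.card F₀ ^ r) {A : Set F} (hA : ∀ a ∈ A, ux a ∈ K)
    (hsmul : ∀ c ∈ F₀, ∀ a ∈ A, c * a ∈ A) (h6 : 6 ≤ A.ncard ∨ ((2 : F) = 0 ∧ 3 ≤ A.ncard)) (hlt : Nat.card F₀ < A.ncard)
    {b : F} (hb : b ≠ 0) (hy : uy b ∈ K) (x : F) : ux x ∈ K := by
  classical
  haveI : Fintype F := Fintype.ofFinite F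
  obtain ⟨p, hchar⟩ := CharP.exists F
  haveI : Fact p.Prime := ⟨CharP.char_is_prime F p⟩
  set As := upperParams K
  have hAsub : A ⊆ (As : Set F) := hA
  have h6' : A.ncard ≤ Nat.card As := by
    refine (Set.ncard_le_ncard hAsub (Set.toFinite _)).trans (le_of_eq ?_)
    exact (Nat.card_coe_set_eq _).symm
  have orb : ∀ v ∈ orbitPts K, v - b⁻¹ ∈ As := by
    intro v hv
    by_cases hp2 : p = 2
    · subst hp2; exact orbit_coset_two hb hy (le_trans (by omega) h6') hv
    · refine orbit_coset_odd hp2 hb hy (h6.elim (fun h => h.trans h6') fun h => absurd h.1 ?_) hv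
      exact Ring.two_ne_zero (by rwa [ringChar.eq F p])
  -- closure under a twisted inversion
  have hinv' : ∀ a ∈ As, a ≠ 0 → b⁻¹ ∈ As ∧ (a * b ^ 2)⁻¹ ∈ As ∨
      (2 : F) = 0 ∧ (a * b ^ 2)⁻¹ ∈ As := by
    intro a ha ha0
    by_cases h2 : (2 : F) = 0
    · refine Or.inr ⟨h2, ?_⟩
      have hv : (1 + a * b) / (a * b ^ 2) ∈ orbitPts K := by
        refine ⟨uy b * ux a * uy b, mul_mem (mul_mem hy ha) hy, ?_, ?_⟩
        · simp [coe_ux, coe_uy, mul_apply_two]
          intro e
          have : a * (b * b) = 0 := by linear_combination e - b * h2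
          exact mul_ne_zero ha0 (mul_ne_zero hb hb) this
        · simp [coe_ux, coe_uy, mul_apply_two]
          field_simp
          linear_combination (-(1 + a * b)) * h2
      have := orb _ hv
      convert this using 1
      field_simp
      ring
    · left
      have hneg : -b⁻¹ ∈ orbitPts K := by
        refine ⟨uy (-b), by rw [← uy_inv]; exact inv_mem hy, ?_, ?_⟩
        · simp [coe_uy, hb]
        · simp [coe_uy, hb]
      have h1 := orb _ hneg
      have hb' : b⁻¹ ∈ As := by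
        obtain ⟨m, hm⟩ := (Fact.out : p.Prime).odd_of_ne_two (fun e => h2 (by
          subst e; exact CharTwo.two_eq_zero))
        have h3 := As.nsmul_mem (As.neg_mem h1) (m + 1)
        have hp0 : ((2 * m + 1 : ℕ) : F) = 0 := by rw [← hm]; exact CharP.cast_eq_zero F p
        push_cast at hp0
        convert h3 using 1
        rw [nsmul_eq_mul]; push_cast
        linear_combination -b⁻¹ * hp0
      refine ⟨hb', ?_⟩
      -- a Weyl element
      set w := ux b⁻¹ * uy (-b) * ux b⁻¹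
      have hwK : w ∈ K := mul_mem (mul_mem hb' (by rw [← uy_inv]; exact inv_mem hy)) hb'
      have hv : (a * b ^ 2)⁻¹ * -1 + 0 ∈ orbitPts K := by
        refine ⟨w * ux a * w⁻¹, mul_mem (mul_mem hwK ha) (inv_mem hwK), ?_, ?_⟩
        · simp [w, coe_ux, coe_uy, mul_apply_two, coe_inv_two, Matrix.adjugate_fin_two, hb, ha0]
        · simp [w, coe_ux, coe_uy, mul_apply_two, coe_inv_two, Matrix.adjugate_fin_two, hb, ha0]
          field_simp
      have h4 := As.neg_mem (As.add_mem (orb _ hv) hb')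
      simpa using h4
  -- scale
  let B : AddSubgroup F := As.map (AddMonoidHom.mulLeft b)
  have memB : ∀ z, z ∈ B ↔ z / b ∈ As := fun z => by
    refine ⟨?_, fun h => ⟨z / b, h, mul_div_cancel₀ _ hb⟩⟩
    rintro ⟨a, ha, rfl⟩
    simpa [hb] using ha
  have hinv : ∀ z ∈ B, z ≠ 0 → z⁻¹ ∈ B := by
    intro z hz hz0
    rw [memB] at hz ⊢
    rcases hinv' _ hz (div_ne_zero hz0 hb) with ⟨-, h⟩ | ⟨-, h⟩ <;>
    · convert h using 1
      field_simp
  obtain ⟨a₁, ha₁, ha₁0⟩ : ∃ a ∈ A, a ≠ 0 := by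
    by_contra h
    push Not at h
    have : A.ncard ≤ ({0} : Set F).ncard :=
      Set.ncard_le_ncard (fun a ha => h a ha) (Set.toFinite _)
    rw [Set.ncard_singleton] at this
    omega
  set e := b * a₁ with he
  have heB : e ∈ B := ⟨a₁, hA _ ha₁, rfl⟩
  have he0 : e ≠ 0 := mul_ne_zero hb ha₁0
  have h1B : (1 : F) ∈ B := by
    rcases hinv' a₁ (hA _ ha₁) ha₁0 with ⟨h, -⟩ | ⟨h2, -⟩
    · exact ⟨b⁻¹, h, mul_inv_cancel₀ hb⟩
    · -- characteristic two: odd powers of `e`
      have key : ∀ z ∈ B, e * z * e ∈ B := by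
        intro z hz
        rcases eq_or_ne z 0 with rfl | hz0
        · simp [B.zero_mem]
        by_cases h : e * z = 1
        · rw [h, one_mul]; exact heB
        rw [← hua he0 hz0 h]
        by_cases h5 : e⁻¹ + (z⁻¹ - e)⁻¹ = 0
        · rw [h5, _root_.inv_zero, sub_zero]; exact heB
        refine B.sub_mem heB (hinv _ (B.add_mem (hinv e heB he0) ?_) h5)
        refine hinv _ (B.sub_mem (hinv z hz hz0) heB) fun h' => h ?_
        rw [← sub_eq_zero.1 h', inv_mul_cancel₀ hz0]
      have hpow : ∀ i, e ^ (2 * i + 1) ∈ B := by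
        intro i
        induction i with
        | zero => simpa using heB
        | succ i ih =>
          have := key _ ih
          convert this using 1
          ring
      have hodd : Odd (orderOf e) := by
        have hd : orderOf e ∣ Fintype.card F - 1 :=
          orderOf_dvd_of_pow_eq_one (FiniteField.pow_card_sub_one_eq_one e he0)
        refine Odd.of_dvd_nat ?_ hd
        have hch : ringChar F = 2 := by
          rw [ringChar.eq F p]
          by_contra hne
          exact (Ring.two_ne_zero (R := F) (by rwa [ringChar.eq F p])) h2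
        have := FiniteField.even_card_of_char_two hch
        have h3 : 1 < Fintype.card F := Fintype.one_lt_card
        rw [Nat.odd_iff]; omega
      obtain ⟨i, hi⟩ := hodd
      rw [← pow_orderOf_eq_one e, hi]
      exact hpow i
  have hmul : ∀ y z, y ∈ B → z ∈ B → y * z ∈ B := fun y z => mul_mem_of_inv_closed (p := p) h1B hinv
  let E : Subfield F :=
    { carrier := B
      mul_mem' := fun {y z} => hmul y z
      one_mem' := h1B
      add_mem' := fun {y z} => B.add_mem
      zero_mem' := B.zero_mem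
      neg_mem' := fun {y} => B.neg_mem
      inv_mem' := fun y hy' => by
        rcases eq_or_ne y 0 with rfl | h
        · simp [B.zero_mem]
        · exact hinv y hy' h }
  have hF₀E : F₀ ≤ E := by
    intro c hc
    have h1 : b * (c * a₁) ∈ B := ⟨c * a₁, hA _ (hsmul c hc a₁ ha₁), rfl⟩
    show c ∈ B
    have := hmul _ _ h1 (hinv e heB he0)
    convert this using 1
    rw [he]; field_simp
  have hEcard : A.ncard ≤ Nat.card E := by
    refine h6'.trans (le_of_eq ?_)
    exact Nat.card_congr (AddSubgroup.equivMapOfInjective As _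
      (fun y z h => mul_left_cancel₀ hb h)).toEquiv
  have hE : E = ⊤ := subfield_eq_top_of_lt hr hcard hF₀E (hlt.trans_le hEcard)
  have hxB : b * x ∈ B := show b * x ∈ E from hE ▸ Subfield.mem_top _
  rw [memB, mul_div_cancel_left₀ _ hb] at hxB
  exact hxB

end Cfsg.Agent.Lib.Forms
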