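import Cfsg.Agent.Lib.Forms.SubfieldBasic
import Cfsg.Agent.Lib.Forms.SLTwoGen

/-!
The subfield subgroup is maximal in the special linear group.
-/

set_option autoImplicit false

namespace Cfsg.Agent.Lib.Forms

open Matrix Cfsg.Geo
open scoped MatrixGroups
open Cfsg.Agent.Lib.PStab (ux uy coe_ux coe_uy mul_apply_two coe_inv_two det_eq)

variable {ι : Type} [Fintype ι] [DecidableEq ι] {F : Type*} [Field F] {F₀ : Subfield F}

/-- All entries lie in the subfield. -/
def IsRat (F₀ : Subfield F) (v : ι → F) : Prop := ∀ i, v i ∈ F₀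

omit [Fintype ι] in
lemma isRat_single (i : ι) {c : F} (hc : c ∈ F₀) : IsRat F₀ (Pi.single i c : ι → F) := fun j => by
  rcases eq_or_ne j i with rfl | h <;> simp [*, F₀.zero_mem]

lemma dot_mem {φ a : ι → F} (hφ : IsRat F₀ φ) (ha : IsRat F₀ a) : φ ⬝ᵥ a ∈ F₀ :=
  sum_mem fun i _ => mul_mem (hφ i) (ha i)

/-- Few conditions leave a rational functional. -/
lemma exists_rat_perp {k : ℕ} (hk : k < Fintype.card ι) (w : Fin k → ι → F)
    (hw : ∀ j, IsRat F₀ (w j)) : ∃ χ : ι → F, IsRat F₀ χ ∧ χ ≠ 0 ∧ ∀ j, χ ⬝ᵥ w j = 0 := by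
  classical
  let f : (ι → F₀) →ₗ[F₀] (Fin k → F₀) := LinearMap.pi fun j =>
    ∑ i, (⟨w j i, hw j i⟩ : F₀) • LinearMap.proj i
  obtain ⟨χ, hχ, hχ0⟩ := Submodule.exists_mem_ne_zero_of_ne_bot
    (LinearMap.ker_ne_bot_of_finrank_lt (f := f) (by simpa using hk))
  refine ⟨fun i => (χ i : F), fun i => (χ i).2, fun e => hχ0 (funext fun i => Subtype.ext (congrFun e i)),
    fun j => ?_⟩
  have h := congrArg Subtype.val (congrFun (LinearMap.mem_ker.1 hχ) j)
  simp [f, AddSubmonoidClass.coe_finsetSum] at h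
  rw [dotProduct, ← h]
  exact Finset.sum_congr rfl fun i _ => mul_comm _ _

/-- A functional killed by the rational kernel of `ψ` is a multiple of `ψ`. -/
lemma eq_smul_of_rat_ker {ψ η : ι → F} (hψ : IsRat F₀ ψ) (hψ0 : ψ ≠ 0)
    (h : ∀ b, IsRat F₀ b → ψ ⬝ᵥ b = 0 → η ⬝ᵥ b = 0) : ∃ k : F, η = k • ψ := by
  obtain ⟨j, hj⟩ := Function.ne_iff.1 hψ0
  have hj : ψ j ≠ 0 := hj
  refine ⟨η j / ψ j, funext fun i => ?_⟩
  have hb : IsRat F₀ (Pi.single i (ψ j) - Pi.single j (ψ i) : ι → F) := fun l =>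
    sub_mem (isRat_single i (hψ j) l) (isRat_single j (hψ i) l)
  have := h _ hb (by simp [dotProduct_sub, mul_comm])
  simp [dotProduct_sub] at this
  rw [Pi.smul_apply, smul_eq_mul]
  field_simp
  linear_combination this

/-- The rational transvections are in `M`. -/
def HasRatTv (F₀ : Subfield F) (M : Subgroup (GL ι F)) : Prop :=
  ∀ a φ : ι → F, IsRat F₀ a → IsRat F₀ φ → φ ⬝ᵥ a = 0 → tv a φ ∈ M

/-- The multiplier `k` is available on all rational root groups. -/
def AllRoot (F₀ : Subfield F) (M : Subgroup (GL ι F)) (k : F) : Prop :=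
  ∀ a φ : ι → F, IsRat F₀ a → IsRat F₀ φ → φ ⬝ᵥ a = 0 → tv a (k • φ) ∈ M

variable {M : Subgroup (GL ι F)} (hM : HasRatTv F₀ M)
include hM

omit [Fintype ι] [DecidableEq ι] hM in
lemma neg_isRat {v : ι → F} (h : IsRat F₀ v) : IsRat F₀ (-v) := fun i => neg_mem (h i)

/-- Commutator with a rational transvection. -/
lemma comm_left_mem {a φ b ψ : ι → F} (ha : IsRat F₀ a) (hφ : IsRat F₀ φ) (hφa : φ ⬝ᵥ a = 0)
    (hψb : ψ ⬝ᵥ b = 0) (hb : φ ⬝ᵥ b = 0) (hmem : tv b ψ ∈ M) :
    tv b (-(ψ ⬝ᵥ a) • φ) ∈ M := by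
  rw [← tv_commutator hφa hψb hb]
  exact mul_mem (mul_mem (mul_mem (hM a φ ha hφ hφa) hmem) (inv_mem (hM a φ ha hφ hφa))) (inv_mem hmem)

lemma comm_right_mem {a φ b ψ : ι → F} (hb' : IsRat F₀ b) (hψ : IsRat F₀ ψ) (hφa : φ ⬝ᵥ a = 0)
    (hψb : ψ ⬝ᵥ b = 0) (hb : φ ⬝ᵥ b = 0) (hmem : tv a φ ∈ M) :
    tv b (-(ψ ⬝ᵥ a) • φ) ∈ M := by
  rw [← tv_commutator hφa hψb hb]
  exact mul_mem (mul_mem (mul_mem hmem (hM b ψ hb' hψ hψb)) (inv_mem hmem)) (inv_mem (hM b ψ hb' hψ hψb))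

/-- One root group with multiplier `k` gives all. -/
lemma allRoot_of_one (hn : 4 ≤ Fintype.card ι) {k : F} {a χ : ι → F} (ha : IsRat F₀ a) (ha0 : a ≠ 0)
    (hχ : IsRat F₀ χ) (hχ0 : χ ≠ 0) (hχa : χ ⬝ᵥ a = 0) (hmem : tv a (k • χ) ∈ M) :
    AllRoot F₀ M k := by
  -- change the axis
  have axis : ∀ a χ : ι → F, IsRat F₀ a → IsRat F₀ χ → χ ≠ 0 → χ ⬝ᵥ a = 0 → tv a (k • χ) ∈ M →
      ∀ ψ, IsRat F₀ ψ → ψ ⬝ᵥ a = 0 → tv a (k • ψ) ∈ M := by
    intro a χ ha hχ hχ0 hχa hmem ψ hψ hψa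
    have key : ∀ ψ', IsRat F₀ ψ' → ψ' ⬝ᵥ a = 0 → ψ' ≠ 0 → (¬ ∃ l : F, χ = l • ψ') →
        tv a (k • ψ') ∈ M := by
      intro ψ' hψ' hψ'a hψ'0 hind
      obtain ⟨c, hc, hc0, hcne⟩ : ∃ c, IsRat F₀ c ∧ ψ' ⬝ᵥ c = 0 ∧ χ ⬝ᵥ c ≠ 0 := by
        by_contra hcon; push Not at hcon
        exact hind (eq_smul_of_rat_ker hψ' hψ'0 fun b hb hb0 => hcon b hb hb0)
      have hc' : IsRat F₀ ((-(χ ⬝ᵥ c)⁻¹) • c) := fun i =>
        mul_mem (neg_mem (inv_mem (dot_mem hχ hc))) (hc i)
      have := comm_left_mem hM hc' hψ' (by rw [dotProduct_smul, hc0, smul_zero])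
        (by rw [smul_dotProduct, hχa, smul_zero]) hψ'a hmem
      rw [smul_dotProduct, dotProduct_smul, smul_eq_mul, smul_eq_mul, neg_mul, mul_neg, neg_neg,
        inv_mul_cancel₀ hcne, mul_one] at this
      exact this
    rcases eq_or_ne ψ 0 with rfl | hψ0
    · simpa using (tv_zero_right a).symm ▸ M.one_mem
    by_cases hind : ∃ l : F, χ = l • ψ
    swap
    · exact key ψ hψ hψa hψ0 hind
    obtain ⟨l, hl⟩ := hind
    have hl0 : l ≠ 0 := fun e => hχ0 (by rw [hl, e, zero_smul])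
    -- split off an independent axis
    obtain ⟨j, hj⟩ := Function.ne_iff.1 hψ0
    obtain ⟨ω, hω, hω0, hωp⟩ := exists_rat_perp (F₀ := F₀) (show 2 < Fintype.card ι by omega)
      ![a, Pi.single j 1] (fun t => by fin_cases t; exacts [ha, isRat_single j F₀.one_mem])
    have hωa : ω ⬝ᵥ a = 0 := hωp 0
    have hωj : ω j = 0 := by simpa using hωp 1
    have ind : ∀ v : ι → F, v j = ψ j → v ≠ ψ → ¬ ∃ m : F, χ = m • v := by
      rintro v hvj hvne ⟨m, hm⟩
      rw [hl] at hm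
      have := congrFun hm j
      simp only [Pi.smul_apply, smul_eq_mul, hvj] at this
      have hm' : l = m := mul_right_cancel₀ hj this
      subst hm'
      exact hvne (smul_right_injective _ hl0 hm).symm
    have h1 := key (ψ + ω) (fun i => add_mem (hψ i) (hω i)) (by rw [add_dotProduct, hψa, hωa, add_zero])
      (fun e => hj (by simpa [hωj] using congrFun e j))
      (ind _ (by simp [hωj]) (fun e => hω0 (by simpa using e)))
    have h2 := key ω hω hωa hω0 (fun ⟨m, hm⟩ => by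
      rw [hl] at hm
      have := congrFun hm j
      simp [hωj, hl0] at this
      exact hj this)
    have h3 := mul_mem h1 (inv_mem h2)
    rwa [tv_inv (by rw [smul_dotProduct, hωa, smul_zero]), tv_add
      (by rw [smul_dotProduct, add_dotProduct, hψa, hωa, add_zero, smul_zero])
      (by rw [neg_dotProduct, smul_dotProduct, hωa, smul_zero, neg_zero]), smul_add,
      add_neg_cancel_right] at h3
  intro b ψ hb hψ hψb
  obtain ⟨χ', hχ', hχ'0, hperp⟩ := exists_rat_perp (F₀ := F₀) (show 2 < Fintype.card ι by omega)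
    ![a, b] (fun t => by fin_cases t; exacts [ha, hb])
  have hχ'a : χ' ⬝ᵥ a = 0 := hperp 0
  have hχ'b : χ' ⬝ᵥ b = 0 := hperp 1
  have h1 := axis a χ ha hχ hχ0 hχa hmem χ' hχ' hχ'a
  refine axis b χ' hb hχ' hχ'0 hχ'b ?_ ψ hψ hψb
  -- change the centre
  obtain ⟨j, hj⟩ := Function.ne_iff.1 ha0
  by_cases hdep : ∃ l : F, b = l • a
  · obtain ⟨l, rfl⟩ := hdep
    have hl : l ∈ F₀ := by
      have := hb j
      rw [Pi.smul_apply, smul_eq_mul] at this
      rw [show l = l * a j / a j by rw [mul_div_cancel_right₀ _ hj]]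
      exact div_mem this (ha j)
    rw [tv_smul_center l (by rw [smul_dotProduct, hχ'a, smul_zero]), smul_comm]
    exact axis a χ ha hχ hχ0 hχa hmem _ (fun i => mul_mem hl (hχ' i))
      (by rw [smul_dotProduct, hχ'a, smul_zero])
  · obtain ⟨ω, hω, hωb, hωa⟩ : ∃ ω, IsRat F₀ ω ∧ ω ⬝ᵥ b = 0 ∧ ω ⬝ᵥ a ≠ 0 := by
      by_contra hcon; push Not at hcon
      rcases eq_or_ne b 0 with rfl | hb0
      · exact hdep ⟨0, by rw [zero_smul]⟩
      obtain ⟨l, hl⟩ := eq_smul_of_rat_ker (η := a) hb hb0 fun w hw hw0 => by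
        rw [dotProduct_comm] at hw0 ⊢; exact hcon w hw hw0
      rcases eq_or_ne l 0 with rfl | hl0
      · exact ha0 (by rw [hl, zero_smul])
      · exact hdep ⟨l⁻¹, by rw [hl, smul_smul, inv_mul_cancel₀ hl0, one_smul]⟩
    have hωr : IsRat F₀ ((-(ω ⬝ᵥ a)⁻¹) • ω) :=
      fun i => mul_mem (neg_mem (inv_mem (dot_mem hω ha))) (hω i)
    have := comm_right_mem hM hb hωr (by rw [smul_dotProduct, hχ'a, smul_zero])
      (by rw [smul_dotProduct, hωb, smul_zero]) (by rw [smul_dotProduct, hχ'b, smul_zero]) h1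
    rwa [smul_dotProduct, smul_eq_mul, neg_mul, neg_neg, inv_mul_cancel₀ hωa, one_smul] at this

/-- One irrational multiplier gives the whole special linear group. -/
lemma specialLinear_le_of_multiplier [Finite F] (hn : 4 ≤ Fintype.card ι) {r : ℕ} (hr : r.Prime)
    (hcard : Nat.card F = Nat.card F₀ ^ r) {k : F} (hk : k ∉ F₀) (hall : AllRoot F₀ M k) :
    specialLinear ι F ≤ M := by
  classical
  obtain ⟨x, y, z, hxy, hxz, hyz⟩ := Fintype.two_lt_card_iff.1 (show 2 < Fintype.card ι by omega)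
  let R : AddSubgroup F :=
    { carrier := {c | AllRoot F₀ M c}
      zero_mem' := fun a φ _ _ _ => by rw [zero_smul, tv_zero_right]; exact M.one_mem
      add_mem' := fun {c d} hc hd a φ ha hφ h => by
        rw [add_smul, ← tv_add (by rw [smul_dotProduct, h, smul_zero]) (by rw [smul_dotProduct, h, smul_zero])]
        exact mul_mem (hc a φ ha hφ h) (hd a φ ha hφ h)
      neg_mem' := fun {c} hc a φ ha hφ h => by
        rw [neg_smul, ← smul_neg]
        exact hc a (-φ) ha (neg_isRat hφ) (by rw [neg_dotProduct, h, neg_zero]) }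
  have hmul : ∀ c d, c ∈ R → d ∈ R → c * d ∈ R := by
    intro c d hc hd
    have r1 : IsRat F₀ (Pi.single x 1 : ι → F) := isRat_single x F₀.one_mem
    have r2 : IsRat F₀ (Pi.single y 1 : ι → F) := isRat_single y F₀.one_mem
    have r3 : IsRat F₀ (Pi.single z 1 : ι → F) := isRat_single z F₀.one_mem
    refine allRoot_of_one hM hn r1 (by simp) r2 (by simp) (by simp [hxy.symm]) ?_
    have h1 := hc (Pi.single z 1) (Pi.single y 1) r3 r2 (by simp [hyz])
    have h2 := hd (Pi.single x 1) (-Pi.single z 1) r1 (neg_isRat r3) (by simp [hxz])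
    have e := tv_commutator (a := (Pi.single z 1 : ι → F)) (φ := c • Pi.single y 1)
      (b := (Pi.single x 1 : ι → F)) (ψ := d • -Pi.single z 1) (by simp [hyz]) (by simp [hxz])
      (by simp [hxy.symm])
    have h3 := mul_mem (mul_mem (mul_mem h1 h2) (inv_mem h1)) (inv_mem h2)
    rw [e] at h3
    convert h3 using 2
    rw [smul_smul]
    congr 1
    simp [mul_comm]
  have hone : (1 : F) ∈ R := fun a φ ha hφ h => by rw [one_smul]; exact hM a φ ha hφ h
  haveI : Fintype F := Fintype.ofFinite F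
  let E : Subfield F :=
    { carrier := R
      mul_mem' := fun {c d} => hmul c d
      one_mem' := hone
      add_mem' := fun {c d} => R.add_mem
      zero_mem' := R.zero_mem
      neg_mem' := fun {c} => R.neg_mem
      inv_mem' := fun c hc => by
        rcases eq_or_ne c 0 with rfl | h
        · rw [_root_.inv_zero]; exact R.zero_mem
        have hpow : ∀ j : ℕ, c ^ j ∈ R := fun j => by
          induction j with
          | zero => rw [pow_zero]; exact hone
          | succ j ih => rw [pow_succ]; exact hmul _ _ ih hc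
        have h1 : c⁻¹ = c ^ (Fintype.card F - 2) := by
          refine inv_eq_of_mul_eq_one_right ?_
          rw [← pow_succ', show Fintype.card F - 2 + 1 = Fintype.card F - 1 by
            have := Fintype.one_lt_card (α := F); omega]
          exact FiniteField.pow_card_sub_one_eq_one c h
        rw [h1]; exact hpow _ }
  have hle : F₀ ≤ E := fun c hc a φ ha hφ h =>
    hM a _ ha (fun i => mul_mem hc (hφ i)) (by rw [smul_dotProduct, h, smul_zero])
  have htop : E = ⊤ := by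
    refine subfield_eq_top_of_lt hr hcard hle ?_
    exact Set.ncard_lt_ncard (s := (F₀ : Set F)) (t := (E : Set F))
      ⟨hle, fun h => hk (h (show k ∈ E from hall))⟩ (Set.toFinite _) |> fun h => by
        rwa [← Nat.card_coe_set_eq, ← Nat.card_coe_set_eq] at h
  refine specialLinear_le_of_elem M fun i j c hij => ?_
  exact (show c ∈ E from htop ▸ Subfield.mem_top c) _ _ (isRat_single i F₀.one_mem)
    (isRat_single j F₀.one_mem) (by simp [hij.symm])

/-- A transvection with a degenerate irrational centre gives a multiplier. -/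
lemma exists_multiplier (hn : 4 ≤ Fintype.card ι) {y η ψ : ι → F} (hηy : η ⬝ᵥ y = 0) (hη : η ≠ 0)
    (hmem : tv y η ∈ M) (hψ : IsRat F₀ ψ) (hψ0 : ψ ≠ 0) (hψy : ψ ⬝ᵥ y = 0)
    (hirr : ∀ k : F, k ≠ 0 → ¬ IsRat F₀ (k • y)) : ∃ k, k ∉ F₀ ∧ AllRoot F₀ M k := by
  classical
  obtain ⟨k, hk, hkmem⟩ : ∃ k : F, k ≠ 0 ∧ tv y (k • ψ) ∈ M := by
    by_cases h : ∃ b, IsRat F₀ b ∧ ψ ⬝ᵥ b = 0 ∧ η ⬝ᵥ b ≠ 0
    · obtain ⟨b, hb, hψb, hηb⟩ := h
      exact ⟨_, neg_ne_zero.2 hηb, comm_left_mem hM hb hψ hψb hηy hψy hmem⟩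
    · push Not at h
      obtain ⟨l, rfl⟩ := eq_smul_of_rat_ker hψ hψ0 h
      exact ⟨l, fun e => hη (by rw [e, zero_smul]), hmem⟩
  rw [← tv_smul_center k hψy] at hkmem
  obtain ⟨j, hj⟩ : ∃ j, (k • y) j ∉ F₀ := by
    have := hirr k hk
    simp only [IsRat, not_forall] at this
    exact this
  have r1 : IsRat F₀ (Pi.single j 1 : ι → F) := isRat_single j F₀.one_mem
  obtain ⟨a, ha, ha0, hperp⟩ := exists_rat_perp (F₀ := F₀) (show 2 < Fintype.card ι by omega)
    ![ψ, Pi.single j 1] (fun t => by fin_cases t; exacts [hψ, r1])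
  have hψa : ψ ⬝ᵥ a = 0 := by rw [dotProduct_comm]; exact hperp 0
  have hja : (Pi.single j 1 : ι → F) ⬝ᵥ a = 0 := by rw [dotProduct_comm]; exact hperp 1
  have h := comm_right_mem hM ha r1 (by rw [dotProduct_smul, hψy, smul_zero]) hja hψa hkmem
  refine ⟨_, fun h' => hj ?_, allRoot_of_one hM hn ha ha0 hψ hψ0 hψa h⟩
  simpa using neg_mem h'

/-- An element outside the subfield group gives a multiplier. -/
lemma exists_multiplier_of_notMem [Finite F] (hn : 13 ≤ Fintype.card ι) {r : ℕ} (hr : r.Prime)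
    (hcard : Nat.card F = Nat.card F₀ ^ r) {g : GL ι F} (hg : g ∈ M)
    (hgn : g ∉ subfieldSubgroup F₀ (1 : GL ι F)) : ∃ k, k ∉ F₀ ∧ AllRoot F₀ M k := by
  classical
  obtain ⟨u, hu, hu0, hirr⟩ : ∃ u, IsRat F₀ u ∧ u ≠ 0 ∧
      ∀ k : F, k ≠ 0 → ¬ IsRat F₀ (k • ((g : Matrix ι ι F) *ᵥ u)) := by
    by_contra hcon
    push Not at hcon
    refine hgn (mem_subfieldSubgroup_of_lines fun u hu => ?_)
    have hu' : (fun i => (u i : F)) ≠ 0 := fun e => hu (funext fun i => Subtype.ext (congrFun e i))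
    obtain ⟨k, hk, hrat⟩ := hcon _ (fun i => (u i).2) hu'
    refine ⟨k⁻¹, fun i => ⟨_, hrat i⟩, ?_⟩
    simp only [ratVec, Units.val_one, one_mulVec]
    rw [show (fun i => (k • ((g : Matrix ι ι F) *ᵥ fun j => (u j : F))) i) =
      k • ((g : Matrix ι ι F) *ᵥ fun j => (u j : F)) from rfl, smul_smul, inv_mul_cancel₀ hk, one_smul]
  set x := (g : Matrix ι ι F) *ᵥ u with hx
  have himg : ∀ φ, IsRat F₀ φ → φ ⬝ᵥ u = 0 →
      tv x (φ ᵥ* ((g⁻¹ : GL ι F) : Matrix ι ι F)) ∈ M := fun φ hφ hφu => by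
    rw [hx, ← tv_conj g hφu]; exact mul_mem (mul_mem hg (hM u φ hu hφ hφu)) (inv_mem hg)
  by_cases hdeg : ∃ ψ, IsRat F₀ ψ ∧ ψ ≠ 0 ∧ ψ ⬝ᵥ x = 0
  · obtain ⟨ψ, hψ, hψ0, hψx⟩ := hdeg
    obtain ⟨φ, hφ, hφ0, hφp⟩ := exists_rat_perp (F₀ := F₀) (show 1 < Fintype.card ι by omega) ![u]
      (fun t => by fin_cases t; exact hu)
    refine exists_multiplier hM (by omega) ?_ ?_ (himg φ hφ (hφp 0)) hψ hψ0 hψx hirr
    · rw [hx, vecMul_inv_dot]; exact hφp 0
    · intro e
      refine hφ0 ?_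
      have := congrArg (fun v => v ᵥ* (g : Matrix ι ι F)) e
      simpa [vecMul_vecMul] using this
  push Not at hdeg
  obtain ⟨i₀⟩ : Nonempty ι := Fintype.card_pos_iff.1 (by omega)
  set a : ι → F := Pi.single i₀ 1 with hadef
  have ha : IsRat F₀ a := isRat_single i₀ F₀.one_mem
  -- a line through two points cannot carry `x`
  have hplane : ∀ (z : ι → F) (l m : F), IsRat F₀ z → x ≠ l • a + m • z := by
    intro z l m hz e
    obtain ⟨ψ, hψ, hψ0, hp⟩ := exists_rat_perp (F₀ := F₀) (show 2 < Fintype.card ι by omega) ![a, z]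
      (fun t => by fin_cases t; exacts [ha, hz])
    exact hdeg ψ hψ hψ0 (by
      rw [e, dotProduct_add, dotProduct_smul, dotProduct_smul, show ψ ⬝ᵥ a = 0 from hp 0]
      simp [show ψ ⬝ᵥ z = 0 from hp 1])
  obtain ⟨φ, hφ, hφu, hφa⟩ : ∃ φ, IsRat F₀ φ ∧ φ ⬝ᵥ u = 0 ∧
      (φ ᵥ* ((g⁻¹ : GL ι F) : Matrix ι ι F)) ⬝ᵥ a ≠ 0 := by
    by_contra hcon; push Not at hcon
    obtain ⟨l, hl⟩ := eq_smul_of_rat_ker (η := ((g⁻¹ : GL ι F) : Matrix ι ι F) *ᵥ a) hu hu0
      fun b hb hb0 => by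
        rw [dotProduct_comm] at hb0 ⊢
        rw [dotProduct_mulVec]; exact hcon b hb hb0
    have e : a = l • x := by
      rw [hx, ← mulVec_smul, ← hl, mulVec_inv_mulVec]
    rcases eq_or_ne l 0 with rfl | hl0
    · simp [hadef] at e
    · exact hplane a l⁻¹ 0 ha (by rw [e, smul_smul, inv_mul_cancel₀ hl0, one_smul, zero_smul, add_zero])
  set θ := φ ᵥ* ((g⁻¹ : GL ι F) : Matrix ι ι F) with hθ
  have hT := himg φ hφ hφu
  have hθx : θ ⬝ᵥ x = 0 := by rw [hθ, hx, vecMul_inv_dot]; exact hφu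
  set s := θ ⬝ᵥ a with hs
  -- the action on the plane of `a` and `x`
  let K : Subgroup SL(2, F) :=
    { carrier := {h | ∃ g' ∈ M, (g' : Matrix ι ι F) *ᵥ a =
          (h : Matrix (Fin 2) (Fin 2) F) 0 0 • a + (h : Matrix (Fin 2) (Fin 2) F) 1 0 • x ∧
          (g' : Matrix ι ι F) *ᵥ x =
          (h : Matrix (Fin 2) (Fin 2) F) 0 1 • a + (h : Matrix (Fin 2) (Fin 2) F) 1 1 • x}
      one_mem' := ⟨1, M.one_mem, by simp, by simp⟩
      mul_mem' := by
        rintro h k ⟨g₁, hg₁, e1, e2⟩ ⟨g₂, hg₂, f1, f2⟩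
        refine ⟨g₁ * g₂, mul_mem hg₁ hg₂, ?_, ?_⟩
        · rw [mul_mulVec', f1, mulVec_add, mulVec_smul, mulVec_smul, e1, e2, mul_apply_two, mul_apply_two]
          module
        · rw [mul_mulVec', f2, mulVec_add, mulVec_smul, mulVec_smul, e1, e2, mul_apply_two, mul_apply_two]
          module
      inv_mem' := by
        rintro h ⟨g₁, hg₁, e1, e2⟩
        have hd := det_eq h
        refine ⟨g₁⁻¹, inv_mem hg₁, ?_, ?_⟩ <;>
        · refine gl_mulVec_injective g₁ ?_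
          simp only [mulVec_inv_mulVec, mulVec_add, mulVec_smul, e1, e2, coe_inv_two,
            Matrix.of_apply, Matrix.cons_val', Matrix.cons_val_zero, Matrix.cons_val_one,
            Matrix.cons_val_fin_one]
          match_scalars <;> first | (ring; done) | linear_combination hd | linear_combination -hd }
  let A : Set F := {c | ∃ ψ, IsRat F₀ ψ ∧ ψ ⬝ᵥ a = 0 ∧ ψ ⬝ᵥ x = c}
  have hAmem : ∀ c ∈ A, ux c ∈ K := by
    rintro c ⟨ψ, hψ, hψa, rfl⟩
    refine ⟨tv a ψ, hM a ψ ha hψ hψa, ?_, ?_⟩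
    · rw [tv_mulVec hψa, hψa]; simp [coe_ux]
    · rw [tv_mulVec hψa]; simp [coe_ux, add_comm]
  have hy : uy s ∈ K := by
    refine ⟨_, hT, ?_, ?_⟩
    · rw [tv_mulVec hθx]; simp [coe_uy, hs]
    · rw [tv_mulVec hθx, hθx]; simp [coe_uy]
  have hsmul : ∀ c ∈ F₀, ∀ d ∈ A, c * d ∈ A := by
    rintro c hc d ⟨ψ, hψ, hψa, rfl⟩
    exact ⟨c • ψ, fun i => mul_mem hc (hψ i), by rw [smul_dotProduct, hψa, smul_zero],
      by rw [smul_dotProduct, smul_eq_mul]⟩
  haveI : Fintype F₀ := Fintype.ofFinite F₀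
  have hAcard : Nat.card F₀ ^ (Fintype.card ι - 1) ≤ A.ncard := by
    let ext : ({i // i ≠ i₀} → F₀) → (ι → F) := fun f i => if h : i = i₀ then 0 else (f ⟨i, h⟩ : F)
    have hr' : ∀ f, IsRat F₀ (ext f) := fun f i => by
      by_cases h : i = i₀ <;> simp [ext, h]
    have ha' : ∀ f, ext f ⬝ᵥ a = 0 := fun f => by simp [hadef, ext]
    let e : ({i // i ≠ i₀} → F₀) → A := fun f => ⟨_, ext f, hr' f, ha' f, rfl⟩
    have he : Function.Injective e := by
      intro f f' h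
      have h' : ext f ⬝ᵥ x = ext f' ⬝ᵥ x := congrArg Subtype.val h
      have h0 : ext f - ext f' = 0 := by
        by_contra hne
        have hd : IsRat F₀ (ext f - ext f') := fun i => sub_mem (hr' f i) (hr' f' i)
        exact hdeg _ hd hne (by rw [sub_dotProduct, h', sub_self])
      funext i
      have := congrFun h0 i.1
      simp [ext, i.2, sub_eq_zero] at this
      exact this
    have := Nat.card_le_card_of_injective e he
    rw [Nat.card_coe_set_eq, Nat.card_fun] at this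
    convert this using 2
    rw [Nat.card_eq_fintype_card, Fintype.card_subtype_compl, Fintype.card_subtype_eq]
  have hq : 2 ≤ Nat.card F₀ := Finite.one_lt_card
  have hbig : 6 ≤ A.ncard ∧ Nat.card F₀ < A.ncard := by
    have h1 : Nat.card F₀ ^ 3 ≤ Nat.card F₀ ^ (Fintype.card ι - 1) :=
      Nat.pow_le_pow_right (by omega) (by omega)
    have h2 : (2 : ℕ) ^ 3 ≤ Nat.card F₀ ^ 3 := Nat.pow_le_pow_left hq 3
    have h3 : Nat.card F₀ ^ 1 < Nat.card F₀ ^ 3 := Nat.pow_lt_pow_right hq (by norm_num)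
    rw [pow_one] at h3
    constructor <;> omega
  have hux := ux_mem_of_large hr hcard hAmem hsmul (Or.inl hbig.1) hbig.2 hφa hy ((-(s * x i₀) - 1) / s)
  obtain ⟨g', hg', e1, -⟩ := mul_mem hux hy
  set y := (g' : Matrix ι ι F) *ᵥ a with hydef
  have hye : y = s • (x - x i₀ • a) := by
    rw [e1]
    simp [coe_ux, coe_uy, mul_apply_two]
    field_simp
    match_scalars <;> ring
  obtain ⟨ψ, hψ, hψ0, hψp⟩ := exists_rat_perp (F₀ := F₀) (show 1 < Fintype.card ι by omega) ![a]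
    (fun t => by fin_cases t; exact ha)
  refine exists_multiplier hM (by omega) (y := y) (η := ψ ᵥ* ((g'⁻¹ : GL ι F) : Matrix ι ι F))
    (by rw [hydef, vecMul_inv_dot]; exact hψp 0) ?_ ?_ (isRat_single i₀ F₀.one_mem) (by simp) ?_ ?_
  · intro e
    refine hψ0 ?_
    have := congrArg (fun v => v ᵥ* (g' : Matrix ι ι F)) e
    simpa [vecMul_vecMul] using this
  · rw [hydef, ← tv_conj g' (show ψ ⬝ᵥ a = 0 from hψp 0)]
    exact mul_mem (mul_mem hg' (hM a ψ ha hψ (hψp 0))) (inv_mem hg')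
  · simp [hye, hadef]
  · intro k hk hrat
    refine hplane _ (x i₀) (k * s)⁻¹ hrat ?_
    rw [hye, smul_smul, smul_smul, mul_assoc, inv_mul_cancel₀ (mul_ne_zero hk hφa), one_smul, add_sub_cancel]

omit hM in
/-- The subfield group is maximal in the special linear group. -/
theorem subfield_linear_isMaximalIn [Finite F] (hn : 13 ≤ Fintype.card ι) {r : ℕ} (hr : r.Prime)
    (hcard : Nat.card F = Nat.card F₀ ^ r) (P : GL ι F) :
    IsMaximalIn (specialLinear ι F) (subfieldSubgroup F₀ P ⊓ specialLinear ι F) := by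
  classical
  suffices h : IsMaximalIn (specialLinear ι F) (subfieldSubgroup F₀ 1 ⊓ specialLinear ι F) by
    have hSL : (specialLinear ι F).map (MulAut.conj P).toMonoidHom = specialLinear ι F := by
      haveI : (specialLinear ι F).Normal :=
        (inferInstance : (MonoidHom.ker (Matrix.GeneralLinearGroup.det (n := ι) (R := F))).Normal)
      ext k
      refine ⟨?_, fun hk => ⟨P⁻¹ * k * P, by
        simpa using Subgroup.Normal.conj_mem ‹_› k hk P⁻¹, by simp [mul_assoc]⟩⟩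
      rintro ⟨l, hl, rfl⟩
      exact Subgroup.Normal.conj_mem ‹_› l hl P
    refine isMaximalIn_map (MulAut.conj P) h hSL ?_
    rw [Subgroup.map_inf _ _ _ (MulAut.conj P).injective, hSL]
    congr 1
    simp only [subfieldSubgroup, Subgroup.map_map]
    congr 1
    ext k; simp
  refine isMaximalIn_of inf_le_right ?_ fun M hle hM' g hg hgn => ?_
  · obtain ⟨k, hk⟩ : ∃ k : F, k ∉ F₀ := by
      by_contra h; push Not at h
      have : F₀ = ⊤ := eq_top_iff.2 fun z _ => h z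
      have hc : Nat.card F₀ = Nat.card F := by rw [this]; exact Nat.card_congr Subfield.topEquiv.toEquiv
      rw [hc] at hcard
      have := Nat.pow_right_injective (a := Nat.card F) Finite.one_lt_card (show _ ^ 1 = _ ^ r by rwa [pow_one])
      exact hr.ne_one this.symm
    obtain ⟨x, y, z, hxy, hxz, hyz⟩ := Fintype.two_lt_card_iff.1 (show 2 < Fintype.card ι by omega)
    refine ⟨tv (Pi.single x 1) (k • Pi.single y 1), tv_mem_specialLinear _ _, fun h => hk ?_⟩
    obtain ⟨g₀, c, hgc⟩ := mem_subfieldSubgroup_iff.1 h.1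
    have e := fun v => congrFun (hgc v) x
    simp only [ratVec, Units.val_one, one_mulVec, Pi.smul_apply, smul_eq_mul] at e
    have hφ : (k • Pi.single y 1 : ι → F) ⬝ᵥ Pi.single x 1 = 0 := by simp [hxy.symm]
    have ex := e (Pi.single x 1)
    have ey := e (Pi.single y 1)
    have hc1 : ∀ w : ι, (fun i => ((Pi.single w 1 : ι → F₀) i : F)) = Pi.single w 1 := fun w => by
      funext j; rcases eq_or_ne j w with rfl | h <;> simp [*]
    rw [hc1, tv_mulVec hφ] at ex ey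
    simp [hxy, hxy.symm] at ex ey
    have hcm : (c : F) ∈ F₀ := by
      rw [show (c : F) = ((g₀ : Matrix ι ι F₀) x x : F)⁻¹ from eq_inv_of_mul_eq_one_left ex.symm]
      exact inv_mem (SetLike.coe_mem _)
    rw [ey]
    exact mul_mem hcm (SetLike.coe_mem _)
  · have hM : HasRatTv F₀ M := fun a φ ha hφ h => by
      refine hle ⟨mem_subfieldSubgroup_iff.2
        ⟨tv (fun i => (⟨a i, ha i⟩ : F₀)) (fun i => ⟨φ i, hφ i⟩), 1, fun v => ?_⟩,
        tv_mem_specialLinear _ _⟩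
      have h0 : (fun i => (⟨φ i, hφ i⟩ : F₀)) ⬝ᵥ (fun i => (⟨a i, ha i⟩ : F₀)) = 0 := by
        refine Subtype.ext ?_
        simpa [dotProduct, AddSubmonoidClass.coe_finsetSum] using h
      simp only [ratVec, Units.val_one, one_mulVec, one_smul]
      rw [tv_mulVec h, tv_mulVec h0]
      funext i
      simp [dotProduct, AddSubmonoidClass.coe_finsetSum]
    obtain ⟨k, hk, hall⟩ := exists_multiplier_of_notMem hM hn hr hcard hg fun h => hgn ⟨h, hM' hg⟩
    exact specialLinear_le_of_multiplier hM (by omega) hr hcard hk hall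

end Cfsg.Agent.Lib.Forms
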