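import Cfsg.Agent.Lib.Forms.TensorProdSylow

/-!
A transvection whose centre and axis are pure, together with the product group, generates the
special linear group.
-/

set_option autoImplicit false

namespace Cfsg.Agent.Lib.Forms.TProd

open Matrix Kronecker Cfsg.Agent.Lib.Forms

variable {F : Type*} [Field F] {m k : ℕ}

lemma vt_vecMul_kr (w : Fin m → F) (φ : Fin k → F) (A : GL (Fin m) F) (B : GL (Fin k) F) :
    vt w φ ᵥ* (kr A B : Matrix (Fin m × Fin k) (Fin m × Fin k) F) =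
      vt (w ᵥ* (A : Matrix (Fin m) (Fin m) F)) (φ ᵥ* (B : Matrix (Fin k) (Fin k) F)) := by
  funext p
  simp only [vt, kr, Matrix.vecMul, dotProduct, Fintype.sum_prod_type, kroneckerMap_apply,
    Finset.sum_mul_sum]
  exact Finset.sum_congr rfl fun i _ => Finset.sum_congr rfl fun j _ => by ring

lemma vecMul_tv_inv {n : ℕ} {x ξ : Fin n → F} (h : ξ ⬝ᵥ x = 0) (w : Fin n → F) :
    w ᵥ* (((tv x ξ)⁻¹ : GL (Fin n) F) : Matrix (Fin n) (Fin n) F) = w - (w ⬝ᵥ x) • ξ := by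
  rw [tv_inv h, tv_val (by simp [h]), tvMat, vecMul_add, vecMul_one, vecMul_vecMulVec, smul_neg,
    sub_eq_add_neg]

lemma exists_perp {n : ℕ} (hn : 3 ≤ n) (a b : Fin n → F) :
    ∃ φ : Fin n → F, φ ≠ 0 ∧ φ ⬝ᵥ a = 0 ∧ φ ⬝ᵥ b = 0 := by
  obtain ⟨x, hx⟩ := exists_notMem_of_ne_top (p := Submodule.span F (Set.range ![a, b])) fun e => by
    have := finrank_range_le_card (R := F) ![a, b]
    rw [Set.finrank, e, finrank_top, Module.finrank_fin_fun, Fintype.card_fin] at this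
    omega
  obtain ⟨φ, h1, h2⟩ := exists_dot_eq_one hx
  exact ⟨φ, fun e => by simp [e] at h1, h2 _ (Submodule.subset_span ⟨0, rfl⟩),
    h2 _ (Submodule.subset_span ⟨1, rfl⟩)⟩

section Spread

variable {n : ℕ} (R : (Fin n → F) → (Fin n → F) → Prop)

/-- Closure properties of a set of pairs. -/
structure PairClosed : Prop where
  conj : ∀ f φ x ξ, ξ ⬝ᵥ x = 0 → R f φ → R (f + (ξ ⬝ᵥ f) • x) (φ - (φ ⬝ᵥ x) • ξ)
  subR : ∀ f φ φ', R f φ → R f φ' → R f (φ' - φ)
  subL : ∀ f f' φ, R f φ → R f' φ → R (f' - f) φ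

variable {R}

lemma PairClosed.swap (h : PairClosed R) : PairClosed fun φ f => R f φ where
  conj φ f x ξ hx hR := by
    have := h.conj f φ ξ (-x) (by rw [neg_dotProduct, dotProduct_comm, hx, neg_zero]) hR
    rw [neg_dotProduct, neg_smul, smul_neg, sub_neg_eq_add, dotProduct_comm φ ξ,
      dotProduct_comm x f, ← sub_eq_add_neg] at this
    exact this
  subR φ f f' := h.subL f f' φ
  subL φ φ' f := h.subR f φ φ'

lemma PairClosed.spread_one (hn : 3 ≤ n) (h : PairClosed R) {f φ₀ φ : Fin n → F} (hf : f ≠ 0)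
    (hφ₀ : φ₀ ≠ 0) (hR : R f φ₀) (hφ : φ ⬝ᵥ f = 0) : R f φ := by
  have main : ∀ ξ : Fin n → F, ξ ⬝ᵥ f = 0 → φ₀ ∉ Submodule.span F {ξ} → R f ξ := by
    intro ξ hξ hne
    obtain ⟨x, hx1, hx2⟩ := exists_dot_eq_one hne
    have hx : ξ ⬝ᵥ x = 0 := by
      rw [dotProduct_comm]; exact hx2 _ (Submodule.mem_span_singleton_self ξ)
    have := h.conj f φ₀ x ξ hx hR
    rw [hξ, zero_smul, add_zero, dotProduct_comm φ₀, hx1, one_smul] at this
    simpa using h.subR f _ _ this hR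
  by_cases hne : φ₀ ∈ Submodule.span F {φ}
  swap
  · exact main φ hφ hne
  obtain ⟨c, hc⟩ := Submodule.mem_span_singleton.1 hne
  have hc0 : c ≠ 0 := fun e => hφ₀ (by rw [← hc, e, zero_smul])
  obtain ⟨b, hb, -⟩ := exists_dot_eq_one (p := ⊥) (x := φ₀) (by simpa using hφ₀)
  obtain ⟨ξ, hξ0, hξf, hξb⟩ := exists_perp hn f b
  have hindep : ∀ ψ : Fin n → F, (∀ d : F, ψ ≠ d • φ₀) → φ₀ ∉ Submodule.span F {ψ} := by
    intro ψ hψ hmem
    obtain ⟨d, hd⟩ := Submodule.mem_span_singleton.1 hmem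
    have hd0 : d ≠ 0 := fun e => hφ₀ (by rw [← hd, e, zero_smul])
    exact hψ d⁻¹ (by rw [← hd, inv_smul_smul₀ hd0])
  have hξ' : ∀ d : F, ξ ≠ d • φ₀ := by
    intro d e
    rw [e, smul_dotProduct, dotProduct_comm, hb, smul_eq_mul, mul_one] at hξb
    exact hξ0 (by rw [e, hξb, zero_smul])
  have h1 := main ξ hξf (hindep ξ hξ')
  have h2 := main (φ - ξ) (by rw [sub_dotProduct, hφ, hξf, sub_zero]) (hindep _ fun d e => hξ' (c⁻¹ - d) (by
    rw [sub_smul, ← e, ← hc, inv_smul_smul₀ hc0, sub_sub_cancel]))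
  have h0 := h.subR f _ _ h1 h1
  rw [sub_self] at h0
  have h3 := h.subR f _ _ h1 h0
  rw [zero_sub] at h3
  have := h.subR f _ _ h3 h2
  simpa using this

lemma PairClosed.spread (hn : 3 ≤ n) (h : PairClosed R) {f₀ φ₀ : Fin n → F} (hf₀ : f₀ ≠ 0)
    (hφ₀ : φ₀ ≠ 0) (hR : R f₀ φ₀) {f φ : Fin n → F} (hf : f ≠ 0) (hφ : φ ⬝ᵥ f = 0) : R f φ := by
  obtain ⟨ψ, hψ0, hψ₁, hψ₂⟩ := exists_perp hn f₀ f
  have h1 : R f₀ ψ := h.spread_one hn hf₀ hφ₀ hR hψ₁
  have h2 : R f ψ := h.swap.spread_one hn hψ0 hf₀ h1 (by rw [dotProduct_comm]; exact hψ₂)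
  exact h.spread_one hn hf hψ0 h2 hφ

end Spread

variable [Finite F] {M : Subgroup (GL (Fin m × Fin k) F)}

lemma pair_conj (hM : prodGroup m k F ≤ M) {u w x ξ : Fin m → F} {f φ y η : Fin k → F}
    (hfφ : φ ⬝ᵥ f = 0) (hx : ξ ⬝ᵥ x = 0) (hy : η ⬝ᵥ y = 0) (h : tv (vt u f) (vt w φ) ∈ M) :
    tv (vt (u + (ξ ⬝ᵥ u) • x) (f + (η ⬝ᵥ f) • y))
      (vt (w - (w ⬝ᵥ x) • ξ) (φ - (φ ⬝ᵥ y) • η)) ∈ M := by
  have hmem := hM (kr_tv_mem x ξ y η)
  have := M.mul_mem (M.mul_mem hmem h) (M.inv_mem hmem)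
  rwa [tv_conj _ (by rw [vt_dot_vt, hfφ, mul_zero]), kr_vt, tv_mulVec hx, tv_mulVec hy, kr_inv,
    vt_vecMul_kr, vecMul_tv_inv hx, vecMul_tv_inv hy] at this

lemma pair_sub {ι : Type} [Fintype ι] [DecidableEq ι] {M : Subgroup (GL ι F)} {a φ φ' : ι → F}
    (h1 : φ ⬝ᵥ a = 0) (h2 : φ' ⬝ᵥ a = 0) (h : tv a φ ∈ M) (h' : tv a φ' ∈ M) :
    tv a (φ' - φ) ∈ M := by
  have := M.mul_mem h' (M.inv_mem h)
  rwa [tv_inv h1, tv_add h2 (by simp [h1]), ← sub_eq_add_neg] at this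

lemma pair_sub_center {ι : Type} [Fintype ι] [DecidableEq ι] {M : Subgroup (GL ι F)}
    {a a' φ : ι → F} (h1 : φ ⬝ᵥ a = 0) (h2 : φ ⬝ᵥ a' = 0) (h : tv a φ ∈ M) (h' : tv a' φ ∈ M) :
    tv (a' - a) φ ∈ M := by
  have := M.mul_mem h' (M.inv_mem h)
  have e : (tv a φ)⁻¹ = tv (-a) φ := by
    rw [tv_inv h1, ← neg_one_smul F a, tv_smul_center _ h1, neg_one_smul]
  rwa [e, tv_add_center h2 (by simp [h1]), ← sub_eq_add_neg] at this

/-- All pure transvections for a fixed pair on the left. -/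
def Full (M : Subgroup (GL (Fin m × Fin k) F)) (u w : Fin m → F) : Prop :=
  ∀ f φ : Fin k → F, φ ⬝ᵥ f = 0 → tv (vt u f) (vt w φ) ∈ M

lemma full_of_one (hM : prodGroup m k F ≤ M) (hk : 3 ≤ k) {u w : Fin m → F} {f₀ φ₀ : Fin k → F}
    (hf₀ : f₀ ≠ 0) (hφ₀ : φ₀ ≠ 0) (h0 : φ₀ ⬝ᵥ f₀ = 0) (h : tv (vt u f₀) (vt w φ₀) ∈ M) :
    Full M u w := by
  intro f φ hφ
  rcases eq_or_ne f 0 with rfl | hf
  · rw [vt_zero_right, tv_zero_left]; exact M.one_mem
  have hd : ∀ {f φ : Fin k → F}, φ ⬝ᵥ f = 0 → vt w φ ⬝ᵥ vt u f = 0 := fun e => by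
    rw [vt_dot_vt, e, mul_zero]
  let R : (Fin k → F) → (Fin k → F) → Prop := fun f φ =>
    φ ⬝ᵥ f = 0 ∧ tv (vt u f) (vt w φ) ∈ M
  have hR : PairClosed R :=
    { conj := fun f φ x ξ hx h => ⟨by
        simp [sub_dotProduct, dotProduct_add, smul_dotProduct, dotProduct_smul, h.1, hx]
        ring, by
        simpa using pair_conj hM (u := u) (w := w) (x := 0) (ξ := 0) h.1 (zero_dotProduct _) hx h.2⟩
      subR := fun f φ φ' h h' => ⟨by rw [sub_dotProduct, h.1, h'.1, sub_zero], by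
        have := pair_sub (hd h.1) (hd h'.1) h.2 h'.2
        rwa [show vt w φ' - vt w φ = vt w (φ' - φ) from (map_sub (vtR w) φ' φ).symm] at this⟩
      subL := fun f f' φ h h' => ⟨by rw [dotProduct_sub, h.1, h'.1, sub_zero], by
        have := pair_sub_center (hd h.1) (hd h'.1) h.2 h'.2
        rwa [show vt u f' - vt u f = vt u (f' - f) from (map_sub (vtR u) f' f).symm] at this⟩ }
  exact (hR.spread hk hf₀ hφ₀ ⟨h0, h⟩ hf hφ).2

lemma full_conj (hM : prodGroup m k F ≤ M) {u w x ξ : Fin m → F} (hx : ξ ⬝ᵥ x = 0)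
    (h : Full M u w) : Full M (u + (ξ ⬝ᵥ u) • x) (w - (w ⬝ᵥ x) • ξ) := fun f φ hφ => by
  simpa using pair_conj hM (y := 0) (η := 0) hφ hx (zero_dotProduct _) (h f φ hφ)

lemma full_neg {u w : Fin m → F} (h : Full M u (-w)) : Full M u w := fun f φ hφ => by
  have := h f (-φ) (by rw [neg_dotProduct, hφ, neg_zero])
  rwa [show vt (-w) (-φ) = vt w φ from funext fun p => by simp [vt]] at this

/-- One full pair of coordinate vectors gives all of them. -/
lemma full_all (hM : prodGroup m k F ≤ M) {a l : Fin m} (hal : a ≠ l)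
    (h : Full M (Pi.single a (1 : F)) (Pi.single l 1)) (i i' : Fin m) (hii' : i ≠ i') :
    Full M (Pi.single i (1 : F)) (Pi.single i' 1) := by
  set e : Fin m → Fin m → F := fun i => Pi.single i 1 with he
  have ee : ∀ i l, e i ⬝ᵥ e l = if i = l then 1 else 0 := fun i l => by
    simp [e, Pi.single_apply, eq_comm]
  have hswap : ∀ a l, a ≠ l → Full M (e a) (e l) → Full M (e l) (e a) := by
    intro a l hal h
    have h1 := full_conj hM (x := e l) (ξ := e a) (by rw [ee, if_neg hal]) h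
    rw [ee, if_pos rfl, ee, if_pos rfl, one_smul, one_smul] at h1
    have h2 := full_conj hM (x := e a) (ξ := -e l)
      (by rw [neg_dotProduct, ee, if_neg (Ne.symm hal), neg_zero]) h1
    simp only [neg_dotProduct, dotProduct_add, sub_dotProduct, ee, if_true, if_neg hal,
      if_neg (Ne.symm hal), zero_add, zero_sub, neg_zero, neg_smul, one_smul, smul_neg, neg_neg] at h2
    refine full_neg ?_
    convert h2 using 1 <;> abel
  have hleft : ∀ a l a', a ≠ l → a' ≠ l → a' ≠ a → Full M (e a) (e l) → Full M (e a') (e l) := by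
    intro a l a' hal ha'l ha'a h f φ hφ
    have h1 := full_conj hM (x := e a') (ξ := e a) (by rw [ee, if_neg (Ne.symm ha'a)]) h
    rw [ee, if_pos rfl, one_smul, ee, if_neg (Ne.symm ha'l), zero_smul, sub_zero] at h1
    have hd : ∀ v, vt (e l) φ ⬝ᵥ vt v f = 0 := fun v => by rw [vt_dot_vt, hφ, mul_zero]
    have := pair_sub_center (hd _) (hd _) (h f φ hφ) (h1 f φ hφ)
    rwa [vt_add_left, add_sub_cancel_left] at this
  have hright : ∀ a l l', a ≠ l → a ≠ l' → l' ≠ l → Full M (e a) (e l) → Full M (e a) (e l') := by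
    intro a l l' hal hal' hll' h f φ hφ
    have h1 := full_conj hM (x := e l) (ξ := e l') (by rw [ee, if_neg hll']) h
    rw [ee, if_neg (Ne.symm hal'), zero_smul, add_zero, ee, if_pos rfl, one_smul] at h1
    have hd : ∀ v, vt v φ ⬝ᵥ vt (e a) f = 0 := fun v => by rw [vt_dot_vt, hφ, mul_zero]
    have := pair_sub (hd _) (hd _) (h1 f φ hφ) (h f φ hφ)
    rwa [show vt (e l) φ - vt (e l - e l') φ = vt (e l') φ from by
      rw [show vt (e l - e l') φ = vt (e l) φ - vt (e l') φ from map_sub (vtL φ) _ _,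
        sub_sub_cancel]] at this
  obtain ⟨l₁, hl₁, h1⟩ : ∃ l₁, i ≠ l₁ ∧ Full M (e i) (e l₁) := by
    by_cases hil : i = l
    · exact ⟨a, hil ▸ hal.symm, hil ▸ hswap a l hal h⟩
    by_cases hia : i = a
    · exact ⟨l, hil, hia ▸ h⟩
    exact ⟨l, hil, hleft a l i hal hil hia h⟩
  by_cases hl : i' = l₁
  · exact hl ▸ h1
  · exact hright i l₁ i' hl₁ hii' hl h1

/-- All elementary transvections from one pure one. -/
theorem sl_le_of_full (hM : prodGroup m k F ≤ M) (hk : 3 ≤ k) {a l : Fin m} (hal : a ≠ l)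
    (h : Full M (Pi.single a (1 : F)) (Pi.single l 1)) :
    Cfsg.Geo.specialLinear (Fin m × Fin k) F ≤ M := by
  let El : Fin m × Fin k → Fin m × Fin k → Prop := fun p r =>
    ∀ c : F, tv (Pi.single p 1) (c • Pi.single r 1) ∈ M
  have dir : ∀ p r : Fin m × Fin k, p.1 ≠ r.1 → p.2 ≠ r.2 → El p r := by
    rintro ⟨i, j⟩ ⟨i', j'⟩ hi hj c
    have := full_all hM hal h i i' hi (Pi.single j 1) (c • Pi.single j' 1)
      (by simp [Pi.single_apply, Ne.symm (show j ≠ j' from hj)])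
    rwa [vt_single, vt_smul_right, vt_single] at this
  have trans : ∀ p r q : Fin m × Fin k, p ≠ r → r ≠ q → p ≠ q → El p r → El r q → El p q := by
    intro p r q hpr hrq hpq h1 h2 c
    have A := h2 (-c)
    have B := h1 1
    rw [one_smul] at B
    have hA : (-c) • Pi.single q (1 : F) ⬝ᵥ Pi.single r (1 : F) = 0 := by simp [hrq]
    have hB : (Pi.single r (1 : F)) ⬝ᵥ Pi.single p (1 : F) = 0 := by simp [hpr]
    have := M.mul_mem (M.mul_mem (M.mul_mem A B) (M.inv_mem A)) (M.inv_mem B)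
    rw [tv_commutator hA hB (by simp [hpq])] at this
    simpa using this
  have hk2 : ∀ j j' : Fin k, ∃ j'', j'' ≠ j ∧ j'' ≠ j' := fun j j' => by
    by_contra hcon
    push Not at hcon
    have h' : (Finset.univ : Finset (Fin k)) ⊆ {j, j'} := fun x _ => by
      by_cases hx : x = j
      · simp [hx]
      · simp [hcon x hx]
    have := Finset.card_le_card h'
    have := Finset.card_le_two (a := j) (b := j')
    simp only [Finset.card_univ, Fintype.card_fin] at *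
    omega
  have same : ∀ i j j', j ≠ j' → El (i, j) (i, j') := by
    intro i j j' hj
    obtain ⟨i'', hi⟩ : ∃ i'', i'' ≠ i := by
      by_cases hia : i = a
      · exact ⟨l, fun e => hal (hia.symm.trans e.symm)⟩
      · exact ⟨a, Ne.symm hia⟩
    obtain ⟨j'', hj1, hj2⟩ := hk2 j j'
    exact trans _ (i'', j'') _ (by simp [hi.symm]) (by simp [hi]) (by simp [hj])
      (dir _ _ hi.symm hj1.symm) (dir _ _ hi hj2)
  refine specialLinear_le_of_elem M fun p r c hpr => ?_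
  obtain ⟨i, j⟩ := p
  obtain ⟨i', j'⟩ := r
  by_cases hi : i = i'
  · subst hi
    exact same i j j' (fun e => hpr (by rw [e])) c
  by_cases hj : j = j'
  · subst hj
    obtain ⟨j'', hj1, -⟩ := hk2 j j
    exact trans _ (i, j'') _ (by simp [hj1.symm]) (by simp [hi]) hpr (same i j j'' hj1.symm)
      (dir _ _ hi hj1) c
  · exact dir _ _ hi hj c

end Cfsg.Agent.Lib.Forms.TProd
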