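import Cfsg.Agent.Lib.Forms.TensorProdRed
import Cfsg.Agent.Lib.Forms.TensorProdPair

/-!
The stabiliser of a tensor decomposition with unequal factors is maximal in the special linear
group.
-/

set_option autoImplicit false

namespace Cfsg.Agent.Lib.Forms.TProd

open Matrix Kronecker Cfsg.Agent.Lib.Forms

variable {F : Type*} [Field F] [Finite F] {m k : ℕ}

/-- The product group is maximal in the special linear group. -/
theorem prodGroup_isMaximal (hm : 2 ≤ m) (hmk : m < k)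
    (hq : m = 2 → ∃ u : F, u ≠ 0 ∧ u ≠ 1) :
    Cfsg.Geo.IsMaximalIn (Cfsg.Geo.specialLinear (Fin m × Fin k) F) (prodGroup m k F) := by
  classical
  refine isMaximalIn_of inf_le_right ?_ fun M hHM hMK g hg hgH => ?_
  · set i₀ : Fin m := ⟨0, by omega⟩
    set i₁ : Fin m := ⟨1, by omega⟩
    set j₀ : Fin k := ⟨0, by omega⟩
    set j₁ : Fin k := ⟨1, by omega⟩
    have hi : i₀ ≠ i₁ := by simp [i₀, i₁]
    have hj : j₀ ≠ j₁ := by simp [j₀, j₁]
    have hd : vt (Pi.single i₀ (1 : F)) (Pi.single j₀ 1) ⬝ᵥ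
        vt (Pi.single i₁ (1 : F)) (Pi.single j₁ 1) = 0 := by
      rw [vt_dot_vt]; simp [hi]
    refine ⟨tv (vt (Pi.single i₁ 1) (Pi.single j₁ 1)) (vt (Pi.single i₀ 1) (Pi.single j₀ 1)),
      tv_mem_specialLinear _ _, fun hmem => ?_⟩
    obtain ⟨A, B, hAB⟩ := mem_kronecker.1 hmem.1
    have h1 := kr_vt A B (Pi.single i₀ 1) (Pi.single j₀ 1)
    rw [← hAB, tv_mulVec hd, vt_dot_vt] at h1
    set v := (A : Matrix (Fin m) (Fin m) F) *ᵥ Pi.single i₀ 1
    set z := (B : Matrix (Fin k) (Fin k) F) *ᵥ Pi.single j₀ 1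
    have e00 := congrFun h1 (i₀, j₀)
    have e01 := congrFun h1 (i₀, j₁)
    have e11 := congrFun h1 (i₁, j₁)
    simp [vt, hi, hi.symm, hj, hj.symm] at e00 e01 e11
    have hv : v i₀ ≠ 0 := left_ne_zero_of_mul_eq_one e00.symm
    have hz : z j₁ ≠ 0 := right_ne_zero_of_mul_eq_one e11.symm
    rcases e01 with e | e
    · exact hv e
    · exact hz e
  by_cases hpure : ∀ v z, ∃ w y,
      (g : Matrix (Fin m × Fin k) (Fin m × Fin k) F) *ᵥ vt v z = vt w y
  · exact absurd ⟨mem_of_pure hmk g hpure, hMK hg⟩ hgH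
  push Not at hpure
  obtain ⟨a, c, hbad⟩ := hpure
  have ha : a ≠ 0 := fun e => hbad 0 0 (by rw [e, vt_zero_left, vt_zero_left, mulVec_zero])
  have hc : c ≠ 0 := fun e => hbad 0 0 (by rw [e, vt_zero_right, vt_zero_left, mulVec_zero])
  obtain ⟨y, hyM, hyH, v, hv, hgood⟩ := exists_goodElt hmk hHM hg ha hc hbad
  have hU : rowSpan v ≠ ⊥ := fun e => hv (row_ext fun i => by
    have : row v i ∈ rowSpan v := Submodule.subset_span ⟨i, rfl⟩
    rw [e, Submodule.mem_bot] at this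
    exact this)
  have hU' : rowSpan v ≠ ⊤ := fun e => by
    have := finrank_rowSpan_le v
    rw [e, finrank_top, Module.finrank_fin_fun] at this
    omega
  obtain ⟨A, B, hW, hW'⟩ := exists_factor hU hU' hgood
  set D := (kr A B)⁻¹ * y with hD
  set N := Matrix.toLin' (D : Matrix (Fin m × Fin k) (Fin m × Fin k) F) - LinearMap.id with hN
  have hNx : ∀ x, N x = (D : Matrix (Fin m × Fin k) (Fin m × Fin k) F) *ᵥ x - x := fun x => rfl
  have hN1 : ∀ x, N x ∈ W (rowSpan v) := hW'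
  have hN2 : ∀ x ∈ W (rowSpan v), N x = 0 := fun x hx => by rw [hNx, hW x hx, sub_self]
  have hDu : D = uni N := gl_ext fun x => by
    rw [uni_mulVec fun w => hN2 _ (hN1 w), hNx, add_sub_cancel]
  have hy : y = kr A B * D := by rw [hD, mul_inv_cancel_left]
  have hn : kr A B ∈ prodGroup m k F := by
    refine ⟨mem_kronecker.2 ⟨A, B, rfl⟩, (mem_specialLinear _).2 ?_⟩
    have h1 := (mem_specialLinear _).1 (hMK hyM)
    rwa [hy, hDu, Units.val_mul, det_mul, uni_det, mul_one] at h1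
  have hDM : D ∈ M := M.mul_mem (M.inv_mem (hHM hn)) hyM
  have hne : ∀ T : (Fin k → F) →ₗ[F] (Fin k → F), ∃ x i, row (N x) i ≠ T (row x i) := by
    intro T
    by_contra hcon
    push Not at hcon
    refine hyH ?_
    rw [hy]
    refine mul_mem hn ?_
    have hTT : ∀ z, T (T z) = 0 := fun z => by
      set x := vt (Pi.single (⟨0, by omega⟩ : Fin m) (1 : F)) z
      have h2 := hcon (N x) ⟨0, by omega⟩
      rw [hN2 _ (hN1 x), row_zero, hcon x] at h2
      simpa [x, row_vt] using h2.symm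
    have hDk : D = kr (1 : GL (Fin m) F) (uni T) := gl_ext fun x => row_ext fun i => by
      rw [kr_one_row, uni_mulVec hTT, hDu, uni_mulVec fun w => hN2 _ (hN1 w), row_add, hcon x i]
    rw [hDk]
    exact kr_mem (by simp) (uni_det T)
  have hNil : Nil (rowSpan v) M N := ⟨hN1, hN2, hDu ▸ hDM⟩
  obtain ⟨i, l, f, φ, hil, hf, hφ, hφf, h⟩ := hNil.exists_pair hHM hq hm hne
  exact sl_le_of_full hHM (by omega) hil (full_of_one hHM (by omega) hf hφ hφf h)

end Cfsg.Agent.Lib.Forms.TProd
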