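import Cfsg.Agent.Lib.Forms.BlockMax
import Cfsg.Agent.Lib.Forms.TensorProdMax
import Cfsg.Agent.Lib.Forms.SubfieldLinear

/-!
Linear groups of geometric type are maximal, for small dimensions.
-/

set_option autoImplicit false

namespace Cfsg.Agent.Lib.Forms

open Matrix Cfsg.Geo
open scoped MatrixGroups
open Cfsg.Agent.Lib.PStab (ux uy coe_ux coe_uy mul_apply_two coe_inv_two det_eq)

section

variable {ι : Type} [Fintype ι] [DecidableEq ι] {F : Type*} [Field F] {F₀ : Subfield F}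
variable {M : Subgroup (GL ι F)} (hM : HasRatTv F₀ M)
include hM

/-- An element outside the subfield group gives a multiplier. -/
lemma exists_multiplier_of_notMem_small [Finite F] (hn : 4 ≤ Fintype.card ι) {r : ℕ} (hr : r.Prime)
    (hcard : Nat.card F = Nat.card F₀ ^ r) {g : GL ι F} (hg : g ∈ M)
    (hgn : g ∉ subfieldSubgroup F₀ (1 : GL ι F)) : ∃ k, k ∉ F₀ ∧ AllRoot F₀ M k := by
  classical
  obtain ⟨u, hu, hu0, hirr⟩ : ∃ u, IsRat F₀ u ∧ u ≠ 0 ∧
      ∀ k : F, k ≠ 0 → ¬ IsRat F₀ (k • ((g : Matrix ι ι F) *ᵥ u)) := by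
    by_contra hcon
    push Not at hcon
    refine hgn (mem_subfieldSubgroup_of_lines fun u hu => ?_)
    have hu' : (fun i => (u i : F)) ≠ 0 := fun e => hu (funext fun i => Subtype.ext (congrFun e i))
    obtain ⟨k, hk, hrat⟩ := hcon _ (fun i => (u i).2) hu'
    refine ⟨k⁻¹, fun i => ⟨_, hrat i⟩, ?_⟩
    simp only [ratVec, Units.val_one, one_mulVec]
    rw [show (fun i => (k • ((g : Matrix ι ι F) *ᵥ fun j => (u j : F))) i) =
      k • ((g : Matrix ι ι F) *ᵥ fun j => (u j : F)) from rfl, smul_smul, inv_mul_cancel₀ hk, one_smul]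
  set x := (g : Matrix ι ι F) *ᵥ u with hx
  have himg : ∀ φ, IsRat F₀ φ → φ ⬝ᵥ u = 0 →
      tv x (φ ᵥ* ((g⁻¹ : GL ι F) : Matrix ι ι F)) ∈ M := fun φ hφ hφu => by
    rw [hx, ← tv_conj g hφu]; exact mul_mem (mul_mem hg (hM u φ hu hφ hφu)) (inv_mem hg)
  by_cases hdeg : ∃ ψ, IsRat F₀ ψ ∧ ψ ≠ 0 ∧ ψ ⬝ᵥ x = 0
  · obtain ⟨ψ, hψ, hψ0, hψx⟩ := hdeg
    obtain ⟨φ, hφ, hφ0, hφp⟩ := exists_rat_perp (F₀ := F₀) (show 1 < Fintype.card ι by omega) ![u]
      (fun t => by fin_cases t; exact hu)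
    refine exists_multiplier hM (by omega) ?_ ?_ (himg φ hφ (hφp 0)) hψ hψ0 hψx hirr
    · rw [hx, vecMul_inv_dot]; exact hφp 0
    · intro e
      refine hφ0 ?_
      have := congrArg (fun v => v ᵥ* (g : Matrix ι ι F)) e
      simpa [vecMul_vecMul] using this
  push Not at hdeg
  obtain ⟨i₀⟩ : Nonempty ι := Fintype.card_pos_iff.1 (by omega)
  set a : ι → F := Pi.single i₀ 1 with hadef
  have ha : IsRat F₀ a := isRat_single i₀ F₀.one_mem
  -- a line through two points cannot carry `x`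
  have hplane : ∀ (z : ι → F) (l m : F), IsRat F₀ z → x ≠ l • a + m • z := by
    intro z l m hz e
    obtain ⟨ψ, hψ, hψ0, hp⟩ := exists_rat_perp (F₀ := F₀) (show 2 < Fintype.card ι by omega) ![a, z]
      (fun t => by fin_cases t; exacts [ha, hz])
    exact hdeg ψ hψ hψ0 (by
      rw [e, dotProduct_add, dotProduct_smul, dotProduct_smul, show ψ ⬝ᵥ a = 0 from hp 0]
      simp [show ψ ⬝ᵥ z = 0 from hp 1])
  obtain ⟨φ, hφ, hφu, hφa⟩ : ∃ φ, IsRat F₀ φ ∧ φ ⬝ᵥ u = 0 ∧
      (φ ᵥ* ((g⁻¹ : GL ι F) : Matrix ι ι F)) ⬝ᵥ a ≠ 0 := by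
    by_contra hcon; push Not at hcon
    obtain ⟨l, hl⟩ := eq_smul_of_rat_ker (η := ((g⁻¹ : GL ι F) : Matrix ι ι F) *ᵥ a) hu hu0
      fun b hb hb0 => by
        rw [dotProduct_comm] at hb0 ⊢
        rw [dotProduct_mulVec]; exact hcon b hb hb0
    have e : a = l • x := by
      rw [hx, ← mulVec_smul, ← hl, mulVec_inv_mulVec]
    rcases eq_or_ne l 0 with rfl | hl0
    · simp [hadef] at e
    · exact hplane a l⁻¹ 0 ha (by rw [e, smul_smul, inv_mul_cancel₀ hl0, one_smul, zero_smul, add_zero])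
  set θ := φ ᵥ* ((g⁻¹ : GL ι F) : Matrix ι ι F) with hθ
  have hT := himg φ hφ hφu
  have hθx : θ ⬝ᵥ x = 0 := by rw [hθ, hx, vecMul_inv_dot]; exact hφu
  set s := θ ⬝ᵥ a with hs
  -- the action on the plane of `a` and `x`
  let K : Subgroup SL(2, F) :=
    { carrier := {h | ∃ g' ∈ M, (g' : Matrix ι ι F) *ᵥ a =
          (h : Matrix (Fin 2) (Fin 2) F) 0 0 • a + (h : Matrix (Fin 2) (Fin 2) F) 1 0 • x ∧
          (g' : Matrix ι ι F) *ᵥ x =
          (h : Matrix (Fin 2) (Fin 2) F) 0 1 • a + (h : Matrix (Fin 2) (Fin 2) F) 1 1 • x}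
      one_mem' := ⟨1, M.one_mem, by simp, by simp⟩
      mul_mem' := by
        rintro h k ⟨g₁, hg₁, e1, e2⟩ ⟨g₂, hg₂, f1, f2⟩
        refine ⟨g₁ * g₂, mul_mem hg₁ hg₂, ?_, ?_⟩
        · rw [mul_mulVec', f1, mulVec_add, mulVec_smul, mulVec_smul, e1, e2, mul_apply_two, mul_apply_two]
          module
        · rw [mul_mulVec', f2, mulVec_add, mulVec_smul, mulVec_smul, e1, e2, mul_apply_two, mul_apply_two]
          module
      inv_mem' := by
        rintro h ⟨g₁, hg₁, e1, e2⟩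
        have hd := det_eq h
        refine ⟨g₁⁻¹, inv_mem hg₁, ?_, ?_⟩ <;>
        · refine gl_mulVec_injective g₁ ?_
          simp only [mulVec_inv_mulVec, mulVec_add, mulVec_smul, e1, e2, coe_inv_two,
            Matrix.of_apply, Matrix.cons_val', Matrix.cons_val_zero, Matrix.cons_val_one,
            Matrix.cons_val_fin_one]
          match_scalars <;> first | (ring; done) | linear_combination hd | linear_combination -hd }
  let A : Set F := {c | ∃ ψ, IsRat F₀ ψ ∧ ψ ⬝ᵥ a = 0 ∧ ψ ⬝ᵥ x = c}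
  have hAmem : ∀ c ∈ A, ux c ∈ K := by
    rintro c ⟨ψ, hψ, hψa, rfl⟩
    refine ⟨tv a ψ, hM a ψ ha hψ hψa, ?_, ?_⟩
    · rw [tv_mulVec hψa, hψa]; simp [coe_ux]
    · rw [tv_mulVec hψa]; simp [coe_ux, add_comm]
  have hy : uy s ∈ K := by
    refine ⟨_, hT, ?_, ?_⟩
    · rw [tv_mulVec hθx]; simp [coe_uy, hs]
    · rw [tv_mulVec hθx, hθx]; simp [coe_uy]
  have hsmul : ∀ c ∈ F₀, ∀ d ∈ A, c * d ∈ A := by
    rintro c hc d ⟨ψ, hψ, hψa, rfl⟩
    exact ⟨c • ψ, fun i => mul_mem hc (hψ i), by rw [smul_dotProduct, hψa, smul_zero],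
      by rw [smul_dotProduct, smul_eq_mul]⟩
  haveI : Fintype F₀ := Fintype.ofFinite F₀
  have hAcard : Nat.card F₀ ^ (Fintype.card ι - 1) ≤ A.ncard := by
    let ext : ({i // i ≠ i₀} → F₀) → (ι → F) := fun f i => if h : i = i₀ then 0 else (f ⟨i, h⟩ : F)
    have hr' : ∀ f, IsRat F₀ (ext f) := fun f i => by
      by_cases h : i = i₀ <;> simp [ext, h]
    have ha' : ∀ f, ext f ⬝ᵥ a = 0 := fun f => by simp [hadef, ext]
    let e : ({i // i ≠ i₀} → F₀) → A := fun f => ⟨_, ext f, hr' f, ha' f, rfl⟩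
    have he : Function.Injective e := by
      intro f f' h
      have h' : ext f ⬝ᵥ x = ext f' ⬝ᵥ x := congrArg Subtype.val h
      have h0 : ext f - ext f' = 0 := by
        by_contra hne
        have hd : IsRat F₀ (ext f - ext f') := fun i => sub_mem (hr' f i) (hr' f' i)
        exact hdeg _ hd hne (by rw [sub_dotProduct, h', sub_self])
      funext i
      have := congrFun h0 i.1
      simp [ext, i.2, sub_eq_zero] at this
      exact this
    have := Nat.card_le_card_of_injective e he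
    rw [Nat.card_coe_set_eq, Nat.card_fun] at this
    convert this using 2
    rw [Nat.card_eq_fintype_card, Fintype.card_subtype_compl, Fintype.card_subtype_eq]
  have hq : 2 ≤ Nat.card F₀ := Finite.one_lt_card
  have hbig : 6 ≤ A.ncard ∧ Nat.card F₀ < A.ncard := by
    have h1 : Nat.card F₀ ^ 3 ≤ Nat.card F₀ ^ (Fintype.card ι - 1) :=
      Nat.pow_le_pow_right (by omega) (by omega)
    have h2 : (2 : ℕ) ^ 3 ≤ Nat.card F₀ ^ 3 := Nat.pow_le_pow_left hq 3
    have h3 : Nat.card F₀ ^ 1 < Nat.card F₀ ^ 3 := Nat.pow_lt_pow_right hq (by norm_num)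
    rw [pow_one] at h3
    constructor <;> omega
  have hux := ux_mem_of_large hr hcard hAmem hsmul (Or.inl hbig.1) hbig.2 hφa hy ((-(s * x i₀) - 1) / s)
  obtain ⟨g', hg', e1, -⟩ := mul_mem hux hy
  set y := (g' : Matrix ι ι F) *ᵥ a with hydef
  have hye : y = s • (x - x i₀ • a) := by
    rw [e1]
    simp [coe_ux, coe_uy, mul_apply_two]
    field_simp
    match_scalars <;> ring
  obtain ⟨ψ, hψ, hψ0, hψp⟩ := exists_rat_perp (F₀ := F₀) (show 1 < Fintype.card ι by omega) ![a]
    (fun t => by fin_cases t; exact ha)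
  refine exists_multiplier hM (by omega) (y := y) (η := ψ ᵥ* ((g'⁻¹ : GL ι F) : Matrix ι ι F))
    (by rw [hydef, vecMul_inv_dot]; exact hψp 0) ?_ ?_ (isRat_single i₀ F₀.one_mem) (by simp) ?_ ?_
  · intro e
    refine hψ0 ?_
    have := congrArg (fun v => v ᵥ* (g' : Matrix ι ι F)) e
    simpa [vecMul_vecMul] using this
  · rw [hydef, ← tv_conj g' (show ψ ⬝ᵥ a = 0 from hψp 0)]
    exact mul_mem (mul_mem hg' (hM a ψ ha hψ (hψp 0))) (inv_mem hg')
  · simp [hye, hadef]
  · intro k hk hrat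
    refine hplane _ (x i₀) (k * s)⁻¹ hrat ?_
    rw [hye, smul_smul, smul_smul, mul_assoc, inv_mul_cancel₀ (mul_ne_zero hk hφa), one_smul, add_sub_cancel]

omit hM in
/-- The subfield group is maximal in the special linear group. -/
theorem subfield_linear_isMaximalIn_small [Finite F] (hn : 4 ≤ Fintype.card ι) {r : ℕ} (hr : r.Prime)
    (hcard : Nat.card F = Nat.card F₀ ^ r) (P : GL ι F) :
    IsMaximalIn (specialLinear ι F) (subfieldSubgroup F₀ P ⊓ specialLinear ι F) := by
  classical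
  suffices h : IsMaximalIn (specialLinear ι F) (subfieldSubgroup F₀ 1 ⊓ specialLinear ι F) by
    have hSL : (specialLinear ι F).map (MulAut.conj P).toMonoidHom = specialLinear ι F := by
      haveI : (specialLinear ι F).Normal :=
        (inferInstance : (MonoidHom.ker (Matrix.GeneralLinearGroup.det (n := ι) (R := F))).Normal)
      ext k
      refine ⟨?_, fun hk => ⟨P⁻¹ * k * P, by
        simpa using Subgroup.Normal.conj_mem ‹_› k hk P⁻¹, by simp [mul_assoc]⟩⟩
      rintro ⟨l, hl, rfl⟩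
      exact Subgroup.Normal.conj_mem ‹_› l hl P
    refine isMaximalIn_map (MulAut.conj P) h hSL ?_
    rw [Subgroup.map_inf _ _ _ (MulAut.conj P).injective, hSL]
    congr 1
    simp only [subfieldSubgroup, Subgroup.map_map]
    congr 1
    ext k; simp
  refine isMaximalIn_of inf_le_right ?_ fun M hle hM' g hg hgn => ?_
  · obtain ⟨k, hk⟩ : ∃ k : F, k ∉ F₀ := by
      by_contra h; push Not at h
      have : F₀ = ⊤ := eq_top_iff.2 fun z _ => h z
      have hc : Nat.card F₀ = Nat.card F := by rw [this]; exact Nat.card_congr Subfield.topEquiv.toEquiv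
      rw [hc] at hcard
      have := Nat.pow_right_injective (a := Nat.card F) Finite.one_lt_card (show _ ^ 1 = _ ^ r by rwa [pow_one])
      exact hr.ne_one this.symm
    obtain ⟨x, y, z, hxy, hxz, hyz⟩ := Fintype.two_lt_card_iff.1 (show 2 < Fintype.card ι by omega)
    refine ⟨tv (Pi.single x 1) (k • Pi.single y 1), tv_mem_specialLinear _ _, fun h => hk ?_⟩
    obtain ⟨g₀, c, hgc⟩ := mem_subfieldSubgroup_iff.1 h.1
    have e := fun v => congrFun (hgc v) x
    simp only [ratVec, Units.val_one, one_mulVec, Pi.smul_apply, smul_eq_mul] at e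
    have hφ : (k • Pi.single y 1 : ι → F) ⬝ᵥ Pi.single x 1 = 0 := by simp [hxy.symm]
    have ex := e (Pi.single x 1)
    have ey := e (Pi.single y 1)
    have hc1 : ∀ w : ι, (fun i => ((Pi.single w 1 : ι → F₀) i : F)) = Pi.single w 1 := fun w => by
      funext j; rcases eq_or_ne j w with rfl | h <;> simp [*]
    rw [hc1, tv_mulVec hφ] at ex ey
    simp [hxy, hxy.symm] at ex ey
    have hcm : (c : F) ∈ F₀ := by
      rw [show (c : F) = ((g₀ : Matrix ι ι F₀) x x : F)⁻¹ from eq_inv_of_mul_eq_one_left ex.symm]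
      exact inv_mem (SetLike.coe_mem _)
    rw [ey]
    exact mul_mem hcm (SetLike.coe_mem _)
  · have hM : HasRatTv F₀ M := fun a φ ha hφ h => by
      refine hle ⟨mem_subfieldSubgroup_iff.2
        ⟨tv (fun i => (⟨a i, ha i⟩ : F₀)) (fun i => ⟨φ i, hφ i⟩), 1, fun v => ?_⟩,
        tv_mem_specialLinear _ _⟩
      have h0 : (fun i => (⟨φ i, hφ i⟩ : F₀)) ⬝ᵥ (fun i => (⟨a i, ha i⟩ : F₀)) = 0 := by
        refine Subtype.ext ?_
        simpa [dotProduct, AddSubmonoidClass.coe_finsetSum] using h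
      simp only [ratVec, Units.val_one, one_mulVec, one_smul]
      rw [tv_mulVec h, tv_mulVec h0]
      funext i
      simp [dotProduct, AddSubmonoidClass.coe_finsetSum]
    obtain ⟨k, hk, hall⟩ := exists_multiplier_of_notMem_small hM hn hr hcard hg fun h => hgn ⟨h, hM' hg⟩
    exact specialLinear_le_of_multiplier hM (by omega) hr hcard hk hall


end

theorem decomposition_linear_isMaximalIn_small {F : Type*} [Field F] [Fintype F] (n : ℕ) (hn : 6 ≤ n) {t : ℕ} (m : ℕ) (D : Fin t → Submodule F (Fin n → F)) (hD : Cfsg.Geo.IsMDecomposition m D) (h1 : ¬ (m = 1 ∧ Fintype.card F ≤ 4)) (h2 : ¬ (m = 2 ∧ Fintype.card F = 2)) : Cfsg.Geo.IsMaximalIn (Cfsg.Geo.specialLinear (Fin n) F) (Cfsg.Geo.decompositionStabilizer D ⊓ Cfsg.Geo.specialLinear (Fin n) F) := by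
  obtain ⟨ht, hm, hdim, hind, htop⟩ := hD
  have hint : DirectSum.IsInternal D :=
    DirectSum.isInternal_submodule_of_iSupIndep_of_iSup_eq_top hind htop
  let bas : ∀ i, Module.Basis (Fin m) F (D i) := fun i => Module.finBasisOfFinrankEq F (D i) (hdim i)
  let B := (hint.collectedBasis bas).reindex (Equiv.sigmaEquivProd (Fin t) (Fin m))
  let e : Fin n ≃ Fin t × Fin m := (Pi.basisFun F (Fin n)).indexEquiv B
  let L : (Fin n → F) ≃ₗ[F] (Fin n → F) := (B.reindex e.symm).equivFun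
  let P : GL (Fin n) F :=
    { val := LinearMap.toMatrix' L.toLinearMap
      inv := LinearMap.toMatrix' L.symm.toLinearMap
      val_inv := by rw [← LinearMap.toMatrix'_comp]; simp
      inv_val := by rw [← LinearMap.toMatrix'_comp]; simp }
  let D' : Fin t → Submodule F (Fin n → F) := fun i => (D i).map L.toLinearMap
  have hP : ∀ x, (P : Matrix (Fin n) (Fin n) F) *ᵥ x = L x := fun x => by
    simp [P, LinearMap.toMatrix'_mulVec]
  have hPmap : ∀ i, D' i = (D i).map (Matrix.toLin' (P : Matrix (Fin n) (Fin n) F)) := fun i => by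
    simp [D', P, Matrix.toLin'_toMatrix']
  have hbasis : ∀ l, (B.reindex e.symm) l ∈ D (e l).1 := fun l => by
    simp only [B, Module.Basis.reindex_apply, Equiv.symm_symm]
    exact DirectSum.IsInternal.collectedBasis_mem hint bas ((Equiv.sigmaEquivProd (Fin t) (Fin m)).symm (e l))
  have hb : Blocks e D' := by
    refine ⟨fun i x => ⟨?_, fun hx => ?_⟩, fun i => ?_⟩
    · rintro ⟨y, hy, rfl⟩ l hl
      show (B.reindex e.symm).equivFun y l = 0
      rw [Module.Basis.equivFun_apply, Module.Basis.repr_reindex_apply, Module.Basis.repr_reindex_apply,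
        Equiv.symm_symm]
      exact hint.collectedBasis_repr_of_mem_ne bas (show (e l).1 ≠ i from hl).symm hy
    · refine ⟨L.symm x, ?_, L.apply_symm_apply x⟩
      show (B.reindex e.symm).equivFun.symm x ∈ D i
      rw [Module.Basis.equivFun_symm_apply]
      refine Submodule.sum_mem _ fun l _ => ?_
      by_cases hl : (e l).1 = i
      · exact (D i).smul_mem _ (hl ▸ hbasis l)
      · rw [hx l hl, zero_smul]; exact (D i).zero_mem
    · rw [show D' i = (D i).map L.toLinearMap from rfl, ← hdim i]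
      exact LinearEquiv.finrank_map_eq L (D i)
  have key := hb.isMaximal ht hm (by simp; omega) h1 h2
  let f : GL (Fin n) F ≃* GL (Fin n) F := MulAut.conj P⁻¹
  have hstab : ∀ (E : Fin t → Submodule F (Fin n → F)) (Q g : GL (Fin n) F),
      g ∈ Cfsg.Geo.decompositionStabilizer E → Q * g * Q⁻¹ ∈ Cfsg.Geo.decompositionStabilizer
        (fun i => (E i).map (Matrix.toLin' (Q : Matrix (Fin n) (Fin n) F))) := by
    intro E Q g hg
    obtain ⟨σ, hσ⟩ := hg
    refine ⟨σ, fun i => ?_⟩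
    simp only [← hσ i, ← Submodule.map_comp, ← Matrix.toLin'_mul, ← Units.val_mul,
      inv_mul_cancel_right]
  have hN : (Cfsg.Geo.specialLinear (Fin n) F).Normal := MonoidHom.normal_ker _
  have hSL : (Cfsg.Geo.specialLinear (Fin n) F).map f.toMonoidHom =
      Cfsg.Geo.specialLinear (Fin n) F := by
    ext g
    rw [Subgroup.mem_map]
    constructor
    · rintro ⟨x, hx, rfl⟩
      show P⁻¹ * x * P⁻¹⁻¹ ∈ Cfsg.Geo.specialLinear (Fin n) F
      exact hN.conj_mem x hx _
    · intro hg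
      exact ⟨P * g * P⁻¹,
        hN.conj_mem g hg P,
        show P⁻¹ * (P * g * P⁻¹) * P⁻¹⁻¹ = g by group⟩
  have hS : (Cfsg.Geo.decompositionStabilizer D').map f.toMonoidHom =
      Cfsg.Geo.decompositionStabilizer D := by
    have hback : (fun i => (D' i).map
        (Matrix.toLin' ((P⁻¹ : GL (Fin n) F) : Matrix (Fin n) (Fin n) F))) = D := funext fun i => by
      show (D' i).map _ = D i
      rw [hPmap, ← Submodule.map_comp, ← Matrix.toLin'_mul, ← Units.val_mul, inv_mul_cancel,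
        Units.val_one, Matrix.toLin'_one, Submodule.map_id]
    ext g
    rw [Subgroup.mem_map]
    constructor
    · rintro ⟨x, hx, rfl⟩
      show P⁻¹ * x * P⁻¹⁻¹ ∈ Cfsg.Geo.decompositionStabilizer D
      simpa only [hback] using hstab D' P⁻¹ x hx
    · intro hg
      refine ⟨P * g * P⁻¹, ?_, show P⁻¹ * (P * g * P⁻¹) * P⁻¹⁻¹ = g by group⟩
      have := hstab D P g hg
      rwa [← funext hPmap] at this
  exact isMaximalIn_map f key hSL (by rw [Subgroup.map_inf _ _ f.toMonoidHom f.injective, hS, hSL])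



theorem tensor_linear_isMaximalIn_small {F : Type*} [Field F] [Fintype F] (n : ℕ)  (n₁ n₂ : ℕ) (h1 : 2 ≤ n₁) (h12 : n₁ < n₂) (hex : ¬ (n₁ = 2 ∧ Fintype.card F = 2)) (e : Fin n ≃ Fin n₁ × Fin n₂) (P : Matrix.GeneralLinearGroup (Fin n) F) : Cfsg.Geo.IsMaximalIn (Cfsg.Geo.specialLinear (Fin n) F) (Cfsg.Geo.tensorProductSubgroup n₁ n₂ e P ⊓ Cfsg.Geo.specialLinear (Fin n) F) := by
  classical
  have hq : n₁ = 2 → ∃ u : F, u ≠ 0 ∧ u ≠ 1 := by
    intro h
    by_contra hcon
    push Not at hcon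
    have h' : (Finset.univ : Finset F) ⊆ {0, 1} := fun x _ => by
      by_cases hx : x = 0
      · simp [hx]
      · simp [hcon x hx]
    have := Finset.card_le_card h'
    have := Finset.card_le_two (a := (0 : F)) (b := 1)
    have := Fintype.one_lt_card (α := F)
    have : Fintype.card F ≠ 2 := fun h2 => hex ⟨h, h2⟩
    simp only [Finset.card_univ] at *
    omega
  let f := (Cfsg.Geo.glReindex (F := F) e.symm).trans (MulAut.conj P)
  have hdet : ∀ g, ((Cfsg.Geo.glReindex (F := F) e.symm g : Matrix.GeneralLinearGroup (Fin n) F) :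
      Matrix (Fin n) (Fin n) F).det = (g : Matrix (Fin n₁ × Fin n₂) (Fin n₁ × Fin n₂) F).det :=
    fun g => Matrix.det_reindex_self _ _
  have hf : ∀ g, f g = P * Cfsg.Geo.glReindex e.symm g * P⁻¹ := fun g => rfl
  have hsl : (Cfsg.Geo.specialLinear (Fin n₁ × Fin n₂) F).map f.toMonoidHom =
      Cfsg.Geo.specialLinear (Fin n) F := by
    ext x
    obtain ⟨g, rfl⟩ := f.surjective x
    rw [show f g = f.toMonoidHom g from rfl, Subgroup.mem_map_iff_mem f.injective]
    show g ∈ _ ↔ f g ∈ _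
    rw [Cfsg.Agent.Lib.Forms.mem_specialLinear, Cfsg.Agent.Lib.Forms.mem_specialLinear, hf,
      Units.val_mul, Units.val_mul, Matrix.det_mul, Matrix.det_mul, hdet, mul_right_comm,
      ← Matrix.det_mul, ← Units.val_mul, mul_inv_cancel, Units.val_one, Matrix.det_one, one_mul]
  refine Cfsg.Agent.Lib.Forms.isMaximalIn_map f
    (Cfsg.Agent.Lib.Forms.TProd.prodGroup_isMaximal h1 h12 hq) hsl ?_
  rw [Cfsg.Agent.Lib.Forms.TProd.prodGroup, Subgroup.map_inf _ _ _ f.injective, hsl,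
    Cfsg.Geo.tensorProductSubgroup, Subgroup.map_map]
  rfl


end Cfsg.Agent.Lib.Forms
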