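import Cfsg.Agent.Lib.Forms.MonomialWitness

/-!
A group strictly between the monomial group of determinant one and `SL` does not exist,
for at least five field elements and at least six coordinates.
-/

set_option autoImplicit false

namespace Cfsg.Agent.Lib.Forms

open Matrix Cfsg.Geo

variable {ι : Type} [Fintype ι] [DecidableEq ι] {F : Type*} [Field F]

lemma dot_single_zero {i : ι} {φ : ι → F} (h : φ i = 0) : φ ⬝ᵥ Pi.single i (1 : F) = 0 := by
  simp [h]

lemma tv_single_apply {i : ι} {φ : ι → F} (h : φ i = 0) (a l : ι) :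
    ((tv (Pi.single i 1) φ : GL ι F) : Matrix ι ι F) a l =
      (if a = l then 1 else 0) + (if a = i then φ l else 0) := by
  rw [tv_val (dot_single_zero h), tvMat, Matrix.add_apply, Matrix.one_apply, vecMulVec_apply]
  congr 1
  rw [Pi.single_apply]
  split_ifs <;> simp

/-- Monomial conjugation of a transvection with a standard centre. -/
lemma mono_conj_tv (σ : Equiv.Perm ι) (d : ι → Fˣ) {i : ι} {φ : ι → F} (h : φ i = 0) :
    mono σ d * tv (Pi.single i 1) φ * (mono σ d)⁻¹ =
      tv (Pi.single (σ i) 1) (fun a => (d i : F) * φ (σ.symm a) / d (σ.symm a)) := by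
  rw [mul_inv_eq_iff_eq_mul]
  apply Units.ext
  ext a l
  obtain ⟨b, rfl⟩ := σ.surjective a
  rw [mono_mul_apply, mul_mono_apply, tv_single_apply h, tv_single_apply (by simp [h])]
  simp only [σ.injective.eq_iff, Equiv.symm_apply_apply]
  have := (d l).ne_zero
  rcases eq_or_ne b i with rfl | h1
  · rw [if_pos rfl, if_pos rfl]
    rcases eq_or_ne b l with rfl | h2
    · simp [h]
    · simp only [h2, if_false, zero_add]
      field_simp
  · simp [h1]
    split_ifs with h2 <;> simp [h2]

lemma exists_not_mem_three (hN : 4 ≤ Fintype.card ι) (a b c : ι) :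
    ∃ o, o ≠ a ∧ o ≠ b ∧ o ≠ c := by
  by_contra hcon
  push Not at hcon
  have := Finset.card_le_card (show (Finset.univ : Finset ι) ⊆ {a, b, c} from fun t _ => by
    by_cases h1 : t = a
    · simp [h1]
    by_cases h2 : t = b
    · simp [h2]
    simp [hcon t h1 h2])
  rw [Finset.card_univ] at this
  have := Finset.card_le_three (a := a) (b := b) (c := c)
  omega

/-- A field value which is no cube root of unity and avoids `a`. -/
lemma exists_not_root [Fintype F] (hq : 5 ≤ Fintype.card F) (a : F) :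
    ∃ t : F, t ≠ 0 ∧ t ≠ a ∧ t ^ 2 + t + 1 ≠ 0 := by
  obtain ⟨t, h0, h1, -, -⟩ := exists_ne_four hq 0 a 0 0
  by_cases h : t ^ 2 + t + 1 = 0
  · obtain ⟨u, hu0, hu1, hu2, hu3⟩ := exists_ne_four hq 0 a t (-1 - t)
    refine ⟨u, hu0, hu1, fun hu => ?_⟩
    have : (u - t) * (u + t + 1) = 0 := by linear_combination hu - h
    rcases mul_eq_zero.1 this with e | e
    · exact hu2 (sub_eq_zero.1 e)
    · exact hu3 (by linear_combination e)
  · exact ⟨t, h0, h1, h⟩

/-- The diagonal values `s` at `j`, `s⁻¹` at `k`. -/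
def twoVal (j k : ι) (s : Fˣ) : ι → Fˣ := fun l => if l = j then s else if l = k then s⁻¹ else 1

lemma mono_twoVal_det {j k : ι} (hjk : j ≠ k) (s : Fˣ) :
    (mono 1 (twoVal j k s) : Matrix ι ι F).det = 1 := by
  rw [mono_det, ← Units.coe_prod,
    Fintype.prod_eq_mul j k hjk (fun l hl => by simp [twoVal, hl.1, hl.2])]
  simp [twoVal, hjk.symm]

lemma HasMono.conj_twoVal {G : Subgroup (GL ι F)} (hG : HasMono G) {i j k : ι} (hjk : j ≠ k)
    (hij : i ≠ j) (hik : i ≠ k) {φ : ι → F} (h : φ i = 0) (hm : tv (Pi.single i 1) φ ∈ G) (s : Fˣ) :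
    tv (Pi.single i 1) (fun a => φ a / (twoVal j k s a : F)) ∈ G := by
  have hd := hG 1 _ (mono_twoVal_det (F := F) hjk s)
  have := G.mul_mem (G.mul_mem hd hm) (G.inv_mem hd)
  rw [mono_conj_tv _ _ h] at this
  simp only [Equiv.Perm.one_def, Equiv.refl_apply, Equiv.refl_symm] at this
  convert this using 2
  ext a
  simp [twoVal, hij, hik]

/-- One transvection with standard centre gives all of `SL`. -/
theorem specialLinear_le_of_centre [Fintype F] (hq : 5 ≤ Fintype.card F)
    (hN : 4 ≤ Fintype.card ι) (G : Subgroup (GL ι F)) (hG : HasMono G) {i : ι} {φ : ι → F}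
    (hi : φ i = 0) (hφ : φ ≠ 0) (hm : tv (Pi.single i 1) φ ∈ G) : specialLinear ι F ≤ G := by
  classical
  obtain ⟨j, hj⟩ := Function.ne_iff.1 hφ
  simp only [Pi.zero_apply] at hj
  have hij : i ≠ j := fun e => hj (e ▸ hi)
  obtain ⟨s, hs0, hs1, -⟩ := exists_ne_three hq 0 1 0
  obtain ⟨k, hki, hkj, -⟩ := exists_not_mem_three hN i j j
  -- reduce to two coordinates
  obtain ⟨ψ, hψi, hψj, hψ, hψm⟩ : ∃ ψ : ι → F, ψ i = 0 ∧ ψ j ≠ 0 ∧
      (∀ a, a ≠ j → a ≠ k → ψ a = 0) ∧ tv (Pi.single i 1) ψ ∈ G := by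
    have h2 := hG.conj_twoVal (Ne.symm hkj) hij (Ne.symm hki) hi hm (Units.mk0 s hs0)
    set φ' := fun a => φ a / (twoVal j k (Units.mk0 s hs0) a : F)
    have h' : φ' i = 0 := by simp [φ', hi]
    have h3 := G.mul_mem hm (G.inv_mem h2)
    rw [tv_inv (dot_single_zero h'), tv_add (dot_single_zero hi) (by simp [h'])] at h3
    refine ⟨φ + -φ', by simp [hi, h'], ?_, fun a h1 h4 => by simp [φ', twoVal, h1, h4], h3⟩
    simp [φ', twoVal]
    intro e
    field_simp at e
    have : φ j * (s - 1) = 0 := by linear_combination e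
    simp [hj, sub_eq_zero, hs1] at this
  obtain ⟨l, hli, hlj, hlk⟩ := exists_not_mem_three hN i j k
  -- reduce to one coordinate
  obtain ⟨c₀, hc₀, hc₀m⟩ : ∃ c : F, c ≠ 0 ∧ tv (Pi.single i 1) (c • Pi.single j 1) ∈ G := by
    have h2 := hG.conj_twoVal (Ne.symm hlj) hij (Ne.symm hli) hψi hψm (Units.mk0 s hs0)
    set φ' := fun a => ψ a / (twoVal j l (Units.mk0 s hs0) a : F)
    have h' : φ' i = 0 := by simp [φ', hψi]
    have h3 := G.mul_mem hψm (G.inv_mem h2)
    rw [tv_inv (dot_single_zero h'), tv_add (dot_single_zero hψi) (by simp [h'])] at h3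
    refine ⟨ψ j - ψ j / s, ?_, ?_⟩
    · intro e
      field_simp at e
      have : ψ j * (s - 1) = 0 := by linear_combination e
      simp [hψj, sub_eq_zero, hs1] at this
    · convert h3 using 2
      ext a
      rcases eq_or_ne a j with rfl | h1
      · simp [φ', twoVal, sub_eq_add_neg]
      rcases eq_or_ne a l with rfl | h4
      · simp [φ', twoVal, h1, hψ a h1 hlk]
      · simp [φ', twoVal, h1, h4]
  refine specialLinear_le_of_elem G fun i' j' c hij' => ?_
  rcases eq_or_ne c 0 with rfl | hc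
  · simp [tv_zero_right]
  obtain ⟨σ, hσi, hσj⟩ := exists_perm_two hij hij'
  obtain ⟨d, hd, hdet⟩ :=
    exists_mono_det_one σ (fun a => if a = j then Units.mk0 (c₀ / c) (div_ne_zero hc₀ hc) else 1) k
  have := G.mul_mem (G.mul_mem (hG _ _ hdet) hc₀m) (G.inv_mem (hG _ _ hdet))
  rw [mono_conj_tv _ _ (by simp [hij])] at this
  convert this using 2
  · rw [hσi]
  · ext a
    obtain ⟨b, rfl⟩ := σ.surjective a
    rw [Equiv.symm_apply_apply, ← hσj, hd i (Ne.symm hki), if_neg hij]
    rcases eq_or_ne b j with rfl | h1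
    · rw [hd b (Ne.symm hkj), if_pos rfl]; simp
      field_simp
    · simp [h1]

/-- The product `tv e_r β * tv e_p α`. -/
noncomputable def zpair (p r : ι) (α β : ι → F) : GL ι F :=
  tv (Pi.single r 1) β * tv (Pi.single p 1) α

lemma zpair_mul {p r : ι} {α β α' β' : ι → F} (hα : α p = 0) (hβp : β p = 0) (hβr : β r = 0)
    (hα' : α' p = 0) (hβp' : β' p = 0) (hβr' : β' r = 0) :
    zpair p r α β * zpair p r α' β' = zpair p r (α + α' + α r • β') (β + β') := by
  have key : tv (Pi.single p 1) α * tv (Pi.single r 1) β' =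
      tv (Pi.single r 1) β' * tv (Pi.single p 1) (α + α r • β') := by
    apply gl_ext; intro x
    have h2 : (α + α r • β') ⬝ᵥ Pi.single p (1 : F) = 0 := dot_single_zero (by simp [hα, hβp'])
    rw [mul_mulVec', mul_mulVec', tv_mulVec (dot_single_zero hβr'),
      tv_mulVec (dot_single_zero hα), tv_mulVec (dot_single_zero hβr'), tv_mulVec h2]
    simp only [dotProduct_add, dotProduct_smul, add_dotProduct, smul_dotProduct, smul_eq_mul,
      dotProduct_single, hβp', mul_one, mul_zero, add_zero]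
    module
  simp only [zpair]
  rw [mul_assoc, ← mul_assoc (tv (Pi.single p 1) α), key, mul_assoc,
    tv_add (dot_single_zero (by simp [hα, hβp'])) (dot_single_zero hα'),
    ← mul_assoc, tv_add (dot_single_zero hβr) (dot_single_zero hβr')]
  congr 2
  abel

/-- The matrices with a monomial column at `p`, seen on the other coordinates. -/
def offPoint (G : Subgroup (GL ι F)) (p : ι) : Subgroup (GL {l // l ≠ p} F) where
  carrier := {y | ∃ x ∈ G, (∀ a, a ≠ p → (x : Matrix ι ι F) a p = 0) ∧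
    ∀ a b : {l // l ≠ p}, (x : Matrix ι ι F) a b = (y : Matrix {l // l ≠ p} {l // l ≠ p} F) a b}
  one_mem' := ⟨1, G.one_mem, fun a ha => by simp [Matrix.one_apply, ha],
    fun a b => by simp [Matrix.one_apply, Subtype.coe_injective.eq_iff]⟩
  mul_mem' := by
    rintro y y' ⟨x, hx, hc, he⟩ ⟨x', hx', hc', he'⟩
    refine ⟨x * x', G.mul_mem hx hx', fun a ha => ?_, fun a b => ?_⟩
    · rw [Units.val_mul, mul_apply]
      refine Finset.sum_eq_zero fun l _ => ?_
      rcases eq_or_ne l p with rfl | hl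
      · rw [hc a ha, zero_mul]
      · rw [hc' l hl, mul_zero]
    · rw [Units.val_mul, mul_apply, Units.val_mul, mul_apply,
        Fintype.sum_eq_add_sum_subtype_ne _ p, hc a a.2, zero_mul, zero_add]
      exact Finset.sum_congr rfl fun l _ => by rw [he a l, he' l b]
  inv_mem' := by
    rintro y ⟨x, hx, hc, he⟩
    have hinv : ∀ a, a ≠ p → ((x⁻¹ : GL ι F) : Matrix ι ι F) a p = 0 := by
      intro a ha
      have h := sum_inv_mul x a p
      rw [if_neg ha, Finset.sum_eq_single p (fun l _ hl => by rw [hc l hl, mul_zero]) (by simp)] at h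
      refine (mul_eq_zero.1 h).resolve_right fun h0 => ?_
      obtain ⟨i, hi⟩ := exists_col_ne_zero x p
      rcases eq_or_ne i p with rfl | hip
      · exact hi h0
      · exact hi (hc i hip)
    refine ⟨x⁻¹, G.inv_mem hx, hinv, fun a b => ?_⟩
    let z : Matrix {l // l ≠ p} {l // l ≠ p} F := fun a b => ((x⁻¹ : GL ι F) : Matrix ι ι F) a b
    have hz : z * (y : Matrix {l // l ≠ p} {l // l ≠ p} F) = 1 := by
      ext a b
      have h := sum_inv_mul x a b
      rw [Fintype.sum_eq_add_sum_subtype_ne _ p, hinv a a.2, zero_mul, zero_add] at h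
      rw [mul_apply, Matrix.one_apply]
      simp only [z, ← he]
      simpa [Subtype.coe_injective.eq_iff] using h
    rw [Units.inv_eq_of_mul_eq_one_left hz]

lemma hasMono_offPoint {G : Subgroup (GL ι F)} (hG : HasMono G) (p : ι) :
    HasMono (offPoint G p) := by
  intro σ d _
  obtain ⟨d', hd', hdet⟩ := exists_mono_det_one (Equiv.Perm.ofSubtype σ)
    (fun a => if h : a ≠ p then d ⟨a, h⟩ else 1) p
  refine ⟨_, hG _ _ hdet, fun a ha => ?_, fun a b => ?_⟩
  · rw [mono_apply, Equiv.Perm.ofSubtype_apply_of_not_mem σ (by simp), if_neg ha]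
  · rw [mono_apply, mono_apply, hd' b b.2, dif_pos b.2, Equiv.Perm.ofSubtype_apply_coe]
    simp [Subtype.coe_injective.eq_iff]

/-- A witness gives a transvection with standard centre. -/
theorem exists_centre [Fintype F] (hq : 5 ≤ Fintype.card F) (hN : 6 ≤ Fintype.card ι)
    (G : Subgroup (GL ι F)) (hle : G ≤ specialLinear ι F) (hG : HasMono G)
    {g : GL ι F} (hg : g ∈ G) (hgn : ¬ IsMono g) :
    ∃ (i : ι) (φ : ι → F), φ i = 0 ∧ φ ≠ 0 ∧ tv (Pi.single i 1) φ ∈ G := by
  classical
  obtain ⟨x, hx, p, hxp, j, hjp, hxj⟩ := exists_witness hq (by omega) G hG hg hgn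
  have hxc := offPoint G p
  obtain ⟨y, hy⟩ : ∃ y : GL {l // l ≠ p} F, ∀ a b : {l // l ≠ p},
      (x : Matrix ι ι F) a b = (y : Matrix {l // l ≠ p} {l // l ≠ p} F) a b := by
    let z : Matrix {l // l ≠ p} {l // l ≠ p} F := fun a b => (x : Matrix ι ι F) a b
    let z' : Matrix {l // l ≠ p} {l // l ≠ p} F :=
      fun a b => ((x⁻¹ : GL ι F) : Matrix ι ι F) a b
    have hz : z * z' = 1 := by
      ext a b
      have h := sum_mul_inv x a b
      rw [Fintype.sum_eq_add_sum_subtype_ne _ p, hxp a a.2, zero_mul, zero_add] at h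
      rw [mul_apply, Matrix.one_apply]
      simpa [z, z', Subtype.coe_injective.eq_iff] using h
    exact ⟨⟨z, z', hz, mul_eq_one_comm.1 hz⟩, fun a b => rfl⟩
  have hyG : y ∈ offPoint G p := ⟨x, hx, hxp, hy⟩
  by_cases hym : IsMono y
  · obtain ⟨σ, d, rfl⟩ := hym.exists_eq
    obtain ⟨d', hd', hdet⟩ := exists_mono_det_one (Equiv.Perm.ofSubtype σ)
      (fun a => if h : a ≠ p then d ⟨a, h⟩ else 1) p
    set m := mono (Equiv.Perm.ofSubtype σ) d' with hm
    have hrow : ∀ a, a ≠ p → ∀ b, (x : Matrix ι ι F) a b = (m : Matrix ι ι F) a b := by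
      intro a ha b
      rw [hm, mono_apply]
      rcases eq_or_ne b p with rfl | hb
      · rw [hxp a ha, Equiv.Perm.ofSubtype_apply_of_not_mem σ (by simp), if_neg ha]
      · rw [hy ⟨a, ha⟩ ⟨b, hb⟩, mono_apply, hd' b hb, dif_pos hb,
          Equiv.Perm.ofSubtype_apply_of_mem σ hb]
        simp [Subtype.ext_iff]
    have hw : x * m⁻¹ ∈ G := G.mul_mem hx (G.inv_mem (hG _ _ hdet))
    have hwrow : ∀ a, a ≠ p → ∀ b, ((x * m⁻¹ : GL ι F) : Matrix ι ι F) a b =
        if a = b then 1 else 0 := by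
      intro a ha b
      rw [← sum_mul_inv m a b, Units.val_mul, mul_apply]
      exact Finset.sum_congr rfl fun l _ => by rw [hrow a ha]
    let φ : ι → F := fun b => ((x * m⁻¹ : GL ι F) : Matrix ι ι F) p b - if p = b then 1 else 0
    have hwval : ((x * m⁻¹ : GL ι F) : Matrix ι ι F) = tvMat (Pi.single p 1) φ := by
      ext a b
      rw [tvMat, Matrix.add_apply, Matrix.one_apply, vecMulVec_apply, Pi.single_apply]
      rcases eq_or_ne a p with rfl | ha
      · simp [φ]
      · simp [ha, hwrow a ha b]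
    have hφp : φ p = 0 := by
      have h1 := (mem_specialLinear _).1 (hle hw)
      rw [hwval, tvMat, vecMulVec_eq Unit, det_one_add_replicateCol_mul_replicateRow] at h1
      simpa using h1
    have hwe : x * m⁻¹ = tv (Pi.single p 1) φ :=
      Units.ext (by rw [hwval, tv_val (dot_single_zero hφp)])
    refine ⟨p, φ, hφp, fun h0 => ?_, hwe ▸ hw⟩
    rw [h0, tv_zero_right, mul_inv_eq_one] at hwe
    apply hxj
    rw [hwe, hm, mono_apply, if_neg fun e => hjp ?_]
    apply (Equiv.Perm.ofSubtype σ).injective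
    rw [← e, Equiv.Perm.ofSubtype_apply_of_not_mem σ (by simp)]
  obtain ⟨y', hy', ⟨r, hrp⟩, hcol, ⟨j', hj'p⟩, hj'r, hy'j⟩ := exists_witness hq
    (by rw [Fintype.card_subtype_compl, Fintype.card_subtype_eq]; omega)
    (offPoint G p) (hasMono_offPoint hG p) hyG hym
  obtain ⟨w, hw, hwp, hwy⟩ := hy'
  simp only [ne_eq, Subtype.mk.injEq] at hj'r
  have hwr : ∀ a, a ≠ p → a ≠ r → (w : Matrix ι ι F) a r = 0 := fun a h1 h2 => by
    rw [hwy ⟨a, h1⟩ ⟨r, hrp⟩]
    exact hcol _ (by simp [h2])
  have hwrj : (w : Matrix ι ι F) r j' ≠ 0 := by rw [hwy ⟨r, hrp⟩ ⟨j', hj'p⟩]; exact hy'j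
  set h := ((w⁻¹ : GL ι F) : Matrix ι ι F) with hh
  set u := (w : Matrix ι ι F) with hu
  have hinvp : ∀ a, a ≠ p → h a p = 0 ∧ u p p * h p p = 1 := by
    intro a ha
    have h1 := sum_inv_mul w a p
    have h2 := sum_inv_mul w p p
    rw [← hh, ← hu] at h1 h2
    rw [if_neg ha, Finset.sum_eq_single p (fun l _ hl => by rw [hwp l hl, mul_zero]) (by simp)] at h1
    rw [if_pos rfl, Finset.sum_eq_single p (fun l _ hl => by rw [hwp l hl, mul_zero]) (by simp)] at h2
    refine ⟨(mul_eq_zero.1 h1).resolve_right fun h0 => ?_, by rw [mul_comm]; exact h2⟩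
    rw [h0, mul_zero] at h2
    exact zero_ne_one h2
  obtain ⟨hrp0, hpp⟩ := hinvp r hrp
  have hrr : u r r * h r r = 1 := by
    have h2 := sum_inv_mul w r r
    rw [← hh, ← hu] at h2
    rw [if_pos rfl, sum_pair' (Ne.symm hrp) (fun l h1 h3 => by rw [hwr l h1 h3, mul_zero]),
      hrp0, zero_mul, zero_add, mul_comm] at h2
    exact h2
  obtain ⟨b₀, hb₀p, hb₀r, hb₀⟩ : ∃ b, b ≠ p ∧ b ≠ r ∧ h r b ≠ 0 := by
    by_contra hcon
    push Not at hcon
    have h2 := sum_inv_mul w r j'
    rw [if_neg (Ne.symm hj'r), Finset.sum_eq_single r (fun l _ hl => by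
      rcases eq_or_ne l p with rfl | hlp
      · rw [← hh, hrp0, zero_mul]
      · rw [← hh, hcon l hlp hl, zero_mul]) (by simp)] at h2
    exact hwrj ((mul_eq_zero.1 h2).resolve_left fun h0 => by
      rw [← hh] at h0; rw [h0, mul_zero] at hrr; exact zero_ne_one hrr)
  obtain ⟨t, ht0, ht1, -⟩ := exists_ne_three hq 0 1 0
  set T := Units.mk0 t ht0
  set α : ι → F := fun b => ((w * mono 1 (twoVal p r T) * w⁻¹ * (mono 1 (twoVal p r T))⁻¹ :
    GL ι F) : Matrix ι ι F) p b - if p = b then 1 else 0 with hα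
  set β : ι → F := fun b => if b = p ∨ b = r then 0 else (t⁻¹ - 1) * u r r * h r b with hβ
  have hz : w * mono 1 (twoVal p r T) * w⁻¹ * (mono 1 (twoVal p r T))⁻¹ ∈ G :=
    G.mul_mem (G.mul_mem (G.mul_mem hw (hG _ _ (mono_twoVal_det (Ne.symm hrp) T))) (G.inv_mem hw))
      (G.inv_mem (hG _ _ (mono_twoVal_det (Ne.symm hrp) T)))
  have hent : ∀ a b, ((w * mono 1 (twoVal p r T) * w⁻¹ * (mono 1 (twoVal p r T))⁻¹ :
      GL ι F) : Matrix ι ι F) a b =
      ((if a = b then 1 else 0) + (t - 1) * (u a p * h p b) + (t⁻¹ - 1) * (u a r * h r b)) /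
        (twoVal p r T b : F) := by
    intro a b
    rw [eq_div_iff (Units.ne_zero _)]
    have e1 : ((w * mono 1 (twoVal p r T) * w⁻¹ * (mono 1 (twoVal p r T))⁻¹ * mono 1 (twoVal p r T) :
        GL ι F) : Matrix ι ι F) a b = ((w * mono 1 (twoVal p r T) * w⁻¹ : GL ι F) : Matrix ι ι F) a b := by
      rw [inv_mul_cancel_right]
    rw [mul_mono_apply, Equiv.Perm.one_apply] at e1
    rw [e1, conj_diag_apply, ← sum_mul_inv w a b, ← hh, ← hu, add_assoc, ← sub_eq_iff_eq_add',
      ← Finset.sum_sub_distrib, sum_pair' (Ne.symm hrp) (fun l h1 h2 => by simp [twoVal, h1, h2])]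
    simp [twoVal, T, hrp]
    ring
  have hαp : α p = 0 := by
    simp only [hα, hent, if_pos, hrp0]
    simp [twoVal, T, hpp]
    field_simp
    ring
  have hβp : β p = 0 := by simp [hβ]
  have hβr : β r = 0 := by simp [hβ]
  have hzeq : w * mono 1 (twoVal p r T) * w⁻¹ * (mono 1 (twoVal p r T))⁻¹ = zpair p r α β := by
    apply Units.ext
    conv_rhs => rw [zpair, Units.val_mul, tv_val (dot_single_zero hβr), tv_val (dot_single_zero hαp),
      tvMat_mul, dotProduct_single, hβp, zero_mul, zero_smul, add_zero]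
    ext a b
    rw [Matrix.add_apply, Matrix.add_apply, Matrix.one_apply, vecMulVec_apply, vecMulVec_apply,
      Pi.single_apply, Pi.single_apply]
    rcases eq_or_ne a p with rfl | ha
    · simp [hα, Ne.symm hrp]
    rw [hent, hwp a ha]
    rcases eq_or_ne a r with rfl | har
    · rcases eq_or_ne b p with rfl | hbp
      · simp [hrp, hrp0, hβ, twoVal]
      rcases eq_or_ne b a with rfl | hbr
      · simp [hrp, hrr, hβ, twoVal, T]
        field_simp
      · simp [hrp, hbp, hbr, Ne.symm hbr, hβ, twoVal]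
        ring
    · rw [hwr a ha har]
      rcases eq_or_ne a b with rfl | hab
      · simp [ha, har, twoVal]
      · simp [ha, har, hab]
  rw [hzeq] at hz
  have hβ0 : β ≠ 0 := fun e => by
    have := congrFun e b₀
    simp [hβ, hb₀p, hb₀r, hb₀, sub_eq_zero, ht1] at this
    exact mul_ne_zero_iff.1 (hrr.symm ▸ one_ne_zero) |>.1 this
  have hconj : ∀ s : Fˣ, zpair p r (fun b => (s : F) * α b / (twoVal p r s b : F))
      (fun b => (s : F)⁻¹ * β b) ∈ G := by
    intro s
    have hd := hG 1 _ (mono_twoVal_det (F := F) (Ne.symm hrp) s)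
    have := G.mul_mem (G.mul_mem hd hz) (G.inv_mem hd)
    rw [zpair, show mono 1 (twoVal p r s) * (tv (Pi.single r 1) β * tv (Pi.single p 1) α) *
      (mono 1 (twoVal p r s))⁻¹ = (mono 1 (twoVal p r s) * tv (Pi.single r 1) β *
      (mono 1 (twoVal p r s))⁻¹) * (mono 1 (twoVal p r s) * tv (Pi.single p 1) α *
      (mono 1 (twoVal p r s))⁻¹) by group, mono_conj_tv _ _ hβr, mono_conj_tv _ _ hαp] at this
    convert this using 1
    rw [zpair]
    simp only [Equiv.Perm.one_def, Equiv.refl_apply, Equiv.refl_symm]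
    congr 2 <;> ext b
    · rcases eq_or_ne b p with rfl | hbp
      · simp [hβp]
      rcases eq_or_ne b r with rfl | hbr
      · simp [hβr]
      · simp [twoVal, hbp, hbr, hrp]
    · simp [twoVal]
  by_cases hαr : α r = 0
  · obtain ⟨s, hs0, hs1, hs2⟩ := exists_not_root hq (-1)
    have hs' : 1 + s ≠ 0 := fun e => hs1 (by linear_combination e)
    have h1 := hconj (Units.mk0 s hs0)
    have h2 := hconj (Units.mk0 _ hs')
    have hA : ∀ u : Fˣ, (fun b => (u : F) * α b / (twoVal p r u b : F)) = (u : F) • α := by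
      intro u
      ext b
      rcases eq_or_ne b p with rfl | hbp
      · simp [hαp]
      rcases eq_or_ne b r with rfl | hbr
      · simp [hαr]
      · simp [twoVal, hbp, hbr]
    have hB : ∀ u : Fˣ, (fun b => (u : F)⁻¹ * β b) = (u : F)⁻¹ • β := fun u => rfl
    rw [hA, hB] at h1 h2
    simp only [Units.val_mk0] at h1 h2
    have h3 := G.mul_mem (G.mul_mem hz h1) (G.inv_mem h2)
    rw [zpair_mul hαp hβp hβr (by simp [hαp]) (by simp [hβp]) (by simp [hβr]), hαr, zero_smul,
      add_zero, show α + s • α = (1 + s) • α by module, zpair, zpair, _root_.mul_inv_rev, mul_assoc,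
      mul_inv_cancel_left, tv_inv (dot_single_zero (by simp [hβr])),
      tv_add (dot_single_zero (by simp [hβr])) (dot_single_zero (by simp [hβr]))] at h3
    refine ⟨r, _, by simp [hβr], fun e => hs2 ?_, h3⟩
    obtain ⟨b, hb⟩ := Function.ne_iff.1 hβ0
    have := congrFun e b
    simp only [Pi.add_apply, Pi.smul_apply, Pi.neg_apply, smul_eq_mul, Pi.zero_apply] at this hb
    have e2 : β b * (s ^ 2 + s + 1) = 0 := by
      field_simp at this
      linear_combination this
    exact (mul_eq_zero.1 e2).resolve_left hb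
  · obtain ⟨s, hs0, hs1, hs2⟩ := exists_not_root hq 1
    have h1 := hconj (Units.mk0 s hs0)
    simp only [Units.val_mk0] at h1
    set α' : ι → F := fun b => s * α b / (twoVal p r (Units.mk0 s hs0) b : F)
    set β' : ι → F := fun b => s⁻¹ * β b
    have hα' : α' p = 0 := by simp [α', hαp]
    have hβp' : β' p = 0 := by simp [β', hβp]
    have hβr' : β' r = 0 := by simp [β', hβr]
    have h3 := G.mul_mem (G.mul_mem hz h1) (G.inv_mem (G.mul_mem h1 hz))
    rw [zpair_mul hαp hβp hβr hα' hβp' hβr', zpair_mul hα' hβp' hβr' hαp hβp hβr,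
      add_comm β' β] at h3
    set A := α + α' + α r • β' with hA
    set A' := α' + α + α' r • β with hA'
    have hAp : A p = 0 := by simp [hA, hαp, hα', hβp']
    have hAp' : A' p = 0 := by simp [hA', hαp, hα', hβp]
    have hd : (A + -A') = (α r * s⁻¹ - s ^ 2 * α r) • β := by
      ext b
      simp [hA, hA', α', β', twoVal, hrp]
      field_simp
      ring
    rw [zpair, zpair, _root_.mul_inv_rev, mul_assoc, ← mul_assoc (tv (Pi.single p 1) A),
      tv_inv (dot_single_zero hAp'), tv_add (dot_single_zero hAp) (by simp [hAp']), hd] at h3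
    set γ := (α r * s⁻¹ - s ^ 2 * α r) • β with hγ
    have hγp : γ p = 0 := by simp [hγ, hβp]
    have hbb : (β + β') r = 0 := by simp [hβr, hβr']
    rw [← mul_assoc, tv_inv (dot_single_zero hbb)] at h3
    have hcomm := tv_conj_tv (F := F) (dot_single_zero hbb) (dot_single_zero hγp)
    rw [tv_inv (dot_single_zero hbb)] at hcomm
    rw [hcomm] at h3
    simp [hβp, hβp', hγ, hβr] at h3
    refine ⟨p, γ, hγp, fun e => ?_, by simpa [hγ] using h3⟩
    rw [hγ, smul_eq_zero] at e
    have e' := e.resolve_right hβ0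
    field_simp at e'
    have : α r * ((1 - s) * (s ^ 2 + s + 1)) = 0 := by linear_combination e'
    simp [hαr, hs2, sub_eq_zero, Ne.symm hs1] at this

/-- Maximality of the monomial group. -/
theorem specialLinear_le_of_hasMono [Fintype F] (hq : 5 ≤ Fintype.card F)
    (hN : 6 ≤ Fintype.card ι) (G : Subgroup (GL ι F)) (hle : G ≤ specialLinear ι F)
    (hG : HasMono G) {g : GL ι F} (hg : g ∈ G) (hgn : ¬ IsMono g) : specialLinear ι F ≤ G := by
  obtain ⟨i, φ, hi, hφ, hm⟩ := exists_centre hq hN G hle hG hg hgn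
  exact specialLinear_le_of_centre hq (by omega) G hG hi hφ hm

end Cfsg.Agent.Lib.Forms
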