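import Cfsg.Agent.Lib.Forms.Transvection

/-!
Overgroups of the monomial group of determinant one, for a field with at least five elements.
-/

set_option autoImplicit false

namespace Cfsg.Agent.Lib.Forms

open Matrix Cfsg.Geo

variable {ι : Type} [Fintype ι] [DecidableEq ι] {F : Type*} [Field F]

/-- The monomial matrix `e_l ↦ d l • e_(σ l)`. -/
def monoMat (σ : Equiv.Perm ι) (d : ι → Fˣ) : Matrix ι ι F :=
  Matrix.of fun a l => if a = σ l then (d l : F) else 0

omit [Fintype ι] in
lemma monoMat_apply (σ : Equiv.Perm ι) (d : ι → Fˣ) (a l : ι) :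
    monoMat σ d a l = if a = σ l then (d l : F) else 0 := rfl

lemma monoMat_mul (σ τ : Equiv.Perm ι) (d e : ι → Fˣ) :
    monoMat σ d * monoMat τ e = monoMat (σ * τ) (fun l => d (τ l) * e l) := by
  ext a l
  simp only [mul_apply, monoMat_apply, mul_ite, ite_mul, zero_mul, mul_zero,
    Finset.sum_ite_eq', Finset.mem_univ, if_true, Equiv.Perm.mul_apply, Units.val_mul]
  split_ifs <;> simp [*]

omit [Fintype ι] in
lemma monoMat_one : monoMat (1 : Equiv.Perm ι) (1 : ι → Fˣ) = (1 : Matrix ι ι F) := by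
  ext a l; simp [monoMat_apply, Matrix.one_apply]; split_ifs <;> simp [*]

/-- The monomial matrix as an invertible matrix. -/
def mono (σ : Equiv.Perm ι) (d : ι → Fˣ) : GL ι F where
  val := monoMat σ d
  inv := monoMat σ⁻¹ (fun l => (d (σ⁻¹ l))⁻¹)
  val_inv := by rw [monoMat_mul, mul_inv_cancel]; convert monoMat_one (F := F) using 2; ext l; simp
  inv_val := by rw [monoMat_mul, inv_mul_cancel]; convert monoMat_one (F := F) using 2; ext l; simp

lemma mono_apply (σ : Equiv.Perm ι) (d : ι → Fˣ) (a l : ι) :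
    (mono σ d : Matrix ι ι F) a l = if a = σ l then (d l : F) else 0 := rfl

lemma mul_mono_apply (x : GL ι F) (σ : Equiv.Perm ι) (d : ι → Fˣ) (a l : ι) :
    ((x * mono σ d : GL ι F) : Matrix ι ι F) a l = (x : Matrix ι ι F) a (σ l) * d l := by
  simp [Units.val_mul, mul_apply, mono_apply]

lemma mono_mul_apply (x : GL ι F) (σ : Equiv.Perm ι) (d : ι → Fˣ) (a l : ι) :
    ((mono σ d * x : GL ι F) : Matrix ι ι F) (σ a) l = d a * (x : Matrix ι ι F) a l := by
  simp [Units.val_mul, mul_apply, mono_apply, σ.injective.eq_iff]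

lemma mono_det (σ : Equiv.Perm ι) (d : ι → Fˣ) :
    (mono σ d : Matrix ι ι F).det = ((Equiv.Perm.sign σ : ℤ) : F) * ∏ l, (d l : F) := by
  rw [det_apply', Finset.sum_eq_single σ]
  · simp [mono_apply]
  · intro τ _ hτ
    obtain ⟨l, hl⟩ : ∃ l, τ l ≠ σ l := by
      by_contra hcon
      push Not at hcon
      exact hτ (Equiv.ext hcon)
    rw [Finset.prod_eq_zero (Finset.mem_univ l) (by simp [mono_apply, hl]), mul_zero]
  · simp

/-- The group contains every monomial matrix of determinant one. -/
def HasMono (G : Subgroup (GL ι F)) : Prop :=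
  ∀ (σ : Equiv.Perm ι) (d : ι → Fˣ), (mono σ d : Matrix ι ι F).det = 1 → mono σ d ∈ G

/-- A monomial element. -/
def IsMono (x : GL ι F) : Prop :=
  ∀ j, ∃ i, ∀ a, a ≠ i → (x : Matrix ι ι F) a j = 0

lemma exists_col_ne_zero (x : GL ι F) (j : ι) : ∃ i, (x : Matrix ι ι F) i j ≠ 0 := by
  by_contra hcon
  push Not at hcon
  have h : (((x⁻¹ * x : GL ι F)) : Matrix ι ι F) j j = 1 := by simp
  rw [Units.val_mul, mul_apply] at h
  simp [hcon] at h

lemma exists_row_ne_zero (x : GL ι F) (i : ι) : ∃ j, (x : Matrix ι ι F) i j ≠ 0 := by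
  by_contra hcon
  push Not at hcon
  have h : (((x * x⁻¹ : GL ι F)) : Matrix ι ι F) i i = 1 := by simp
  rw [Units.val_mul, mul_apply] at h
  simp [hcon] at h

lemma IsMono.exists_eq {x : GL ι F} (h : IsMono x) : ∃ σ d, x = mono σ d := by
  choose f hf using h
  have hne : ∀ j, (x : Matrix ι ι F) (f j) j ≠ 0 := fun j => by
    obtain ⟨i, hi⟩ := exists_col_ne_zero x j
    by_cases e : i = f j
    · exact e ▸ hi
    · exact absurd (hf j i e) hi
  have hsur : Function.Surjective f := fun i => by
    obtain ⟨j, hj⟩ := exists_row_ne_zero x i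
    by_contra hcon
    push Not at hcon
    exact hj (hf j i (Ne.symm (hcon j)))
  refine ⟨Equiv.ofBijective f (Finite.surjective_iff_bijective.1 hsur),
    fun j => Units.mk0 _ (hne j), ?_⟩
  apply Units.ext
  ext a j
  rw [mono_apply]
  split_ifs with e
  · simp [e]
  · exact hf j a e

/-- A vector fixed by a suitable monomial matrix of determinant one. -/
lemma exists_mono_fix (hN : 3 ≤ Fintype.card ι) (v : ι → F) {i i' : ι} (hi : v i ≠ 0)
    (hi' : v i' ≠ 0) (hii : i ≠ i') :
    ∃ σ : Equiv.Perm ι, ∃ d : ι → Fˣ, (mono σ d : Matrix ι ι F).det = 1 ∧ σ i = i' ∧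
      (∀ a, v (σ a) = d a * v a) := by
  classical
  let e : Equiv.Perm ι → ι → Fˣ := fun σ a =>
    if h : v a ≠ 0 ∧ v (σ a) ≠ 0 then Units.mk0 (v (σ a) / v a) (div_ne_zero h.2 h.1) else 1
  have he : ∀ σ : Equiv.Perm ι, (∀ a, v (σ a) = 0 ↔ v a = 0) →
      (∀ a, v (σ a) = e σ a * v a) ∧ ∏ a, (e σ a : F) = 1 := by
    intro σ hσ
    refine ⟨fun a => ?_, ?_⟩
    · by_cases ha : v a = 0
      · simp [ha, (hσ a).2 ha]
      · simp [e, ha, mt (hσ a).1 ha]
    · let w : ι → F := fun a => if v a = 0 then 1 else v a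
      have : ∀ a, (e σ a : F) = w (σ a) / w a := fun a => by
        by_cases ha : v a = 0
        · simp [e, w, ha, (hσ a).2 ha]
        · simp [e, w, ha, mt (hσ a).1 ha]
      simp only [this, Finset.prod_div_distrib, Equiv.prod_comp σ w]
      rw [div_self]
      refine Finset.prod_ne_zero_iff.2 fun a _ => ?_
      simp only [w]; split_ifs with ha <;> simp [ha]
  by_cases hout : ∃ o, v o = 0
  · obtain ⟨o, ho⟩ := hout
    set σ := Equiv.swap i i'
    have hσ : ∀ a, v (σ a) = 0 ↔ v a = 0 := fun a => by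
      rcases eq_or_ne a i with rfl | h1
      · simp [σ, hi, hi']
      rcases eq_or_ne a i' with rfl | h2
      · simp [σ, hi, hi']
      · simp [σ, Equiv.swap_apply_of_ne_of_ne h1 h2]
    obtain ⟨h1, h2⟩ := he σ hσ
    refine ⟨σ, fun a => if a = o then -e σ a else e σ a, ?_, by simp [σ], fun a => ?_⟩
    · rw [mono_det, Equiv.Perm.sign_swap hii]
      have : ∀ a, ((if a = o then -e σ a else e σ a : Fˣ) : F) =
          (if a = o then (-1 : F) else 1) * (e σ a : F) := fun a => by split_ifs <;> simp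
      rw [Finset.prod_congr rfl (fun a _ => this a), Finset.prod_mul_distrib, h2]
      simp
    · rcases eq_or_ne a o with rfl | ha
      · simp [ho, (hσ a).2 ho]
      · simp [ha, h1 a]
  · push Not at hout
    obtain ⟨l, hl⟩ : ∃ l, l ∉ ({i, i'} : Finset ι) := by
      by_contra hcon
      push Not at hcon
      have := Finset.card_le_card (show (Finset.univ : Finset ι) ⊆ {i, i'} from fun a _ => hcon a)
      rw [Finset.card_univ] at this
      have := Finset.card_le_two (a := i) (b := i')
      omega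
    simp at hl
    set σ := Equiv.swap i i' * Equiv.swap i' l
    obtain ⟨h1, h2⟩ := he σ (fun a => by simp [hout])
    refine ⟨σ, e σ, ?_, ?_, h1⟩
    · rw [mono_det, h2, map_mul, Equiv.Perm.sign_swap hii, Equiv.Perm.sign_swap (Ne.symm hl.2)]
      simp
    · simp [σ, Equiv.swap_apply_of_ne_of_ne hii (Ne.symm hl.1)]

lemma exists_ne_three [Fintype F] (hq : 5 ≤ Fintype.card F) (a b c : F) :
    ∃ t : F, t ≠ a ∧ t ≠ b ∧ t ≠ c := by
  classical
  by_contra hcon
  push Not at hcon
  have := Finset.card_le_card (show (Finset.univ : Finset F) ⊆ {a, b, c} from fun t _ => by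
    by_cases h1 : t = a
    · simp [h1]
    by_cases h2 : t = b
    · simp [h2]
    simp [hcon t h1 h2])
  rw [Finset.card_univ] at this
  have := Finset.card_le_three (a := a) (b := b) (c := c)
  omega

lemma exists_ne_four [Fintype F] (hq : 5 ≤ Fintype.card F) (a b c d : F) :
    ∃ t : F, t ≠ a ∧ t ≠ b ∧ t ≠ c ∧ t ≠ d := by
  classical
  by_contra hcon
  push Not at hcon
  have := Finset.card_le_card (show (Finset.univ : Finset F) ⊆ {a, b, c, d} from fun t _ => by
    by_cases h1 : t = a
    · simp [h1]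
    by_cases h2 : t = b
    · simp [h2]
    by_cases h3 : t = c
    · simp [h3]
    simp [hcon t h1 h2 h3])
  rw [Finset.card_univ] at this
  have := Finset.card_le_four (a := a) (b := b) (c := c) (d := d)
  omega

omit [Fintype ι] in
/-- Values `s` with vanishing sum and non-vanishing sum of inverses. -/
lemma exists_sum_zero [Fintype F] (hq : 5 ≤ Fintype.card F) (S : Finset ι) (hS : 3 ≤ S.card)
    (hk : Even S.card → (2 : F) ≠ 0) :
    ∃ s : ι → Fˣ, ∑ a ∈ S, (s a : F) = 0 ∧ ∑ a ∈ S, (s a : F)⁻¹ ≠ 0 := by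
  suffices ∀ k, 3 ≤ k → (Even k → (2 : F) ≠ 0) → ∀ S : Finset ι, S.card = k →
      ∃ s : ι → Fˣ, ∑ a ∈ S, (s a : F) = 0 ∧ ∑ a ∈ S, (s a : F)⁻¹ ≠ 0 from this _ hS hk S rfl
  intro k
  induction k using Nat.strong_induction_on with
  | _ k ih =>
    intro hk3 hk0 S hS
    rcases Nat.lt_or_ge k 5 with h5 | h5
    · rcases (show k = 3 ∨ k = 4 by omega) with rfl | rfl
      · obtain ⟨a, b, c, hab, hac, hbc, rfl⟩ := Finset.card_eq_three.1 hS
        -- `1`, `t`, `-1 - t`
        obtain ⟨t, ht0, ht1, ht⟩ : ∃ t : F, t ≠ 0 ∧ t ≠ -1 ∧ t ^ 2 + t + 1 ≠ 0 := by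
          obtain ⟨t, h0, h1, -, -⟩ := exists_ne_four hq 0 (-1) 0 0
          by_cases h : t ^ 2 + t + 1 = 0
          · obtain ⟨u, hu0, hu1, hu2, hu3⟩ := exists_ne_four hq 0 (-1) t (-1 - t)
            refine ⟨u, hu0, hu1, fun hu => ?_⟩
            have : (u - t) * (u + t + 1) = 0 := by linear_combination hu - h
            rcases mul_eq_zero.1 this with e | e
            · exact hu2 (sub_eq_zero.1 e)
            · exact hu3 (by linear_combination e)
          · exact ⟨t, h0, h1, h⟩
        have hu : -1 - t ≠ 0 := fun h => ht1 (by linear_combination -h)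
        refine ⟨fun x => if x = a then 1 else if x = b then Units.mk0 t ht0 else Units.mk0 _ hu,
          ?_, ?_⟩
        · simp [hab, hac, hbc, hab.symm, hac.symm, hbc.symm]
        · simp [hab, hac, hbc, hab.symm, hac.symm, hbc.symm]
          intro h
          apply ht
          field_simp at h
          linear_combination -h
      · obtain ⟨a, b, c, d, hab, hac, had, hbc, hbd, hcd, rfl⟩ := Finset.card_eq_four.1 hS
        have h2 : (2 : F) ≠ 0 := hk0 ⟨2, rfl⟩
        obtain ⟨t, ht0, ht2, ht1, -⟩ := exists_ne_four hq 0 (-2) (-1) 0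
        have hu : -2 - t ≠ 0 := fun h => ht2 (by linear_combination -h)
        refine ⟨fun x => if x = a then 1 else if x = b then 1 else if x = c then Units.mk0 t ht0
          else Units.mk0 _ hu, ?_, ?_⟩
        · simp [hab, hac, had, hbc, hbd, hcd, hab.symm, hac.symm, had.symm, hbc.symm, hbd.symm,
            hcd.symm]
          ring
        · simp [hab, hac, had, hbc, hbd, hcd, hab.symm, hac.symm, had.symm, hbc.symm, hbd.symm,
            hcd.symm]
          intro h
          field_simp at h
          have : 2 * (t + 1) ^ 2 = 0 := by linear_combination -h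
          simp [h2] at this
          exact ht1 (by linear_combination this)
    · obtain ⟨a, ha, b, hb, hab⟩ := Finset.one_lt_card.1 (by omega : 1 < S.card)
      set S' := (S.erase a).erase b
      have hb' : b ∈ S.erase a := Finset.mem_erase.2 ⟨hab.symm, hb⟩
      have hc : S'.card = k - 2 := by
        rw [Finset.card_erase_of_mem hb', Finset.card_erase_of_mem ha]; omega
      obtain ⟨s, hs1, hs2⟩ := ih (k - 2) (by omega) (by omega)
        (fun he => hk0 (by
          obtain ⟨r, hr⟩ := he
          exact ⟨r + 1, by omega⟩)) S' hc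
      refine ⟨fun x => if x = a then 1 else if x = b then -1 else s x, ?_, ?_⟩
      all_goals
        rw [← Finset.add_sum_erase _ _ ha, ← Finset.add_sum_erase _ _ hb',
          Finset.sum_congr (rfl : S' = S') (fun x hx => by
          simp only [S', Finset.mem_erase] at hx
          simp only [if_neg hx.2.1, if_neg hx.1]
          rfl)]
        simp [hab.symm]
      · exact hs1
      · exact hs2

end Cfsg.Agent.Lib.Forms
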