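import Cfsg.Agent.Lib.Forms.MonomialOvergroup

/-!
A non-monomial overgroup of the monomial group has an element with a monomial column and a
non-monomial row through the same entry.
-/

set_option autoImplicit false

namespace Cfsg.Agent.Lib.Forms

open Matrix Cfsg.Geo

variable {ι : Type} [Fintype ι] [DecidableEq ι] {F : Type*} [Field F]

/-- Prescribed entries away from `o` extend to a monomial matrix of determinant one. -/
lemma exists_mono_det_one (σ : Equiv.Perm ι) (d : ι → Fˣ) (o : ι) :
    ∃ d' : ι → Fˣ, (∀ a, a ≠ o → d' a = d a) ∧ (mono σ d' : Matrix ι ι F).det = 1 := by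
  have hne : ((Equiv.Perm.sign σ : ℤ) : F) * ∏ a ∈ Finset.univ.erase o, (d a : F) ≠ 0 := by
    refine mul_ne_zero ?_ (Finset.prod_ne_zero_iff.2 fun a _ => (d a).ne_zero)
    rcases Int.units_eq_one_or (Equiv.Perm.sign σ) with h | h <;> simp [h]
  refine ⟨Function.update d o (Units.mk0 _ hne)⁻¹, fun a ha => by simp [ha], ?_⟩
  rw [mono_det, ← Finset.mul_prod_erase _ _ (Finset.mem_univ o)]
  have hp : ∏ a ∈ Finset.univ.erase o,
      ((Function.update d o (Units.mk0 _ hne)⁻¹ a : Fˣ) : F) = ∏ a ∈ Finset.univ.erase o, (d a : F) :=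
    Finset.prod_congr rfl fun a ha => by rw [Function.update_of_ne (Finset.ne_of_mem_erase ha)]
  rw [hp, Function.update_self, Units.val_inv_eq_inv_val, Units.val_mk0, mul_left_comm,
    inv_mul_cancel₀ hne]

lemma exists_perm_two {a b a' b' : ι} (hab : a ≠ b) (hab' : a' ≠ b') :
    ∃ σ : Equiv.Perm ι, σ a = a' ∧ σ b = b' := by
  let τ := Equiv.swap a a'
  refine ⟨τ.trans (Equiv.swap (τ b) b'), ?_, by simp⟩
  simp only [Equiv.trans_apply]
  rw [show τ a = a' from Equiv.swap_apply_left a a']
  refine Equiv.swap_apply_of_ne_of_ne (fun e => hab ?_) hab'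
  exact τ.injective (show τ a = τ b by rw [← e]; exact Equiv.swap_apply_left a a')

/-- Conjugation of a diagonal matrix. -/
lemma conj_diag_apply (g : GL ι F) (d : ι → Fˣ) (r p : ι) :
    ((g * mono 1 d * g⁻¹ : GL ι F) : Matrix ι ι F) r p =
      ∑ l, (g : Matrix ι ι F) r l * d l * ((g⁻¹ : GL ι F) : Matrix ι ι F) l p := by
  rw [Units.val_mul, mul_apply]
  simp [mul_mono_apply]

lemma sum_mul_inv (g : GL ι F) (r p : ι) :
    ∑ l, (g : Matrix ι ι F) r l * ((g⁻¹ : GL ι F) : Matrix ι ι F) l p = if r = p then 1 else 0 := by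
  rw [← mul_apply, ← Units.val_mul, mul_inv_cancel, Units.val_one, Matrix.one_apply]

lemma sum_inv_mul (g : GL ι F) (r p : ι) :
    ∑ l, ((g⁻¹ : GL ι F) : Matrix ι ι F) r l * (g : Matrix ι ι F) l p = if r = p then 1 else 0 := by
  have := sum_mul_inv g⁻¹ r p
  rwa [inv_inv] at this

/-- A sum over a support of two points. -/
lemma sum_pair' {f : ι → F} {a b : ι} (hab : a ≠ b) (h : ∀ l, l ≠ a → l ≠ b → f l = 0) :
    ∑ l, f l = f a + f b :=
  Fintype.sum_eq_add a b hab fun l hl => h l hl.1 hl.2

theorem exists_witness [Fintype F] (hq : 5 ≤ Fintype.card F) (hN : 5 ≤ Fintype.card ι)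
    (G : Subgroup (GL ι F)) (hG : HasMono G) {x : GL ι F} (hx : x ∈ G) (hxn : ¬ IsMono x) :
    ∃ y ∈ G, ∃ p, (∀ a, a ≠ p → (y : Matrix ι ι F) a p = 0) ∧
      ∃ j, j ≠ p ∧ (y : Matrix ι ι F) p j ≠ 0 := by
  classical
  by_contra hcon
  push Not at hcon
  have hblock : ∀ y ∈ G, ∀ p p', (∀ a, a ≠ p' → (y : Matrix ι ι F) a p = 0) →
      ∀ j, j ≠ p → (y : Matrix ι ι F) p' j = 0 := by
    intro y hy p p' hcol j hj
    obtain ⟨o⟩ : Nonempty ι := ⟨p⟩
    obtain ⟨d, -, hd⟩ := exists_mono_det_one (F := F) (Equiv.swap p' p) 1 o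
    have hm := hcon (mono (Equiv.swap p' p) d * y) (mul_mem (hG _ _ hd) hy) p
      (fun a ha => by
        rw [show a = Equiv.swap p' p (Equiv.swap p' p a) by simp, mono_mul_apply,
          hcol _ (fun e => ha (by
            have := congrArg (Equiv.swap p' p) e; simpa using this)), mul_zero]) j hj
    have h5 := mono_mul_apply y (Equiv.swap p' p) d p' j
    rw [Equiv.swap_apply_left] at h5
    rw [h5] at hm
    simpa using hm
  let size : GL ι F → ι → ℕ := fun y j =>
    (Finset.univ.filter fun a => (y : Matrix ι ι F) a j ≠ 0).card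
  have hlaw : ∀ y ∈ G, ∀ i j, (y : Matrix ι ι F) i j ≠ 0 →
      (y : Matrix ι ι F) i j * ((y⁻¹ : GL ι F) : Matrix ι ι F) j i * (size y j : F) = 1 := by
    intro y hy i j hij
    have hconst : ∀ i', (y : Matrix ι ι F) i' j ≠ 0 →
        (y : Matrix ι ι F) i' j * ((y⁻¹ : GL ι F) : Matrix ι ι F) j i' =
        (y : Matrix ι ι F) i j * ((y⁻¹ : GL ι F) : Matrix ι ι F) j i := by
      intro i' hi'
      rcases eq_or_ne i i' with rfl | hii
      · rfl
      obtain ⟨σ, d, hdet, hσi, hσ⟩ := exists_mono_fix (by omega)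
        (fun a => (y : Matrix ι ι F) a j) hij hi' hii
      have hz : y⁻¹ * (mono σ d * y) ∈ G := mul_mem (inv_mem hy) (mul_mem (hG σ d hdet) hy)
      have hcol : ∀ a, ((y⁻¹ * (mono σ d * y) : GL ι F) : Matrix ι ι F) a j =
          if a = j then 1 else 0 := fun a => by
        rw [Units.val_mul, mul_apply, ← sum_inv_mul y a j]
        refine Finset.sum_congr rfl fun l _ => ?_
        congr 1
        rw [show l = σ (σ.symm l) by simp, mono_mul_apply, ← hσ]
      have hrow := hblock _ hz j j (fun a ha => by rw [hcol, if_neg ha])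
      have h1 : ((y⁻¹ * mono σ d : GL ι F) : Matrix ι ι F) j i =
          ((y⁻¹ : GL ι F) : Matrix ι ι F) j i := by
        rw [show y⁻¹ * mono σ d = (y⁻¹ * (mono σ d * y)) * y⁻¹ by group, Units.val_mul, mul_apply,
          Finset.sum_eq_single j (fun l _ hl => by rw [hrow l hl, zero_mul]) (by simp), hcol,
          if_pos rfl, one_mul]
      rw [mul_mono_apply, hσi] at h1
      have h2 := hσ i
      rw [hσi] at h2
      rw [h2, ← h1]; ring
    have h1 := sum_inv_mul y j j
    rw [if_pos rfl, ← Finset.sum_filter_ne_zero, Finset.sum_congr rfl (g := fun _ =>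
      (y : Matrix ι ι F) i j * ((y⁻¹ : GL ι F) : Matrix ι ι F) j i) (fun l hl => by
        simp only [Finset.mem_filter, ne_eq, mul_eq_zero, not_or] at hl
        rw [mul_comm]; exact hconst l hl.2.2)] at h1
    rw [Finset.sum_const, nsmul_eq_mul] at h1
    have hset : (Finset.univ.filter fun l =>
        ((y⁻¹ : GL ι F) : Matrix ι ι F) j l * (y : Matrix ι ι F) l j ≠ 0) =
        Finset.univ.filter fun a => (y : Matrix ι ι F) a j ≠ 0 := by
      ext l
      simp only [Finset.mem_filter, Finset.mem_univ, true_and, ne_eq, mul_eq_zero, not_or]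
      refine ⟨fun h => h.2, fun h => ⟨fun h0 => ?_, h⟩⟩
      have e := hconst l h
      rw [h0, mul_zero] at e
      rw [← e, mul_zero] at h1
      exact zero_ne_one h1
    rw [hset] at h1
    rw [mul_comm _ (size y j : F)]
    exact h1
  have hinv : ∀ y ∈ G, ∀ i j, (y : Matrix ι ι F) i j ≠ 0 →
      ((y⁻¹ : GL ι F) : Matrix ι ι F) j i ≠ 0 := fun y hy i j h h0 => by
    simpa [h0] using hlaw y hy i j h
  have hinv' : ∀ y ∈ G, ∀ i j, ((y⁻¹ : GL ι F) : Matrix ι ι F) j i ≠ 0 →
      (y : Matrix ι ι F) i j ≠ 0 := fun y hy i j h => by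
    simpa using hinv _ (inv_mem hy) j i h
  have hsz : ∀ y ∈ G, ∀ j, (size y j : F) ≠ 0 := fun y hy j h0 => by
    obtain ⟨i, hi⟩ := exists_col_ne_zero y j
    simpa [h0] using hlaw y hy i j hi
  -- supports have at most two points, or are full
  have hsmall : ∀ y ∈ G, ∀ p, size y p ≤ 2 ∨ size y p = Fintype.card ι := by
    intro y hy p
    by_contra hc
    push Not at hc
    set S := Finset.univ.filter fun a => (y : Matrix ι ι F) a p ≠ 0 with hS
    have hSc : S.card = size y p := rfl
    have hlt : size y p < Fintype.card ι :=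
      lt_of_le_of_ne (hSc ▸ Finset.card_le_univ S) hc.2
    obtain ⟨o, ho⟩ : ∃ o, o ∉ S := by
      by_contra h
      push Not at h
      rw [Finset.eq_univ_of_forall h, Finset.card_univ] at hSc
      omega
    obtain ⟨s, hs1, hs2⟩ := exists_sum_zero hq S (by omega) (fun he h2 => by
      obtain ⟨r, hr⟩ := he
      apply hsz y hy p
      rw [← hSc, hr, Nat.cast_add, ← two_mul, h2, zero_mul])
    obtain ⟨d, hd, hdet⟩ := exists_mono_det_one 1 s o
    have hg := inv_mem hy
    have hz : y⁻¹ * mono 1 d * y⁻¹⁻¹ ∈ G := mul_mem (mul_mem hg (hG _ _ hdet)) (inv_mem hg)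
    have key : ∀ e : ι → Fˣ, (∀ a, a ≠ o → e a = d a) ∨ (∀ a, a ≠ o → e a = (d a)⁻¹) →
        ((y⁻¹ * mono 1 e * y⁻¹⁻¹ : GL ι F) : Matrix ι ι F) p p =
          (size y p : F)⁻¹ * ∑ l ∈ S, (e l : F) := by
      intro e _
      rw [conj_diag_apply, inv_inv, Finset.mul_sum,
        ← Finset.sum_subset (Finset.subset_univ S) (fun l _ hl => by
          have : (y : Matrix ι ι F) l p = 0 := by simpa [hS] using hl
          rw [this, mul_zero])]
      refine Finset.sum_congr rfl fun l hl => ?_
      have h1 := hlaw y hy l p (by simpa [hS] using hl)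
      have hk := hsz y hy p
      field_simp
      linear_combination h1
    have h0 : ((y⁻¹ * mono 1 d * y⁻¹⁻¹ : GL ι F) : Matrix ι ι F) p p = 0 := by
      rw [key d (Or.inl fun a _ => rfl), Finset.sum_congr rfl (fun l hl => by
        rw [hd l (fun e => ho (e ▸ hl))]), hs1, mul_zero]
    have h1 : ((y⁻¹ * mono 1 (fun a => (d a)⁻¹) * y⁻¹⁻¹ : GL ι F) : Matrix ι ι F) p p ≠ 0 := by
      rw [key _ (Or.inr fun a _ => rfl), Finset.sum_congr rfl (fun l hl => by
        rw [hd l (fun e => ho (e ▸ hl)), Units.val_inv_eq_inv_val])]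
      exact mul_ne_zero (inv_ne_zero (hsz y hy p)) hs2
    have e1 : (y⁻¹ * mono 1 d * y⁻¹⁻¹)⁻¹ = y⁻¹ * mono 1 (fun a => (d a)⁻¹) * y⁻¹⁻¹ := by
      rw [_root_.mul_inv_rev, _root_.mul_inv_rev, inv_inv, mul_assoc]
      congr 1
    rw [← e1] at h1
    exact hinv' _ hz p p h1 h0
  -- some column has exactly two non-zero entries
  obtain ⟨y, hy, p, hy2⟩ : ∃ y ∈ G, ∃ p, size y p = 2 := by
    by_contra h2
    push Not at h2
    have hdich : ∀ y ∈ G, ∀ p, size y p = 1 ∨ size y p = Fintype.card ι := fun y hy p => by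
      have h0 : 0 < size y p := by
        obtain ⟨i, hi⟩ := exists_col_ne_zero y p
        exact Finset.card_pos.2 ⟨i, by simp [hi]⟩
      have := hsmall y hy p
      have := h2 y hy p
      omega
    have hone : ∀ y ∈ G, ∀ p, size y p = 1 → ∀ l, size y l = 1 := by
      intro y hy p hp l
      rcases eq_or_ne l p with rfl | hlp
      · exact hp
      obtain ⟨p', hp'⟩ := Finset.card_eq_one.1 hp
      refine (hdich y hy l).resolve_right fun hl => ?_
      have hz := hblock y hy p p' (fun a ha => by
        by_contra hne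
        have : a ∈ ({p'} : Finset ι) := hp' ▸ (by simp [hne])
        exact ha (Finset.mem_singleton.1 this)) l hlp
      have := Finset.eq_univ_of_card _ (hl)
      have hm : p' ∈ Finset.univ.filter fun a => (y : Matrix ι ι F) a l ≠ 0 := by
        rw [this]; exact Finset.mem_univ _
      simp [hz] at hm
    have hmono : ∀ y ∈ G, ∀ p, size y p = 1 → IsMono y := fun y hy p hp l => by
      obtain ⟨i, hi⟩ := Finset.card_eq_one.1 (hone y hy p hp l)
      refine ⟨i, fun a ha => ?_⟩
      by_contra hne
      have : a ∈ ({i} : Finset ι) := hi ▸ (by simp [hne])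
      exact ha (Finset.mem_singleton.1 this)
    have hfull : ∀ i j, (x : Matrix ι ι F) i j ≠ 0 := fun i j => by
      have h1 := (hdich x hx j).resolve_left fun h1 => hxn (hmono x hx j h1)
      have := Finset.eq_univ_of_card _ h1
      have hm : i ∈ Finset.univ.filter fun a => (x : Matrix ι ι F) a j ≠ 0 := by
        rw [this]; exact Finset.mem_univ _
      simpa using hm
    set g := (x : Matrix ι ι F) with hg_def
    set h := ((x⁻¹ : GL ι F) : Matrix ι ι F) with hh_def
    have hh : ∀ i j, h i j ≠ 0 := fun i j => hinv x hx j i (hfull j i)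
    obtain ⟨p⟩ : Nonempty ι := Fintype.card_pos_iff.1 (by omega)
    obtain ⟨r, hrp, i, j, hij⟩ : ∃ r, r ≠ p ∧ ∃ i j, g r i * h i p ≠ g r j * h j p := by
      by_contra hall
      push Not at hall
      obtain ⟨r, hr⟩ := Fintype.exists_ne_of_one_lt_card (by omega : 1 < Fintype.card ι) p
      obtain ⟨r', hr', hrr⟩ : ∃ r', r' ≠ p ∧ r' ≠ r := by
        by_contra hc
        push Not at hc
        have := Finset.card_le_card (show (Finset.univ : Finset ι) ⊆ {p, r} from fun a _ => by
          by_cases e : a = p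
          · simp [e]
          · simp [hc a e])
        rw [Finset.card_univ] at this
        have := Finset.card_le_two (a := p) (b := r)
        omega
      have e1 : ∀ i, (g r' p * h p p) * g r i = (g r p * h p p) * g r' i := fun i => by
        have a1 := hall r hr i p
        have a2 := hall r' hr' i p
        have : h i p * ((g r' p * h p p) * g r i - (g r p * h p p) * g r' i) = 0 := by
          linear_combination (g r' p * h p p) * a1 - (g r p * h p p) * a2
        exact sub_eq_zero.1 ((mul_eq_zero.1 this).resolve_left (hh i p))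
      have e2 : (g r' p * h p p) * (1 : F) = 0 := by
        rw [← (sum_mul_inv x r r).trans (if_pos rfl), Finset.mul_sum]
        calc ∑ l, g r' p * h p p * (g r l * h l r)
            = ∑ l, g r p * h p p * (g r' l * h l r) :=
              Finset.sum_congr rfl fun l _ => by linear_combination h l r * e1 l
          _ = 0 := by rw [← Finset.mul_sum, sum_mul_inv, if_neg hrr, mul_zero]
      rw [mul_one] at e2
      exact mul_ne_zero (hfull r' p) (hh p p) e2
    have hijne : i ≠ j := fun e => hij (e ▸ rfl)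
    set A := g r i * h i p with hA
    set B := g r j * h j p with hB
    have hA0 : A ≠ 0 := mul_ne_zero (hfull r i) (hh i p)
    have hB0 : B ≠ 0 := mul_ne_zero (hfull r j) (hh j p)
    set s : Fˣ := Units.mk0 (B / A) (div_ne_zero hB0 hA0) with hs
    set d : ι → Fˣ := fun l => if l = i then s else if l = j then s⁻¹ else 1 with hd
    have hdet : (mono 1 d : Matrix ι ι F).det = 1 := by
      rw [mono_det, ← Units.coe_prod, Fintype.prod_eq_mul i j hijne (fun l hl => by simp [hd, hl.1, hl.2])]
      simp [hd, hijne.symm]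
    have hz : x * mono 1 d * x⁻¹ ∈ G := mul_mem (mul_mem hx (hG _ _ hdet)) (inv_mem hx)
    have hentry : ∀ a l, ((x * mono 1 d * x⁻¹ : GL ι F) : Matrix ι ι F) a l =
        (if a = l then 1 else 0) + ((s : F) - 1) * (g a i * h i l)
          + ((s : F)⁻¹ - 1) * (g a j * h j l) := by
      intro a l
      rw [conj_diag_apply, ← sum_mul_inv x a l, ← hg_def, ← hh_def, ← sub_eq_iff_eq_add, ← sub_eq_iff_eq_add']
      rw [← sub_eq_zero]
      have : ∑ m, (g a m * d m * h m l - g a m * h m l) =
          (g a i * d i * h i l - g a i * h i l) + (g a j * d j * h j l - g a j * h j l) :=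
        sum_pair' hijne fun m h1 h2 => by simp [hd, h1, h2]
      rw [Finset.sum_sub_distrib] at this
      simp [hd, hijne.symm] at this ⊢
      linear_combination this
    have hrp0 : ((x * mono 1 d * x⁻¹ : GL ι F) : Matrix ι ι F) r p = 0 := by
      rw [hentry, if_neg hrp, zero_add, ← hA, ← hB, hs, Units.val_mk0]
      field_simp
      ring
    have hm := hmono _ hz p ((hdich _ hz p).resolve_right fun hf => by
      have hm : r ∈ Finset.univ.filter fun a =>
          ((x * mono 1 d * x⁻¹ : GL ι F) : Matrix ι ι F) a p ≠ 0 := by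
        rw [Finset.eq_univ_of_card _ hf]; exact Finset.mem_univ _
      exact (Finset.mem_filter.1 hm).2 hrp0)
    have hs1 : (s : F) - 1 ≠ 0 := by
      rw [hs, Units.val_mk0, sub_ne_zero]
      intro e
      exact hij (by rw [div_eq_one_iff_eq hA0] at e; exact e.symm)
    set ρ : F := ((s : F)⁻¹ - 1) / ((s : F) - 1)
    have hprop : ∀ l l', h j l * h i l' = h j l' * h i l := by
      intro l l'
      obtain ⟨m, hm'⟩ := hm l
      obtain ⟨m', hm''⟩ := hm l'
      obtain ⟨a, ha⟩ : ∃ a, a ∉ ({l, l', m, m'} : Finset ι) := by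
        by_contra hc
        push Not at hc
        have := Finset.card_le_card (show (Finset.univ : Finset ι) ⊆ {l, l', m, m'} from fun a _ => hc a)
        rw [Finset.card_univ] at this
        have := Finset.card_le_four (a := l) (b := l') (c := m) (d := m')
        omega
      simp only [Finset.mem_insert, Finset.mem_singleton, not_or] at ha
      have a1 := hm' a ha.2.2.1
      have a2 := hm'' a ha.2.2.2
      rw [hentry, if_neg ha.1, zero_add] at a1
      rw [hentry, if_neg ha.2.1, zero_add] at a2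
      have hs2 : (s : F)⁻¹ - 1 ≠ 0 := by
        intro e
        apply hs1
        rw [sub_eq_zero, inv_eq_one] at e
        rw [e, sub_self]
      have : ((s : F)⁻¹ - 1) * g a j * (h j l * h i l' - h j l' * h i l) = 0 := by
        linear_combination h i l' * a1 - h i l * a2
      exact sub_eq_zero.1 ((mul_eq_zero.1 this).resolve_left (mul_ne_zero hs2 (hfull a j)))
    have : h i j * (1 : F) = h j j * 0 := by
      rw [← (sum_inv_mul x j j).trans (if_pos rfl), ← (sum_inv_mul x i j).trans (if_neg hijne),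
        Finset.mul_sum, Finset.mul_sum]
      exact Finset.sum_congr rfl fun l _ => by linear_combination g l j * hprop l j
    rw [mul_one, mul_zero] at this
    exact hh i j this
  obtain ⟨a, b, hab, hS⟩ := Finset.card_eq_two.1 hy2
  set g := ((y⁻¹ : GL ι F) : Matrix ι ι F) with hg_def
  set h := (y : Matrix ι ι F) with hh_def
  have hmemS : ∀ l, h l p ≠ 0 ↔ l = a ∨ l = b := fun l => by
    have : l ∈ (Finset.univ.filter fun l => h l p ≠ 0) ↔ l ∈ ({a, b} : Finset ι) := by rw [hS]
    simpa using this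
  have ha : h a p ≠ 0 := (hmemS a).2 (Or.inl rfl)
  have hgpa : g p a ≠ 0 := hinv y hy a p ha
  have hgG : y⁻¹ ∈ G := inv_mem hy
  have hlawa := hlaw y hy a p ha
  rw [hy2] at hlawa
  rw [Nat.cast_ofNat] at hlawa
  -- column `a` of the inverse has two non-zero entries
  have hga : size y⁻¹ a = 2 := by
    obtain ⟨o, hoa, hob⟩ : ∃ o, o ≠ a ∧ o ≠ b := by
      by_contra hc
      push Not at hc
      have := Finset.card_le_card (show (Finset.univ : Finset ι) ⊆ {a, b} from fun l _ => by
        by_cases e : l = a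
        · simp [e]
        · simp [hc l e])
      rw [Finset.card_univ] at this
      have := Finset.card_le_two (a := a) (b := b)
      omega
    have key : ∀ t : Fˣ, ∃ d : ι → Fˣ, y⁻¹ * mono 1 d * y⁻¹⁻¹ ∈ G ∧
        (∀ r, ((y⁻¹ * mono 1 d * y⁻¹⁻¹ : GL ι F) : Matrix ι ι F) r p =
          (if r = p then 1 else 0) + ((t : F) - 1) * (g r a * h a p)) ∧
        ((y⁻¹ * mono 1 d * y⁻¹⁻¹ : GL ι F)⁻¹ : Matrix ι ι F) p p = 1 + ((t : F)⁻¹ - 1) * (g p a * h a p) := by
      intro t
      obtain ⟨d, hd, hdet⟩ := exists_mono_det_one 1 (fun l => if l = a then t else 1) o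
      have hentry : ∀ (e : ι → Fˣ) (u : Fˣ), (∀ l, l ≠ o → e l = if l = a then u else 1) → ∀ r,
          ((y⁻¹ * mono 1 e * y⁻¹⁻¹ : GL ι F) : Matrix ι ι F) r p =
            (if r = p then 1 else 0) + ((u : F) - 1) * (g r a * h a p) := by
        intro e u he r
        rw [conj_diag_apply, ← sum_inv_mul y r p, inv_inv, ← sub_eq_iff_eq_add',
          ← Finset.sum_sub_distrib, Finset.sum_eq_single a (fun l _ hl => ?_) (by simp)]
        · rw [he a hoa.symm, if_pos rfl, ← hg_def, ← hh_def]; ring
        · rcases eq_or_ne l o with rfl | hlo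
          · have : h l p = 0 := by
              by_contra hne
              rcases (hmemS l).1 hne with e1 | e1
              · exact hoa e1
              · exact hob e1
            rw [← hg_def, ← hh_def, this]; ring
          · rw [he l hlo, if_neg hl, Units.val_one]; ring
      refine ⟨d, mul_mem (mul_mem hgG (hG _ _ hdet)) (inv_mem hgG), hentry d t hd, ?_⟩
      have e1 : (y⁻¹ * mono 1 d * y⁻¹⁻¹)⁻¹ = y⁻¹ * mono 1 (fun l => (d l)⁻¹) * y⁻¹⁻¹ := by
        rw [_root_.mul_inv_rev, _root_.mul_inv_rev, inv_inv, mul_assoc]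
        congr 1
      rw [← Matrix.coe_units_inv, e1, hentry _ t⁻¹ (fun l hl => by
        rw [hd l hl]; split_ifs <;> simp) p, if_pos rfl, Units.val_inv_eq_inv_val]
    have h2 : (2 : F) ≠ 0 := by
      have := hsz y hy p
      rwa [hy2, Nat.cast_ofNat] at this
    have hgh : g p a * h a p = 2⁻¹ := by
      rw [← hg_def, ← hh_def] at hlawa
      field_simp
      linear_combination hlawa
    obtain ⟨t, ht0, ht1, ht2⟩ := exists_ne_three hq 0 1 (-1)
    have hsuppeq : ∀ (u : Fˣ) (d : ι → Fˣ), (u : F) ≠ 1 →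
        (∀ r, ((y⁻¹ * mono 1 d * y⁻¹⁻¹ : GL ι F) : Matrix ι ι F) r p =
          (if r = p then 1 else 0) + ((u : F) - 1) * (g r a * h a p)) →
        (Finset.univ.filter fun r => ((y⁻¹ * mono 1 d * y⁻¹⁻¹ : GL ι F) : Matrix ι ι F) r p ≠ 0) =
          if (u : F) = -1 then (Finset.univ.filter fun r => g r a ≠ 0).erase p
          else Finset.univ.filter fun r => g r a ≠ 0 := by
      intro u d hu hcol
      have hpp : ((y⁻¹ * mono 1 d * y⁻¹⁻¹ : GL ι F) : Matrix ι ι F) p p = ((u : F) + 1) * 2⁻¹ := by
        rw [hcol, if_pos rfl, hgh]; field_simp; ring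
      ext r
      rcases eq_or_ne r p with rfl | hr
      · simp only [Finset.mem_filter, Finset.mem_univ, true_and, hpp]
        split_ifs with h1
        · simp [h1]
        · simp [hgpa, h2]
          exact fun e => h1 (by linear_combination e)
      · have : ((y⁻¹ * mono 1 d * y⁻¹⁻¹ : GL ι F) : Matrix ι ι F) r p ≠ 0 ↔ g r a ≠ 0 := by
          rw [hcol, if_neg hr, zero_add]
          simp [sub_ne_zero.2 hu, ha]
        simp only [Finset.mem_filter, Finset.mem_univ, true_and, this]
        split_ifs <;>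
          simp only [Finset.mem_erase, Finset.mem_filter, Finset.mem_univ, true_and, ne_eq, hr, not_false_eq_true]
    obtain ⟨d, hdG, hdcol, hdinv⟩ := key (Units.mk0 t ht0)
    rw [Units.val_mk0] at hdinv
    set K := size y⁻¹ a with hK
    have hsz1 : size (y⁻¹ * mono 1 d * y⁻¹⁻¹) p = K := by
      show Finset.card _ = Finset.card _
      rw [hsuppeq (Units.mk0 t ht0) d ht1 hdcol, if_neg (by simpa using ht2)]
    have hK1 : K ≠ 1 := by
      intro h1
      have hpp := hdcol p
      rw [if_pos rfl, hgh, Units.val_mk0] at hpp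
      have hpp0 : ((y⁻¹ * mono 1 d * y⁻¹⁻¹ : GL ι F) : Matrix ι ι F) p p ≠ 0 := by
        rw [hpp]
        intro e
        apply ht2
        field_simp at e
        linear_combination e
      have hl := hlaw _ hdG p p hpp0
      rw [hsz1, h1, hpp, Matrix.coe_units_inv, hdinv, hgh] at hl
      field_simp at hl
      have : (t - 1) ^ 2 = 0 := by linear_combination hl
      exact ht1 (sub_eq_zero.1 (pow_eq_zero_iff two_ne_zero |>.1 this))
    have h2s : size y⁻¹ a ≤ 2 ∨ size y⁻¹ a = Fintype.card ι := hsmall _ hgG a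
    have hKpos : 0 < K := Finset.card_pos.2 ⟨p, by simp [← hg_def, hgpa]⟩
    rcases h2s with h3 | h3
    · omega
    · exfalso
      obtain ⟨d', hd'G, hd'col, -⟩ := key (-1)
      have hcard : size (y⁻¹ * mono 1 d' * y⁻¹⁻¹) p = K - 1 := by
        show Finset.card _ = _
        have hne1 : ((-1 : Fˣ) : F) ≠ 1 := by
          simp only [Units.val_neg, Units.val_one]
          intro e; exact h2 (by linear_combination -e)
        rw [hsuppeq (-1) d' hne1 hd'col, if_pos (by simp), Finset.card_erase_of_mem (by simp [hgpa])]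
      rcases hsmall _ hd'G p with h4 | h4 <;> omega
  obtain ⟨r, hrp, hsupp⟩ : ∃ r, r ≠ p ∧ ∀ l, g l a ≠ 0 ↔ l = p ∨ l = r := by
    obtain ⟨u, v, huv, huvs⟩ := Finset.card_eq_two.1 hga
    have hm : ∀ l, g l a ≠ 0 ↔ l = u ∨ l = v := fun l => by
      have : l ∈ (Finset.univ.filter fun l => g l a ≠ 0) ↔ l ∈ ({u, v} : Finset ι) := by rw [huvs]
      simpa using this
    rcases (hm p).1 hgpa with rfl | rfl
    · exact ⟨v, huv.symm, hm⟩
    · exact ⟨u, huv, fun l => (hm l).trans or_comm⟩
  have hgra : g r a ≠ 0 := (hsupp r).2 (Or.inr rfl)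
  obtain ⟨c, hca, hcb⟩ : ∃ c, c ≠ a ∧ c ≠ b := by
    by_contra hc
    push Not at hc
    have := Finset.card_le_card (show (Finset.univ : Finset ι) ⊆ {a, b} from fun l _ => by
      by_cases e : l = a
      · simp [e]
      · simp [hc l e])
    rw [Finset.card_univ] at this
    have := Finset.card_le_two (a := a) (b := b)
    omega
  have hgpc : g p c = 0 := by
    by_contra hne
    rcases (hmemS c).1 (hinv' y hy c p hne) with e | e
    · exact hca e
    · exact hcb e
  obtain ⟨u, hup, hur, huc⟩ : ∃ u, u ≠ p ∧ u ≠ r ∧ g u c ≠ 0 := by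
    by_contra hc
    push Not at hc
    refine hgra (hblock _ hgG c r (fun l hl => ?_) a (Ne.symm hca))
    rcases eq_or_ne l p with rfl | h1
    · exact hgpc
    · exact hc l h1 hl
  have hsc : size y⁻¹ c ≤ 2 := by
    refine (hsmall _ hgG c).resolve_right fun h3 => ?_
    have hm : p ∈ Finset.univ.filter fun l => g l c ≠ 0 := by
      rw [Finset.eq_univ_of_card _ h3]; exact Finset.mem_univ _
    simp [hgpc] at hm
  -- the image of column `a` of the inverse
  obtain ⟨σ, hσp, hσr⟩ := exists_perm_two (a := p) (b := r) (Ne.symm hrp) (Ne.symm hca)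
  obtain ⟨β, hβ⟩ : ∃ β : Fˣ, g r a * g p a + g r c * β * g r a ≠ 0 := by
    obtain ⟨t, ht0, ht1, -⟩ := exists_ne_three hq 0 (-(g r a * g p a) / (g r c * g r a)) 0
    refine ⟨Units.mk0 t ht0, fun e => ?_⟩
    rw [Units.val_mk0] at e
    rcases eq_or_ne (g r c) 0 with h0 | h0
    · simp [h0, hgra, hgpa] at e
    · apply ht1
      field_simp
      apply mul_left_cancel₀ hgra
      linear_combination e
  obtain ⟨d, hd, hdet⟩ := exists_mono_det_one σ (fun l => if l = r then β else 1) u
  have hw : y⁻¹ * mono σ d * y⁻¹ ∈ G := mul_mem (mul_mem hgG (hG _ _ hdet)) hgG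
  have hcol : ∀ l, ((y⁻¹ * mono σ d * y⁻¹ : GL ι F) : Matrix ι ι F) l a =
      g l a * g p a + g l c * β * g r a := by
    intro l
    rw [Units.val_mul, mul_apply, sum_pair' (Ne.symm hrp) (fun m h1 h2 => ?_), mul_mono_apply,
      mul_mono_apply, hσp, hσr, hd p (Ne.symm hup), hd r (Ne.symm hur)]
    · simp [← hg_def, Ne.symm hrp]
    · have : g m a = 0 := by
        by_contra hne
        rcases (hsupp m).1 hne with e | e
        · exact h1 e
        · exact h2 e
      rw [← hg_def, this, mul_zero]
  set T := Finset.univ.filter fun l => ((y⁻¹ * mono σ d * y⁻¹ : GL ι F) : Matrix ι ι F) l a ≠ 0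
  have hgua : g u a = 0 := by
    by_contra hne
    rcases (hsupp u).1 hne with e | e
    · exact hup e
    · exact hur e
  have hsub : ({p, r, u} : Finset ι) ⊆ T := by
    intro l hl
    simp only [Finset.mem_insert, Finset.mem_singleton] at hl
    rw [Finset.mem_filter]
    refine ⟨Finset.mem_univ _, ?_⟩
    rw [hcol]
    rcases hl with rfl | rfl | rfl
    · simp [hgpc, hgpa]
    · exact hβ
    · simp [hgua, huc, hgra]
  have hle : T ⊆ ({p, r} : Finset ι) ∪ Finset.univ.filter fun l => g l c ≠ 0 := by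
    intro l hl
    rw [Finset.mem_filter, hcol] at hl
    simp only [Finset.mem_union, Finset.mem_insert, Finset.mem_singleton, Finset.mem_filter,
      Finset.mem_univ, true_and]
    by_contra hne
    push Not at hne
    have : g l a = 0 := by
      by_contra h1
      rcases (hsupp l).1 h1 with e | e
      · exact hne.1.1 e
      · exact hne.1.2 e
    exact hl.2 (by rw [this, hne.2]; ring)
  have h3 : 3 ≤ T.card := by
    refine le_trans ?_ (Finset.card_le_card hsub)
    rw [Finset.card_insert_of_notMem (by simp [Ne.symm hrp, Ne.symm hup]), Finset.card_pair (Ne.symm hur)]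
  have h4 : T.card ≤ 4 := by
    refine le_trans (Finset.card_le_card hle) (le_trans (Finset.card_union_le _ _) ?_)
    have := Finset.card_le_two (a := p) (b := r)
    have hsc' : (Finset.univ.filter fun l => g l c ≠ 0).card ≤ 2 := hsc
    omega
  rcases hsmall _ hw a with h5 | h5
  · have h5' : T.card ≤ 2 := h5; omega
  · have h5' : T.card = Fintype.card ι := h5; omega

end Cfsg.Agent.Lib.Forms
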