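import Cfsg.Agent.Lib.Forms.OrthStab
import Cfsg.Agent.Lib.Forms.FieldLineBasic

/-!
A quadratic form in odd characteristic whose polar form is the trace of a symmetric form over a
larger field: orthogonal families, Eichler elements and reflections over the larger field.
-/

set_option autoImplicit false

namespace Cfsg.Agent.Lib.Forms

open Matrix QuadraticMap Cfsg.Agent.Lib.Classical.Quad Cfsg.Agent.Lib.Classical.QuadOmega

variable {ι : Type} [Fintype ι] [DecidableEq ι] {F : Type*} [Field F]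

/-- An invertible matrix from two inverse linear maps. -/
noncomputable def glPair (f g : (ι → F) →ₗ[F] (ι → F)) : GL ι F :=
  haveI := Classical.dec (f ∘ₗ g = LinearMap.id ∧ g ∘ₗ f = LinearMap.id)
  if h : f ∘ₗ g = LinearMap.id ∧ g ∘ₗ f = LinearMap.id then
    ⟨LinearMap.toMatrix' f, LinearMap.toMatrix' g,
      by rw [← LinearMap.toMatrix'_comp, h.1, LinearMap.toMatrix'_id],
      by rw [← LinearMap.toMatrix'_comp, h.2, LinearMap.toMatrix'_id]⟩
  else 1

lemma glPair_mulVec {f g : (ι → F) →ₗ[F] (ι → F)} (h1 : ∀ x, f (g x) = x) (h2 : ∀ x, g (f x) = x)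
    (x : ι → F) : (glPair f g : Matrix ι ι F) *ᵥ x = f x := by
  rw [glPair, dif_pos ⟨LinearMap.ext h1, LinearMap.ext h2⟩]
  rw [← Matrix.toLin'_apply, Matrix.toLin'_toMatrix']

lemma comm_mem_omegaGL {f : (ι → F) → F} {g h : GL ι F}
    (hg : ∀ v, f ((g : Matrix ι ι F) *ᵥ v) = f v) (hh : ∀ v, f ((h : Matrix ι ι F) *ᵥ v) = f v) :
    g * h * g⁻¹ * h⁻¹ ∈ Cfsg.Geo.omegaGL f := by
  rw [omegaGL_eq]
  exact Subgroup.commutator_mem_commutator (H₁ := Cfsg.isometryGroup F f)
    (H₂ := Cfsg.isometryGroup F f) (fun u _ => hg u) (fun u _ => hh u)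

variable {Q : QuadraticForm F (ι → F)}
  {L : Type*} [Field L] [Algebra F L] [Module L (ι → F)] [IsScalarTower F L (ι → F)]

/-- A quadratic form whose polar form is the trace of a symmetric form over a larger field. -/
structure OrExt (Q : QuadraticForm F (ι → F)) (L : Type*) [Field L] [Algebra F L]
    [Module L (ι → F)] [IsScalarTower F L (ι → F)] where
  nd : Nd Q
  two : (2 : F) ≠ 0
  b : (ι → F) →ₗ[L] (ι → F) →ₗ[L] L
  comm : ∀ u v, b u v = b v u
  μ : L →ₗ[F] F
  one : μ 1 = 1
  hB : ∀ u v, polar Q u v = μ (b u v)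
  prime : (Module.finrank F L).Prime

namespace OrExt

variable (S : OrExt Q L)
include S

lemma finite_L : FiniteDimensional F L := Module.finite_of_finrank_pos S.prime.pos

lemma finite_V : Module.Finite L (ι → F) :=
  Module.Finite.of_restrictScalars_finite F L _

lemma twoL : (2 : L) ≠ 0 := by
  rw [show (2 : L) = algebraMap F L 2 from (map_ofNat _ 2).symm]
  simpa using S.two

lemma fourL : (4 : L) ≠ 0 := by
  rw [show (4 : L) = 2 * 2 by norm_num]
  exact mul_ne_zero S.twoL S.twoL

lemma two_Q (v : ι → F) : 2 * Q v = S.μ (S.b v v) := by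
  rw [← S.hB, polar_self, nsmul_eq_mul, Nat.cast_ofNat]

lemma Q_of_sing {v : ι → F} (h : S.b v v = 0) : Q v = 0 :=
  (mul_eq_zero.1 (by rw [S.two_Q, h, map_zero] : (2 : F) * Q v = 0)).resolve_left S.two

lemma mu_of_Q {v : ι → F} (h : Q v = 0) : S.μ (S.b v v) = 0 := by rw [← S.two_Q, h, mul_zero]

lemma polar_smul_L (k : L) (u v : ι → F) : polar Q (k • u) v = S.μ (k * S.b u v) := by
  rw [S.hB, map_smul, LinearMap.smul_apply, smul_eq_mul]

lemma μ_nd {x : L} (h : ∀ k, S.μ (k * x) = 0) : x = 0 := by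
  by_contra hx
  have := h x⁻¹
  rw [inv_mul_cancel₀ hx, S.one] at this
  exact one_ne_zero this

lemma b_nd {v : ι → F} (h : ∀ u, S.b u v = 0) : v = 0 :=
  S.nd v fun u => by rw [S.hB, S.comm, h, map_zero]

lemma exists_one {v : ι → F} (hv : v ≠ 0) : ∃ u, S.b v u = 1 := by
  by_contra hcon
  push Not at hcon
  refine hv (S.b_nd fun u => ?_)
  by_contra hu
  refine hcon ((S.b u v)⁻¹ • u) ?_
  rw [map_smul, smul_eq_mul, S.comm v u, inv_mul_cancel₀ hu]

lemma exists_partner {e : ι → F} (he : S.b e e = 0) (he0 : e ≠ 0) :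
    ∃ c, S.b c c = 0 ∧ S.b e c = 1 := by
  obtain ⟨u, hu⟩ := S.exists_one he0
  refine ⟨u - (S.b u u / 2) • e, ?_, ?_⟩
  · simp only [map_sub, map_smul, LinearMap.sub_apply, LinearMap.smul_apply, smul_eq_mul, he,
      S.comm u e, hu]
    field_simp [S.twoL]
    ring
  · simp [he, hu]

/-- A vector orthogonal to the orthogonal of two vectors lies in their span. -/
lemma mem_span_pair {x y u : ι → F} (h : ∀ v, S.b x v = 0 → S.b y v = 0 → S.b u v = 0) :
    ∃ p q : L, u = p • x + q • y := by
  haveI := S.finite_V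
  have key : (S.b u : (ι → F) →ₗ[L] L) ∈
      Submodule.span L (Set.range fun i => (S.b (![x, y] i) : (ι → F) →ₗ[L] L)) := by
    refine mem_span_of_iInf_ker_le_ker fun v hv => ?_
    rw [Submodule.mem_iInf] at hv
    exact h v (hv 0) (hv 1)
  obtain ⟨c, hc⟩ := (Submodule.mem_span_range_iff_exists_fun L).1 key
  refine ⟨c 0, c 1, sub_eq_zero.1 (S.b_nd fun v => ?_)⟩
  have := congrArg (fun f => f v) hc
  simp [Fin.sum_univ_two] at this
  rw [S.comm, map_sub, map_add, map_smul, map_smul]
  simp [this]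

/-- An orthogonal family of non-singular vectors. -/
structure Orth {k : ℕ} (vs : Fin k → ι → F) : Prop where
  ne : ∀ i, S.b (vs i) (vs i) ≠ 0
  orth : ∀ i j, i ≠ j → S.b (vs i) (vs j) = 0

lemma orth_snoc {k : ℕ} {vs : Fin k → ι → F} (h : S.Orth vs) {z : ι → F}
    (hz : ∀ i, S.b (vs i) z = 0) (hzz : S.b z z ≠ 0) : S.Orth (Fin.snoc vs z : Fin (k + 1) → _) := by
  refine ⟨fun i => ?_, fun i j hij => ?_⟩
  · refine Fin.lastCases ?_ (fun i => ?_) i
    · simpa using hzz
    · simpa using h.ne i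
  · revert hij
    refine Fin.lastCases ?_ (fun i => ?_) i <;> refine Fin.lastCases ?_ (fun j => ?_) j
    · simp
    · intro; simpa [S.comm z] using hz j
    · intro; simpa using hz i
    · intro hij; simpa using h.orth i j (fun e => hij (by rw [e]))

lemma orth_nil : S.Orth (Fin.elim0 : Fin 0 → ι → F) := ⟨fun i => i.elim0, fun i => i.elim0⟩

lemma orth_one {v : ι → F} (h : S.b v v ≠ 0) : S.Orth ![v] :=
  ⟨fun i => by fin_cases i; simpa using h, fun i j hij => absurd (Subsingleton.elim i j) hij⟩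

lemma orth_pair {e c : ι → F} (he : S.b e e = 0) (hc : S.b c c = 0) (hec : S.b e c = 1) :
    S.Orth ![e + c, e - c] := by
  have h2 := S.twoL
  refine ⟨fun i => ?_, fun i j hij => ?_⟩
  · fin_cases i <;> simp [he, hc, hec, S.comm c e] <;> norm_num <;> exact h2
  · fin_cases i <;> fin_cases j <;> simp [he, hc, hec, S.comm c e] at hij ⊢

lemma pair_perp {e c z : ι → F} :
    (∀ i, S.b (![e + c, e - c] i) z = 0) ↔ S.b e z = 0 ∧ S.b c z = 0 := by
  have h2 := S.twoL
  constructor
  · intro h
    have h0 : S.b e z + S.b c z = 0 := by simpa using h 0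
    have h1 : S.b e z - S.b c z = 0 := by simpa using h 1
    exact ⟨(mul_eq_zero.1 (by linear_combination h0 + h1 : (2 : L) * S.b e z = 0)).resolve_left h2,
      (mul_eq_zero.1 (by linear_combination h0 - h1 : (2 : L) * S.b c z = 0)).resolve_left h2⟩
  · rintro ⟨h, h'⟩ i
    fin_cases i <;> simp [h, h']

/-- Projection to the orthogonal of an orthogonal family. -/
lemma exists_pr {k : ℕ} {vs : Fin k → ι → F} (h : S.Orth vs) (v : ι → F) :
    ∃ v', (∀ i, S.b (vs i) v' = 0) ∧ ∀ z, (∀ i, S.b (vs i) z = 0) → S.b z v' = S.b z v := by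
  classical
  refine ⟨v - ∑ i, (S.b (vs i) v / S.b (vs i) (vs i)) • vs i, fun j => ?_, fun z hz => ?_⟩
  · rw [map_sub, map_sum, Finset.sum_eq_single j]
    · rw [map_smul, smul_eq_mul, div_mul_cancel₀ _ (h.ne j), sub_self]
    · intro i _ hij
      rw [map_smul, h.orth j i hij.symm, smul_zero]
    · simp
  · rw [map_sub, map_sum, Finset.sum_eq_zero fun i _ => by
      rw [map_smul, S.comm z, hz i, smul_zero], sub_zero]

lemma finrank_perp {k : ℕ} (vs : Fin k → ι → F) : Module.finrank L (ι → F) ≤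
    Module.finrank L (LinearMap.ker (LinearMap.pi fun i => S.b (vs i))) + k := by
  haveI := S.finite_V
  have h1 := (LinearMap.pi fun i => S.b (vs i)).finrank_range_add_finrank_ker
  have h2 := Submodule.finrank_le (LinearMap.range (LinearMap.pi fun i => S.b (vs i)))
  rw [Module.finrank_fin_fun] at h2
  omega

lemma mem_perp {k : ℕ} {vs : Fin k → ι → F} {z : ι → F} :
    z ∈ LinearMap.ker (LinearMap.pi fun i => S.b (vs i)) ↔ ∀ i, S.b (vs i) z = 0 := by
  simp [funext_iff]

/-- A non-singular vector orthogonal to an orthogonal family. -/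
lemma exists_ns {k : ℕ} {vs : Fin k → ι → F} (h : S.Orth vs)
    (hk : k < Module.finrank L (ι → F)) :
    ∃ z, (∀ i, S.b (vs i) z = 0) ∧ S.b z z ≠ 0 := by
  by_contra hcon
  push Not at hcon
  obtain ⟨z, hz, hz0⟩ := (LinearMap.ker (LinearMap.pi fun i => S.b (vs i))
    ).exists_mem_ne_zero_of_ne_bot fun e => by
      have := S.finrank_perp vs
      rw [e, finrank_bot] at this
      omega
  rw [S.mem_perp] at hz
  obtain ⟨u, hu⟩ := S.exists_one hz0
  obtain ⟨u', hu', hu''⟩ := S.exists_pr h u
  have h1 := hcon (z + u') fun i => by rw [map_add, hz i, hu' i, add_zero]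
  simp only [map_add, LinearMap.add_apply, hcon z hz, hcon u' hu', S.comm u' z, hu'' z hz, hu,
    zero_add, add_zero] at h1
  exact S.twoL (by linear_combination h1)

lemma exists_sq_pm : ∃ ε : L, ε ≠ 0 ∧ ε * ε ≠ 1 := by
  by_contra hcon
  push Not at hcon
  haveI := S.finite_L
  have hle : (⊤ : Submodule F L) ≤ F ∙ (1 : L) := fun l _ => by
    rcases eq_or_ne l 0 with rfl | hl
    · exact Submodule.zero_mem _
    rcases mul_self_eq_one_iff.1 (hcon l hl) with rfl | rfl
    · exact Submodule.mem_span_singleton_self _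
    · exact Submodule.neg_mem _ (Submodule.mem_span_singleton_self _)
  have := Submodule.finrank_mono hle
  rw [finrank_top, finrank_span_singleton one_ne_zero] at this
  have := S.prime.two_le
  omega

lemma exists_not_scalar : ∃ ν : L, ∀ c : F, ν ≠ algebraMap F L c := by
  by_contra hcon
  push Not at hcon
  haveI := S.finite_L
  have hle : (⊤ : Submodule F L) ≤ F ∙ (1 : L) := fun l _ => by
    obtain ⟨c, rfl⟩ := hcon l
    exact Submodule.mem_span_singleton.2 ⟨c, by rw [Algebra.smul_def, mul_one]⟩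
  have := Submodule.finrank_mono hle
  rw [finrank_top, finrank_span_singleton one_ne_zero] at this
  have := S.prime.two_le
  omega

/-- Some square multiple of a non-zero element has non-zero trace. -/
lemma exists_sq_μ {N : L} (hN : N ≠ 0) : ∃ t : L, S.μ (t * t * N) ≠ 0 := by
  by_contra hcon
  push Not at hcon
  refine hN (S.μ_nd fun k => ?_)
  have h1 := hcon (k + 1)
  have h2 := hcon k
  have h3 := hcon 1
  rw [show (k + 1) * (k + 1) * N = k * k * N + (2 : F) • (k * N) + 1 * 1 * N by
    rw [Algebra.smul_def, map_ofNat]; ring] at h1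
  rw [map_add, map_add, map_smul, h2, h3, zero_add, add_zero, smul_eq_mul] at h1
  exact (mul_eq_zero.1 h1).resolve_left S.two

section

variable [Finite F]

lemma finite_field : Finite L := by
  haveI := S.finite_L
  exact Module.finite_of_finite F

/-- A singular vector in a subspace of dimension three. -/
lemma exists_sing {W : Submodule L (ι → F)} (hW : 3 ≤ Module.finrank L W) :
    ∃ v ∈ W, v ≠ 0 ∧ S.b v v = 0 := by
  haveI := S.finite_field
  haveI := S.finite_V
  obtain ⟨v, hv, hv0, hq⟩ := exists_sing_in (LinearMap.BilinMap.toQuadraticMap S.b) hW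
  exact ⟨v, hv, hv0, hq⟩

/-- A vector of any norm orthogonal to an orthogonal family. -/
lemma exists_norm {k : ℕ} {vs : Fin k → ι → F} (h : S.Orth vs)
    (hk : k + 2 ≤ Module.finrank L (ι → F)) (t : L) :
    ∃ v, (∀ i, S.b (vs i) v = 0) ∧ S.b v v = t := by
  classical
  haveI := S.finite_field
  haveI : Fintype L := Fintype.ofFinite L
  obtain ⟨z, hz, hzz⟩ := S.exists_ns h (by omega)
  obtain ⟨z', hz', hzz'⟩ := S.exists_ns (S.orth_snoc h hz hzz) (by omega)
  have hz'0 : S.b z z' = 0 := by simpa using hz' (Fin.last k)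
  have hchar : ringChar L ≠ 2 := fun e => S.twoL (by
    haveI : CharP L 2 := e ▸ ringChar.charP L
    exact_mod_cast CharP.cast_eq_zero L 2)
  open Polynomial in
  obtain ⟨x, y, hxy⟩ := FiniteField.exists_root_sum_quadratic
    (f := C (S.b z z) * X ^ 2 + C (-t)) (g := C (S.b z' z') * X ^ 2)
    (by rw [degree_add_C (by simp [degree_C_mul_X_pow 2 hzz])]; exact degree_C_mul_X_pow 2 hzz)
    (degree_C_mul_X_pow 2 hzz')
    (Nat.odd_iff.1 (Nat.odd_iff.2 (FiniteField.odd_card_of_char_ne_two hchar)))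
  simp at hxy
  refine ⟨x • z + y • z', fun i => ?_, ?_⟩
  · rw [map_add, map_smul, map_smul, hz i, show S.b (vs i) z' = 0 by simpa using hz' i.castSucc]
    simp
  · simp only [map_add, map_smul, LinearMap.add_apply, LinearMap.smul_apply, smul_eq_mul, hz'0,
      S.comm z' z]
    linear_combination hxy

/-- A singular vector of the orthogonal of a family, pairing with a given vector of it. -/
lemma exists_sing_sep {k : ℕ} {vs : Fin k → ι → F} (h : S.Orth vs)
    (hk : k + 3 ≤ Module.finrank L (ι → F)) {u : ι → F} (hu : ∀ i, S.b (vs i) u = 0)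
    (hu0 : u ≠ 0) : ∃ a, (∀ i, S.b (vs i) a = 0) ∧ S.b a a = 0 ∧ S.b u a ≠ 0 := by
  have h2 := S.twoL
  obtain ⟨a, ha, ha0, haa⟩ := S.exists_sing (W := LinearMap.ker (LinearMap.pi fun i => S.b (vs i)))
    (by have := S.finrank_perp vs; omega)
  rw [S.mem_perp] at ha
  obtain ⟨w, hw⟩ := S.exists_one ha0
  obtain ⟨w', hw', hw''⟩ := S.exists_pr h w
  set c := w' - (S.b w' w' / 2) • a with hcdef
  have hc : ∀ i, S.b (vs i) c = 0 := fun i => by simp [hcdef, hw' i, ha i]
  have hac : S.b a c = 1 := by simp [hcdef, haa, hw'' a ha, hw]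
  have hcc : S.b c c = 0 := by
    simp only [hcdef, map_sub, map_smul, LinearMap.sub_apply, LinearMap.smul_apply, smul_eq_mul,
      haa, S.comm w' a, hw'' a ha, hw]
    field_simp
    ring
  by_cases h1 : S.b u a = 0
  swap
  · exact ⟨a, ha, haa, h1⟩
  by_cases h3 : S.b u c = 0
  swap
  · exact ⟨c, hc, hcc, h3⟩
  obtain ⟨y, hy⟩ := S.exists_one hu0
  obtain ⟨y', hy', hy''⟩ := S.exists_pr h y
  set z := y' - S.b y' c • a - S.b y' a • c with hzdef
  have hz : ∀ i, S.b (vs i) z = 0 := fun i => by simp [hzdef, hy' i, ha i, hc i]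
  have hza : S.b z a = 0 := by simp [hzdef, haa, S.comm c a, hac]
  have hzc : S.b z c = 0 := by simp [hzdef, hcc, hac]
  have huz : S.b u z = 1 := by simp [hzdef, h1, h3, hy'' u hu, hy]
  refine ⟨z + a - (S.b z z / 2) • c, fun i => by simp [hz i, ha i, hc i], ?_, ?_⟩
  · simp only [map_add, map_sub, map_smul, LinearMap.add_apply, LinearMap.sub_apply,
      LinearMap.smul_apply, smul_eq_mul, haa, hcc, hza, hzc, S.comm a z, S.comm c z, S.comm c a, hac]
    field_simp
    ring
  · rw [map_sub, map_add, map_smul, huz, h1, h3]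
    simp

end

/-! ### Eichler elements and reflections over the larger field -/

/-- The Eichler map. -/
noncomputable def etL (e v : ι → F) : (ι → F) →ₗ[F] (ι → F) :=
  ((LinearMap.id : (ι → F) →ₗ[L] (ι → F)) + (S.b.flip e).smulRight v -
    (S.b.flip v + (S.b v v / 2) • S.b.flip e).smulRight e).restrictScalars F

/-- The Eichler element. -/
noncomputable def et (e v : ι → F) : GL ι F := glPair (S.etL e v) (S.etL e (-v))

lemma et_mulVec {e v : ι → F} (he : S.b e e = 0) (hv : S.b e v = 0) (z : ι → F) :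
    (S.et e v : Matrix ι ι F) *ᵥ z =
      z + S.b z e • v - (S.b z v + S.b v v / 2 * S.b z e) • e := by
  have key : ∀ w : ι → F, S.b e w = 0 → ∀ x, S.etL e w (S.etL e (-w) x) = x := by
    intro w hw x
    simp only [etL, LinearMap.restrictScalars_apply, LinearMap.sub_apply, LinearMap.add_apply,
      LinearMap.id_apply, LinearMap.smulRight_apply, LinearMap.flip_apply, LinearMap.smul_apply,
      map_add, map_sub, map_neg, map_smul, LinearMap.neg_apply, smul_eq_mul, he, hw,
      S.comm w e, neg_neg]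
    have h2 := S.twoL
    match_scalars <;> field_simp <;> ring
  rw [et, glPair_mulVec (key v hv) (fun x => by
    have := key (-v) (by rw [map_neg, hv, neg_zero]) x
    rwa [neg_neg] at this)]
  simp only [etL, LinearMap.restrictScalars_apply, LinearMap.sub_apply, LinearMap.add_apply,
    LinearMap.id_apply, LinearMap.smulRight_apply, LinearMap.flip_apply, LinearMap.smul_apply,
    smul_eq_mul]

lemma et_add {e v v' : ι → F} (he : S.b e e = 0) (hv : S.b e v = 0) (hv' : S.b e v' = 0) :
    S.et e v * S.et e v' = S.et e (v + v') := by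
  refine gl_ext fun z => ?_
  have h2 := S.twoL
  rw [mul_mulVec', S.et_mulVec he hv', S.et_mulVec he hv,
    S.et_mulVec he (by rw [map_add, hv, hv', add_zero])]
  simp only [map_add, map_sub, map_smul, LinearMap.add_apply, LinearMap.sub_apply,
    LinearMap.smul_apply, smul_eq_mul, he, hv, hv', S.comm v e, S.comm v' e, S.comm v' v]
  match_scalars <;> field_simp <;> ring

lemma et_zero {e : ι → F} (he : S.b e e = 0) : S.et e 0 = 1 :=
  gl_ext fun z => by simp [S.et_mulVec he]

lemma et_neg {e v : ι → F} (he : S.b e e = 0) (hv : S.b e v = 0) :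
    (S.et e v)⁻¹ = S.et e (-v) :=
  inv_eq_of_mul_eq_one_right (by
    rw [S.et_add he hv (by rw [map_neg, hv, neg_zero]), add_neg_cancel, S.et_zero he])

/-- An isometry over the larger field. -/
def Good (g : GL ι F) : Prop :=
  (∀ (k : L) (z : ι → F), (g : Matrix ι ι F) *ᵥ (k • z) = k • ((g : Matrix ι ι F) *ᵥ z)) ∧
    ∀ x y, S.b ((g : Matrix ι ι F) *ᵥ x) ((g : Matrix ι ι F) *ᵥ y) = S.b x y

lemma good_mul {g g' : GL ι F} (hg : S.Good g) (hg' : S.Good g') : S.Good (g * g') :=
  ⟨fun k z => by rw [mul_mulVec', hg'.1, hg.1, mul_mulVec'],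
    fun x y => by rw [mul_mulVec', mul_mulVec', hg.2, hg'.2]⟩

lemma good_inv {g : GL ι F} (hg : S.Good g) : S.Good g⁻¹ :=
  ⟨fun k z => gl_mulVec_injective g (by
      show (g : Matrix ι ι F) *ᵥ _ = (g : Matrix ι ι F) *ᵥ _
      rw [mulVec_inv_mulVec, hg.1, mulVec_inv_mulVec]),
    fun x y => by rw [← hg.2, mulVec_inv_mulVec, mulVec_inv_mulVec]⟩

lemma good_iso {g : GL ι F} (hg : S.Good g) (v : ι → F) :
    Q ((g : Matrix ι ι F) *ᵥ v) = Q v :=
  mul_left_cancel₀ S.two (by rw [S.two_Q, S.two_Q, hg.2])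

lemma good_et {e v : ι → F} (he : S.b e e = 0) (hv : S.b e v = 0) : S.Good (S.et e v) := by
  have h2 := S.twoL
  refine ⟨fun k z => ?_, fun x y => ?_⟩
  · rw [S.et_mulVec he hv, S.et_mulVec he hv, map_smul, LinearMap.smul_apply, LinearMap.smul_apply,
      smul_eq_mul, smul_eq_mul]
    match_scalars <;> ring
  · rw [S.et_mulVec he hv, S.et_mulVec he hv]
    simp only [map_add, map_sub, map_smul, LinearMap.add_apply, LinearMap.sub_apply,
      LinearMap.smul_apply, smul_eq_mul, he, hv, S.comm v e, S.comm e y, S.comm v y]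
    field_simp
    ring

lemma et_conj {g : GL ι F} (hg : S.Good g) {e v : ι → F} (he : S.b e e = 0) (hv : S.b e v = 0) :
    g * S.et e v * g⁻¹ = S.et ((g : Matrix ι ι F) *ᵥ e) ((g : Matrix ι ι F) *ᵥ v) := by
  refine gl_ext fun z => ?_
  have e1 : ∀ w, S.b (((g⁻¹ : GL ι F) : Matrix ι ι F) *ᵥ z) w = S.b z ((g : Matrix ι ι F) *ᵥ w) :=
    fun w => by rw [← hg.2, mulVec_inv_mulVec]
  rw [mul_mulVec', mul_mulVec', S.et_mulVec he hv,
    S.et_mulVec (by rw [hg.2, he]) (by rw [hg.2, hv]), mulVec_sub, mulVec_add, hg.1, hg.1,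
    mulVec_inv_mulVec, e1, e1, hg.2]

/-- The negation of a hyperbolic pair. -/
lemma exists_negPair {e c : ι → F} (he : S.b e e = 0) (hc : S.b c c = 0) (hec : S.b e c = 1) :
    ∃ h : GL ι F, S.Good h ∧ ∀ z, (h : Matrix ι ι F) *ᵥ z =
      z - (2 * S.b z c) • e - (2 * S.b z e) • c := by
  let f : (ι → F) →ₗ[F] (ι → F) := ((LinearMap.id : (ι → F) →ₗ[L] (ι → F)) -
    ((2 : L) • S.b.flip c).smulRight e - ((2 : L) • S.b.flip e).smulRight c).restrictScalars F
  have hf : ∀ z, f z = z - (2 * S.b z c) • e - (2 * S.b z e) • c := fun z => rfl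
  have hff : ∀ z, f (f z) = z := fun z => by
    rw [hf, hf]
    simp only [map_sub, map_smul, LinearMap.sub_apply, LinearMap.smul_apply, smul_eq_mul, he, hc,
      hec, S.comm c e]
    module
  have key : ∀ z, (glPair f f : Matrix ι ι F) *ᵥ z = _ := fun z =>
    (glPair_mulVec hff hff z).trans (hf z)
  refine ⟨glPair f f, ⟨fun k z => ?_, fun x y => ?_⟩, key⟩
  · rw [key, key, map_smul, LinearMap.smul_apply, LinearMap.smul_apply, smul_eq_mul, smul_eq_mul]
    module
  · rw [key, key]
    simp only [map_sub, map_smul, LinearMap.sub_apply, LinearMap.smul_apply, smul_eq_mul, he, hc,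
      hec, S.comm c e, S.comm e y, S.comm c y]
    ring

lemma et_omega {e v : ι → F} (he : S.b e e = 0) (hv : S.b e v = 0) :
    S.et e v ∈ Cfsg.Geo.omegaGL ⇑Q := by
  have h2 := S.twoL
  rcases eq_or_ne e 0 with rfl | he0
  · have : S.et 0 v = 1 := gl_ext fun z => by simp [S.et_mulVec he hv]
    rw [this]; exact one_mem _
  obtain ⟨c, hc, hec⟩ := S.exists_partner he he0
  set v' := v - S.b v c • e with hv'
  have hev' : S.b e v' = 0 := by simp [hv', hv, he]
  have hcv' : S.b v' c = 0 := by simp [hv', hec]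
  have hsame : S.et e v = S.et e v' := gl_ext fun z => by
    rw [S.et_mulVec he hv, S.et_mulVec he hev']
    simp only [hv', map_sub, map_smul, LinearMap.sub_apply, LinearMap.smul_apply, smul_eq_mul, he,
      hv, S.comm v e, S.comm c e]
    match_scalars <;> field_simp <;> ring
  obtain ⟨h, hgood, hh⟩ := S.exists_negPair he hc hec
  set w := (-(1 / 2) : L) • v' with hw
  have hew : S.b e w = 0 := by simp [hw, hev']
  have := comm_mem_omegaGL (f := ⇑Q) (g := h) (h := S.et e w) (S.good_iso hgood)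
    (S.good_iso (S.good_et he hew))
  rw [S.et_conj hgood he hew, S.et_neg he hew] at this
  have e1 : (h : Matrix ι ι F) *ᵥ e = -e := by
    rw [hh, hec, he]
    match_scalars <;> ring
  have e2 : (h : Matrix ι ι F) *ᵥ w = w := by
    rw [hh, hw, map_smul, LinearMap.smul_apply, LinearMap.smul_apply, hcv', S.comm v' e, hev']
    simp
  have e3 : S.et (-e) w = S.et e (-w) := gl_ext fun z => by
    rw [S.et_mulVec (by simp [he]) (by simp [hew]), S.et_mulVec he (by simp [hew])]
    simp only [map_neg, LinearMap.neg_apply, neg_neg]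
    module
  rw [e1, e2, e3, S.et_add he (by simp [hew]) (by simp [hew])] at this
  rw [hsame]
  convert this using 2
  rw [hw]
  match_scalars <;> field_simp <;> ring

/-- The reflection in a non-singular vector. -/
lemma exists_refl {y : ι → F} (hy : S.b y y ≠ 0) :
    ∃ h : GL ι F, S.Good h ∧ h * h = 1 ∧ ∀ z, (h : Matrix ι ι F) *ᵥ z =
      z - (2 * S.b z y / S.b y y) • y := by
  let f : (ι → F) →ₗ[F] (ι → F) := ((LinearMap.id : (ι → F) →ₗ[L] (ι → F)) -
    ((2 / S.b y y : L) • S.b.flip y).smulRight y).restrictScalars F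
  have hf : ∀ z, f z = z - (2 * S.b z y / S.b y y) • y := fun z => by
    simp [f, mul_div_right_comm]
  have hff : ∀ z, f (f z) = z := fun z => by
    rw [hf, hf]
    simp only [map_sub, map_smul, LinearMap.sub_apply, LinearMap.smul_apply, smul_eq_mul]
    match_scalars
    · ring
    · field_simp
      ring
  have key : ∀ z, (glPair f f : Matrix ι ι F) *ᵥ z = _ := fun z =>
    (glPair_mulVec hff hff z).trans (hf z)
  refine ⟨glPair f f, ⟨fun k z => ?_, fun x z => ?_⟩,
    gl_ext fun z => by rw [mul_mulVec', key, key, ← hf, ← hf, hff]; simp, key⟩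
  · rw [key, key, map_smul, LinearMap.smul_apply, smul_eq_mul]
    match_scalars <;> ring
  · rw [key, key]
    simp only [map_sub, map_smul, LinearMap.sub_apply, LinearMap.smul_apply, smul_eq_mul,
      S.comm y z]
    field_simp
    ring

end OrExt

end Cfsg.Agent.Lib.Forms
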