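import Cfsg.Agent.Lib.Forms.OrExtBasic

/-!
Overgroups of the isometries over the larger field: an image of a singular line meets a singular
line in a hyperplane and is orthogonal to it over the larger field.
-/

set_option autoImplicit false

namespace Cfsg.Agent.Lib.Forms

open Matrix QuadraticMap Cfsg.Agent.Lib.Classical.Quad Cfsg.Agent.Lib.Classical.QuadOmega

variable {ι : Type} [Fintype ι] [DecidableEq ι] {F : Type*} [Field F]
  {Q : QuadraticForm F (ι → F)}
  {L : Type*} [Field L] [Algebra F L] [Module L (ι → F)] [IsScalarTower F L (ι → F)]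

/-- The image of a line under an element. -/
noncomputable def lineImg (g : GL ι F) (a : ι → F) : L →ₗ[F] (ι → F) :=
  Matrix.toLin' (g : Matrix ι ι F) ∘ₗ lineMap a

lemma lineImg_apply (g : GL ι F) (a : ι → F) (k : L) :
    lineImg g a k = (g : Matrix ι ι F) *ᵥ (k • a) := rfl

lemma lineImg_injective (g : GL ι F) {a : ι → F} (ha : a ≠ 0) :
    Function.Injective (lineImg (L := L) g a) :=
  (gl_mulVec_injective g).comp (lineMap_injective ha)

lemma mem_lineCap' {g : GL ι F} {a e : ι → F} {k : L} :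
    k ∈ lineCap g a e ↔ ∃ l : L, l • e = lineImg g a k := mem_lineCap

namespace OrExt

variable (S : OrExt Q L)
include S

/-- A group of Ω containing every isometry over the larger field that lies in Ω. -/
structure Over (M : Subgroup (GL ι F)) : Prop where
  le : M ≤ Cfsg.Geo.omegaGL ⇑Q
  good : ∀ g ∈ Cfsg.Geo.omegaGL ⇑Q, S.Good g → g ∈ M

variable {M : Subgroup (GL ι F)} (hO : S.Over M)
include hO

lemma et_mem {e v : ι → F} (he : S.b e e = 0) (hv : S.b e v = 0) : S.et e v ∈ M :=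
  hO.good _ (S.et_omega he hv) (S.good_et he hv)

lemma img_polar {g : GL ι F} (hg : g ∈ M) {a : ι → F} (ha : S.b a a = 0) (k k' : L) :
    S.μ (S.b (lineImg g a k) (lineImg g a k')) = 0 := by
  rw [← S.hB, lineImg_apply, lineImg_apply,
    polar_of_isometry (mem_isometryGroup_of_omega (hO.le hg)), S.hB]
  simp [ha]

variable [Finite F] (hw : 4 ≤ Module.finrank L (ι → F))
include hw

/-- An element fixing a hyperbolic pair and moving a vector orthogonal to it. -/
lemma exists_move_perp {e c x : ι → F} (he : S.b e e = 0) (hc : S.b c c = 0) (hec : S.b e c = 1)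
    (hex : S.b e x = 0) (hcx : S.b c x = 0) (hx : x ≠ 0) :
    ∃ T ∈ M, S.Good T ∧ (T : Matrix ι ι F) *ᵥ e = e ∧ (T : Matrix ι ι F) *ᵥ c = c ∧
      (T : Matrix ι ι F) *ᵥ x ≠ x := by
  have h2 := S.twoL
  -- from two reflections
  have build : ∀ y z : ι → F, S.b y y ≠ 0 → S.b z z ≠ 0 → S.b e y = 0 → S.b c y = 0 →
      S.b e z = 0 → S.b c z = 0 → ∃ T ∈ M, S.Good T ∧ (T : Matrix ι ι F) *ᵥ e = e ∧
      (T : Matrix ι ι F) *ᵥ c = c ∧ ∀ w : ι → F,
        let ry : (ι → F) → (ι → F) := fun w => w - (2 * S.b w y / S.b y y) • y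
        let rz : (ι → F) → (ι → F) := fun w => w - (2 * S.b w z / S.b z z) • z
        (T : Matrix ι ι F) *ᵥ w = rz (ry (rz (ry w))) := by
    intro y z hy hz hey hcy hez hcz
    obtain ⟨Y, hYg, hYY, hY⟩ := S.exists_refl hy
    obtain ⟨Z, hZg, hZZ, hZ⟩ := S.exists_refl hz
    have hTg : S.Good (Z * Y * Z * Y) := S.good_mul (S.good_mul (S.good_mul hZg hYg) hZg) hYg
    refine ⟨Z * Y * Z * Y, hO.good _ ?_ hTg, hTg, ?_, ?_, fun w => ?_⟩
    · have := comm_mem_omegaGL (f := ⇑Q) (g := Z) (h := Y) (S.good_iso hZg) (S.good_iso hYg)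
      rwa [inv_eq_of_mul_eq_one_right hZZ, inv_eq_of_mul_eq_one_right hYY] at this
    · rw [mul_mulVec', mul_mulVec', mul_mulVec']
      simp [hY, hZ, hey, hez]
    · rw [mul_mulVec', mul_mulVec', mul_mulVec']
      simp [hY, hZ, hcy, hcz]
    · rw [mul_mulVec', mul_mulVec', mul_mulVec']
      simp only [hY, hZ]
  obtain ⟨ε, hε, hε1⟩ := S.exists_sq_pm
  have horth := S.orth_pair he hc hec
  by_cases hxx : S.b x x = 0
  · obtain ⟨u, hu⟩ := S.exists_one hx
    obtain ⟨u', hu', hu''⟩ := S.exists_pr horth u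
    obtain ⟨hue, huc⟩ := S.pair_perp.1 hu'
    have hxu : S.b x u' = 1 := by rw [hu'' x (S.pair_perp.2 ⟨hex, hcx⟩), hu]
    set d := u' - (S.b u' u' / 2) • x with hd
    have hed : S.b e d = 0 := by simp [hd, hue, hex]
    have hcd : S.b c d = 0 := by simp [hd, huc, hcx]
    have hxd : S.b x d = 1 := by simp [hd, hxu, hxx]
    have hdd : S.b d d = 0 := by
      simp only [hd, map_sub, map_smul, LinearMap.sub_apply, LinearMap.smul_apply, smul_eq_mul,
        hxx, S.comm u' x, hxu]
      field_simp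
      ring
    have nY : S.b (x + d) (x + d) = 2 := by simp [hxx, hdd, hxd, S.comm d x]; norm_num
    have nZ : S.b (x + ε • d) (x + ε • d) = 2 * ε := by
      simp [hxx, hdd, hxd, S.comm d x]; ring
    obtain ⟨T, hT, hTg, hTe, hTc, hTf⟩ := build (x + d) (x + ε • d) (by rw [nY]; exact h2)
      (by rw [nZ]; exact mul_ne_zero h2 hε) (by simp [hex, hed]) (by simp [hcx, hcd])
      (by simp [hex, hed]) (by simp [hcx, hcd])
    refine ⟨T, hT, hTg, hTe, hTc, ?_⟩
    have e1 : (T : Matrix ι ι F) *ᵥ x = (ε * ε)⁻¹ • x := by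
      have A : ∀ t : L, t • x - (2 * S.b (t • x) (x + d) / S.b (x + d) (x + d)) • (x + d) =
          (-t) • d := fun t => by
        rw [show S.b (t • x) (x + d) = t by simp [hxx, hxd], nY, mul_div_cancel_left₀ _ h2]
        module
      have B : ∀ t : L, (-t) • d -
          (2 * S.b ((-t) • d) (x + ε • d) / S.b (x + ε • d) (x + ε • d)) • (x + ε • d) =
            (t / ε) • x := fun t => by
        rw [show S.b ((-t) • d) (x + ε • d) = -t by simp [hdd, S.comm d x, hxd], nZ]
        match_scalars <;> field_simp <;> ring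
      have A1 := A 1
      rw [one_smul] at A1
      rw [hTf]
      simp only [A1, B, A]
      congr 1
      rw [mul_inv, one_div, div_eq_mul_inv]
    rw [e1]
    intro e2
    have := smul_left_injective L hx (show (ε * ε)⁻¹ • x = (1 : L) • x by rw [e2, one_smul])
    exact hε1 (inv_eq_one.1 this)
  · have h3 := S.orth_snoc horth (S.pair_perp.2 ⟨hex, hcx⟩) hxx
    obtain ⟨z₁, hz₁, hz₁'⟩ := S.exists_ns h3 (by omega)
    obtain ⟨hez₁, hcz₁⟩ := S.pair_perp.1 fun i => by simpa using hz₁ i.castSucc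
    have hxz₁ : S.b x z₁ = 0 := by simpa using hz₁ (Fin.last 2)
    obtain ⟨s, hs, hs'⟩ : ∃ s : L, s ≠ 0 ∧ S.b x x + s * s * S.b z₁ z₁ ≠ 0 := by
      by_cases h0 : S.b x x + S.b z₁ z₁ = 0
      · refine ⟨ε, hε, fun h => hε1 ?_⟩
        have h4 : (ε * ε - 1) * S.b z₁ z₁ = 0 := by linear_combination h - h0
        exact sub_eq_zero.1 ((mul_eq_zero.1 h4).resolve_right hz₁')
      · exact ⟨1, one_ne_zero, by simpa using h0⟩
    have nZ : S.b (x + s • z₁) (x + s • z₁) = S.b x x + s * s * S.b z₁ z₁ := by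
      simp [hxz₁, S.comm z₁ x]; ring
    obtain ⟨T, hT, hTg, hTe, hTc, hTf⟩ := build x (x + s • z₁) hxx (by rw [nZ]; exact hs') hex hcx
      (by simp [hex, hez₁]) (by simp [hcx, hcz₁])
    refine ⟨T, hT, hTg, hTe, hTc, fun e1 => ?_⟩
    rw [hTf] at e1
    set R : (ι → F) → (ι → F) := fun w => w - (2 * S.b w (x + s • z₁) /
      S.b (x + s • z₁) (x + s • z₁)) • (x + s • z₁) with hR
    set Y : (ι → F) → (ι → F) := fun w => w - (2 * S.b w x / S.b x x) • x with hY
    have hzz : S.b (x + s • z₁) (x + s • z₁) ≠ 0 := by rw [nZ]; exact hs'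
    have hRR : ∀ w, R (R w) = w := fun w => by
      simp only [hR]
      generalize x + s • z₁ = z at hzz
      simp only [map_sub, map_smul, LinearMap.sub_apply, LinearMap.smul_apply, smul_eq_mul]
      match_scalars <;> field_simp <;> ring
    have e2 : Y (R (Y x)) = R x := by
      rw [← hRR (Y (R (Y x)))]
      exact congrArg R e1
    have e3 : S.b z₁ (Y (R (Y x))) = S.b z₁ (R x) := by rw [e2]
    have hYz : ∀ w, S.b z₁ (Y w) = S.b z₁ w := fun w => by simp [hY, S.comm z₁ x, hxz₁]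
    have hYx : Y x = -x := by
      simp only [hY]
      rw [mul_div_assoc, div_self hxx, mul_one, two_smul, sub_add_cancel_left]
    have hRn : R (-x) = -R x := by
      simp only [hR, map_neg, LinearMap.neg_apply]
      match_scalars <;> ring
    have hval : S.b z₁ (R x) =
        -(2 * S.b x x / (S.b x x + s * s * S.b z₁ z₁) * (s * S.b z₁ z₁)) := by
      simp [hR, S.comm z₁ x, hxz₁, nZ, mul_assoc]
    rw [hYz, hYx, hRn, map_neg] at e3
    refine absurd ?_ (neg_ne_zero.2 (mul_ne_zero (div_ne_zero (mul_ne_zero h2 hxx) hs')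
      (mul_ne_zero hs hz₁')))
    rw [← hval]
    exact (mul_eq_zero.1 (by linear_combination -e3 : (2 : L) * S.b z₁ (R x) = 0)).resolve_left h2

variable {s : ℕ} {g : GL ι F} (hg : g ∈ M) {a : ι → F} (ha0 : a ≠ 0) (haa : S.b a a = 0)

/-- The bound on intersections of images of singular lines with singular lines. -/
def IsBound (M : Subgroup (GL ι F)) (s : ℕ) : Prop :=
  ∀ g ∈ M, ∀ a e : ι → F, a ≠ 0 → e ≠ 0 → S.b a a = 0 → S.b e e = 0 →
    lineCap (L := L) g a e ≠ ⊥ → lineCap (L := L) g a e ≠ ⊤ →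
      Module.finrank F (lineCap (L := L) g a e) ≤ s

variable (hmax : S.IsBound M s) {e : ι → F} (he0 : e ≠ 0) (hee : S.b e e = 0)
  (hbot : lineCap (L := L) g a e ≠ ⊥) (hdim : Module.finrank F (lineCap (L := L) g a e) = s)
include hg ha0 haa hmax hbot hdim

omit [Finite F] hw in
/-- An element fixing the maximal intersection and keeping one more vector keeps everything. -/
lemma whole {T : GL ι F} (hT : T ∈ M)
    (hfix : ∀ k ∈ lineCap (L := L) g a e,
      (T : Matrix ι ι F) *ᵥ lineImg g a k = lineImg g a k)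
    {k₀ : L} (hk₀ : k₀ ∉ lineCap g a e)
    (hT₀ : ∃ l : L, lineImg g a l = (T : Matrix ι ι F) *ᵥ lineImg g a k₀) (k : L) :
    ∃ l : L, lineImg g a l = (T : Matrix ι ι F) *ᵥ lineImg g a k := by
  haveI := S.finite_L
  set g' := g⁻¹ * T * g with hg'
  have hmem : ∀ k : L, k ∈ lineCap g' a a ↔
      ∃ l : L, lineImg g a l = (T : Matrix ι ι F) *ᵥ lineImg g a k := by
    intro k
    rw [mem_lineCap]
    refine exists_congr fun l => ?_
    rw [hg', mul_mulVec', mul_mulVec', lineImg_apply, lineImg_apply]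
    constructor
    · intro h
      rw [h, mulVec_inv_mulVec]
    · intro h
      rw [← h, inv_mulVec_mulVec]
  have hle : lineCap g a e ≤ lineCap (L := L) g' a a := fun k hk =>
    (hmem k).2 ⟨k, (hfix k hk).symm⟩
  by_contra hcon
  have htop : lineCap (L := L) g' a a ≠ ⊤ := fun h => hcon ((hmem k).1 (h ▸ Submodule.mem_top))
  have hlt := Submodule.finrank_lt_finrank_of_lt (lt_of_le_of_ne hle fun h =>
    hk₀ (h ▸ (hmem k₀).2 hT₀))
  have hb : lineCap (L := L) g' a a ≠ ⊥ := fun h => hbot (eq_bot_iff.2 (h ▸ hle))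
  have := hmax g' (mul_mem (mul_mem (inv_mem hg) hT) hg) a a ha0 ha0 haa haa hb htop
  omega

include he0 hee

omit he0 in
/-- One more orthogonal vector makes the image orthogonal to the line. -/
lemma all_orth {k₀ : L} (hk₀ : k₀ ∉ lineCap g a e) (h0 : S.b (lineImg g a k₀) e = 0) (k₁ : L) :
    S.b (lineImg g a k₁) e = 0 := by
  by_contra hc
  haveI := S.finite_L
  haveI := S.finite_V
  set K₀ := LinearMap.ker ((S.b.flip e).restrictScalars F ∘ₗ lineImg (L := L) g a) with hK₀
  have hK : ∀ k, k ∈ K₀ ↔ S.b (lineImg g a k) e = 0 := fun k => by simp [hK₀]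
  set U := LinearMap.ker (LinearMap.pi fun i => S.b (![e, lineImg g a k₀] i)) with hU
  have hle : U.restrictScalars F ≤
      Submodule.map (lineImg g a) K₀ ⊔ LinearMap.range (lineMap (L := L) e) := by
    intro v hv
    rw [Submodule.restrictScalars_mem, hU, S.mem_perp] at hv
    set c := S.b (lineImg g a k₁) e with hcdef
    set v' := c⁻¹ • v with hv'
    have hv0 : S.b e v' = 0 := by simp [hv', show S.b e v = 0 from hv 0]
    have hv1 : S.b (lineImg g a k₀) v' = 0 := by
      simp [hv', show S.b (lineImg g a k₀) v = 0 from hv 1]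
    obtain ⟨k', hk'⟩ := S.whole hO hg ha0 haa hmax hbot hdim (S.et_mem hO hee hv0) (fun k hk => by
      obtain ⟨l, hl⟩ := mem_lineCap'.1 hk
      rw [← hl, S.et_mulVec hee hv0]
      simp [hee, hv0]) hk₀ ⟨k₀, by rw [S.et_mulVec hee hv0, h0, hv1]; simp⟩ k₁
    rw [S.et_mulVec hee hv0, ← hcdef, hv', smul_inv_smul₀ hc, ← hv'] at hk'
    set l := S.b (lineImg g a k₁) v' + S.b v' v' / 2 * c
    have e1 : lineImg g a (k' - k₁) + l • e = v := by rw [map_sub, hk']; abel
    refine Submodule.mem_sup.2 ⟨_, ⟨k' - k₁, (hK _).2 ?_, rfl⟩, _, ⟨l, rfl⟩, e1⟩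
    have := congrArg (fun z => S.b z e) e1
    simpa [hee, S.comm v e, show S.b e v = 0 from hv 0] using this
  have h1 := Submodule.finrank_mono hle
  have h2 : 2 * Module.finrank F L ≤ Module.finrank F ↥(U.restrictScalars F) := by
    show _ ≤ Module.finrank F U
    rw [← Module.finrank_mul_finrank F L U, mul_comm]
    refine Nat.mul_le_mul_left _ ?_
    have := S.finrank_perp ![e, lineImg g a k₀]
    rw [← hU] at this
    omega
  have h3 := Submodule.finrank_add_le_finrank_add_finrank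
    (Submodule.map (lineImg g a) K₀) (LinearMap.range (lineMap (L := L) e))
  have h4 : Module.finrank F ↥(Submodule.map (lineImg g a) K₀) < Module.finrank F L :=
    (Submodule.finrank_map_le _ _).trans_lt (Submodule.finrank_lt fun h =>
      hc ((hK k₁).1 (h ▸ Submodule.mem_top)))
  have h5 := LinearMap.finrank_range_le (lineMap (ι := ι) (F := F) (L := L) e)
  omega

omit he0 in
/-- If no further vector is orthogonal, a conjugate has one. -/
lemma exists_orth (hnone : ∀ k : L, k ∉ lineCap g a e → S.b (lineImg g a k) e ≠ 0)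
    (htop : lineCap (L := L) g a e ≠ ⊤) :
    ∃ g' ∈ M, lineCap (L := L) g' a a ≠ ⊥ ∧ lineCap (L := L) g' a a ≠ ⊤ ∧
      Module.finrank F (lineCap (L := L) g' a a) = s ∧
      ∃ k : L, k ∉ lineCap g' a a ∧ S.b (lineImg g' a k) a = 0 := by
  haveI := S.finite_L
  have h2 := S.twoL
  obtain ⟨k₁, hk₁⟩ : ∃ k₁, k₁ ∉ lineCap (L := L) g a e := by
    by_contra hcon
    push Not at hcon
    exact htop (eq_top_iff.2 fun k _ => hcon k)
  set u := lineImg g a k₁ with hu
  set β := S.b u e with hβ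
  have hβ0 : β ≠ 0 := hnone k₁ hk₁
  set c := β⁻¹ • u - (S.b u u / (2 * (β * β))) • e with hc
  have hec : S.b e c = 1 := by
    simp [hc, hee, S.comm e u, ← hβ, inv_mul_cancel₀ hβ0]
  have hcc : S.b c c = 0 := by
    simp only [hc, map_sub, map_smul, LinearMap.sub_apply, LinearMap.smul_apply, smul_eq_mul, hee,
      S.comm e u, ← hβ]
    field_simp
    ring
  have huc : u = β • c + (β * (S.b u u / (2 * (β * β)))) • e := by
    rw [hc, smul_sub, smul_inv_smul₀ hβ0, smul_smul, sub_add_cancel]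
  -- the image lies in the plane
  have plane : ∀ k : L, ∃ α γ : L, lineImg g a k = α • e + γ • c := by
    intro k
    set y := lineImg g a k with hy
    refine ⟨S.b y c, S.b y e, ?_⟩
    by_contra hne
    set x := y - S.b y c • e - S.b y e • c with hx
    have hx0 : x ≠ 0 := fun h => hne (by rw [hx, sub_sub, sub_eq_zero] at h; exact h)
    have hex : S.b e x = 0 := by simp [hx, hee, hec, S.comm e y]
    have hcx : S.b c x = 0 := by simp [hx, hcc, S.comm c e, hec, S.comm c y]
    obtain ⟨T, hT, hTg, hTe, hTc, hTx⟩ := S.exists_move_perp hO hw hee hcc hec hex hcx hx0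
    obtain ⟨k', hk'⟩ := S.whole hO hg ha0 haa hmax hbot hdim hT (fun k hk => by
      obtain ⟨l, hl⟩ := mem_lineCap'.1 hk
      rw [← hl, hTg.1, hTe]) hk₁ ⟨k₁, by
        rw [← hu, huc, mulVec_add, hTg.1, hTg.1, hTe, hTc]⟩ k
    have e1 : lineImg g a (k' - k) = (T : Matrix ι ι F) *ᵥ x - x := by
      rw [map_sub, hk', ← hy, hx, mulVec_sub, mulVec_sub, hTg.1, hTg.1, hTe, hTc]
      abel
    have hb : ∀ w, (T : Matrix ι ι F) *ᵥ w = w →
        S.b ((T : Matrix ι ι F) *ᵥ x - x) w = 0 := fun w hw' => by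
      rw [map_sub, LinearMap.sub_apply]
      conv_lhs => arg 1; rw [← hw', hTg.2]
      rw [sub_self]
    obtain ⟨l, hl⟩ := mem_lineCap'.1 (by
      by_contra hmem
      exact hnone (k' - k) hmem (by rw [e1, hb e hTe]) : k' - k ∈ lineCap g a e)
    have h0 := hb c hTc
    rw [← e1, ← hl, map_smul, LinearMap.smul_apply, hec, smul_eq_mul, mul_one] at h0
    rw [h0, zero_smul, e1, eq_comm, sub_eq_zero] at hl
    exact hTx hl
  obtain ⟨w₀, hw₀, hw₀0⟩ := (lineCap (L := L) g a e).exists_mem_ne_zero_of_ne_bot hbot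
  obtain ⟨ω, hω⟩ := mem_lineCap'.1 hw₀
  have hω0 : ω ≠ 0 := fun h => hw₀0 (lineImg_injective g ha0 (by rw [← hω, h, zero_smul, map_zero]))
  set t := ω / β with ht
  obtain ⟨v, hv, hvv⟩ := S.exists_norm (S.orth_pair hee hcc hec) (by omega) t
  obtain ⟨hev, hcv⟩ := S.pair_perp.1 hv
  have hperp : ∀ k, S.b (lineImg g a k) v = 0 := fun k => by
    obtain ⟨α, γ, h⟩ := plane k
    simp [h, hev, hcv]
  set T := S.et e v
  have hT := S.et_mem hO hee hev
  have hfix : ∀ k ∈ lineCap (L := L) g a e, (T : Matrix ι ι F) *ᵥ lineImg g a k = lineImg g a k := by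
    intro k hk
    obtain ⟨l, hl⟩ := mem_lineCap'.1 hk
    rw [← hl, S.et_mulVec hee hev]
    simp [hee, hev]
  have hTu : (T : Matrix ι ι F) *ᵥ u = u + β • v - (t / 2 * β) • e := by
    rw [S.et_mulVec hee hev, hu, hperp, ← hu, ← hβ, hvv, zero_add]
  set g' := g⁻¹ * T * g with hg'
  have hg'M : g' ∈ M := mul_mem (mul_mem (inv_mem hg) hT) hg
  have hgg : ∀ k : L, (g : Matrix ι ι F) *ᵥ lineImg g' a k = (T : Matrix ι ι F) *ᵥ lineImg g a k :=
    fun k => by rw [lineImg_apply, lineImg_apply, hg', mul_mulVec', mul_mulVec', mulVec_inv_mulVec]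
  have hmem : ∀ k : L, k ∈ lineCap g' a a ↔
      ∃ l : L, lineImg g a l = (T : Matrix ι ι F) *ᵥ lineImg g a k := by
    intro k
    rw [mem_lineCap']
    refine exists_congr fun l => ?_
    rw [← hgg, lineImg_apply g a l]
    exact ⟨fun h => by rw [h], fun h => gl_mulVec_injective g h⟩
  have hnot : k₁ ∉ lineCap g' a a := fun h => by
    obtain ⟨l, hl⟩ := (hmem k₁).1 h
    rw [← hu, hTu] at hl
    have h0 := congrArg (fun z => S.b z v) hl
    simp only [hperp, hev, hu, map_add, map_sub, map_smul, LinearMap.add_apply,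
      LinearMap.sub_apply, LinearMap.smul_apply, hvv, smul_eq_mul, mul_zero, zero_add, sub_zero,
      ht] at h0
    exact mul_ne_zero hβ0 (div_ne_zero hω0 hβ0) h0.symm
  have hle : lineCap g a e ≤ lineCap (L := L) g' a a := fun k hk =>
    (hmem k).2 ⟨k, (hfix k hk).symm⟩
  have hb' : lineCap (L := L) g' a a ≠ ⊥ := fun h => hbot (eq_bot_iff.2 (h ▸ hle))
  have ht' : lineCap (L := L) g' a a ≠ ⊤ := fun h => hnot (h ▸ Submodule.mem_top)
  refine ⟨g', hg'M, hb', ht', le_antisymm (hmax g' hg'M a a ha0 ha0 haa haa hb' ht')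
    (hdim ▸ Submodule.finrank_mono hle), k₁, hnot, S.μ_nd fun k => ?_⟩
  rw [← smul_eq_mul, ← map_smul, ← S.hB,
    ← polar_of_isometry (mem_isometryGroup_of_omega (hO.le hg)), hgg, ← lineImg_apply g a k,
    ← hu, hTu, S.hB]
  simp only [map_add, map_sub, map_smul, LinearMap.add_apply, LinearMap.sub_apply,
    LinearMap.smul_apply, smul_eq_mul, S.comm v (lineImg g a k), hperp, mul_zero, add_zero]
  rw [hu, S.img_polar hO hg haa, zero_sub, neg_eq_zero]
  have e2 : S.μ (ω * S.b e (lineImg g a k)) = 0 := by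
    have := S.img_polar hO hg haa w₀ k
    rwa [← hω, map_smul, LinearMap.smul_apply, smul_eq_mul] at this
  refine (mul_eq_zero.1 (?_ : (2 : F) * _ = 0)).resolve_left S.two
  rw [← smul_eq_mul, ← map_smul, Algebra.smul_def, map_ofNat, ← e2, ht]
  congr 1
  field_simp

omit he0 in
/-- When the image is orthogonal to the line, the intersection is a hyperplane. -/
lemma hyperplane (horth : ∀ k : L, S.b (lineImg g a k) e = 0) {k₀ : L}
    (hk₀ : k₀ ∉ lineCap g a e) (k : L) : ∃ t : F, k - t • k₀ ∈ lineCap g a e := by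
  haveI := S.finite_L
  set W' := Submodule.comap (lineMap (L := L) e) (LinearMap.range (lineImg (L := L) g a)) with hW'
  have hmemW : ∀ {l : L}, l ∈ W' ↔ ∃ k : L, lineImg g a k = l • e := by
    intro l
    simp [hW', lineMap_apply]
  obtain ⟨w₀, hw₀, hw₀0⟩ := (lineCap (L := L) g a e).exists_mem_ne_zero_of_ne_bot hbot
  obtain ⟨ω₀, hω₀⟩ := mem_lineCap'.1 hw₀
  have hbot' : W' ≠ ⊥ := fun h => hw₀0 (lineImg_injective g ha0 (by
    have : ω₀ ∈ W' := hmemW.2 ⟨w₀, hω₀.symm⟩
    rw [h, Submodule.mem_bot] at this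
    rw [← hω₀, this, zero_smul, map_zero]))
  have htop' : W' ≠ ⊤ := by
    intro h
    refine hk₀ (mem_lineCap'.2 ?_)
    have hle : LinearMap.range (lineMap (L := L) e) ≤ LinearMap.range (lineImg (L := L) g a) := by
      rintro _ ⟨l, rfl⟩
      obtain ⟨k, hk⟩ := hmemW.1 (h ▸ Submodule.mem_top : l ∈ W')
      exact ⟨k, hk⟩
    rcases eq_or_ne e 0 with rfl | he0
    · exact absurd (show lineCap (L := L) g a 0 = ⊥ from eq_bot_iff.2 fun k hk => by
        obtain ⟨l, hl⟩ := mem_lineCap'.1 hk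
        rw [smul_zero] at hl
        exact lineImg_injective g ha0 (by rw [← hl, map_zero])) hbot
    have := Submodule.eq_of_le_of_finrank_le hle (by
      rw [LinearMap.finrank_range_of_inj (lineMap_injective (L := L) he0),
        LinearMap.finrank_range_of_inj (lineImg_injective g ha0)])
    obtain ⟨l, hl⟩ := (this ▸ LinearMap.mem_range_self _ k₀ :
      lineImg g a k₀ ∈ LinearMap.range (lineMap (L := L) e))
    exact ⟨l, hl⟩
  set u := lineImg g a k₀ with hu
  -- vectors orthogonal to both generators are orthogonal to the image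
  have step : ∀ v, S.b e v = 0 → (∃ l : L, lineImg g a l =
      (S.et e v : Matrix ι ι F) *ᵥ u) → ∀ k : L, S.b (lineImg g a k) v ∈ W' := by
    intro v hv hl k
    obtain ⟨k', hk'⟩ := S.whole hO hg ha0 haa hmax hbot hdim (S.et_mem hO hee hv) (fun k hk => by
      obtain ⟨l, hl⟩ := mem_lineCap'.1 hk
      rw [← hl, S.et_mulVec hee hv]
      simp [hee, hv]) hk₀ hl k
    refine hmemW.2 ⟨k - k', ?_⟩
    rw [map_sub, hk', S.et_mulVec hee hv, horth]
    module
  have perp : ∀ v, S.b e v = 0 → S.b u v = 0 → S.b (lineImg g a k) v = 0 := by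
    intro v hv huv
    by_contra hne
    refine htop' (eq_top_iff.2 fun l _ => ?_)
    have := step ((l / S.b (lineImg g a k) v) • v) (by simp [hv]) ⟨k₀, by
      rw [S.et_mulVec hee (by simp [hv]), ← hu, map_smul, huv, hu, horth]
      simp⟩ k
    simpa [hne] using this
  obtain ⟨p, q, hpq⟩ := S.mem_span_pair perp
  have hue : ∀ l : L, u ≠ l • e := fun l hl => hk₀ (mem_lineCap'.2 ⟨l, hl.symm⟩)
  obtain ⟨v₀, hv₀, hv₀'⟩ : ∃ v₀, S.b e v₀ = 0 ∧ S.b u v₀ ≠ 0 := by
    by_contra hcon
    push Not at hcon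
    obtain ⟨p', q', h⟩ := S.mem_span_pair (x := e) (y := e) fun v hv _ => hcon v hv
    exact hue (p' + q') (by rw [h, add_smul])
  obtain ⟨t, ht⟩ := scalar_of_stab F S.prime hbot' htop' (l := q) fun ω hω => by
    have hv1 : S.b e ((ω / S.b u v₀) • v₀) = 0 := by simp [hv₀]
    have := step _ hv1 ⟨k₀ - (hmemW.1 hω).choose, by
      rw [map_sub, (hmemW.1 hω).choose_spec, S.et_mulVec hee hv1, ← hu, map_smul, hu, horth, ← hu,
        smul_eq_mul, div_mul_cancel₀ _ hv₀']
      simp⟩ k
    rw [hpq] at this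
    simp [hv₀] at this
    convert this using 1
    field_simp
  refine ⟨t, mem_lineCap'.2 ⟨p, ?_⟩⟩
  rw [map_sub, map_smul, hpq, ← hu, ← ht, algebraMap_smul]
  abel

end OrExt

end Cfsg.Agent.Lib.Forms
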