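import Cfsg.Agent.Lib.Forms.OrExtRoot
import Cfsg.Agent.Lib.Forms.FieldSubalg

/-!
The normaliser in Ω of a field of prime degree with self-adjoint elements is maximal.
-/

set_option autoImplicit false

namespace Cfsg.Agent.Lib.Forms

open Matrix QuadraticMap Cfsg.Agent.Lib.Classical.Quad Cfsg.Agent.Lib.Classical.QuadOmega

variable {ι : Type} [Fintype ι] [DecidableEq ι] {F : Type*} [Field F]
  {Q : QuadraticForm F (ι → F)}
  {L : Type*} [Field L] [Algebra F L] [Module L (ι → F)] [IsScalarTower F L (ι → F)]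

namespace OrExt

variable (S : OrExt Q L) [Finite F] (hw : 4 ≤ Module.finrank L (ι → F))
include S hw

lemma exists_step {x y : ι → F} (hx : S.b x x = 0) (hy : S.b y y = 0) (hs : S.b x y ≠ 0) :
    ∃ c v : ι → F, S.b c c = 0 ∧ S.b c v = 0 ∧ (S.et c v : Matrix ι ι F) *ᵥ x = y := by
  set s := S.b x y with hsdef
  set y₀ := s⁻¹ • y with hy₀
  have hy₀' : S.b y₀ y₀ = 0 := by simp [hy₀, hy]
  have hxy₀ : S.b x y₀ = 1 := by simp [hy₀, ← hsdef, inv_mul_cancel₀ hs]
  obtain ⟨d, hd, hdd⟩ := S.exists_norm (S.orth_pair hx hy₀' hxy₀) (by omega) (-(2 / s))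
  obtain ⟨hxd, hyd'⟩ := S.pair_perp.1 hd
  have hyd : S.b y d = 0 := by
    rw [hy₀, map_smul, LinearMap.smul_apply, smul_eq_mul] at hyd'
    exact (mul_eq_zero.1 hyd').resolve_left (inv_ne_zero hs)
  set c := s⁻¹ • (x + y) + d with hc
  have hxc : S.b x c = 1 := by simp [hc, hx, ← hsdef, hxd, inv_mul_cancel₀ hs]
  have hyc : S.b y c = 1 := by
    simp [hc, hy, S.comm y x, ← hsdef, hyd, inv_mul_cancel₀ hs]
  have hcc : S.b c c = 0 := by
    simp [hc, hx, hy, S.comm y x, ← hsdef, hxd, hyd, hdd, S.comm d x, S.comm d y]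
    field_simp
    ring
  have hcv : S.b c (y - x) = 0 := by rw [map_sub, S.comm c y, S.comm c x, hxc, hyc, sub_self]
  refine ⟨c, y - x, hcc, hcv, ?_⟩
  rw [S.et_mulVec hcc hcv, hxc]
  have hh := S.twoL
  simp only [map_sub, LinearMap.sub_apply, hx, hy, S.comm y x, ← hsdef]
  match_scalars <;> field_simp <;> ring

variable {M : Subgroup (GL ι F)} (hO : S.Over M)
include hO

/-- A property of singular vectors kept by the group holds for all of them. -/
lemma transitive {P : (ι → F) → Prop}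
    (hP : ∀ g ∈ M, S.Good g → ∀ x, P x → P ((g : Matrix ι ι F) *ᵥ x))
    {e : ι → F} (he : S.b e e = 0) (he0 : e ≠ 0) (h : P e) {x : ι → F} (hx : S.b x x = 0)
    (hx0 : x ≠ 0) : P x := by
  have move : ∀ {x y : ι → F}, S.b x x = 0 → S.b y y = 0 → S.b x y ≠ 0 → P x → P y := by
    intro x y hx hy hs h
    obtain ⟨c, v, hc, hv, rfl⟩ := S.exists_step hw hx hy hs
    exact hP _ (S.et_mem hO hc hv) (S.good_et hc hv) x h
  by_cases h0 : S.b e x = 0
  swap
  · exact move he hx h0 h
  obtain ⟨y, hy, h1, h2⟩ := S.exists_both hw he he0 hx hx0 h0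
  exact move hy hx h2 (move he hy h1 h)

omit [Finite F] hw in
lemma rootLine_conj {g : GL ι F} (hg : g ∈ M) (hgood : S.Good g) {x w : ι → F}
    (hx : S.b x x = 0) (h : RootLine Q M x w) :
    RootLine Q M ((g : Matrix ι ι F) *ᵥ x) ((g : Matrix ι ι F) *ᵥ w) :=
  h.conj hg (S.good_iso hgood) (S.Q_of_sing hx)

/-- The root lines inside every singular line over the field. -/
lemma line_all {e u : ι → F} (he : S.b e e = 0) (he0 : e ≠ 0) (heu : S.b e u = 0)
    (hue : ∀ l : L, u ≠ l • e) (h : RootLine Q M e u) {x : ι → F} (hx : S.b x x = 0)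
    (hx0 : x ≠ 0) (l : L) : RootLine Q M x (l • x) := by
  have base : ∀ l : L, RootLine Q M e (l • e) := by
    intro l
    obtain ⟨v₀, hv₀, hv₀'⟩ : ∃ v₀, S.b e v₀ = 0 ∧ S.b u v₀ ≠ 0 := by
      by_contra hcon
      push Not at hcon
      obtain ⟨p', q', h⟩ := S.mem_span_pair (x := e) (y := e) fun v hv _ => hcon v hv
      exact hue (p' + q') (by rw [h, add_smul])
    set v := (-l / S.b u v₀) • v₀ with hv
    have hev : S.b e v = 0 := by simp [hv, hv₀]
    have huv : S.b u v = -l := by simp [hv, div_mul_cancel₀ _ hv₀']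
    have h' := S.rootLine_conj hO (S.et_mem hO he hev) (S.good_et he hev) he h
    rw [S.et_mulVec he hev, S.et_mulVec he hev, he, hev, S.comm u e, heu, huv] at h'
    simp only [zero_smul, add_zero, mul_zero, sub_zero, neg_smul, sub_neg_eq_add] at h'
    exact h'.of_add (S.Q_of_sing he) h
  refine S.transitive hw hO (P := fun x => S.b x x = 0 ∧ ∀ l : L, RootLine Q M x (l • x))
    (fun g hg hgood y hy => ⟨by rw [hgood.2, hy.1], fun l => ?_⟩) he he0 ⟨he, base⟩ hx hx0 |>.2 l
  rw [← hgood.1]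
  exact S.rootLine_conj hO hg hgood hy.1 (hy.2 l)

/-- Lines meeting a singular line off its orthogonal give the whole orthogonal hyperplane. -/
lemma span_root {e : ι → F} (he : S.b e e = 0) (he0 : e ≠ 0)
    (hline : ∀ l : L, RootLine Q M e (l • e))
    (hoff : ∀ c, S.b c c = 0 → S.b e c ≠ 0 → S.μ (S.b e c) = 0 → RootLine Q M e c)
    {x : ι → F} (hx : polar Q e x = 0) : RootLine Q M e x := by
  haveI := S.finite_L
  have hQe := S.Q_of_sing he
  obtain ⟨c₁, hc₁, hec₁⟩ := S.exists_partner he he0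
  obtain ⟨β, hβ, hβ0⟩ := (LinearMap.ker S.μ).exists_mem_ne_zero_of_ne_bot fun h => by
    have h1 := S.μ.finrank_range_add_finrank_ker
    have h2 := Submodule.finrank_le (LinearMap.range S.μ)
    rw [h, finrank_bot] at h1
    rw [Module.finrank_self] at h2
    have := S.prime.two_le
    omega
  rw [LinearMap.mem_ker] at hβ
  have off : ∀ b : L, S.μ b = 0 → RootLine Q M e (b • c₁) := by
    intro b hb
    rcases eq_or_ne b 0 with rfl | hb0
    · simpa using hline 0
    · exact hoff _ (by simp [hc₁]) (by simp [hec₁, hb0]) (by simp [hec₁, hb])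
  have perp : ∀ v, S.b e v = 0 → RootLine Q M e v := by
    intro v hv
    set v' := β⁻¹ • (v - S.b v c₁ • e) with hv'
    have hev' : S.b e v' = 0 := by simp [hv', hv, he]
    have hcv' : S.b c₁ v' = 0 := by simp [hv', S.comm c₁ v, S.comm c₁ e, hec₁]
    set T := S.et e v'
    have hT : (T : Matrix ι ι F) *ᵥ (β • c₁) =
        β • c₁ + (v + (-(S.b v c₁) - S.b v' v' / 2 * β) • e) := by
      rw [S.et_mulVec he hev', map_smul, LinearMap.smul_apply, LinearMap.smul_apply, hcv',
        S.comm c₁ e, hec₁, hv']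
      simp only [smul_eq_mul, mul_one, mul_zero, smul_inv_smul₀ hβ0, zero_add]
      module
    have hTc := hoff ((T : Matrix ι ι F) *ᵥ (β • c₁)) (by
        rw [(S.good_et he hev').2]; simp [hc₁])
      (by rw [hT]; simp [hec₁, hv, he, hβ0]) (by rw [hT]; simp [hec₁, hv, he, hβ])
    rw [hT] at hTc
    have h2 := hTc.of_add hQe (off β hβ)
    rw [add_comm v] at h2
    exact h2.of_add hQe (hline _)
  rw [show x = S.b e x • c₁ + (x - S.b e x • c₁) by abel]
  exact (off _ (by rw [← S.hB, hx])).add hQe (perp _ (by simp [hec₁]))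

/-- Degree at least three. -/
lemma off_three (h3 : 3 ≤ Module.finrank F L)
    (hline : ∀ x, S.b x x = 0 → x ≠ 0 → ∀ l : L, RootLine Q M x (l • x)) {e c : ι → F}
    (he : S.b e e = 0) (he0 : e ≠ 0) (hc : S.b c c = 0) (hec : S.b e c ≠ 0)
    (hμ : S.μ (S.b e c) = 0) : RootLine Q M e c := by
  haveI := S.finite_L
  set β := S.b e c with hβ
  have hc0 : c ≠ 0 := fun h => hec (by rw [hβ, h, map_zero])
  set K := LinearMap.ker (S.μ ∘ₗ LinearMap.mulRight F β) with hK
  have hmem : ∀ k, k ∈ K ↔ S.μ (k * β) = 0 := fun k => by simp [hK]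
  have hKbig : 2 ≤ Module.finrank F K := by
    have h1 := (S.μ ∘ₗ LinearMap.mulRight F β).finrank_range_add_finrank_ker
    have h2 := Submodule.finrank_le (LinearMap.range (S.μ ∘ₗ LinearMap.mulRight F β))
    rw [Module.finrank_self] at h2
    rw [← hK] at h1
    omega
  obtain ⟨m, hmK, hm⟩ : ∃ m ∈ K, ∀ t : F, algebraMap F L t ≠ m := by
    by_contra hcon
    push Not at hcon
    have h1 := Submodule.finrank_mono (show K ≤ F ∙ (1 : L) from fun k hk => by
      obtain ⟨t, rfl⟩ := hcon k hk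
      exact Submodule.mem_span_singleton.2 ⟨t, by rw [Algebra.smul_def, mul_one]⟩)
    rw [finrank_span_singleton one_ne_zero] at h1
    omega
  obtain ⟨l, hlK, hl⟩ : ∃ l ∈ K, m * l ∉ K := by
    by_contra hcon
    push Not at hcon
    obtain ⟨t, ht⟩ := scalar_of_stab F S.prime
      (fun h => by rw [h, finrank_bot] at hKbig; omega)
      (fun h => by
        have : β⁻¹ ∈ K := h ▸ Submodule.mem_top
        rw [hmem, inv_mul_cancel₀ hec, S.one] at this
        exact one_ne_zero this) hcon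
    exact hm t ht
  rw [hmem] at hmK hlK hl
  refine (hline e he he0 l).comm (S.Q_of_sing he) (S.Q_of_sing (by simp [he])) (S.Q_of_sing hc)
    (S.Q_of_sing (by simp [hc])) (hline c hc hc0 m) (by rw [S.hB]; exact hμ) ?_ ?_ ?_
  · rw [S.hB, map_smul, smul_eq_mul]; exact hmK
  · rw [S.polar_smul_L]; exact hlK
  · rw [S.polar_smul_L, map_smul, smul_eq_mul, show l * (m * β) = m * l * β by ring]; exact hl

/-- Degree two: the orthogonal of a line over the field. -/
lemma perp_two (hw7 : 7 ≤ Module.finrank L (ι → F)) {e u : ι → F} (he : S.b e e = 0) (he0 : e ≠ 0)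
    (heu : S.b e u = 0) (hue : ∀ l : L, u ≠ l • e) (h : RootLine Q M e u)
    (hline : ∀ l : L, RootLine Q M e (l • e)) {x : ι → F} (hx : S.b e x = 0) :
    RootLine Q M e x := by
  have hQe := S.Q_of_sing he
  obtain ⟨c₁, hc₁, hec₁⟩ := S.exists_partner he he0
  have horth := S.orth_pair he hc₁ hec₁
  set u' := u - S.b u c₁ • e with hu'
  have hu'p : ∀ i, S.b (![e + c₁, e - c₁] i) u' = 0 := S.pair_perp.2
    ⟨by simp [hu', heu, he], by simp [hu', S.comm c₁ u, S.comm c₁ e, hec₁]⟩
  have hu'0 : u' ≠ 0 := fun h0 => hue _ (sub_eq_zero.1 (by rw [← hu']; exact h0))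
  obtain ⟨c, hc, hcc, huc⟩ := S.exists_sing_sep horth (by omega) hu'p hu'0
  obtain ⟨hec, hc₁c⟩ := S.pair_perp.1 hc
  have huc' : S.b u c ≠ 0 := by simpa [hu', hec] using huc
  obtain ⟨d, hd⟩ := S.exists_one (fun h0 => huc' (by rw [h0, map_zero]) : c ≠ 0)
  obtain ⟨d', hd', hd''⟩ := S.exists_pr horth d
  obtain ⟨hed', hc₁d'⟩ := S.pair_perp.1 hd'
  have hcd' : S.b c d' = 1 := by rw [hd'' c hc, hd]
  set c₂ := d' - (S.b d' d' / 2) • c with hc₂def
  have hec₂ : S.b e c₂ = 0 := by simp [hc₂def, hed', hec]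
  have hc₁c₂ : S.b c₁ c₂ = 0 := by simp [hc₂def, hc₁d', hc₁c]
  have hcc₂ : S.b c c₂ = 1 := by simp [hc₂def, hcd', hcc]
  have hc₂ : S.b c₂ c₂ = 0 := by
    simp only [hc₂def, map_sub, map_smul, LinearMap.sub_apply, LinearMap.smul_apply, smul_eq_mul,
      hcc, S.comm d' c, hcd']
    field_simp [S.twoL]
    ring
  have h3 := S.orth_snoc horth (z := c + c₂) (S.pair_perp.2 ⟨by simp [hec, hec₂],
    by simp [hc₁c, hc₁c₂]⟩) (by simp [hcc, hc₂, hcc₂, S.comm c₂ c]; norm_num; exact S.twoL)
  obtain ⟨N, hN, hNN⟩ := S.exists_ns (S.orth_snoc h3 (z := c - c₂) (fun i => by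
    refine Fin.lastCases ?_ (fun i => ?_) i
    · simp [hcc, hc₂, hcc₂, S.comm c₂ c]
    · have := (S.pair_perp.2 ⟨(by simp [hec, hec₂] : S.b e (c - c₂) = 0),
        (by simp [hc₁c, hc₁c₂] : S.b c₁ (c - c₂) = 0)⟩) i
      simpa using this) (by simp [hcc, hc₂, hcc₂, S.comm c₂ c]; norm_num; exact S.twoL)) (by omega)
  obtain ⟨heN, -⟩ := (S.pair_perp (e := e) (c := c₁) (z := N)).1 fun i => by
    fin_cases i
    · simpa using hN 0
    · simpa using hN 1
  have hpair := (S.pair_perp (e := c) (c := c₂) (z := N)).1 fun i => by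
    fin_cases i
    · simpa using hN 2
    · simpa using hN 3
  -- a vector in the group and a singular vector pairing with it
  have step : ∀ {u c : ι → F}, RootLine Q M e u → S.b e u = 0 → S.b c c = 0 → S.b e c = 0 →
      S.b u c ≠ 0 → S.b c N = 0 →
      ∀ {z}, S.b e z = 0 → S.b c z = 0 → RootLine Q M e z := by
    intro u c hu heu hcc hec huc hcN z hez hcz
    set β := S.b u c with hβ
    have key : ∀ v, S.b e v = 0 → S.b c v = 0 →
        RootLine Q M e (β • v - (S.b u v + S.b v v / 2 * β) • c) := by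
      intro v hev hcv
      have h' := S.rootLine_conj hO (S.et_mem hO hcc hcv) (S.good_et hcc hcv) he hu
      rw [S.et_mulVec hcc hcv, S.et_mulVec hcc hcv, hec, hev] at h'
      simp only [zero_smul, add_zero, mul_zero, sub_zero] at h'
      rw [add_sub_assoc] at h'
      exact h'.of_add hQe hu
    have hall : ∀ l : L, RootLine Q M e (l • c) := by
      have sq : ∀ t : L, RootLine Q M e ((t * t * (S.b N N * β)) • c) := by
        intro t
        have h1 := key (t • N) (by simp [heN]) (by simp [hcN])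
        have h2 := key (-(t • N)) (by simp [heN]) (by simp [hcN])
        have h12 := (h1.add hQe h2).smul (-1)
        convert h12 using 1
        simp only [map_neg, LinearMap.neg_apply, neg_neg, map_smul, LinearMap.smul_apply,
          smul_eq_mul]
        rw [neg_one_smul]
        have := S.twoL
        match_scalars <;> field_simp <;> ring
      intro l
      have hne : S.b N N * β ≠ 0 := mul_ne_zero hNN huc
      set k := l / (S.b N N * β)
      have e0 : l • c = ((k + 1) / 2 * ((k + 1) / 2) * (S.b N N * β)) • c +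
          (-1 : F) • (((k - 1) / 2 * ((k - 1) / 2) * (S.b N N * β)) • c) := by
        rw [neg_one_smul]
        have := S.twoL
        have e1 : l = k * (S.b N N * β) := (div_mul_cancel₀ _ hne).symm
        rw [e1]
        match_scalars
        field_simp
        ring
      rw [e0]
      exact (sq _).add hQe ((sq _).smul _)
    have h1 := key (β⁻¹ • z) (by simp [hez]) (by simp [hcz])
    rw [smul_inv_smul₀ huc, sub_eq_add_neg, ← neg_smul] at h1
    rw [add_comm] at h1
    exact h1.of_add hQe (hall _)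
  have hR1 : ∀ {z}, S.b e z = 0 → S.b c z = 0 → RootLine Q M e z :=
    step h heu hcc hec huc' hpair.1
  have hR2 : ∀ {z}, S.b e z = 0 → S.b c₂ z = 0 → RootLine Q M e z :=
    step (hR1 hec hcc) hec hc₂ hec₂ (by rw [hcc₂]; exact one_ne_zero) hpair.2
  rw [show x = (x - S.b c x • c₂) + S.b c x • c₂ by abel]
  exact (hR1 (by simp [hx, hec₂]) (by simp [hcc₂])).add hQe
    (hR2 (by simp [hec₂]) (by simp [hc₂]))

/-- Every root element of a singular vector over the field. -/
lemma full_root (hdim : 3 ≤ Module.finrank F L ∨ 7 ≤ Module.finrank L (ι → F)) {e₀ u : ι → F}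
    (he₀ : S.b e₀ e₀ = 0) (he₀0 : e₀ ≠ 0) (heu : S.b e₀ u = 0) (hue : ∀ l : L, u ≠ l • e₀)
    (h : RootLine Q M e₀ u) {e x : ι → F} (he : S.b e e = 0) (he0 : e ≠ 0)
    (hx : polar Q e x = 0) : RootLine Q M e x := by
  have hline : ∀ x, S.b x x = 0 → x ≠ 0 → ∀ l : L, RootLine Q M x (l • x) :=
    fun x hx hx0 => S.line_all hw hO he₀ he₀0 heu hue h hx hx0
  refine S.span_root hw hO he he0 (hline e he he0) (fun c hc hec hμ => ?_) hx
  by_cases h3 : 3 ≤ Module.finrank F L
  · exact S.off_three hw hO h3 hline he he0 hc hec hμ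
  have hw7 := hdim.resolve_left h3
  have perp : ∀ e, S.b e e = 0 → e ≠ 0 → ∀ x, S.b e x = 0 → RootLine Q M e x := by
    intro e he he0
    exact (S.transitive hw hO (P := fun e => S.b e e = 0 ∧ ∀ x, S.b e x = 0 → RootLine Q M e x)
      (fun g hg hgood y hy => ⟨by rw [hgood.2, hy.1], fun x hx => by
        have hx' : S.b y (((g⁻¹ : GL ι F) : Matrix ι ι F) *ᵥ x) = 0 := by
          rw [← hgood.2, mulVec_inv_mulVec, hx]
        simpa [mulVec_inv_mulVec] using S.rootLine_conj hO hg hgood hy.1 (hy.2 _ hx')⟩)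
      he₀ he₀0 ⟨he₀, fun x hx => S.perp_two hw hO hw7 he₀ he₀0 heu hue h
        (hline e₀ he₀ he₀0) hx⟩ he he0).2
  set β := S.b e c with hβ
  set c₁ := β⁻¹ • c with hc₁def
  have hc₁ : S.b c₁ c₁ = 0 := by simp [hc₁def, hc]
  have hec₁ : S.b e c₁ = 1 := by simp [hc₁def, ← hβ, inv_mul_cancel₀ hec]
  have horth := S.orth_pair he hc₁ hec₁
  obtain ⟨z, hz, hzz⟩ := S.exists_ns horth (by omega)
  obtain ⟨p, hp, hpp, hzp⟩ := S.exists_sing_sep horth (by omega) hz
    (fun h0 => hzz (by rw [h0, map_zero]))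
  have hp0 : p ≠ 0 := fun h0 => hzp (by rw [h0, map_zero])
  obtain ⟨d, hd⟩ := S.exists_one hp0
  obtain ⟨d', hd', hd''⟩ := S.exists_pr horth d
  obtain ⟨hep, hcp'⟩ := S.pair_perp.1 hp
  obtain ⟨hed, hcd'⟩ := S.pair_perp.1 hd'
  set d₁ := d' - (S.b d' d' / 2) • p with hd₁def
  have hed₁ : S.b e d₁ = 0 := by simp [hd₁def, hed, hep]
  have hcp : S.b c p = 0 := by
    simpa [hc₁def, hec] using hcp'
  have hcd : S.b c d₁ = 0 := by
    simpa [hd₁def, hcp, hc₁def, hec] using hcd'
  have hpd : S.b p d₁ = 1 := by simp [hd₁def, hpp, hd'' p hp, hd]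
  have hdd : S.b d₁ d₁ = 0 := by
    simp only [hd₁def, map_sub, map_smul, LinearMap.sub_apply, LinearMap.smul_apply, smul_eq_mul,
      hpp, S.comm d' p, hd'' p hp, hd]
    field_simp [S.twoL]
    ring
  have hc0 : c ≠ 0 := fun h0 => hec (by rw [hβ, h0, map_zero])
  refine (perp e he he0 p hep).comm (S.Q_of_sing he) (S.Q_of_sing hpp) (S.Q_of_sing hc)
    (S.Q_of_sing hdd) (perp c hc hc0 d₁ hcd) (by rw [S.hB]; exact hμ) ?_ ?_ ?_
  · rw [S.hB, hed₁, map_zero]
  · rw [S.hB, S.comm, hcp, map_zero]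
  · rw [S.hB, hpd, S.one]; exact one_ne_zero

omit hO in
/-- The normaliser of the field is maximal. -/
theorem maximal [Fintype F] (hn : 13 ≤ Fintype.card ι)
    (hdim : 3 ≤ Module.finrank F L ∨ 7 ≤ Module.finrank L (ι → F)) {H : Subgroup (GL ι F)}
    (hH : H ≤ Cfsg.Geo.omegaGL ⇑Q)
    (hmem : ∀ g ∈ Cfsg.Geo.omegaGL ⇑Q, (g ∈ H ↔
      ∀ (a : ι → F) (k : L), ∃ l : L, (g : Matrix ι ι F) *ᵥ (k • a) =
        l • ((g : Matrix ι ι F) *ᵥ a))) :
    Cfsg.Geo.IsMaximalIn (Cfsg.Geo.omegaGL ⇑Q) H := by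
  classical
  haveI := S.finite_L
  haveI := S.finite_V
  have hGood := good_of_finrank (Q := Q) S.nd (by
    rw [Module.finrank_fintype_fun_eq_card]; omega)
  obtain ⟨e, -, he0, he⟩ := S.exists_sing (W := ⊤) (by rw [finrank_top]; omega)
  obtain ⟨c, hc, hec⟩ := S.exists_partner he he0
  refine isMaximalIn_of hH ?_ fun M hle hM g₀ hg₀ hgn => ?_
  · obtain ⟨m, hm, hm0⟩ := (LinearMap.ker S.μ).exists_mem_ne_zero_of_ne_bot fun h => by
      have h1 := S.μ.finrank_range_add_finrank_ker
      have h2 := Submodule.finrank_le (LinearMap.range S.μ)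
      rw [h, finrank_bot] at h1
      rw [Module.finrank_self] at h2
      have := S.prime.two_le
      omega
    rw [LinearMap.mem_ker] at hm
    have L2 : LongPair Q e (m • e) := ⟨S.Q_of_sing he, S.Q_of_sing (by simp [he]), by
      rw [S.hB]; simp [he]⟩
    refine ⟨sg Q e (m • e), sg_mem_omegaGL hGood L2.x0 L2.xu, fun hin => ?_⟩
    obtain ⟨l, hl⟩ := (hmem _ (sg_mem_omegaGL hGood L2.x0 L2.xu)).1 hin c m
    have hk : ∀ k : L, (sg Q e (m • e) : Matrix ι ι F) *ᵥ (k • c) =
        k • c + (algebraMap F L (S.μ k) * m - algebraMap F L (S.μ (k * m))) • e := fun k => by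
      rw [L2.mulVec, S.polar_smul_L, S.polar_smul_L, map_smul, S.comm c e, hec, mul_one, smul_eq_mul,
        mul_one, ← algebraMap_smul L (S.μ k), ← algebraMap_smul L (S.μ (k * m))]
      module
    have h1 := hk 1
    rw [one_smul, one_mul, S.one, map_one, one_mul, hm, map_zero, sub_zero] at h1
    rw [hk, h1, hm, map_zero, zero_mul, zero_sub] at hl
    have h2 := congrArg (fun z => S.b z e) hl
    have h3 := congrArg (fun z => S.b z c) hl
    simp [he, hc, S.comm c e, hec] at h2 h3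
    rw [← h2] at h3
    have h4 := congrArg S.μ h3
    rw [map_neg, map_smul, S.one, smul_eq_mul, mul_one] at h4
    have h5 : S.μ (m * m) = 0 :=
      (mul_eq_zero.1 (by linear_combination -h4 : (2 : F) * _ = 0)).resolve_left S.two
    rw [h5, zero_smul, neg_zero] at h3
    exact hm0 (mul_self_eq_zero.1 h3.symm)
  · have hO : S.Over M := ⟨hM, fun g hg hgood =>
      hle ((hmem g hg).2 fun a k => ⟨k, hgood.1 k a⟩)⟩
    have hbad : ∃ (v : ι → F) (k : L), ∀ l : L,
        (g₀ : Matrix ι ι F) *ᵥ (k • v) ≠ l • ((g₀ : Matrix ι ι F) *ᵥ v) := by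
      by_contra hcon
      push Not at hcon
      exact hgn ((hmem g₀ (hM hg₀)).2 hcon)
    obtain ⟨e₁, u, he₁, he₁0, heu, -, hue, hroot⟩ := S.exists_root hO hw hg₀ hbad
    have full : ∀ x, S.b x x = 0 → x ≠ 0 → RootFull Q M x := fun x hx hx0 =>
      ⟨S.Q_of_sing hx, fun v hv => by
        simpa using (S.full_root hw hO hdim he₁ he₁0 heu hue hroot hx hx0 hv).2 1⟩
    have hc0 : c ≠ 0 := fun h0 => one_ne_zero (α := L) (by rw [← hec, h0, map_zero])
    exact omega_le_of_pair S.nd (by omega) hM (full e he he0) (full c hc hc0)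
      (by rw [S.hB, hec, S.one]; exact one_ne_zero)

end OrExt

/-- Maximality for a field of self-adjoint matrices given by an embedding. -/
theorem orExtField_maximal [Fintype F] {L : Type*} [Field L] [Algebra F L]
    (φ : L →ₐ[F] Matrix ι ι F) {r : ℕ} (hr : Module.finrank F L = r) (hp : r.Prime)
    (hnd : Nd Q) (h2 : (2 : F) ≠ 0)
    (hsa : ∀ (k : L) x y, polar Q (φ k *ᵥ x) y = polar Q x (φ k *ᵥ y))
    (hn : 13 ≤ Fintype.card ι) (h4 : 4 * r ≤ Fintype.card ι) :
    (∀ a : ι → F, ∃ b, ∀ k : L, b ≠ φ k *ᵥ a) ∧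
      ∀ H : Subgroup (GL ι F), H ≤ Cfsg.Geo.omegaGL ⇑Q →
        (∀ g ∈ Cfsg.Geo.omegaGL ⇑Q, (g ∈ H ↔ ∀ (a : ι → F) (k : L), ∃ l : L,
          (g : Matrix ι ι F) *ᵥ (φ k *ᵥ a) = φ l *ᵥ ((g : Matrix ι ι F) *ᵥ a))) →
        Cfsg.Geo.IsMaximalIn (Cfsg.Geo.omegaGL ⇑Q) H := by
  classical
  have hp' : (Module.finrank F L).Prime := hr ▸ hp
  haveI : FiniteDimensional F L := Module.finite_of_finrank_pos hp'.pos
  letI : Module L (ι → F) := Module.compHom (ι → F)
    (((Matrix.toLinAlgEquiv' : Matrix ι ι F ≃ₐ[F] _).toAlgHom.comp φ).toRingHom)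
  have hsm : ∀ (k : L) (v : ι → F), k • v = φ k *ᵥ v := fun k v => rfl
  haveI : IsScalarTower F L (ι → F) := ⟨fun c k v => by
    rw [hsm, hsm, map_smul, Matrix.smul_mulVec]⟩
  obtain ⟨μ, hμ1⟩ := LinearMap.exists_leftInverse_of_injective
    (LinearMap.toSpanSingleton F L 1) (LinearMap.ker_eq_bot.2 (smul_left_injective F one_ne_zero))
  have hone : μ 1 = 1 := by
    have := LinearMap.congr_fun hμ1 1
    simpa using this
  let Φ : L →ₗ[F] (L →ₗ[F] F) := LinearMap.compRight F μ ∘ₗ LinearMap.mul F L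
  have hΦ : ∀ a k, Φ a k = μ (a * k) := fun a k => rfl
  have hinj : Function.Injective Φ := fun x y e => by
    by_contra hne
    have := congrArg (fun f => f ((x - y)⁻¹)) e
    simp only [hΦ] at this
    rw [← sub_eq_zero, ← map_sub, ← sub_mul, mul_inv_cancel₀ (sub_ne_zero.2 hne), hone] at this
    exact one_ne_zero this
  let E := LinearEquiv.ofBijective Φ ⟨hinj,
    (LinearMap.injective_iff_surjective_of_finrank_eq_finrank
      (Subspace.dual_finrank_eq (K := F) (V := L)).symm).1 hinj⟩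
  let pr : (ι → F) → (ι → F) → (L →ₗ[F] F) := fun x y =>
    { toFun := fun k => polar Q (k • x) y
      map_add' := fun k l => by rw [add_smul, polar_add_left]
      map_smul' := fun c k => by rw [smul_assoc, polar_smul_left]; rfl }
  have hE : ∀ x y (k : L), μ (E.symm (pr x y) * k) = polar Q (k • x) y := fun x y k => by
    rw [← hΦ, show Φ (E.symm (pr x y)) = pr x y from E.apply_symm_apply (pr x y)]
    rfl
  have hext : ∀ a b : L, (∀ k, μ (a * k) = μ (b * k)) → a = b := fun a b h =>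
    hinj (LinearMap.ext fun k => by rw [hΦ, hΦ, h])
  have hadj : ∀ (k : L) x y, polar Q (k • x) y = polar Q x (k • y) := hsa
  let b : (ι → F) →ₗ[L] (ι → F) →ₗ[L] L :=
    LinearMap.mk₂ L (fun x y => E.symm (pr x y))
      (fun x x' y => hext _ _ fun k => by
        rw [hE, add_mul, map_add μ, hE, hE, smul_add, polar_add_left])
      (fun l x y => hext _ _ fun k => by
        rw [hE, smul_eq_mul, show l * E.symm (pr x y) * k = E.symm (pr x y) * (k * l) by ring, hE,
          mul_smul])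
      (fun x y y' => hext _ _ fun k => by
        rw [hE, add_mul, map_add μ, hE, hE, polar_add_right])
      (fun l x y => hext _ _ fun k => by
        rw [hE, smul_eq_mul, show l * E.symm (pr x y) * k = E.symm (pr x y) * (l * k) by ring, hE,
          ← hadj, smul_smul])
  let S : OrExt Q L :=
    { nd := hnd
      two := h2
      b := b
      comm := fun u v => hext _ _ fun k => by
        show μ (E.symm (pr u v) * k) = μ (E.symm (pr v u) * k)
        rw [hE, hE, hadj, polar_comm]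
      μ := μ
      one := hone
      hB := fun u v => by
        show _ = μ (E.symm (pr u v))
        rw [← mul_one (E.symm (pr u v)), hE, one_smul]
      prime := hp' }
  haveI := S.finite_V
  have hmul := Module.finrank_mul_finrank F L (ι → F)
  rw [Module.finrank_fintype_fun_eq_card, hr] at hmul
  have hw : 4 ≤ Module.finrank L (ι → F) := by
    by_contra hlt
    have : r * Module.finrank L (ι → F) ≤ r * 3 := Nat.mul_le_mul_left _ (by omega)
    have := hp.two_le
    omega
  refine ⟨fun a => ?_, fun H hH hmem => S.maximal hw hn ?_ hH hmem⟩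
  · by_contra hcon
    push Not at hcon
    have hle : (⊤ : Submodule L (ι → F)) ≤ L ∙ a := fun v _ => by
      obtain ⟨k, rfl⟩ := hcon v
      exact Submodule.mem_span_singleton.2 ⟨k, rfl⟩
    have h1 := Submodule.finrank_mono hle
    have h2 : Module.finrank L ↥(L ∙ a) ≤ 1 := by
      simpa using finrank_span_le_card ({a} : Set (ι → F))
    rw [finrank_top] at h1
    omega
  · rw [hr]
    rcases Nat.lt_or_ge r 3 with h | h
    · right
      obtain rfl : r = 2 := by have := hp.two_le; omega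
      omega
    · exact Or.inl h

/-- The degree of a field of matrices divides the size. -/
lemma exists_card_eq_mul {L : Type*} [Field L] [Algebra F L] (φ : L →ₐ[F] Matrix ι ι F) :
    ∃ w, Fintype.card ι = Module.finrank F L * w := by
  letI : Module L (ι → F) := Module.compHom (ι → F)
    (((Matrix.toLinAlgEquiv' : Matrix ι ι F ≃ₐ[F] _).toAlgHom.comp φ).toRingHom)
  haveI : IsScalarTower F L (ι → F) := ⟨fun c k v => by
    show φ (c • k) *ᵥ v = c • (φ k *ᵥ v)
    rw [map_smul, Matrix.smul_mulVec]⟩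
  exact ⟨Module.finrank L (ι → F), by
    rw [Module.finrank_mul_finrank, Module.finrank_fintype_fun_eq_card]⟩

end Cfsg.Agent.Lib.Forms
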