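import Cfsg.Agent.Lib.Forms.OrthStab

/-!
The normaliser in Ω of a quadratic field of similitudes whose adjoint is the conjugation.

Every proper overgroup contains a long root line that is not a line over the field; commutators
with the lines over the field then give every long root element.
-/

set_option autoImplicit false

namespace Cfsg.Agent.Lib.Forms

open Matrix QuadraticMap Cfsg.Agent.Lib.Classical.Quad Cfsg.Agent.Lib.Classical.QuadOmega

variable {ι : Type} [Fintype ι] [DecidableEq ι] {F : Type*} [Field F]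
  {Q : QuadraticForm F (ι → F)}

/-- The action of a generator of a quadratic field for which the form is hermitian. -/
structure UField (Q : QuadraticForm F (ι → F)) where
  J : (ι → F) →ₗ[F] (ι → F)
  t : F
  N : F
  sq : ∀ v, J (J v) = t • J v - N • v
  irr : ∀ a b : F, a * a + t * a * b + N * b * b = 0 → a = 0 ∧ b = 0
  adj : ∀ u v, polar Q (J u) v + polar Q u (J v) = t * polar Q u v
  qJ : ∀ v, Q (J v) = N * Q v
  self : ∀ v, polar Q v (J v) = t * Q v

/-- The root elements with the given centre and direction lie in the group. -/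
def RootLine (Q : QuadraticForm F (ι → F)) (M : Subgroup (GL ι F)) (a u : ι → F) : Prop :=
  polar Q a u = 0 ∧ ∀ c : F, sg Q a (c • u) ∈ M

namespace RootLine

variable {M : Subgroup (GL ι F)} {a b c d u u' : ι → F}

lemma add (ha : Q a = 0) (h : RootLine Q M a u) (h' : RootLine Q M a u') :
    RootLine Q M a (u + u') :=
  ⟨by rw [polar_add_right, h.1, h'.1, add_zero], fun c => by
    rw [smul_add, sg_add ha (by rw [polar_smul_right, h.1, smul_zero])
      (by rw [polar_smul_right, h'.1, smul_zero])]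
    exact mul_mem (h.2 c) (h'.2 c)⟩

lemma smul (h : RootLine Q M a u) (k : F) : RootLine Q M a (k • u) :=
  ⟨by rw [polar_smul_right, h.1, smul_zero], fun c => by rw [smul_smul]; exact h.2 _⟩

lemma of_add (ha : Q a = 0) (h : RootLine Q M a (u + u')) (h' : RootLine Q M a u) :
    RootLine Q M a u' := by
  have := h.add ha (h'.smul (-1))
  rwa [neg_one_smul, ← sub_eq_add_neg, add_sub_cancel_left] at this

lemma symm (ha : Q a = 0) (hb : Q b = 0) (h : RootLine Q M a b) : RootLine Q M b a := by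
  refine ⟨by rw [polar_comm, h.1], fun c => ?_⟩
  have L : LongPair Q a b := ⟨ha, hb, h.1⟩
  rw [← sg_smul hb L.symm.xu, (L.smul_right c).swap]
  exact inv_mem (h.2 c)

lemma conj {g : GL ι F} (hg : g ∈ M) (hgi : ∀ v, Q ((g : Matrix ι ι F) *ᵥ v) = Q v) (ha : Q a = 0)
    (h : RootLine Q M a u) :
    RootLine Q M ((g : Matrix ι ι F) *ᵥ a) ((g : Matrix ι ι F) *ᵥ u) := by
  refine ⟨by rw [polar_of_isometry hgi, h.1], fun c => ?_⟩
  have := mul_mem (mul_mem hg (h.2 c)) (inv_mem hg)
  rwa [sg_conj hgi ha (by rw [polar_smul_right, h.1, smul_zero]), mulVec_smul] at this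

/-- The commutator of two lines with pairing of rank one. -/
lemma comm (ha : Q a = 0) (hb : Q b = 0) (hc : Q c = 0) (hd : Q d = 0) (h : RootLine Q M a b)
    (h' : RootLine Q M c d) (hac : polar Q a c = 0) (had : polar Q a d = 0)
    (hbc : polar Q b c = 0) (hbd : polar Q b d ≠ 0) : RootLine Q M a c := by
  refine symm hc ha ⟨by rw [polar_comm, hac], fun s => ?_⟩
  have Lab : LongPair Q a b := ⟨ha, hb, h.1⟩
  set k : F := -s / polar Q b d with hk
  set x := sg Q a (k • b) with hx
  have hxc : (x : Matrix ι ι F) *ᵥ c = c := by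
    rw [hx, (Lab.smul_right k).mulVec, polar_comm Q c a, hac, polar_smul_right, polar_comm Q c b,
      hbc]
    simp
  have hxd : (x : Matrix ι ι F) *ᵥ d = d + s • a := by
    rw [hx, (Lab.smul_right k).mulVec, polar_comm Q d a, had, polar_smul_right, polar_comm Q d b,
      smul_eq_mul, hk, div_mul_cancel₀ _ hbd]
    module
  have hy : sg Q c d ∈ M := by simpa using h'.2 1
  have := mul_mem (inv_mem hy) (mul_mem (mul_mem (h.2 k) hy) (inv_mem (h.2 k)))
  rwa [← hx, sg_conj (fun v => sg_isometry v) hc h'.1, hxc, hxd,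
    sg_add hc h'.1 (by rw [polar_smul_right, polar_comm, hac, smul_zero]), inv_mul_cancel_left]
    at this

end RootLine

namespace UField

variable (S : UField Q)
include S

lemma swap (u v : ι → F) : polar Q u (S.J v) = S.t * polar Q u v - polar Q (S.J u) v := by
  linear_combination S.adj u v

lemma JJ (u v : ι → F) : polar Q (S.J u) (S.J v) = S.N * polar Q u v := by
  have h := S.adj u (S.J v)
  rw [S.sq, polar_sub_right, polar_smul_right, polar_smul_right, smul_eq_mul, smul_eq_mul] at h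
  linear_combination h

lemma sing_J {v : ι → F} (hv : Q v = 0) : Q (S.J v) = 0 := by rw [S.qJ, hv, mul_zero]

lemma long {v : ι → F} (hv : Q v = 0) : LongPair Q v (S.J v) :=
  ⟨hv, S.sing_J hv, by rw [S.self, hv, mul_zero]⟩

lemma no_eigen {v : ι → F} (hv : v ≠ 0) (r : F) : S.J v ≠ r • v := by
  intro e
  have h := S.sq v
  rw [e, map_smul, e, smul_smul, smul_smul, ← sub_smul] at h
  have h' := smul_left_injective F hv h
  exact one_ne_zero (neg_eq_zero.1 (S.irr r (-1) (by linear_combination h')).2)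

lemma kfree {v : ι → F} (hv : v ≠ 0) {a b : F} (h : a • v + b • S.J v = 0) : a = 0 ∧ b = 0 := by
  rcases eq_or_ne b 0 with rfl | hb
  · rw [zero_smul, add_zero] at h
    exact ⟨(smul_eq_zero.1 h).resolve_right hv, rfl⟩
  · refine absurd ?_ (S.no_eigen hv (-a / b))
    calc S.J v = b⁻¹ • (b • S.J v) := by rw [smul_smul, inv_mul_cancel₀ hb, one_smul]
      _ = (-a / b) • v := by
        rw [eq_neg_of_add_eq_zero_right h, smul_neg, smul_smul, ← neg_smul]
        congr 1
        ring

/-- A hyperbolic partner separates a vector from another line over the field. -/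
lemma indep {s s' w : ι → F} (hss : polar Q s s' = 1) (hw : polar Q w s' = 0)
    (hJw : polar Q (S.J w) s' = 0) {a b g d : F} (h : a • s + b • S.J s = g • w + d • S.J w) :
    a = 0 ∧ b = 0 := by
  have hwJ : polar Q w (S.J s') = 0 := by rw [S.swap, hw, hJw]; simp
  have h1 := congrArg (fun z => polar Q z s') h
  have h2 := congrArg (fun z => polar Q z (S.J s')) h
  simp only [polar_add_left, polar_smul_left, smul_eq_mul, hss, hw, hJw, hwJ, S.JJ, S.swap s s',
    mul_zero, add_zero, mul_one] at h1 h2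
  have hb : b = 0 := by
    by_contra hb
    have := S.irr (polar Q (S.J s) s') (-1) (by
      refine (mul_eq_zero.1 (?_ : b * _ = 0)).resolve_left hb
      linear_combination h2 - (S.t - polar Q (S.J s) s') * h1)
    exact one_ne_zero (neg_eq_zero.1 this.2)
  subst hb
  exact ⟨by simpa using h1, rfl⟩

lemma notMem_line {s s' w : ι → F} (hss : polar Q s s' = 1) (hw : polar Q w s' = 0)
    (hJw : polar Q (S.J w) s' = 0) (g d : F) : s ≠ g • w + d • S.J w := fun e =>
  one_ne_zero (S.indep hss hw hJw (a := 1) (b := 0) (by rw [one_smul, zero_smul, add_zero, e])).1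

lemma notMem_line' {s s' w : ι → F} (hss : polar Q s s' = 1) (hw : polar Q w s' = 0)
    (hJw : polar Q (S.J w) s' = 0) (hw0 : w ≠ 0) (g d : F) : w ≠ g • s + d • S.J s := fun e => by
  obtain ⟨rfl, rfl⟩ := S.indep hss hw hJw (a := g) (b := d) (g := 1) (d := 0)
    (by rw [one_smul, zero_smul, add_zero, e])
  simp at e
  exact hw0 e

lemma ne_zero_of_pair {s s' : ι → F} (hss : polar Q s s' = 1) : s ≠ 0 := fun e => by
  rw [e, polar_zero_left] at hss
  exact zero_ne_one hss

/-- The image of the generator of an element outside a line over the field is new. -/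
lemma J_notMem_span {a b : ι → F} (hb : ∀ g d : F, b ≠ g • a + d • S.J a) :
    S.J b ∉ Submodule.span F (Set.range ![a, S.J a, b]) := by
  intro h
  obtain ⟨c, hc⟩ := Submodule.mem_span_range_iff_exists_fun F |>.1 h
  simp [Fin.sum_univ_three] at hc
  set n : F := c 2 * c 2 - S.t * c 2 + S.N with hn
  have hn0 : n ≠ 0 := fun e => one_ne_zero
    (neg_eq_zero.1 (S.irr (c 2) (-1) (by linear_combination e)).2)
  refine hb (n⁻¹ * ((S.t - c 2) * c 0 + c 1 * S.N)) (n⁻¹ * (-(c 0) - c 2 * c 1)) ?_
  have e : S.J b - c 2 • b = c 0 • a + c 1 • S.J a := by rw [← hc]; module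
  have e2 : n • b = (S.t - c 2) • (S.J b - c 2 • b) - S.J (S.J b - c 2 • b) := by
    rw [map_sub, map_smul, S.sq, hn]
    module
  rw [e, map_add, map_smul, map_smul, S.sq] at e2
  calc b = n⁻¹ • (n • b) := by rw [smul_smul, inv_mul_cancel₀ hn0, one_smul]
    _ = _ := by rw [e2]; module

/-- A line over the field commutes with the generator. -/
lemma sg_line_comm {v : ι → F} (hv : Q v = 0) (c : F) (z : ι → F) :
    (sg Q v (c • S.J v) : Matrix ι ι F) *ᵥ S.J z =
      S.J ((sg Q v (c • S.J v) : Matrix ι ι F) *ᵥ z) := by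
  have L := (S.long hv).smul_right c
  rw [L.mulVec, L.mulVec, map_sub, map_add, map_smul, map_smul, map_smul, S.sq]
  simp only [polar_smul_right, smul_eq_mul, S.JJ]
  rw [show polar Q (S.J z) v = S.t * polar Q z v - polar Q z (S.J v) by rw [S.swap]; ring]
  module

end UField

section

variable [Finite F]

/-- A singular vector of a common kernel pairing non-trivially with a vector outside the span. -/
lemma exists_sing_pairing (hQ : Nd Q) {k : ℕ} (u : Fin k → ι → F)
    (hk : 2 * k + 5 ≤ Fintype.card ι) {x : ι → F} (hx : x ∉ Submodule.span F (Set.range u)) :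
    ∃ v ∈ perpK Q u, Q v = 0 ∧ polar Q x v ≠ 0 := by
  by_contra h
  push Not at h
  exact hx (mem_span_of_perpK hQ fun v hv => polar_eq_zero_of_sing hQ u
    (by rwa [Module.finrank_fintype_fun_eq_card]) (fun w hw hw' => h w hw hw') hv)

namespace UField

variable (S : UField Q) {M : Subgroup (GL ι F)}
  (hQ : Nd Q) (hn : 13 ≤ Fintype.card ι)
  (hK : ∀ v, Q v = 0 → ∀ c : F, sg Q v (c • S.J v) ∈ M)
include S hK

omit [Finite F] in
/-- A commutator with a line over the field. -/
lemma partner {a b c : ι → F} (ha : Q a = 0) (hb : Q b = 0) (h : RootLine Q M a b) (hc : Q c = 0)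
    (hac : polar Q a c = 0) (hJac : polar Q (S.J a) c = 0) (hbc : polar Q b c = 0)
    (hJbc : polar Q (S.J b) c ≠ 0) : RootLine Q M a c :=
  h.comm ha hb hc (S.sing_J hc) ⟨(S.long hc).xu, hK c hc⟩ hac
    (by rw [S.swap, hac, hJac]; simp) hbc (by rw [S.swap, hbc]; simpa using hJbc)

include hQ hn

/-- A new line yields a new line of the orthogonal kind. -/
lemma orth_line {a b : ι → F} (ha : Q a = 0) (hb : Q b = 0) (h : RootLine Q M a b)
    (hnb : ∀ g d : F, b ≠ g • a + d • S.J a) :
    ∃ c, Q c = 0 ∧ RootLine Q M a c ∧ polar Q (S.J a) c = 0 ∧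
      ∀ g d : F, c ≠ g • a + d • S.J a := by
  have hf : 13 ≤ Module.finrank F (ι → F) := by rwa [Module.finrank_fintype_fun_eq_card]
  obtain ⟨c, hc, hQc, hbc⟩ := exists_sing_pairing hQ ![a, S.J a, b] (by omega)
    (S.J_notMem_span hnb)
  have c0 := mem_perpK.1 hc 0
  have c1 := mem_perpK.1 hc 1
  have c2 := mem_perpK.1 hc 2
  simp at c0 c1 c2
  obtain ⟨s, s', hs, -, hss, hp⟩ := exists_hyp_perp hQ ![a, S.J a, b, S.J b, c] (by omega)
  have p0 := hp 0; have p1 := hp 1; have p2 := hp 2; have p3 := hp 3; have p4 := hp 4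
  simp at p0 p1 p2 p3 p4
  have e0 : polar Q a (c + s) = 0 := by rw [polar_add_right, c0, p0.1, add_zero]
  have e1 : polar Q (S.J a) (c + s) = 0 := by rw [polar_add_right, c1, p1.1, add_zero]
  have hQs : Q (c + s) = 0 := by rw [QuadraticMap.map_add ⇑Q, hQc, hs, p4.1]; simp
  refine ⟨c + s, hQs, S.partner hK ha hb h hQs e0 e1 (by rw [polar_add_right, c2, p2.1, add_zero])
    (by rwa [polar_add_right, p3.1, add_zero]), e1, fun g d => ?_⟩
  exact S.notMem_line (s' := s') (by rw [polar_add_left, p4.2, hss, zero_add]) p0.2 p1.2 g d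

/-- A line of the orthogonal kind gives every line of that kind through its centre. -/
lemma orth_full {a b : ι → F} (ha : Q a = 0) (hb : Q b = 0) (h : RootLine Q M a b)
    (hJab : polar Q (S.J a) b = 0) (hnb : ∀ g d : F, b ≠ g • a + d • S.J a) {v : ι → F}
    (hv : polar Q a v = 0) (hv' : polar Q (S.J a) v = 0) : RootLine Q M a v := by
  have hf : 13 ≤ Module.finrank F (ι → F) := by rwa [Module.finrank_fintype_fun_eq_card]
  have half : ∀ {b : ι → F}, Q b = 0 → RootLine Q M a b →
      (∀ g d : F, b ≠ g • a + d • S.J a) → ∀ {v : ι → F}, polar Q a v = 0 →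
      polar Q (S.J a) v = 0 → polar Q b v = 0 → RootLine Q M a v := by
    intro b hb h hnb
    -- singular vectors in general position
    have step : ∀ v, Q v = 0 → polar Q a v = 0 → polar Q (S.J a) v = 0 → polar Q b v = 0 →
        S.J b ∉ Submodule.span F (Set.range ![a, S.J a, b, v]) → RootLine Q M a v := by
      intro v hQv v0 v1 v2 hspan
      by_cases hbv : polar Q (S.J b) v ≠ 0
      · exact S.partner hK ha hb h hQv v0 v1 v2 hbv
      push Not at hbv
      obtain ⟨c, hc, hQc, hbc⟩ := exists_sing_pairing hQ ![a, S.J a, b, v] (by omega) hspan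
      have c0 := mem_perpK.1 hc 0
      have c1 := mem_perpK.1 hc 1
      have c2 := mem_perpK.1 hc 2
      have c3 := mem_perpK.1 hc 3
      simp at c0 c1 c2 c3
      refine RootLine.of_add ha (u := c) ?_ (S.partner hK ha hb h hQc c0 c1 c2 hbc)
      refine S.partner hK ha hb h (by rw [QuadraticMap.map_add ⇑Q, hQc, hQv, polar_comm, c3]; simp)
        (by rw [polar_add_right, c0, v0, add_zero]) (by rw [polar_add_right, c1, v1, add_zero])
        (by rw [polar_add_right, c2, v2, add_zero]) (by rwa [polar_add_right, hbv, add_zero])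
    -- every singular vector
    have sing : ∀ v ∈ perpK Q ![a, S.J a, b], Q v = 0 → RootLine Q M a v := by
      intro v hv hQv
      have v0 := mem_perpK.1 hv 0
      have v1 := mem_perpK.1 hv 1
      have v2 := mem_perpK.1 hv 2
      simp at v0 v1 v2
      obtain ⟨s, s', hs, -, hss, hp⟩ := exists_hyp_perp hQ ![a, S.J a, b, S.J b, v] (by omega)
      have p0 := hp 0; have p1 := hp 1; have p2 := hp 2; have p3 := hp 3; have p4 := hp 4
      simp at p0 p1 p2 p3 p4
      have gen : ∀ w, polar Q w s' = 1 →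
          S.J b ∉ Submodule.span F (Set.range ![a, S.J a, b, w]) := by
        intro w hw hmem
        obtain ⟨k, hk⟩ := Submodule.mem_span_range_iff_exists_fun F |>.1 hmem
        have h3 : k 3 = 0 := by
          have := congrArg (fun z => polar Q z s') hk
          simpa [Fin.sum_univ_four, polar_add_left, polar_smul_left, p0.2, p1.2, p2.2, p3.2, hw]
            using this
        refine S.J_notMem_span hnb ((Submodule.mem_span_range_iff_exists_fun F).2
          ⟨![k 0, k 1, k 2], ?_⟩)
        rw [← hk]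
        simp [Fin.sum_univ_three, Fin.sum_univ_four, h3]
      have hsl := step s hs p0.1 p1.1 p2.1 (gen s hss)
      refine RootLine.of_add ha (u := s) ?_ hsl
      rw [add_comm]
      exact step (v + s) (by rw [QuadraticMap.map_add ⇑Q, hQv, hs, p4.1]; simp)
        (by rw [polar_add_right, v0, p0.1, add_zero]) (by rw [polar_add_right, v1, p1.1, add_zero])
        (by rw [polar_add_right, v2, p2.1, add_zero])
        (gen _ (by rw [polar_add_left, p4.2, hss, zero_add]))
    intro v v0 v1 v2
    refine perpK_induction hQ ![a, S.J a, b] (by omega) sing (fun x y => RootLine.add ha)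
      (mem_perpK.2 fun i => ?_)
    fin_cases i <;> simp [v0, v1, v2]
  obtain ⟨s, s', hs, hs', hss, hp⟩ := exists_hyp_perp hQ ![a, S.J a, b] (by omega)
  have p0 := hp 0; have p1 := hp 1; have p2 := hp 2
  simp at p0 p1 p2
  have e : v = (v + (-polar Q s v) • s') + polar Q s v • s' := by module
  rw [e]
  refine RootLine.add ha ?_ ((half hb h hnb p0.2 p1.2 p2.2).smul _)
  refine half hs (half hb h hnb p0.1 p1.1 p2.1) (S.notMem_line hss p0.2 p1.2) ?_ ?_ ?_
  · rw [polar_add_right, polar_smul_right, hv, p0.2, smul_zero, add_zero]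
  · rw [polar_add_right, polar_smul_right, hv', p1.2, smul_zero, add_zero]
  · rw [polar_add_right, polar_smul_right, hss, smul_eq_mul, mul_one, add_neg_cancel]

/-- An overgroup with a new line contains every root element of a singular centre. -/
lemma root_mem {a b : ι → F} (ha : Q a = 0) (ha0 : a ≠ 0) (hb : Q b = 0) (h : RootLine Q M a b)
    (hnb : ∀ g d : F, b ≠ g • a + d • S.J a) {x u : ι → F} (hx : Q x = 0) (hx0 : x ≠ 0)
    (hu : polar Q x u = 0) : RootLine Q M x u := by
  have hf : 13 ≤ Module.finrank F (ι → F) := by rwa [Module.finrank_fintype_fun_eq_card]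
  obtain ⟨b', hb', h', hJ', hnb'⟩ := S.orth_line hQ hn hK ha hb h hnb
  have full : ∀ c : ι → F, Q c = 0 → c ≠ 0 → ∀ v, polar Q c v = 0 → polar Q (S.J c) v = 0 →
      RootLine Q M c v := by
    intro c hc hc0 v hv hv'
    obtain ⟨s, s', hs, -, hss, hp⟩ := exists_hyp_perp hQ ![a, S.J a, c, S.J c] (by omega)
    have p0 := hp 0; have p1 := hp 1; have p2 := hp 2; have p3 := hp 3
    simp at p0 p1 p2 p3
    have hsa : RootLine Q M s a :=
      (S.orth_full hQ hn hK ha hb' h' hJ' hnb' p0.1 p1.1).symm ha hs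
    have hJsa : polar Q (S.J s) a = 0 := by rw [polar_comm, S.swap, p0.1, p1.1]; simp
    have hJsc : polar Q (S.J s) c = 0 := by rw [polar_comm, S.swap, p2.1, p3.1]; simp
    have hsc : RootLine Q M s c := S.orth_full hQ hn hK hs ha hsa hJsa
      (S.notMem_line' hss p0.2 p1.2 ha0) (by rw [polar_comm, p2.1]) hJsc
    exact S.orth_full hQ hn hK hc hs (hsc.symm hs hc) p3.1 (S.notMem_line hss p2.2 p3.2) hv hv'
  refine perpK_induction hQ ![x] (by omega) (fun w hw hQw => ?_) (fun _ _ => RootLine.add hx)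
    (mem_perpK.2 fun i => by fin_cases i; simpa using hu)
  have hxw : polar Q x w = 0 := by simpa using mem_perpK.1 hw 0
  rcases eq_or_ne w 0 with rfl | hw0
  · exact full x hx hx0 0 (by rw [polar_zero_right]) (by rw [polar_zero_right])
  obtain ⟨s, s', hs, hs', hss, hp⟩ := exists_hyp_perp hQ ![x, S.J x, w, S.J w] (by omega)
  have p0 := hp 0; have p1 := hp 1; have p2 := hp 2; have p3 := hp 3
  simp at p0 p1 p2 p3
  exact (full x hx hx0 s p0.1 p1.1).comm hx hs hQw hs' (full w hQw hw0 s' p2.2 p3.2) hxw p0.2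
    (by rw [polar_comm, p2.1]) (by rw [hss]; exact one_ne_zero)

omit hK in
/-- A linear map acting by field elements on singular vectors is a field element. -/
lemma scalar_of_sing (T : (ι → F) →ₗ[F] (ι → F))
    (hT : ∀ w, Q w = 0 → w ≠ 0 → ∃ a b : F, T w = a • w + b • S.J w) :
    ∃ a b : F, ∀ v, T v = a • v + b • S.J v := by
  have hf : 13 ≤ Module.finrank F (ι → F) := by rwa [Module.finrank_fintype_fun_eq_card]
  obtain ⟨w₁, w₁', hw₁, -, hww, -⟩ := exists_hyp_perp hQ (Fin.elim0 : Fin 0 → ι → F) (by omega)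
  have hw₁0 := S.ne_zero_of_pair hww
  obtain ⟨a₁, b₁, e₁⟩ := hT w₁ hw₁ hw₁0
  have same : ∀ {w s s' : ι → F}, Q w = 0 → w ≠ 0 → Q s = 0 → polar Q s s' = 1 →
      polar Q w s = 0 → polar Q w s' = 0 → polar Q (S.J w) s' = 0 → ∀ {a b c d : F},
      T w = a • w + b • S.J w → T s = c • s + d • S.J s → a = c ∧ b = d := by
    intro w s s' hw hw0 hs hss hws hws' hJws' a b c d ew es
    have hsum : w + s ≠ 0 := fun e => one_ne_zero (by
      rw [← hss, eq_neg_of_add_eq_zero_right e, polar_neg_left, hws', neg_zero])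
    obtain ⟨x, y, exy⟩ := hT (w + s) (by rw [QuadraticMap.map_add ⇑Q, hw, hs, hws]; simp) hsum
    rw [map_add, ew, es, map_add] at exy
    obtain ⟨hc, hd⟩ := S.indep hss hws' hJws' (a := x - c) (b := y - d) (g := a - x) (d := b - y)
      (by linear_combination (norm := module) -exy)
    rw [sub_eq_zero.1 hc, sub_eq_zero.1 hd] at exy
    obtain ⟨ha', hb'⟩ := S.kfree hw0 (a := a - c) (b := b - d)
      (by linear_combination (norm := module) exy)
    exact ⟨sub_eq_zero.1 ha', sub_eq_zero.1 hb'⟩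
  have const : ∀ w, Q w = 0 → T w = a₁ • w + b₁ • S.J w := by
    intro w hw
    rcases eq_or_ne w 0 with rfl | hw0
    · simp
    obtain ⟨a, b, e⟩ := hT w hw hw0
    obtain ⟨s, s', hs, -, hss, hp⟩ := exists_hyp_perp hQ ![w, S.J w, w₁, S.J w₁] (by omega)
    have p0 := hp 0; have p1 := hp 1; have p2 := hp 2; have p3 := hp 3
    simp at p0 p1 p2 p3
    obtain ⟨c, d, es⟩ := hT s hs (S.ne_zero_of_pair hss)
    obtain ⟨rfl, rfl⟩ := same hw hw0 hs hss p0.1 p0.2 p1.2 e es
    obtain ⟨rfl, rfl⟩ := same hw₁ hw₁0 hs hss p2.1 p2.2 p3.2 e₁ es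
    exact e
  refine ⟨a₁, b₁, fun v => ?_⟩
  refine perpK_induction hQ (Fin.elim0 : Fin 0 → ι → F) (by omega)
    (p := fun w => T w = a₁ • w + b₁ • S.J w) (fun w _ hw => const w hw) (fun x y ex ey => ?_)
    (mem_perpK.2 fun i => i.elim0)
  rw [map_add, map_add, ex, ey]
  module

omit hK in
/-- An isometry that does not normalise the field moves some line over the field off the lines. -/
lemma exists_moved {g : GL ι F} (hg : ∀ v, Q ((g : Matrix ι ι F) *ᵥ v) = Q v)
    (hno : ¬ ∃ a b : F, ∀ v, (g : Matrix ι ι F) *ᵥ S.J v =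
      a • ((g : Matrix ι ι F) *ᵥ v) + b • S.J ((g : Matrix ι ι F) *ᵥ v)) :
    ∃ v, Q v = 0 ∧ v ≠ 0 ∧ ∀ a b : F, (g : Matrix ι ι F) *ᵥ S.J v ≠
      a • ((g : Matrix ι ι F) *ᵥ v) + b • S.J ((g : Matrix ι ι F) *ᵥ v) := by
  by_contra hcon
  push Not at hcon
  let T : (ι → F) →ₗ[F] (ι → F) := Matrix.toLin' (g : Matrix ι ι F) ∘ₗ S.J ∘ₗ
    Matrix.toLin' ((g⁻¹ : GL ι F) : Matrix ι ι F)
  have hTg : ∀ v, T ((g : Matrix ι ι F) *ᵥ v) = (g : Matrix ι ι F) *ᵥ S.J v := fun v => by
    simp [T, Matrix.mulVec_mulVec]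
  obtain ⟨a, b, h⟩ := S.scalar_of_sing hQ hn T fun w hw hw0 => by
    obtain ⟨a, b, e⟩ := hcon (((g⁻¹ : GL ι F) : Matrix ι ι F) *ᵥ w)
      (by rw [← hg, mulVec_inv_mulVec, hw]) (fun e => hw0 (by
        rw [← mulVec_inv_mulVec g w, e, mulVec_zero]))
    rw [← hTg, mulVec_inv_mulVec] at e
    exact ⟨a, b, e⟩
  exact hno ⟨a, b, fun v => by rw [← hTg, h]⟩

omit hK in
/-- The normaliser of the field is maximal in Ω. -/
theorem maximal [Fintype F] {H : Subgroup (GL ι F)} (hH : H ≤ Cfsg.Geo.omegaGL ⇑Q)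
    (hmem : ∀ g ∈ Cfsg.Geo.omegaGL ⇑Q, (g ∈ H ↔ ∃ a b : F, ∀ v, (g : Matrix ι ι F) *ᵥ S.J v =
      a • ((g : Matrix ι ι F) *ᵥ v) + b • S.J ((g : Matrix ι ι F) *ᵥ v))) :
    Cfsg.Geo.IsMaximalIn (Cfsg.Geo.omegaGL ⇑Q) H := by
  have hf : 13 ≤ Module.finrank F (ι → F) := by rwa [Module.finrank_fintype_fun_eq_card]
  have hGood : Good Q := good_of_finrank hQ (by omega)
  refine isMaximalIn_of hH ?_ fun N hle hN g hg hgn => ?_
  · obtain ⟨s, s', hs, hs', hss, -⟩ := exists_hyp_perp hQ (Fin.elim0 : Fin 0 → ι → F) (by omega)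
    obtain ⟨u, u', hu, -, huu, hp⟩ := exists_hyp_perp hQ ![s, S.J s, s', S.J s'] (by omega)
    have p0 := hp 0; have p1 := hp 1; have p2 := hp 2; have p3 := hp 3
    simp at p0 p1 p2 p3
    have L : LongPair Q s u := ⟨hs, hu, p0.1⟩
    refine ⟨sg Q s u, sg_mem_omegaGL hGood hs p0.1, fun h => ?_⟩
    obtain ⟨a, b, hab⟩ := (hmem _ (sg_mem_omegaGL hGood hs p0.1)).1 h
    have h1 := hab s
    have h2 := hab s'
    simp only [L.mulVec, polar_self_sing hs, p0.1, p1.1, p2.1, p3.1, polar_comm Q (S.J s) s,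
      (S.long hs).xu, polar_comm Q s' s, hss, zero_smul, add_zero, sub_zero, one_smul] at h1 h2
    obtain ⟨rfl, hb⟩ := S.kfree (S.ne_zero_of_pair hss) (a := a) (b := b - 1)
      (by linear_combination (norm := module) -h1)
    rw [sub_eq_zero.1 hb, map_add] at h2
    obtain ⟨-, h01⟩ := S.kfree (S.ne_zero_of_pair huu) (a := polar Q (S.J s') s) (b := -1)
      (by linear_combination (norm := module) h2)
    exact one_ne_zero (neg_eq_zero.1 h01)
  · have hK' : ∀ v, Q v = 0 → ∀ c : F, sg Q v (c • S.J v) ∈ N := fun v hv c =>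
      hle ((hmem _ (sg_mem_omegaGL hGood hv ((S.long hv).smul_right c).xu)).2
        ⟨0, 1, fun z => by rw [S.sg_line_comm hv, zero_smul, one_smul, zero_add]⟩)
    have hgi := mem_isometryGroup_of_omega (hN hg)
    obtain ⟨v, hv, hv0, hv'⟩ := S.exists_moved hQ hn hgi fun h => hgn ((hmem g (hN hg)).2 h)
    have hline : RootLine Q N v (S.J v) := ⟨(S.long hv).xu, hK' v hv⟩
    refine omegaGL_le_of_sg hGood fun x u hx hu => ?_
    rcases eq_or_ne x 0 with rfl | hx0
    · have : sg Q 0 u = 1 := gl_ext fun v => by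
        simp [sg_mulVec (map_zero Q) hu, polar_zero_right]
      rw [this]; exact N.one_mem
    simpa using (S.root_mem hQ hn hK' (by rw [hgi, hv]) (fun e => hv0 (gl_mulVec_injective g
      (by simp [e]))) (by rw [hgi, S.sing_J hv]) (hline.conj hg hgi hv) hv' hx hx0
      hu).2 1

end UField

end

end Cfsg.Agent.Lib.Forms
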