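import Cfsg.Agent.Lib.Forms.OrExtStart
import Cfsg.Agent.Lib.Forms.OrthUnitaryField

/-!
A hyperplane configuration gives a long root element.
-/

set_option autoImplicit false

namespace Cfsg.Agent.Lib.Forms

open Matrix QuadraticMap Cfsg.Agent.Lib.Classical.Quad Cfsg.Agent.Lib.Classical.QuadOmega

variable {ι : Type} [Fintype ι] [DecidableEq ι] {F : Type*} [Field F]
  {Q : QuadraticForm F (ι → F)}
  {L : Type*} [Field L] [Algebra F L] [Module L (ι → F)] [IsScalarTower F L (ι → F)]

namespace OrExt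

variable (S : OrExt Q L)
include S

lemma exists_rep (π : L →ₗ[F] F) : ∃ p, ∀ k, π k = S.μ (p * k) := by
  haveI := S.finite_L
  let Φ : L →ₗ[F] (L →ₗ[F] F) := LinearMap.compRight F S.μ ∘ₗ LinearMap.mul F L
  have hinj : Function.Injective Φ := fun x y e => sub_eq_zero.1 (S.μ_nd fun k => by
    have := congrArg (fun f => f k) e
    simp [Φ] at this
    rw [mul_sub, map_sub, mul_comm k x, mul_comm k y, this, sub_self])
  obtain ⟨p, hp⟩ := (LinearMap.injective_iff_surjective_of_finrank_eq_finrank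
    (Subspace.dual_finrank_eq (K := F) (V := L)).symm).1 hinj π
  exact ⟨p, fun k => by rw [← hp]; rfl⟩

variable {M : Subgroup (GL ι F)} (hO : S.Over M)
include hO

/-- The commutator at a line that an element fixes pointwise. -/
lemma commutator_root {a : ι → F} (haa : S.b a a = 0) {y : GL ι F} (hy : y ∈ M)
    (hfix : ∀ k : L, (y : Matrix ι ι F) *ᵥ (k • a) = k • a) {j₁ j₂ : ι → F}
    (hj₁ : S.b j₁ a = 0) (hj₂ : S.b j₂ a = 0)
    (hdiff : ∀ x, S.b a x = 0 → ∃ k : L, (y : Matrix ι ι F) *ᵥ x -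
      ((y⁻¹ : GL ι F) : Matrix ι ι F) *ᵥ x =
        (2 * polar Q x j₁) • j₂ - (2 * polar Q x j₂) • j₁ + k • a)
    {v : ι → F} (hav : S.b a v = 0) :
    RootLine Q M (S.b v j₁ • a) (S.b v j₂ • a) := by
  have hyi := mem_isometryGroup_of_omega (hO.le hy)
  have hy' := inv_mem hy
  have hyi' := mem_isometryGroup_of_omega (hO.le hy')
  have hfix' : ∀ k : L, ((y⁻¹ : GL ι F) : Matrix ι ι F) *ᵥ (k • a) = k • a := fun k => by
    conv_lhs => rw [← hfix k, inv_mulVec_mulVec]
  have hXy : ∀ z, S.b (((y⁻¹ : GL ι F) : Matrix ι ι F) *ᵥ z) a = S.b z a := fun z => by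
    refine sub_eq_zero.1 (S.μ_nd fun k => ?_)
    rw [mul_sub, map_sub, ← smul_eq_mul, ← smul_eq_mul, ← map_smul, ← map_smul, ← S.hB, ← S.hB,
      ← polar_of_isometry hyi _ (k • a), mulVec_inv_mulVec, hfix, sub_self]
  have hXy' : ∀ z, S.b ((y : Matrix ι ι F) *ᵥ z) a = S.b z a := fun z => by
    rw [← hXy ((y : Matrix ι ι F) *ᵥ z), inv_mulVec_mulVec]
  have key : ∀ w, S.b a w = 0 →
      sg Q ((2 * S.b w j₁) • a) (S.b w j₂ • a) ∈ M := by
    intro w haw
    set σ₁ := S.b w j₁ with hσ₁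
    set σ₂ := S.b w j₂ with hσ₂
    set T := S.et a w with hTdef
    have hT := S.et_mem hO haa haw
    set R := y * T * y⁻¹ with hRdef
    have hR : R ∈ M := mul_mem (mul_mem hy hT) hy'
    set H := S.b w w / 2 with hH
    have hTm : ∀ z, (T : Matrix ι ι F) *ᵥ z = z + S.b z a • w - (S.b z w + H * S.b z a) • a :=
      S.et_mulVec haa haw
    have hRm : ∀ z, (R : Matrix ι ι F) *ᵥ z = z + (y : Matrix ι ι F) *ᵥ (S.b z a • w) -
        (S.b (((y⁻¹ : GL ι F) : Matrix ι ι F) *ᵥ z) w + H * S.b z a) • a := fun z => by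
      rw [hRdef, mul_mulVec', mul_mulVec', hTm, mulVec_sub, mulVec_add, mulVec_inv_mulVec, hXy,
        hfix]
    have L2 : LongPair Q ((2 * σ₁) • a) (σ₂ • a) :=
      ⟨S.Q_of_sing (by simp [haa]), S.Q_of_sing (by simp [haa]), by
        rw [S.hB]; simp [haa]⟩
    set C := sg Q ((2 * σ₁) • a) (σ₂ • a) with hC
    suffices e : R * T = C * (T * R) by
      rw [eq_mul_inv_of_mul_eq e.symm]
      exact mul_mem (mul_mem hR hT) (inv_mem (mul_mem hT hR))
    refine gl_ext fun z => ?_
    set X := S.b z a with hX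
    have hwy : ∀ z, S.b ((y : Matrix ι ι F) *ᵥ (S.b z a • w)) a = 0 := fun z => by
      rw [hXy', map_smul, LinearMap.smul_apply, S.comm w a, haw, smul_zero]
    have hRa : S.b ((R : Matrix ι ι F) *ᵥ z) a = X := by
      rw [hRm, map_sub, map_add, LinearMap.sub_apply, LinearMap.add_apply, hwy, map_smul,
        LinearMap.smul_apply, haa, smul_zero, sub_zero, add_zero, hX]
    have hTa : ∀ u, S.b ((T : Matrix ι ι F) *ᵥ u) a = S.b u a := fun u => by
      rw [hTm]; simp [haa, S.comm w a, haw]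
    have hyX : S.b ((y : Matrix ι ι F) *ᵥ (X • w)) a = 0 := hwy z
    have hTX : S.b ((T : Matrix ι ι F) *ᵥ z) a = X := by rw [hTa]
    set α := S.b (((y⁻¹ : GL ι F) : Matrix ι ι F) *ᵥ z) w
    set β := S.b ((y : Matrix ι ι F) *ᵥ (X • w)) w
    set γ := S.b (((y⁻¹ : GL ι F) : Matrix ι ι F) *ᵥ (X • w)) w
    have eL : ((R * T : GL ι F) : Matrix ι ι F) *ᵥ z = z + X • w + (y : Matrix ι ι F) *ᵥ (X • w) -
        (S.b z w + H * X + α + γ + H * X) • a := by
      rw [mul_mulVec', hRm, hTX, hTm z, mulVec_sub (A := ((y⁻¹ : GL ι F) : Matrix ι ι F)),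
        mulVec_add (A := ((y⁻¹ : GL ι F) : Matrix ι ι F)), hfix', ← hX]
      simp only [map_add, map_sub, map_smul, LinearMap.add_apply, LinearMap.sub_apply,
        LinearMap.smul_apply, smul_eq_mul, haw, mul_zero, sub_zero, α, β, γ]
      module
    have eR : ((T * R : GL ι F) : Matrix ι ι F) *ᵥ z = z + (y : Matrix ι ι F) *ᵥ (X • w) + X • w -
        (α + H * X + S.b z w + β + H * X) • a := by
      rw [mul_mulVec', hTm, hRa, hRm, ← hX]
      simp only [map_add, map_sub, map_smul, LinearMap.add_apply, LinearMap.sub_apply,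
        LinearMap.smul_apply, smul_eq_mul, haw, mul_zero, sub_zero, α, β, γ]
      module
    have hTRa : S.b (((T * R : GL ι F) : Matrix ι ι F) *ᵥ z) a = X := by
      rw [mul_mulVec', hTa, hRa]
    obtain ⟨k, hk⟩ := hdiff (X • w) (by rw [map_smul, haw, smul_zero])
    have e1 : β - γ = algebraMap F L (2 * S.μ (X * σ₁)) * σ₂ -
        algebraMap F L (2 * S.μ (X * σ₂)) * σ₁ := by
      simp only [β, γ]
      rw [← LinearMap.sub_apply, ← map_sub, hk]
      simp [S.polar_smul_L, haw, ← hσ₁, ← hσ₂, S.comm j₁ w, S.comm j₂ w,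
        LinearMap.map_smul_of_tower]
      simp only [Algebra.smul_def, map_mul, map_ofNat]
    have p1 : ∀ l : L, polar Q (((T * R : GL ι F) : Matrix ι ι F) *ᵥ z) (l • a) =
        S.μ (X * l) := fun l => by
      rw [S.hB, map_smul, hTRa, smul_eq_mul, mul_comm]
    have e2 : S.μ (X * (2 * σ₁)) = 2 * S.μ (X * σ₁) := by
      rw [show X * (2 * σ₁) = (2 : F) • (X * σ₁) by
        rw [Algebra.smul_def, map_ofNat]; ring, map_smul, smul_eq_mul]
    rw [mul_mulVec' C, L2.mulVec, p1, p1, e2, eL, eR]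
    rw [← algebraMap_smul L (S.μ (X * σ₂)), ← algebraMap_smul L (2 * S.μ (X * σ₁)), smul_smul,
      smul_smul]
    have e3 := congrArg (fun t : L => t • a) e1
    simp only [map_mul, map_ofNat] at e3 ⊢
    linear_combination (norm := module) e3
  refine ⟨by rw [S.hB]; simp [haa], fun c => ?_⟩
  -- every scalar is a difference of squares
  have two' : ∀ t : F, sg Q (S.b v j₁ • a) ((2 * t * t) • (S.b v j₂ • a)) ∈ M := by
    intro t
    have h := key (algebraMap F L t • v) (by simp [hav])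
    rw [algebraMap_smul, LinearMap.map_smul_of_tower, LinearMap.smul_apply, LinearMap.smul_apply,
      show (2 : L) * (t • S.b v j₁) = (2 * t) • S.b v j₁ by
        rw [Algebra.smul_def, Algebra.smul_def, map_mul, map_ofNat]; ring,
      smul_assoc, smul_assoc, sg_smul (S.Q_of_sing (by simp [haa])) (by
        rw [polar_smul_right, S.hB]; simp [haa]), smul_smul] at h
    exact h
  have hh := S.two
  set A := (c / 2 + 1) / 2
  set B' := (c / 2 - 1) / 2
  have hc : c • (S.b v j₂ • a) = (2 * A * A) • (S.b v j₂ • a) + -((2 * B' * B') • (S.b v j₂ • a)) := by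
    rw [← sub_eq_add_neg, ← sub_smul]
    congr 1
    simp only [A, B']
    field_simp
    ring
  have hp : ∀ s : F, polar Q (S.b v j₁ • a) (s • (S.b v j₂ • a)) = 0 := fun s => by
    rw [polar_smul_right, S.hB]; simp [haa]
  rw [hc, sg_add (S.Q_of_sing (by simp [haa])) (hp _) (by rw [polar_neg_right, hp, neg_zero]),
    sg_neg (S.Q_of_sing (by simp [haa])) (hp _)]
  exact mul_mem (two' A) (inv_mem (two' B'))

variable [Finite F] (hw : 4 ≤ Module.finrank L (ι → F))
include hw

/-- A long root element from an element not preserving the lines. -/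
lemma exists_root {g₀ : GL ι F} (hg₀ : g₀ ∈ M)
    (hbad : ∃ (v : ι → F) (k : L), ∀ l : L,
      (g₀ : Matrix ι ι F) *ᵥ (k • v) ≠ l • ((g₀ : Matrix ι ι F) *ᵥ v)) :
    ∃ e u : ι → F, S.b e e = 0 ∧ e ≠ 0 ∧ S.b e u = 0 ∧ Q u = 0 ∧ (∀ l : L, u ≠ l • e) ∧
      RootLine Q M e u := by
  classical
  haveI := S.finite_L
  haveI := S.finite_V
  obtain ⟨g, hg, a, e, k₀, ha0, he0, haa, hee, hk₀, horth, hdec⟩ := S.exists_config hw hO hg₀ hbad
  have hgi := mem_isometryGroup_of_omega (hO.le hg)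
  set W := lineCap (L := L) g a e with hW
  set u := lineImg g a k₀ with hu
  set W' := Submodule.comap (lineMap (L := L) e) (LinearMap.range (lineImg (L := L) g a)) with hW'
  have hmemW : ∀ {l : L}, l ∈ W' ↔ ∃ k : L, lineImg g a k = l • e := by
    intro l
    simp [hW', lineMap_apply]
  have hue : ∀ l : L, u ≠ l • e := fun l hl => hk₀ (mem_lineCap'.2 ⟨l, hl.symm⟩)
  have hGk : ∀ k : L, ∃ (l : L) (t : F), lineImg g a k = l • e + t • u := fun k => by
    obtain ⟨t, ht⟩ := hdec k
    obtain ⟨l, hl⟩ := mem_lineCap'.1 ht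
    exact ⟨l, t, by rw [hl, map_sub, map_smul, hu, sub_add_cancel]⟩
  -- the hyperplane
  have hmap : Submodule.map (lineMap e) W' = Submodule.map (lineImg g a) W := by
    ext x
    constructor
    · rintro ⟨l, hl, rfl⟩
      obtain ⟨k, hk⟩ := hmemW.1 hl
      exact ⟨k, mem_lineCap'.2 ⟨l, hk.symm⟩, hk⟩
    · rintro ⟨k, hk, rfl⟩
      obtain ⟨l, hl⟩ := mem_lineCap'.1 hk
      exact ⟨l, hmemW.2 ⟨k, hl.symm⟩, hl⟩
  have hfr : Module.finrank F W' = Module.finrank F W := by
    have h1 := (Submodule.equivMapOfInjective (lineMap (L := L) e) (lineMap_injective he0) W').finrank_eq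
    have h2 := (Submodule.equivMapOfInjective (lineImg g a) (lineImg_injective g ha0) W).finrank_eq
    rw [h1, h2, hmap]
  have hWbig : Module.finrank F L ≤ Module.finrank F W + 1 := by
    have hle : (⊤ : Submodule F L) ≤ W ⊔ F ∙ k₀ := fun k _ => by
      obtain ⟨t, ht⟩ := hdec k
      exact Submodule.mem_sup.2 ⟨_, ht, t • k₀, Submodule.mem_span_singleton.2 ⟨t, rfl⟩,
        sub_add_cancel k _⟩
    have h1 := Submodule.finrank_mono hle
    have h2 := Submodule.finrank_add_le_finrank_add_finrank W (F ∙ k₀)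
    have h3 : Module.finrank F ↥(F ∙ k₀) ≤ 1 := by
      simpa using finrank_span_le_card ({k₀} : Set L)
    rw [finrank_top] at h1
    omega
  have hW'top : W' < ⊤ := lt_top_iff_ne_top.2 fun h => by
    have h1 : Module.finrank F W = Module.finrank F L := by rw [← hfr, h, finrank_top]
    have := Submodule.eq_top_of_finrank_eq h1
    exact hk₀ (this ▸ Submodule.mem_top)
  obtain ⟨φ, hφ, hφle⟩ := W'.exists_le_ker_of_lt_top hW'top
  have hker : W' = LinearMap.ker φ := by
    refine Submodule.eq_of_le_of_finrank_le hφle ?_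
    have h1 := φ.finrank_range_add_finrank_ker
    have h2 : LinearMap.range φ ≠ ⊥ := fun h => hφ (LinearMap.range_eq_bot.1 h)
    have h3 : 1 ≤ Module.finrank F (LinearMap.range φ) :=
      Submodule.one_le_finrank_iff.2 h2
    omega
  obtain ⟨p, hp⟩ := S.exists_rep φ
  have hp0 : p ≠ 0 := fun h => hφ (LinearMap.ext fun k => by rw [hp, h, zero_mul, map_zero]; rfl)
  set ω := p⁻¹ with hω
  have hφω : ∀ k, k - φ k • ω ∈ W' := fun k => by
    rw [hker, LinearMap.mem_ker, map_sub, map_smul, hp ω, hω, mul_inv_cancel₀ hp0, S.one,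
      smul_eq_mul, mul_one, sub_self]
  -- an Eichler element fixing the image of the line
  obtain ⟨v', hv', hv'out⟩ : ∃ v' ∈ LinearMap.ker (LinearMap.pi fun i => S.b (![e, u] i)),
      v' ∉ LinearMap.range (lineMap (L := L) e) ⊔ F ∙ u := by
    by_contra hcon
    push Not at hcon
    have h1 := Submodule.finrank_mono (R := F)
      (show (LinearMap.ker (LinearMap.pi fun i => S.b (![e, u] i))).restrictScalars F ≤ _ from hcon)
    have h2 := Submodule.finrank_add_le_finrank_add_finrank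
      (LinearMap.range (lineMap (L := L) e)) (F ∙ u)
    have h3 : Module.finrank F ↥(F ∙ u) ≤ 1 := by
      simpa using finrank_span_le_card ({u} : Set (ι → F))
    have h4 := LinearMap.finrank_range_le (lineMap (ι := ι) (F := F) (L := L) e)
    have h5 := S.finrank_perp ![e, u]
    have h6 : 2 * Module.finrank F L ≤ Module.finrank F
        ↥((LinearMap.ker (LinearMap.pi fun i => S.b (![e, u] i))).restrictScalars F) := by
      show _ ≤ Module.finrank F (LinearMap.ker (LinearMap.pi fun i => S.b (![e, u] i)))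
      rw [← Module.finrank_mul_finrank F L ↥(LinearMap.ker (LinearMap.pi fun i => S.b (![e, u] i))),
        mul_comm]
      exact Nat.mul_le_mul_left _ (show 2 ≤ Module.finrank L (LinearMap.ker (LinearMap.pi fun i => S.b (![e, u] i))) by omega)
    have := S.prime.two_le
    omega
  rw [S.mem_perp] at hv'
  have hev' : S.b e v' = 0 := hv' 0
  have huv' : S.b u v' = 0 := hv' 1
  set v := p⁻¹ • v' with hv
  have hev : S.b e v = 0 := by simp [hv, hev']
  have huv : S.b u v = 0 := by simp [hv, huv']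
  have hpv : p • v = v' := by rw [hv, smul_smul, mul_inv_cancel₀ hp0, one_smul]
  set T := S.et e v with hTdef
  have hT := S.et_mem hO hee hev
  have hTfix : ∀ k : L, (T : Matrix ι ι F) *ᵥ lineImg g a k = lineImg g a k := fun k => by
    obtain ⟨l, t, h⟩ := hGk k
    have h' : S.b (lineImg g a k) v = 0 := by
      rw [h]
      simp [hev, huv, LinearMap.map_smul_of_tower]
    rw [hTdef, S.et_mulVec hee hev, horth, h']
    simp
  set y := g⁻¹ * T * g with hy
  have hyM : y ∈ M := mul_mem (mul_mem (inv_mem hg) hT) hg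
  have hfix : ∀ k : L, (y : Matrix ι ι F) *ᵥ (k • a) = k • a := fun k => by
    rw [hy, mul_mulVec', mul_mulVec', ← lineImg_apply, hTfix, lineImg_apply, inv_mulVec_mulVec]
  set j₁ := ((g⁻¹ : GL ι F) : Matrix ι ι F) *ᵥ (ω • e) with hj₁def
  set j₂ := ((g⁻¹ : GL ι F) : Matrix ι ι F) *ᵥ v' with hj₂def
  have hperp : ∀ z, (∀ k : L, S.b z (lineImg g a k) = 0) →
      S.b (((g⁻¹ : GL ι F) : Matrix ι ι F) *ᵥ z) a = 0 := fun z hz => S.μ_nd fun k => by
    rw [← smul_eq_mul, ← map_smul, ← S.hB, ← polar_of_isometry hgi, mulVec_inv_mulVec,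
      ← lineImg_apply, S.hB, hz, map_zero]
  have hj₁ : S.b j₁ a = 0 := hperp _ fun k => by
    rw [map_smul, LinearMap.smul_apply, S.comm, horth, smul_zero]
  have hj₂ : S.b j₂ a = 0 := hperp _ fun k => by
    obtain ⟨l, t, h⟩ := hGk k
    rw [S.comm, h, map_add, LinearMap.add_apply, map_smul, LinearMap.smul_apply, hev',
      LinearMap.map_smul_of_tower, LinearMap.smul_apply, huv']
    simp
  have hdiff : ∀ x, S.b a x = 0 → ∃ k : L, (y : Matrix ι ι F) *ᵥ x -
      ((y⁻¹ : GL ι F) : Matrix ι ι F) *ᵥ x =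
        (2 * polar Q x j₁) • j₂ - (2 * polar Q x j₂) • j₁ + k • a := by
    intro x hax
    set x' := (g : Matrix ι ι F) *ᵥ x with hx'
    set c := S.b x' e
    set d := S.b x' v
    have hyinv : y⁻¹ = g⁻¹ * S.et e (-v) * g := by
      rw [hy, hTdef, _root_.mul_inv_rev, _root_.mul_inv_rev, inv_inv, S.et_neg hee hev, mul_assoc]
    have e0 : (T : Matrix ι ι F) *ᵥ x' - (S.et e (-v) : Matrix ι ι F) *ᵥ x' =
        (2 * c) • v - (2 * d) • e := by
      rw [hTdef, S.et_mulVec hee hev, S.et_mulVec hee (by simp [hev])]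
      simp only [map_neg, LinearMap.neg_apply, neg_neg]
      module
    have hc : c = S.μ (c * ω) • p := by
      refine sub_eq_zero.1 (S.μ_nd fun k => ?_)
      obtain ⟨k', hk'⟩ := hmemW.1 (hφω k)
      have h1 : S.μ ((k - φ k • ω) * c) = 0 := by
        rw [← smul_eq_mul, ← map_smul, ← S.hB, ← hk', hx', lineImg_apply,
          polar_of_isometry hgi, S.hB, map_smul, S.comm x a, hax, smul_zero, map_zero]
      rw [sub_mul, map_sub, smul_mul_assoc, map_smul, smul_eq_mul, hp] at h1
      rw [mul_sub, map_sub, mul_smul_comm, map_smul, smul_eq_mul, mul_comm c ω, mul_comm k p]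
      linear_combination h1
    obtain ⟨k, hk⟩ := hmemW.1 (hφω d)
    refine ⟨-(2 * k), ?_⟩
    have hp1 : polar Q x j₁ = S.μ (c * ω) := by
      rw [← polar_of_isometry hgi, hj₁def, mulVec_inv_mulVec, S.hB, map_smul, smul_eq_mul, mul_comm]
    have hp2 : polar Q x j₂ = φ d := by
      rw [← polar_of_isometry hgi, hj₂def, mulVec_inv_mulVec, S.hB, hp, ← hpv, map_smul, smul_eq_mul]
    have e1 : (2 * c) • v - (2 * d) • e =
        (2 * S.μ (c * ω)) • v' - (2 * φ d) • (ω • e) + (-(2 : F)) • lineImg g a k := by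
      rw [hk, ← hpv]
      conv_lhs => rw [hc]
      simp only [← algebraMap_smul L (2 * S.μ (c * ω)), ← algebraMap_smul L (2 * φ d),
        ← algebraMap_smul L (-(2 : F)), Algebra.smul_def, map_mul, map_neg, map_ofNat]
      module
    rw [hp1, hp2, hy, mul_mulVec', mul_mulVec', ← hy, hyinv, mul_mulVec', mul_mulVec', ← hx',
      ← mulVec_sub, e0, e1, mulVec_add, mulVec_sub, mulVec_smul, mulVec_smul, mulVec_smul,
      lineImg_apply, inv_mulVec_mulVec, ← hj₁def, ← hj₂def]
    simp only [← algebraMap_smul L (-(2 : F)), map_neg, map_ofNat]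
    module
  -- choose a direction with independent pairings
  have hind : ∀ s t : F, (∃ l : L, s • j₁ + t • j₂ = l • a) → s = 0 ∧ t = 0 := by
    rintro s t ⟨l, hl⟩
    have h := congrArg (fun z => (g : Matrix ι ι F) *ᵥ z) hl
    simp only [mulVec_add, mulVec_smul, hj₁def, hj₂def, mulVec_inv_mulVec] at h
    rw [← lineImg_apply g a l] at h
    obtain ⟨m, t', hm⟩ := hGk l
    rw [hm] at h
    have ht : t = 0 := by
      by_contra ht
      refine hv'out ?_
      have e2 : v' = t⁻¹ • (((m - s • ω) • e) + t' • u) := by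
        rw [eq_inv_smul_iff₀ ht, sub_smul, smul_assoc]
        linear_combination (norm := module) h
      rw [e2]
      exact Submodule.smul_mem _ _ (Submodule.mem_sup.2 ⟨_, ⟨m - s • ω, rfl⟩, _,
        Submodule.mem_span_singleton.2 ⟨t', rfl⟩, rfl⟩)
    refine ⟨?_, ht⟩
    rw [ht, zero_smul, add_zero, ← hm] at h
    by_contra hs
    have : s • ω ∈ W' := hmemW.2 ⟨l, by rw [← h, smul_assoc]⟩
    rw [hker, LinearMap.mem_ker, map_smul, hp, hω, mul_inv_cancel₀ hp0, S.one, smul_eq_mul,
      mul_one] at this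
    exact hs this
  have sep : ∀ z, (∀ l : L, z ≠ l • a) → ∃ w, S.b a w = 0 ∧ S.b w z = 1 := by
    intro z hz
    by_contra hcon
    push Not at hcon
    obtain ⟨p', q', h⟩ := S.mem_span_pair (x := a) (y := a) (u := z) fun w hw _ => by
      by_contra hne
      refine hcon ((S.b z w)⁻¹ • w) (by simp [hw]) ?_
      rw [S.comm, map_smul, smul_eq_mul, inv_mul_cancel₀ hne]
    exact hz (p' + q') (by rw [h, add_smul])
  have hj₁' : ∀ l : L, j₁ ≠ l • a := fun l h => one_ne_zero (hind 1 0 ⟨l, by simp [h]⟩).1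
  obtain ⟨v₀, hv₀, hv₀1⟩ := sep j₁ hj₁'
  obtain ⟨w, haw, hw1⟩ : ∃ w, S.b a w = 0 ∧ S.b w j₁ ≠ 0 ∧
      ∀ t : F, S.b w j₂ ≠ t • S.b w j₁ := by
    by_cases ht : ∃ t : F, S.b v₀ j₂ = t • S.b v₀ j₁
    swap
    · push Not at ht
      exact ⟨v₀, hv₀, by rw [hv₀1]; exact one_ne_zero, ht⟩
    obtain ⟨t, ht⟩ := ht
    obtain ⟨v₁, hv₁, hv₁1⟩ := sep (j₂ - t • j₁) fun l h => one_ne_zero
      (hind (-t) 1 ⟨l, by rw [← h]; module⟩).2
    rw [map_sub, LinearMap.map_smul_of_tower] at hv₁1
    set κ := S.b v₁ j₁ with hκ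
    obtain ⟨ν, hν, hνκ⟩ : ∃ ν : L, (∀ c : F, ν ≠ algebraMap F L c) ∧ ν * κ ≠ 1 := by
      obtain ⟨ν, hν⟩ := S.exists_not_scalar
      by_cases h : ν * κ = 1
      · refine ⟨ν + 1, fun c hc => hν (c - 1) (by rw [map_sub, map_one, ← hc]; ring), fun h' => ?_⟩
        have : κ = 0 := by linear_combination h' - h
        rw [this, mul_zero] at h
        exact zero_ne_one h
      · exact ⟨ν, hν, h⟩
    set lam := ν / (1 - ν * κ) with hlam
    have hne : (1 : L) - ν * κ ≠ 0 := sub_ne_zero.2 fun h => hνκ h.symm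
    refine ⟨v₀ + lam • v₁, by simp [hv₀, hv₁], ?_, fun t' h => ?_⟩
    · intro h
      simp [hv₀1, ← hκ, hlam] at h
      field_simp at h
      exact one_ne_zero (by linear_combination h)
    · have e3 : S.b v₁ j₂ = 1 + t • κ := by linear_combination hv₁1
      simp only [map_add, map_smul, LinearMap.add_apply, LinearMap.smul_apply, smul_eq_mul, ht,
        hv₀1, ← hκ, e3, Algebra.smul_def, mul_one, hlam] at h
      field_simp at h
      apply hν (t' - t)
      rw [map_sub]
      linear_combination h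
  obtain ⟨hw1, hw2⟩ := hw1
  set w' := (k₀ / S.b w j₁) • w with hw'
  set l₂ := k₀ / S.b w j₁ * S.b w j₂ with hl₂
  have R0 := (S.commutator_root hO haa hyM hfix hj₁ hj₂ hdiff
    (v := w') (by simp [hw', haw])).conj hg hgi (S.Q_of_sing (by simp [haa]))
  simp only [hw', map_smul, LinearMap.smul_apply, smul_eq_mul, div_mul_cancel₀ _ hw1, ← hl₂,
    ← lineImg_apply, ← hu] at R0
  obtain ⟨t, htW⟩ := hdec l₂
  obtain ⟨ω', hω'⟩ := mem_lineCap'.1 htW
  have hω'0 : ω' ≠ 0 := by
    intro h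
    rw [h, zero_smul, ← map_zero (lineImg (L := L) g a)] at hω'
    have e4 := sub_eq_zero.1 (lineImg_injective g ha0 hω').symm
    refine hw2 t ?_
    have hk0 : k₀ ≠ 0 := fun h => hk₀ (by rw [h]; exact Submodule.zero_mem _)
    rw [hl₂, Algebra.smul_def] at e4
    field_simp at e4
    rw [Algebra.smul_def]
    linear_combination e4
  have hQu : Q u = 0 := by
    rw [hu, lineImg_apply, hgi]
    exact S.Q_of_sing (by simp [haa])
  have hQe : Q (ω' • e) = 0 := S.Q_of_sing (by simp [hee])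
  have Ruu : RootLine Q M u u := ⟨by rw [polar_self, hQu, smul_zero], fun c => by
    have L' : LongPair Q u u := ⟨hQu, hQu, by rw [polar_self, hQu, smul_zero]⟩
    have : sg Q u (c • u) = 1 := gl_ext fun z => by
      rw [(L'.smul_right c).mulVec, polar_smul_right]
      simp [smul_smul, mul_comm]
    rw [this]; exact one_mem _⟩
  have R1 : RootLine Q M u (ω' • e) := by
    rw [hω', map_sub, map_smul, ← hu, sub_eq_add_neg, ← neg_smul]
    exact R0.add hQu (Ruu.smul _)
  refine ⟨ω' • e, u, by simp [hee], smul_ne_zero hω'0 he0,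
    by rw [map_smul, LinearMap.smul_apply, S.comm, hu, horth, smul_zero], hQu,
    fun l hl => hue (l * ω') (by rw [hl, smul_smul]), R1.symm hQu hQe⟩

end OrExt

end Cfsg.Agent.Lib.Forms
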