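import Cfsg.Agent.Lib.Forms.OrExtConfig

/-!
An overgroup moving some line over the larger field has an element carrying a singular line onto
a line meeting it in a hyperplane.
-/

set_option autoImplicit false

namespace Cfsg.Agent.Lib.Forms

open Matrix QuadraticMap Cfsg.Agent.Lib.Classical.Quad Cfsg.Agent.Lib.Classical.QuadOmega

variable {ι : Type} [Fintype ι] [DecidableEq ι] {F : Type*} [Field F]
  {Q : QuadraticForm F (ι → F)}
  {L : Type*} [Field L] [Algebra F L] [Module L (ι → F)] [IsScalarTower F L (ι → F)]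

namespace OrExt

variable (S : OrExt Q L) [Finite F] (hw : 4 ≤ Module.finrank L (ι → F))
include S hw

/-- A singular vector not orthogonal to two given ones. -/
lemma exists_both {e z : ι → F} (he : S.b e e = 0) (he0 : e ≠ 0) (hz : S.b z z = 0) (hz0 : z ≠ 0)
    (h3 : S.b e z = 0) :
    ∃ y, S.b y y = 0 ∧ S.b e y ≠ 0 ∧ S.b y z ≠ 0 := by
  obtain ⟨c, hc, hec⟩ := S.exists_partner he he0
  obtain ⟨d, hd, hzd⟩ := S.exists_partner hz hz0
  by_cases h1 : S.b c z = 0
  swap
  · exact ⟨c, hc, by rw [hec]; exact one_ne_zero, h1⟩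
  by_cases h2 : S.b e d = 0
  swap
  · exact ⟨d, hd, h2, by rw [S.comm, hzd]; exact one_ne_zero⟩
  set v := d - S.b d c • e with hv
  have hev : S.b e v = 0 := by simp [hv, h2, he]
  have hcv : S.b c v = 0 := by simp [hv, S.comm c d, S.comm c e, hec]
  have hzv : S.b z v = 1 := by simp [hv, hzd, S.comm z e, h3]
  refine ⟨c + v - (S.b v v / 2) • e, ?_, ?_, ?_⟩
  · simp only [map_add, map_sub, map_smul, LinearMap.add_apply, LinearMap.sub_apply,
      LinearMap.smul_apply, smul_eq_mul, hc, he, hec, S.comm c e, S.comm v e, hev, hcv, S.comm v c]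
    field_simp [S.twoL]
    ring
  · simp [hec, hev, he]
  · simp [h1, h3, S.comm v z, hzv]

/-- A map preserving every singular line is a scalar. -/
lemma scalar_of_sing_lines (T : (ι → F) →ₗ[F] (ι → F))
    (hT : ∀ x, S.b x x = 0 → ∃ l : L, T x = l • x) : ∃ l : L, ∀ v, T v = l • v := by
  classical
  choose f hf using hT
  have h2 := S.twoL
  have nonorth : ∀ p q (hp : S.b p p = 0) (hq : S.b q q = 0), S.b p q ≠ 0 → f p hp = f q hq := by
    intro p q hp hq hs
    set c := (S.b p q)⁻¹ • q with hc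
    have hcc : S.b c c = 0 := by simp [hc, hq]
    have hpc : S.b p c = 1 := by simp [hc, inv_mul_cancel₀ hs]
    obtain ⟨z, hz, hzz⟩ := S.exists_norm (S.orth_pair hp hcc hpc) (by omega) (4 * S.b p q)
    obtain ⟨hpz, hcz⟩ := S.pair_perp.1 hz
    have hqz : S.b q z = 0 := by
      simpa [hc, hs] using hcz
    set r := p - (2 : L) • q + z with hr
    have hrr : S.b r r = 0 := by
      simp [hr, hp, hq, hpz, hqz, hzz, S.comm q p, S.comm z p, S.comm z q]
      ring
    have hss : S.b (p + q + r) (p + q + r) = 0 := by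
      simp [hr, hp, hq, hpz, hqz, hzz, S.comm q p, S.comm z p, S.comm z q]
      ring
    have e : T (p + q + r) = f p hp • p + f q hq • q + f r hrr • r := by
      rw [map_add, map_add, ← hf, ← hf, ← hf]
    rw [hf _ hss] at e
    have e1 := congrArg (fun w => S.b w z) e
    have e2 := congrArg (fun w => S.b w q) e
    have e3 := congrArg (fun w => S.b w p) e
    have rz : S.b r z = 4 * S.b p q := by simp [hr, hpz, hqz, hzz]
    have rq : S.b r q = S.b p q := by simp [hr, hq, S.comm z q, hqz]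
    have rp : S.b r p = -(2 * S.b p q) := by simp [hr, hp, S.comm z p, hpz, S.comm q p]
    simp only [map_add, map_smul, LinearMap.add_apply, LinearMap.smul_apply, smul_eq_mul, hp, hq,
      hpz, hqz, rz, rq, rp, S.comm q p, mul_zero, zero_add, add_zero] at e1 e2 e3
    have h4 : f _ hss = f r hrr := mul_right_cancel₀ (mul_ne_zero S.fourL hs) e1
    have h5 : f _ hss = f p hp := by
      refine mul_right_cancel₀ hs ?_
      linear_combination e2 - S.b p q * h4
    refine mul_right_cancel₀ hs ?_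
    linear_combination e3 + 2 * S.b p q * h4 - S.b p q * h4 - S.b p q * h5 + S.b p q * h4
  have all : ∀ p q (hp : S.b p p = 0) (hq : S.b q q = 0), p ≠ 0 → q ≠ 0 → f p hp = f q hq := by
    intro p q hp hq hp0 hq0
    by_cases h0 : S.b p q = 0
    swap
    · exact nonorth p q hp hq h0
    obtain ⟨y, hy, h1, h2⟩ := S.exists_both hw hp hp0 hq hq0 h0
    exact (nonorth p y hp hy h1).trans (nonorth y q hy hq h2)
  haveI := S.finite_V
  obtain ⟨e, -, he0, he⟩ := S.exists_sing (W := ⊤) (by rw [finrank_top]; omega)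
  obtain ⟨c, hc, hec⟩ := S.exists_partner he he0
  refine ⟨f e he, fun v => ?_⟩
  have key : ∀ x (hx : S.b x x = 0), T x = f e he • x := by
    intro x hx
    rcases eq_or_ne x 0 with rfl | hx0
    · simp
    · rw [hf x hx, all x e hx he hx0 he0]
  set z := v - S.b v c • e - S.b v e • c with hz
  set h := S.b z z / 2
  have hze : S.b z e = 0 := by simp [hz, he, hec, S.comm c e]
  have hzc : S.b z c = 0 := by simp [hz, hc, hec]
  have dec : v = (S.b v c • e + S.b v e • c) + ((z + e - h • c) - (e - h • c) - (0 : ι → F)) := by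
    rw [hz]; abel
  have hs1 : S.b (z + e - h • c) (z + e - h • c) = 0 := by
    simp [he, hc, hec, hze, hzc, S.comm c e, S.comm e z, S.comm c z, h]
    field_simp
    ring
  have hs2 : T (e - h • c) = f e he • (e - h • c) := by
    rw [map_sub, key e he, key (h • c) (by simp [hc]), smul_sub]
  rw [dec, map_add, map_add, map_sub, map_sub, key (S.b v c • e) (by simp [he]),
    key (S.b v e • c) (by simp [hc]), key _ hs1, hs2, map_zero]
  module

variable {M : Subgroup (GL ι F)} (hO : S.Over M)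
include hO

/-- An element not preserving the lines moves some singular line off the lines. -/
lemma exists_bad {g : GL ι F} (hg : g ∈ M)
    (hbad : ∃ (v : ι → F) (k : L), ∀ l : L,
      (g : Matrix ι ι F) *ᵥ (k • v) ≠ l • ((g : Matrix ι ι F) *ᵥ v)) :
    ∃ (a : ι → F) (k : L), a ≠ 0 ∧ S.b a a = 0 ∧
      ∀ l : L, (g : Matrix ι ι F) *ᵥ (k • a) ≠ l • ((g : Matrix ι ι F) *ᵥ a) := by
  classical
  by_contra hcon
  push Not at hcon
  have hline : ∀ a, S.b a a = 0 → ∀ k : L, ∃ l : L,
      (g : Matrix ι ι F) *ᵥ (k • a) = l • ((g : Matrix ι ι F) *ᵥ a) := by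
    intro a ha k
    rcases eq_or_ne a 0 with rfl | ha0
    · exact ⟨0, by simp⟩
    · exact hcon a k ha0 ha
  have himg : ∀ a, S.b a a = 0 → S.b ((g : Matrix ι ι F) *ᵥ a) ((g : Matrix ι ι F) *ᵥ a) = 0 := by
    intro a ha
    rcases eq_or_ne a 0 with rfl | ha0
    · simp
    haveI := S.finite_L
    set x := (g : Matrix ι ι F) *ᵥ a with hx
    have hle : LinearMap.range (lineImg (L := L) g a) ≤ LinearMap.range (lineMap (L := L) x) := by
      rintro _ ⟨k, rfl⟩
      obtain ⟨l, hl⟩ := hline a ha k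
      exact ⟨l, hl.symm⟩
    have hx0 : x ≠ 0 := fun e => ha0 (gl_mulVec_injective g (by simp [← hx, e]))
    have heq := Submodule.eq_of_le_of_finrank_le hle (by
      rw [LinearMap.finrank_range_of_inj (lineMap_injective (L := L) hx0),
        LinearMap.finrank_range_of_inj (lineImg_injective g ha0)])
    refine S.μ_nd fun k => ?_
    obtain ⟨k', hk'⟩ := (heq ▸ LinearMap.mem_range_self _ k :
      lineMap x k ∈ LinearMap.range (lineImg (L := L) g a))
    have := S.img_polar hO hg ha k' 1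
    rw [hk', lineImg_apply g a (1 : L), one_smul, ← hx, lineMap_apply] at this
    simpa using this
  let φ : {x : ι → F // S.b x x = 0} → {x : ι → F // S.b x x = 0} :=
    fun x => ⟨_, himg x.1 x.2⟩
  have hsurj := Finite.injective_iff_surjective.1 (fun x y h => Subtype.ext
    (gl_mulVec_injective g (congrArg Subtype.val h)) : Function.Injective φ)
  obtain ⟨v, k, hv⟩ := hbad
  obtain ⟨l, hl⟩ := S.scalar_of_sing_lines hw (Matrix.toLin' (g : Matrix ι ι F) ∘ₗ
    ((k • LinearMap.id : (ι → F) →ₗ[L] (ι → F)).restrictScalars F) ∘ₗ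
    Matrix.toLin' ((g⁻¹ : GL ι F) : Matrix ι ι F)) fun x hx => by
      obtain ⟨⟨a, ha⟩, hax⟩ := hsurj ⟨x, hx⟩
      have hax' : (g : Matrix ι ι F) *ᵥ a = x := congrArg Subtype.val hax
      obtain ⟨l, hl⟩ := hline a ha k
      refine ⟨l, ?_⟩
      simp only [LinearMap.comp_apply, Matrix.toLin'_apply, LinearMap.restrictScalars_apply,
        LinearMap.smul_apply, LinearMap.id_apply]
      rw [← hax', inv_mulVec_mulVec, hl]
  have := hl ((g : Matrix ι ι F) *ᵥ v)
  simp only [LinearMap.comp_apply, Matrix.toLin'_apply, LinearMap.restrictScalars_apply,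
    LinearMap.smul_apply, LinearMap.id_apply, inv_mulVec_mulVec] at this
  exact hv l this

/-- An intersection of an image of a singular line with a singular line. -/
lemma exists_cap {g : GL ι F} (hg : g ∈ M)
    (hbad : ∃ (v : ι → F) (k : L), ∀ l : L,
      (g : Matrix ι ι F) *ᵥ (k • v) ≠ l • ((g : Matrix ι ι F) *ᵥ v)) :
    ∃ g' ∈ M, ∃ a e : ι → F, a ≠ 0 ∧ e ≠ 0 ∧ S.b a a = 0 ∧ S.b e e = 0 ∧
      lineCap (L := L) g' a e ≠ ⊥ ∧ lineCap (L := L) g' a e ≠ ⊤ := by
  obtain ⟨a, k, ha0, haa, hk⟩ := S.exists_bad hw hO hg hbad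
  set e := (g : Matrix ι ι F) *ᵥ a with he
  have he0 : e ≠ 0 := fun h => ha0 (gl_mulVec_injective g (by simp [← he, h]))
  have h1 : lineImg g a (1 : L) = e := by rw [lineImg_apply, one_smul]
  set u := lineImg g a k with hu
  by_cases hee : S.b e e = 0
  · refine ⟨g, hg, a, e, ha0, he0, haa, hee, fun h => ?_, fun h => ?_⟩
    · have : (1 : L) ∈ lineCap g a e := mem_lineCap'.2 ⟨1, by rw [one_smul, h1]⟩
      rw [h] at this
      simp at this
    · obtain ⟨l, hl⟩ := mem_lineCap'.1 (h ▸ Submodule.mem_top : k ∈ lineCap g a e)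
      exact hk l hl.symm
  · -- move the image by an Eichler element fixing `e`
    obtain ⟨u', hu', hu''⟩ := S.exists_pr (S.orth_one hee) u
    have hu'0 : u' ≠ 0 := fun h => hk (S.b e u / S.b e e) (by
      refine sub_eq_zero.1 (S.b_nd fun y => ?_)
      obtain ⟨y', hy', hy''⟩ := S.exists_pr (S.orth_one hee) y
      have hyd : ∀ i, S.b (![e] i) (u - (S.b e u / S.b e e) • e) = 0 := fun i => by
        fin_cases i
        simp [div_mul_cancel₀ _ hee]
      rw [S.comm, ← lineImg_apply, ← hu, ← hy'' _ hyd, S.comm, map_sub, map_smul,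
        show S.b y' e = 0 by rw [S.comm]; simpa using hy' 0, smul_zero, sub_zero, ← hu'' _ hy', h,
        map_zero])
    obtain ⟨p, hp, hpp, hup⟩ := S.exists_sing_sep (S.orth_one hee) (by omega) hu' hu'0
    have hep : S.b e p = 0 := by simpa using hp 0
    have hup' : S.b u p ≠ 0 := by rwa [S.comm, ← hu'' p hp, S.comm]
    have hp0 : p ≠ 0 := fun h => hup' (by rw [h, map_zero])
    obtain ⟨d, hd, hpd⟩ := S.exists_partner hpp hp0
    obtain ⟨d', hd', hd''⟩ := S.exists_pr (S.orth_one hee) d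
    set d₁ := d' - (S.b d' d' / 2) • p with hd₁
    have hd₁e : S.b e d₁ = 0 := by simp [hd₁, hep, show S.b e d' = 0 by simpa using hd' 0]
    have hpd' : S.b p d' = 1 := by rw [hd'' p hp, hpd]
    have hpd₁ : S.b p d₁ = 1 := by simp [hd₁, hpp, hpd']
    have hdd : S.b d₁ d₁ = 0 := by
      simp only [hd₁, map_sub, map_smul, LinearMap.sub_apply, LinearMap.smul_apply, smul_eq_mul,
        hpp, S.comm d' p, hpd']
      field_simp [S.twoL]
      ring
    obtain ⟨y, hy, hyy⟩ := S.exists_ns (S.orth_snoc (S.orth_pair hpp hdd hpd₁)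
      (S.pair_perp.2 ⟨by rw [S.comm, hep], by rw [S.comm, hd₁e]⟩) hee) (by omega)
    obtain ⟨hpy, -⟩ := S.pair_perp.1 fun i => by simpa using hy i.castSucc
    have hey : S.b e y = 0 := by simpa using hy (Fin.last 2)
    obtain ⟨t, ht⟩ := S.exists_sq_μ (N := S.b u p * S.b u p * S.b y y)
      (mul_ne_zero (mul_ne_zero hup' hup') hyy)
    set v := t • y with hv
    have hpv : S.b p v = 0 := by simp [hv, hpy]
    set T := S.et p v
    have hT := S.et_mem hO hpp hpv
    have hTe : (T : Matrix ι ι F) *ᵥ e = e := by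
      rw [S.et_mulVec hpp hpv]
      simp [hv, hey, hep]
    set g' := g⁻¹ * T * g with hg'
    refine ⟨g', mul_mem (mul_mem (inv_mem hg) hT) hg, a, a, ha0, ha0, haa, haa, fun h => ?_,
      fun h => ?_⟩
    · have : (1 : L) ∈ lineCap g' a a := mem_lineCap.2 ⟨1, by
        rw [one_smul, hg', mul_mulVec', mul_mulVec', ← he, hTe, he, inv_mulVec_mulVec]⟩
      rw [h] at this
      simp at this
    · obtain ⟨l, hl⟩ := mem_lineCap.1 (h ▸ Submodule.mem_top : k ∈ lineCap g' a a)
      rw [hg', mul_mulVec', mul_mulVec', ← lineImg_apply, ← hu] at hl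
      have h3 : lineImg g a l = (T : Matrix ι ι F) *ᵥ u := by
        rw [lineImg_apply, hl, mulVec_inv_mulVec]
      have h4 := S.img_polar hO hg haa l k
      rw [h3, ← hu, S.et_mulVec hpp hpv] at h4
      simp only [map_add, map_sub, map_smul, LinearMap.add_apply, LinearMap.sub_apply,
        LinearMap.smul_apply, smul_eq_mul, S.comm v u, S.comm p u] at h4
      have h5 := S.img_polar hO hg haa k k
      rw [← hu] at h5
      apply ht
      refine (mul_eq_zero.1 (?_ : (2⁻¹ : F) * _ = 0)).resolve_left (inv_ne_zero S.two)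
      have e2 : t * t * (S.b u p * S.b u p * S.b y y) * (2 : L)⁻¹ =
          S.b u u - (S.b u u + S.b u p * S.b u v -
            (S.b u v + S.b v v / 2 * S.b u p) * S.b u p) := by
        simp [hv]
        field_simp [S.twoL]
        ring
      rw [← smul_eq_mul, ← map_smul, Algebra.smul_def, map_inv₀, map_ofNat, mul_comm, e2, map_sub,
        h5, zero_sub, neg_eq_zero]
      simp only [map_add, map_sub]
      exact h4

/-- An intersection that is a hyperplane, with the image orthogonal to the line over the field. -/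
lemma exists_config {g : GL ι F} (hg : g ∈ M)
    (hbad : ∃ (v : ι → F) (k : L), ∀ l : L,
      (g : Matrix ι ι F) *ᵥ (k • v) ≠ l • ((g : Matrix ι ι F) *ᵥ v)) :
    ∃ g' ∈ M, ∃ (a e : ι → F) (k₀ : L), a ≠ 0 ∧ e ≠ 0 ∧ S.b a a = 0 ∧ S.b e e = 0 ∧
      k₀ ∉ lineCap g' a e ∧ (∀ k : L, S.b (lineImg g' a k) e = 0) ∧
      ∀ k : L, ∃ t : F, k - t • k₀ ∈ lineCap g' a e := by
  classical
  haveI := S.finite_L
  let P : ℕ → Prop := fun s => ∃ g' ∈ M, ∃ a e : ι → F, a ≠ 0 ∧ e ≠ 0 ∧ S.b a a = 0 ∧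
    S.b e e = 0 ∧ lineCap (L := L) g' a e ≠ ⊥ ∧ lineCap (L := L) g' a e ≠ ⊤ ∧
    Module.finrank F (lineCap (L := L) g' a e) = s
  set r := Module.finrank F L
  obtain ⟨g₀, hg₀, a₀, e₀, h1, h2, h3, h4, h5, h6⟩ := S.exists_cap hw hO hg hbad
  have hP : P (Module.finrank F (lineCap (L := L) g₀ a₀ e₀)) :=
    ⟨g₀, hg₀, a₀, e₀, h1, h2, h3, h4, h5, h6, rfl⟩
  set s := Nat.findGreatest P r with hs
  have hmax : S.IsBound M s := fun g' hg' a e ha he haa hee hb ht =>
    Nat.le_findGreatest (Submodule.finrank_le _) ⟨g', hg', a, e, ha, he, haa, hee, hb, ht, rfl⟩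
  obtain ⟨g₁, hg₁, a, e, ha0, he0, haa, hee, hbot, htop, hdim⟩ : P s :=
    Nat.findGreatest_spec (Submodule.finrank_le _) hP
  -- with one orthogonal vector outside the intersection
  have fin : ∀ {g' : GL ι F} {e : ι → F}, g' ∈ M → e ≠ 0 → S.b e e = 0 →
      lineCap (L := L) g' a e ≠ ⊥ → Module.finrank F (lineCap (L := L) g' a e) = s →
      ∀ k₀ : L, k₀ ∉ lineCap g' a e → S.b (lineImg g' a k₀) e = 0 →
      ∃ g' ∈ M, ∃ (a e : ι → F) (k₀ : L), a ≠ 0 ∧ e ≠ 0 ∧ S.b a a = 0 ∧ S.b e e = 0 ∧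
        k₀ ∉ lineCap g' a e ∧ (∀ k : L, S.b (lineImg g' a k) e = 0) ∧
        ∀ k : L, ∃ t : F, k - t • k₀ ∈ lineCap g' a e := by
    intro g' e hg' he0 hee hb hd k₀ hk₀ h0
    have horth := S.all_orth hO hw hg' ha0 haa hmax hee hb hd hk₀ h0
    exact ⟨g', hg', a, e, k₀, ha0, he0, haa, hee, hk₀, horth,
      S.hyperplane hO hw hg' ha0 haa hmax hee hb hd horth hk₀⟩
  by_cases hex : ∃ k₀ : L, k₀ ∉ lineCap g₁ a e ∧ S.b (lineImg g₁ a k₀) e = 0
  · obtain ⟨k₀, hk₀, h0⟩ := hex
    exact fin hg₁ he0 hee hbot hdim k₀ hk₀ h0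
  · push Not at hex
    obtain ⟨g₂, hg₂, hb₂, -, hd₂, k₀, hk₀, h0⟩ :=
      S.exists_orth hO hw hg₁ ha0 haa hmax hee hbot hdim hex htop
    exact fin hg₂ ha0 haa hb₂ hd₂ k₀ hk₀ h0

end OrExt

end Cfsg.Agent.Lib.Forms
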