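import Cfsg.Agent.Lib.Classical.QuadOmega.Apply
import Cfsg.Agent.Lib.Forms.QuadHyp

/-!
Facts inside one non-degenerate block of dimension at least three.
-/

set_option autoImplicit false

namespace Cfsg.Agent.Lib.Forms

open QuadraticMap Cfsg.Agent.Lib.Classical.Quad Cfsg.Agent.Lib.Classical.QuadOmega

variable {F : Type*} [Field F] [Fintype F] {V : Type*} [AddCommGroup V] [Module F V]
  [FiniteDimensional F V] {Q : QuadraticForm F V}

/-- A non-degenerate block which is neither too small nor over a too small field. -/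
structure Blk (Q : QuadraticForm F V) (D : Submodule F V) : Prop where
  nd : ∀ x ∈ D, (∀ y ∈ D, polar Q x y = 0) → x = 0
  three : 3 ≤ Module.finrank F D
  small3 : Module.finrank F D = 3 → 5 ≤ Fintype.card F ∧ (2 : F) ≠ 0
  small4 : Module.finrank F D = 4 → Fintype.card F = 2 → ∀ a ∈ D, ∀ b ∈ D, Q a = 0 → Q b = 0 →
    polar Q a b = 0 → ¬ LinearIndependent F ![a, b]

/-- The vectors of a subspace orthogonal to a vector. -/
abbrev perpIn (Q : QuadraticForm F V) (D : Submodule F V) (u : V) : Submodule F V :=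
  D ⊓ LinearMap.ker (polarBilin Q u)

omit [Fintype F] [FiniteDimensional F V] in
lemma mem_perpIn {D : Submodule F V} {u x : V} : x ∈ perpIn Q D u ↔ x ∈ D ∧ polar Q u x = 0 := by
  simp [perpIn]

omit [Fintype F] in
lemma finrank_perpIn (D : Submodule F V) (u : V) :
    Module.finrank F D ≤ Module.finrank F (perpIn Q D u) + 1 := by
  have h1 := Submodule.finrank_sup_add_finrank_inf_eq D (LinearMap.ker (polarBilin Q u))
  have h2 := Submodule.finrank_le (D ⊔ LinearMap.ker (polarBilin Q u))
  have h3 := LinearMap.finrank_range_add_finrank_ker (polarBilin Q u)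
  have h4 := Submodule.finrank_le (LinearMap.range (polarBilin Q u))
  rw [Module.finrank_self] at h4
  change _ ≤ Module.finrank F ↥(D ⊓ LinearMap.ker (polarBilin Q u)) + 1
  omega

namespace Blk

variable {D : Submodule F V} (B : Blk Q D)
include B

lemma exists_partner {x : V} (hx : x ∈ D) (hx0 : x ≠ 0) : ∃ y ∈ D, polar Q x y ≠ 0 := by
  by_contra h
  push Not at h
  exact hx0 (B.nd x hx h)

/-- An isotropic subspace and its orthogonal subspace are complementary in size. -/
lemma add_le {T S : Submodule F V} (hT : T ≤ D) (hS : S ≤ D)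
    (h : ∀ x ∈ T, ∀ y ∈ S, polar Q x y = 0) :
    Module.finrank F T + Module.finrank F S ≤ Module.finrank F D := by
  obtain ⟨C, hC⟩ := exists_isCompl (S.comap D.subtype)
  let Φ : T →ₗ[F] Module.Dual F C :=
    ((polarBilin Q).comp T.subtype).compl₂ (D.subtype.comp C.subtype)
  have hΦ : Function.Injective Φ := by
    rw [← LinearMap.ker_eq_bot]
    refine LinearMap.ker_eq_bot'.2 fun x hx => Subtype.ext (B.nd x (hT x.2) fun y hy => ?_)
    obtain ⟨s, hs, c, hc, e⟩ := Submodule.mem_sup.1
      (hC.sup_eq_top ▸ Submodule.mem_top : (⟨y, hy⟩ : D) ∈ S.comap D.subtype ⊔ C)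
    have : y = (s : V) + (c : V) := congrArg Subtype.val e.symm
    rw [this, polar_add_right, h x x.2 s hs, zero_add]
    exact LinearMap.congr_fun hx ⟨c, hc⟩
  have h1 := LinearMap.finrank_le_finrank_of_injective hΦ
  rw [Subspace.dual_finrank_eq] at h1
  have h2 := Submodule.finrank_add_eq_of_isCompl hC
  rw [(Submodule.comapSubtypeEquivOfLe hS).finrank_eq] at h2
  omega

lemma exists_nonsing {W : Submodule F V} (hW : W ≤ D)
    (h : Module.finrank F D < 2 * Module.finrank F W) : ∃ w ∈ W, Q w ≠ 0 := by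
  by_contra hc
  push Not at hc
  have := B.add_le hW hW fun x hx y hy => by
    simp [polar, hc x hx, hc y hy, hc _ (W.add_mem hx hy)]
  omega

/-- A hyperbolic pair. -/
lemma exists_pair : ∃ s ∈ D, ∃ z ∈ D, Q s = 0 ∧ Q z = 0 ∧ polar Q s z = 1 := by
  obtain ⟨s, hs, hs0, hQs⟩ := exists_sing_in Q B.three
  obtain ⟨y, hy, hsy⟩ := B.exists_partner hs hs0
  set y₁ := (polar Q s y)⁻¹ • y with hy₁
  have h1 : polar Q s y₁ = 1 := by rw [hy₁, polar_smul_right, smul_eq_mul, inv_mul_cancel₀ hsy]
  refine ⟨s, hs, y₁ + (-Q y₁) • s, D.add_mem (D.smul_mem _ hy) (D.smul_mem _ hs), hQs, ?_, ?_⟩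
  all_goals clear_value y₁
  · rw [QuadraticMap.map_add ⇑Q, QuadraticMap.map_smul, hQs, polar_smul_right, polar_comm Q y₁ s, h1]
    simp
  · rw [polar_add_right, polar_smul_right, polar_self_sing hQs, h1]
    simp

omit B in
lemma proj_pair {s z : V} (hs : s ∈ D) (hz : z ∈ D) (hQs : Q s = 0) (hQz : Q z = 0)
    (h1 : polar Q s z = 1) {d : V} (hd : d ∈ D) :
    ∃ w ∈ D, polar Q s w = 0 ∧ polar Q z w = 0 ∧ d = polar Q z d • s + polar Q s d • z + w := by
  refine ⟨d - polar Q z d • s - polar Q s d • z, D.sub_mem (D.sub_mem hd (D.smul_mem _ hs))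
    (D.smul_mem _ hz), ?_, ?_, by module⟩
  · simp [polar_sub_right, polar_smul_right, polar_self_sing hQs, h1]
  · simp [polar_sub_right, polar_smul_right, polar_self_sing hQz, polar_comm Q z s, h1]

/-- The vectors of any given value span. -/
lemma span_level {S : Submodule F V} (μ : F) (h : ∀ d ∈ D, Q d = μ → d ∈ S) : D ≤ S := by
  obtain ⟨s, hs, z, hz, hQs, hQz, h1⟩ := B.exists_pair
  have key : ∀ a b : V, a ∈ D → b ∈ D → Q a = 0 → Q b = 0 → polar Q a b = 1 → a ∈ S := by
    intro a b ha hb hQa hQb hab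
    have hd : ∀ w ∈ D, polar Q a w = 0 → polar Q b w = 0 → b + w + (μ - Q w) • a ∈ S :=
      fun w hw haw hbw => h _ (D.add_mem (D.add_mem hb hw) (D.smul_mem _ ha)) (by
        rw [QuadraticMap.map_add ⇑Q, QuadraticMap.map_add ⇑Q, QuadraticMap.map_smul, hQa, hQb,
          polar_add_left, polar_smul_right, polar_smul_right, polar_comm Q b a, polar_comm Q w a,
          hab, haw, hbw]
        simp)
    obtain ⟨y, hy, hy0⟩ : ∃ y ∈ perpIn Q D a ⊓ perpIn Q D b, y ≠ 0 := by
      refine Submodule.exists_mem_ne_zero_of_ne_bot fun e => ?_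
      have h1 := finrank_perpIn (Q := Q) D a
      have h2 := finrank_perpIn (Q := Q) D b
      have h3 := Submodule.finrank_sup_add_finrank_inf_eq (perpIn Q D a) (perpIn Q D b)
      have h4 := Submodule.finrank_mono
        (sup_le inf_le_left inf_le_left : perpIn Q D a ⊔ perpIn Q D b ≤ D)
      rw [e, finrank_bot] at h3
      have := B.three
      omega
    obtain ⟨⟨hyD, hya⟩, -, hyb⟩ := (show (y ∈ D ∧ polar Q a y = 0) ∧ y ∈ D ∧ polar Q b y = 0 from
      ⟨mem_perpIn.1 hy.1, mem_perpIn.1 hy.2⟩)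
    obtain ⟨d, hd', hyd⟩ := B.exists_partner hyD hy0
    obtain ⟨w, hw, haw, hbw, e⟩ := proj_pair ha hb hQa hQb hab hd'
    have hyw : polar Q y w ≠ 0 := by
      rw [e] at hyd
      simpa [polar_add_right, polar_smul_right, polar_comm Q y a, polar_comm Q y b, hya, hyb] using hyd
    have h4 := S.sub_mem (S.sub_mem (hd (y + w) (D.add_mem hyD hw)
      (by rw [polar_add_right, hya, haw, add_zero]) (by rw [polar_add_right, hyb, hbw, add_zero]))
      (hd y hyD hya hyb)) (S.sub_mem (hd w hw haw hbw) (hd 0 D.zero_mem (by simp) (by simp)))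
    have h5 := S.smul_mem (-polar Q y w)⁻¹ h4
    convert h5 using 1
    rw [QuadraticMap.map_add ⇑Q, map_zero]
    match_scalars <;> field_simp <;> ring
  have hsS := key s z hs hz hQs hQz h1
  have hzS := key z s hz hs hQz hQs (by rw [polar_comm, h1])
  intro d hd
  obtain ⟨w, hw, hsw, hzw, e⟩ := proj_pair hs hz hQs hQz h1 hd
  have hw' : z + w + (μ - Q w) • s ∈ S := h _ (D.add_mem (D.add_mem hz hw) (D.smul_mem _ hs)) (by
    rw [QuadraticMap.map_add ⇑Q, QuadraticMap.map_add ⇑Q, QuadraticMap.map_smul, hQs, hQz,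
      polar_add_left, polar_smul_right, polar_smul_right, polar_comm Q z s, polar_comm Q w s, h1,
      hsw, hzw]
    simp)
  have hwS : w ∈ S := by
    have h := S.sub_mem (S.sub_mem hw' hzS) (S.smul_mem (μ - Q w) hsS)
    rwa [show z + w + (μ - Q w) • s - z - (μ - Q w) • s = w by abel] at h
  rw [e]
  exact S.add_mem (S.add_mem (S.smul_mem _ hsS) (S.smul_mem _ hzS)) hwS

/-- A vector of given value which is not orthogonal to a given one. -/
lemma exists_level (μ : F) {y : V} {d : V} (hd : d ∈ D) (hyd : polar Q y d ≠ 0) :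
    ∃ a ∈ D, Q a = μ ∧ polar Q y a ≠ 0 := by
  by_contra h
  push Not at h
  exact hyd (B.span_level (S := LinearMap.ker (polarBilin Q y)) μ
    (fun a ha hQa => by simpa using h a ha hQa) hd)

/-- Every value occurs orthogonally to a given vector. -/
lemma rep_perp {u : V} (hu : u ∈ D) (h3 : Module.finrank F D = 3 → Q u ≠ 0 ∨ u = 0) (μ : F) :
    ∃ b ∈ D, Q b = μ ∧ polar Q u b = 0 := by
  have hk := B.three
  have hW := finrank_perpIn (Q := Q) D u
  obtain ⟨w, hw, hQw⟩ := B.exists_nonsing (W := perpIn Q D u) inf_le_left (by omega)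
  obtain ⟨hwD, huw⟩ := mem_perpIn.1 hw
  by_cases h2 : (2 : F) = 0
  · have hch : ringChar F = 2 := by
      by_contra hne
      exact Ring.two_ne_zero hne h2
    obtain ⟨c, hc⟩ := FiniteField.isSquare_of_char_two hch (μ / Q w)
    exact ⟨c • w, D.smul_mem c hwD, by rw [QuadraticMap.map_smul, smul_eq_mul, ← hc, div_mul_cancel₀ _ hQw],
      by rw [polar_smul_right, huw, smul_zero]⟩
  have hww : polar Q w w = 2 * Q w := by rw [polar_self, nsmul_eq_mul, Nat.cast_ofNat]
  set T := perpIn Q (perpIn Q D u) w with hT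
  have hTd := finrank_perpIn (Q := Q) (perpIn Q D u) w
  rw [← hT] at hTd
  obtain ⟨w', hw', hQw'⟩ : ∃ w' ∈ T, Q w' ≠ 0 := by
    by_contra hc
    push Not at hc
    have hTm : ∀ x ∈ T, x ∈ D ∧ polar Q u x = 0 ∧ polar Q w x = 0 := fun x hx => by
      rw [hT, mem_perpIn, mem_perpIn] at hx
      exact ⟨hx.1.1, hx.1.2, hx.2⟩
    have hTT : ∀ x ∈ T, ∀ y ∈ T, polar Q x y = 0 := fun x hx y hy => by
      simp [polar, hc x hx, hc y hy, hc _ (T.add_mem hx hy)]
    have hwT : w ∉ T := fun h => hQw (hc w h)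
    have h1 := B.add_le (T := T) (S := T ⊔ Submodule.span F {w}) (fun x hx => (hTm x hx).1)
      (sup_le (fun x hx => (hTm x hx).1) ((Submodule.span_singleton_le_iff_mem _ _).2 hwD))
      fun x hx y hy => by
        obtain ⟨t, ht, w₀, hw₀, rfl⟩ := Submodule.mem_sup.1 hy
        obtain ⟨c, rfl⟩ := Submodule.mem_span_singleton.1 hw₀
        rw [polar_add_right, hTT x hx t ht, polar_smul_right, polar_comm Q x w, (hTm x hx).2.2,
          smul_zero, add_zero]
    have h2' : Module.finrank F T < Module.finrank F ↥(T ⊔ Submodule.span F {w}) :=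
      Submodule.finrank_lt_finrank_of_lt (left_lt_sup.2 fun h =>
        hwT (h (Submodule.mem_span_singleton_self w)))
    have hk3 : Module.finrank F D = 3 := by omega
    obtain ⟨t, ht, ht0⟩ := Submodule.exists_mem_ne_zero_of_ne_bot (p := T) fun e => by
      rw [e, finrank_bot] at hTd; omega
    refine ht0 (B.nd t (hTm t ht).1 fun y hy => ?_)
    obtain ⟨a, ha⟩ : ∃ a : F, polar Q u (y - a • u) = 0 := by
      rcases h3 hk3 with hQu | rfl
      · refine ⟨polar Q u y / (2 * Q u), ?_⟩
        rw [polar_sub_right, polar_smul_right, polar_self, nsmul_eq_mul, smul_eq_mul, Nat.cast_ofNat,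
          div_mul_cancel₀ _ (mul_ne_zero h2 hQu), sub_self]
      · exact ⟨0, by simp⟩
    set y₁ := y - a • u with hy₁
    set b := polar Q w y₁ / (2 * Q w) with hb
    have hy₂ : y₁ - b • w ∈ T := by
      rw [hT, mem_perpIn, mem_perpIn]
      refine ⟨⟨D.sub_mem (D.sub_mem hy (D.smul_mem _ hu)) (D.smul_mem _ hwD), ?_⟩, ?_⟩
      · rw [polar_sub_right, ha, polar_smul_right, huw, smul_zero, sub_zero]
      · rw [polar_sub_right, polar_smul_right, hww, smul_eq_mul, hb,
          div_mul_cancel₀ _ (mul_ne_zero h2 hQw), sub_self]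
    have e : y = (y₁ - b • w) + b • w + a • u := by rw [hy₁]; module
    rw [e, polar_add_right, polar_add_right, hTT t ht _ hy₂, polar_smul_right, polar_smul_right,
      polar_comm Q t w, (hTm t ht).2.2, polar_comm Q t u, (hTm t ht).2.1]
    simp
  rw [hT, mem_perpIn, mem_perpIn] at hw'
  obtain ⟨s, t, hst⟩ := exists_binary_rep h2 hQw hQw' μ
  refine ⟨s • w + t • w', D.add_mem (D.smul_mem _ hwD) (D.smul_mem _ hw'.1.1), ?_, ?_⟩
  · rw [QuadraticMap.map_add ⇑Q, QuadraticMap.map_smul, QuadraticMap.map_smul, polar_smul_left,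
      polar_smul_right, hw'.2]
    simp only [smul_eq_mul]
    linear_combination hst
  · rw [polar_add_right, polar_smul_right, polar_smul_right, huw, hw'.1.2]
    simp

lemma rep (μ : F) : ∃ b ∈ D, Q b = μ := by
  obtain ⟨b, hb, h, -⟩ := B.rep_perp D.zero_mem (fun _ => Or.inr rfl) μ
  exact ⟨b, hb, h⟩

lemma nosplit_aux {μ : F} (hμ : μ ≠ 0) {U U' : Submodule F V} (hU : U ≤ D) (hU' : U' ≤ D)
    (horth : ∀ x ∈ U, ∀ y ∈ U', polar Q x y = 0)
    (hall : ∀ d ∈ D, Q d = μ → d ∈ U ∨ d ∈ U') {u u' : V} (hu : u ∈ U) (hQu : Q u = μ)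
    (hu' : u' ∈ U') (hQu' : Q u' = μ) (hd2 : 2 ≤ Module.finrank F U) : False := by
  classical
  have htop : D ≤ U ⊔ U' := B.span_level μ fun d hd h => (hall d hd h).elim
    (fun h' => Submodule.mem_sup_left h') fun h' => Submodule.mem_sup_right h'
  have hdisj : ∀ x, x ∈ U → x ∈ U' → x = 0 := fun x h1 h2 => B.nd x (hU h1) fun y hy => by
    obtain ⟨a, ha, b, hb, rfl⟩ := Submodule.mem_sup.1 (htop hy)
    rw [polar_add_right, polar_comm Q x a, horth a ha x h2, horth x h1 b hb, add_zero]
  have hndU : ∀ x ∈ U, (∀ y ∈ U, polar Q x y = 0) → x = 0 := fun x h1 h2 => B.nd x (hU h1) fun y hy => by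
    obtain ⟨a, ha, b, hb, rfl⟩ := Submodule.mem_sup.1 (htop hy)
    rw [polar_add_right, h2 a ha, horth x h1 b hb, add_zero]
  have hu0 : u ≠ 0 := fun e => hμ (by rw [← hQu, e, map_zero])
  have hu'0 : u' ≠ 0 := fun e => hμ (by rw [← hQu', e, map_zero])
  have claim : ∀ v ∈ U, v ∉ Submodule.span F {u} → polar Q u v ≠ 0 → ∀ y ∈ U', y ≠ 0 →
      Q v + Q y = 0 := by
    intro v hv hvu hp y hy hy0
    by_contra hne
    have hw : Q (v + y) ≠ 0 := by rwa [QuadraticMap.map_add ⇑Q, horth v hv y hy, add_zero]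
    set c := polar Q u v / Q (v + y) with hc
    have hc0 : c ≠ 0 := div_ne_zero hp hw
    have huw : polar Q u (v + y) = polar Q u v := by rw [polar_add_right, horth u hu y hy, add_zero]
    have hd : Q (u - c • (v + y)) = μ := by
      have e := iso_Q (refl Q (v + y)) u
      rwa [refl_apply hw, huw, hQu] at e
    rcases hall _ (D.sub_mem (hU hu) (D.smul_mem _ (D.add_mem (hU hv) (hU' hy)))) hd with h | h
    · have h1 : c • y ∈ U := by
        have := U.sub_mem (U.sub_mem hu (U.smul_mem c hv)) h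
        convert this using 1
        module
      exact hy0 ((smul_eq_zero.1 (hdisj _ h1 (U'.smul_mem c hy))).resolve_left hc0)
    · have h1 : u - c • v ∈ U' := by
        have := U'.add_mem h (U'.smul_mem c hy)
        convert this using 1
        module
      have h2 := hdisj _ (U.sub_mem hu (U.smul_mem c hv)) h1
      refine hvu (Submodule.mem_span_singleton.2 ⟨c⁻¹, ?_⟩)
      rw [sub_eq_zero.1 h2, smul_smul, inv_mul_cancel₀ hc0, one_smul]
  obtain ⟨v, hv, hvu, hp⟩ : ∃ v ∈ U, v ∉ Submodule.span F {u} ∧ polar Q u v ≠ 0 := by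
    obtain ⟨y₀, hy₀, hy₀p⟩ : ∃ y ∈ U, polar Q u y ≠ 0 := by
      by_contra h; push Not at h; exact hu0 (hndU u hu h)
    by_cases hyl : y₀ ∈ Submodule.span F {u}
    · obtain ⟨v', hv', hv'u⟩ : ∃ v' ∈ U, v' ∉ Submodule.span F {u} := by
        refine SetLike.not_le_iff_exists.1 fun h => ?_
        have := Submodule.finrank_mono h
        rw [finrank_span_singleton hu0] at this
        omega
      by_cases h0 : polar Q u v' = 0
      · exact ⟨v' + y₀, U.add_mem hv' hy₀, fun h => hv'u (by simpa using Submodule.sub_mem _ h hyl),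
          by rwa [polar_add_right, h0, zero_add]⟩
      · exact ⟨v', hv', hv'u, h0⟩
    · exact ⟨y₀, hy₀, hyl, hy₀p⟩
  have hU'val : ∀ y ∈ U', y ≠ 0 → Q y = μ := fun y hy hy0 => by
    have h1 := claim v hv hvu hp y hy hy0
    have h2 := claim v hv hvu hp u' hu' hu'0
    linear_combination h1 - h2 + hQu'
  have hVval : ∀ v ∈ U, v ∉ Submodule.span F {u} → polar Q u v ≠ 0 → Q v = -μ := fun v hv h1 h2 => by
    linear_combination claim v hv h1 h2 u' hu' hu'0 - hQu'
  have hsq : ∀ c : F, c ≠ 0 → c * c = 1 := fun c hc => by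
    have h1 := hU'val _ (U'.smul_mem c hu') (smul_ne_zero hc hu'0)
    rw [QuadraticMap.map_smul, hQu', smul_eq_mul] at h1
    exact mul_right_cancel₀ hμ (by rw [one_mul]; exact h1)
  have h5 : (5 : F) ≠ 0 := by
    intro h
    by_cases h2 : (2 : F) = 0
    · exact one_ne_zero (α := F) (by linear_combination h - 2 * h2)
    · have := hsq 2 h2
      exact one_ne_zero (α := F) (by linear_combination -1 * h + 2 * this - (0 : F))
  have hcard : Fintype.card F ≤ 3 := by
    refine le_trans (le_of_eq (Finset.card_univ (α := F)).symm) (le_trans (Finset.card_le_card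
      (t := ({0, 1, -1} : Finset F)) fun c _ => ?_) Finset.card_le_three)
    simp only [Finset.mem_insert, Finset.mem_singleton]
    rcases eq_or_ne c 0 with h | h
    · exact Or.inl h
    · exact Or.inr (mul_self_eq_one_iff.1 (hsq c h))
  set p := polar Q u v with hp'
  have hdet : p * p + 4 * (μ * μ) ≠ 0 := fun e => h5 (by
    rw [hsq p hp, hsq μ hμ] at e; linear_combination e)
  have huu : polar Q u u = 2 * μ := by rw [polar_self, hQu, nsmul_eq_mul, Nat.cast_ofNat]
  have hvv : polar Q v v = -2 * μ := by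
    rw [polar_self, hVval v hv hvu hp, nsmul_eq_mul, Nat.cast_ofNat]; ring
  have hUspan : U ≤ Submodule.span F (Set.range ![u, v]) := by
    have hz : ∀ z ∈ U, polar Q u z = 0 → polar Q v z = 0 → Q z = 0 := by
      intro z hz huz hvz
      have h1 : v + z ∉ Submodule.span F {u} := fun h => by
        obtain ⟨a, ha⟩ := Submodule.mem_span_singleton.1 h
        have e1 : polar Q u (a • u) = polar Q u (v + z) := by rw [ha]
        have e2 : polar Q v (a • u) = polar Q v (v + z) := by rw [ha]
        rw [polar_add_right, polar_smul_right, huu, huz, smul_eq_mul, ← hp'] at e1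
        rw [polar_add_right, polar_smul_right, polar_comm Q v u, hvz, hvv, smul_eq_mul, ← hp'] at e2
        refine hdet ?_
        linear_combination (-p) * e1 + (2 * μ) * e2
      have h2 := hVval _ (U.add_mem hv hz) h1 (by rwa [polar_add_right, huz, add_zero])
      rw [QuadraticMap.map_add ⇑Q, hvz, hVval v hv hvu hp] at h2
      linear_combination h2
    have hproj : ∀ d ∈ U, ∃ a b : F, d - a • u - b • v ∈ U ∧ polar Q u (d - a • u - b • v) = 0 ∧
        polar Q v (d - a • u - b • v) = 0 := by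
      intro d hd
      refine ⟨(p * polar Q v d + 2 * μ * polar Q u d) / (p * p + 4 * (μ * μ)),
        (p * polar Q u d - 2 * μ * polar Q v d) / (p * p + 4 * (μ * μ)),
        U.sub_mem (U.sub_mem hd (U.smul_mem _ hu)) (U.smul_mem _ hv), ?_, ?_⟩
      · simp only [polar_sub_right, polar_smul_right, huu, ← hp', smul_eq_mul, div_eq_mul_inv]
        linear_combination (-polar Q u d) * mul_inv_cancel₀ hdet
      · simp only [polar_sub_right, polar_smul_right, hvv, polar_comm Q v u, ← hp', smul_eq_mul,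
          div_eq_mul_inv]
        linear_combination (-polar Q v d) * mul_inv_cancel₀ hdet
    intro d hd
    obtain ⟨a, b, hzU, hzu, hzv⟩ := hproj d hd
    have h0 : d - a • u - b • v = 0 := by
      refine hndU _ hzU fun y hy => ?_
      obtain ⟨a', b', hyU, hyu, hyv⟩ := hproj y hy
      have e : y = (y - a' • u - b' • v) + a' • u + b' • v := by module
      have h1 := hz _ (U.add_mem hzU hyU) (by rw [polar_add_right, hzu, hyu, add_zero])
        (by rw [polar_add_right, hzv, hyv, add_zero])
      rw [QuadraticMap.map_add ⇑Q, hz _ hzU hzu hzv, hz _ hyU hyu hyv, add_zero, zero_add] at h1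
      rw [e, polar_add_right, polar_add_right, h1, polar_smul_right, polar_smul_right,
        polar_comm Q _ u, hzu, polar_comm Q _ v, hzv]
      simp
    rw [sub_sub, sub_eq_zero] at h0
    rw [h0]
    exact Submodule.add_mem _ (Submodule.smul_mem _ _ (Submodule.subset_span ⟨0, rfl⟩))
      (Submodule.smul_mem _ _ (Submodule.subset_span ⟨1, rfl⟩))
  have hdU : Module.finrank F U ≤ 2 :=
    (Submodule.finrank_mono hUspan).trans ((finrank_range_le_card _).trans (by simp))
  have hdU' : Module.finrank F U' ≤ 2 := by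
    by_contra h
    obtain ⟨y, hy, hy0, hQy⟩ := exists_sing_in Q (W := U') (by omega)
    exact hμ (by rw [← hU'val y hy hy0, hQy])
  have hsum : Module.finrank F D ≤ Module.finrank F U + Module.finrank F U' :=
    (Submodule.finrank_mono htop).trans (Submodule.finrank_add_le_finrank_add_finrank _ _)
  have hk := B.three
  have hk4 : Module.finrank F D = 4 := by
    by_contra h
    have := (B.small3 (by omega)).1
    omega
  obtain ⟨y', hy', hy'u⟩ : ∃ y' ∈ U', y' ∉ Submodule.span F {u'} := by
    refine SetLike.not_le_iff_exists.1 fun h => ?_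
    have := Submodule.finrank_mono h
    rw [finrank_span_singleton hu'0] at this
    omega
  have hy'0 : y' ≠ 0 := fun e => hy'u (e ▸ Submodule.zero_mem _)
  have hplus : u' + y' ≠ 0 := fun e => hy'u (by
    rw [eq_neg_of_add_eq_zero_right e]
    exact Submodule.neg_mem _ (Submodule.mem_span_singleton_self _))
  have hminus : u' - y' ≠ 0 := fun e => hy'u (by
    rw [← sub_eq_zero.1 e]; exact Submodule.mem_span_singleton_self _)
  have q1 := hU'val _ (U'.add_mem hu' hy') hplus
  have q2 := hU'val _ (U'.sub_mem hu' hy') hminus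
  rw [QuadraticMap.map_add ⇑Q, hQu', hU'val y' hy' hy'0] at q1
  rw [sub_eq_add_neg, QuadraticMap.map_add ⇑Q, polar_neg_right, QuadraticMap.map_neg, hQu',
    hU'val y' hy' hy'0] at q2
  have h2 : (2 : F) = 0 := by
    by_contra h2
    exact mul_ne_zero h2 hμ (by linear_combination q1 + q2)
  have hone : ∀ c : F, c ≠ 0 → c = 1 := fun c hc => by
    rcases mul_self_eq_one_iff.1 (hsq c hc) with h | h
    · exact h
    · rw [h]; linear_combination -h2
  have hq2 : Fintype.card F = 2 := by
    refine le_antisymm (le_trans (le_of_eq (Finset.card_univ (α := F)).symm) (le_trans (Finset.card_le_card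
      (t := ({0, 1} : Finset F)) fun c _ => ?_) Finset.card_le_two)) Fintype.one_lt_card
    simp only [Finset.mem_insert, Finset.mem_singleton]
    exact (eq_or_ne c 0).imp_right (hone c)
  have hpy : polar Q u' y' = 1 := hone _ fun e => hμ (by linear_combination q1 - e - μ * (0 : F))
  refine B.small4 hk4 hq2 (u + u') (D.add_mem (hU hu) (hU' hu')) (v + y')
    (D.add_mem (hU hv) (hU' hy')) ?_ ?_ ?_ ?_
  · rw [QuadraticMap.map_add ⇑Q, hQu, hQu', horth u hu u' hu']
    linear_combination μ * h2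
  · rw [QuadraticMap.map_add ⇑Q, hVval v hv hvu hp, hU'val y' hy' hy'0, horth v hv y' hy']
    ring
  · simp only [polar_add_left, polar_add_right, horth u hu y' hy', polar_comm Q u' v,
      horth v hv u' hu', hpy, ← hp', hone p hp]
    linear_combination h2
  · rw [LinearIndependent.pair_iff]
    intro a b hab
    have h1 : a • u + b • v = -(a • u' + b • y') :=
      eq_neg_of_add_eq_zero_left (by rw [← hab]; module)
    have h2' := hdisj _ (U.add_mem (U.smul_mem a hu) (U.smul_mem b hv))
      (h1 ▸ U'.neg_mem (U'.add_mem (U'.smul_mem a hu') (U'.smul_mem b hy')))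
    rcases eq_or_ne b 0 with rfl | hb
    · refine ⟨?_, rfl⟩
      rw [zero_smul, add_zero, smul_eq_zero] at h2'
      exact h2'.resolve_right hu0
    · refine absurd (Submodule.mem_span_singleton.2 ⟨-(b⁻¹ * a), ?_⟩) hvu
      have := congrArg (fun x => b⁻¹ • x) h2'
      simp only [smul_add, smul_smul, inv_mul_cancel₀ hb, one_smul, smul_zero] at this
      rw [neg_smul, eq_neg_of_add_eq_zero_right this]

/-- The vectors of one value do not split orthogonally. -/
lemma nosplit {μ : F} (hμ : μ ≠ 0) {U U' : Submodule F V} (hU : U ≤ D) (hU' : U' ≤ D)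
    (horth : ∀ x ∈ U, ∀ y ∈ U', polar Q x y = 0)
    (hall : ∀ d ∈ D, Q d = μ → d ∈ U ∨ d ∈ U') :
    (∀ d ∈ D, Q d = μ → d ∈ U) ∨ (∀ d ∈ D, Q d = μ → d ∈ U') := by
  by_contra h
  push Not at h
  obtain ⟨⟨u', hu'D, hQu', hu'U⟩, ⟨u, huD, hQu, huU'⟩⟩ := h
  have hu := (hall u huD hQu).resolve_right huU'
  have hu' := (hall u' hu'D hQu').resolve_left hu'U
  rcases le_or_gt 2 (Module.finrank F U) with hd | hd
  · exact B.nosplit_aux hμ hU hU' horth hall hu hQu hu' hQu' hd
  · refine B.nosplit_aux hμ hU' hU (fun x hx y hy => by rw [polar_comm, horth y hy x hx])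
      (fun d hd h => (hall d hd h).symm) hu' hQu' hu hQu ?_
    have htop : D ≤ U ⊔ U' := B.span_level μ fun d hd h => (hall d hd h).elim
      (fun h' => Submodule.mem_sup_left h') fun h' => Submodule.mem_sup_right h'
    have := (Submodule.finrank_mono htop).trans (Submodule.finrank_add_le_finrank_add_finrank _ _)
    have := B.three
    omega

/-- A product of two reflections moving a vector along one of its centres. -/
lemma exists_move {y d : V} (hd : d ∈ D) (hyd : polar Q y d ≠ 0) :
    ∃ a ∈ D, ∃ b ∈ D, Q a ≠ 0 ∧ Q b = Q a ∧ ∃ c : F, c ≠ 0 ∧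
      (refl Q a).1 ((refl Q b).1 y) = y - c • a := by
  have hW := finrank_perpIn (Q := Q) D y
  have := B.three
  obtain ⟨b, hb, hQb⟩ := B.exists_nonsing (W := perpIn Q D y) inf_le_left (by omega)
  obtain ⟨hbD, hyb⟩ := mem_perpIn.1 hb
  obtain ⟨a, ha, hQa, hya⟩ := B.exists_level (Q b) hd hyd
  have hQa0 : Q a ≠ 0 := by rw [hQa]; exact hQb
  refine ⟨a, ha, b, hbD, hQa0, hQa.symm, polar Q y a / Q a, div_ne_zero hya hQa0, ?_⟩
  rw [refl_apply hQb, hyb, zero_div, zero_smul, sub_zero, refl_apply hQa0]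

/-- A non-zero subspace invariant under the products of two reflections is the whole block. -/
lemma irreducible {U : Submodule F V} (hU : U ≤ D) (hU0 : U ≠ ⊥)
    (hinv : ∀ a ∈ D, ∀ b ∈ D, Q a ≠ 0 → Q b = Q a → ∀ y ∈ U, (refl Q a).1 ((refl Q b).1 y) ∈ U) :
    D ≤ U := by
  classical
  obtain ⟨y, hy, hy0⟩ := U.exists_mem_ne_zero_of_ne_bot hU0
  obtain ⟨d, hd, hyd⟩ := B.exists_partner (hU hy) hy0
  obtain ⟨a, ha, b, hb, hQa, hQb, c, hc, e⟩ := B.exists_move hd hyd
  have haU : a ∈ U := by
    have h1 := U.smul_mem c⁻¹ (U.sub_mem hy (e ▸ hinv a ha b hb hQa hQb y hy))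
    rwa [sub_sub_cancel, smul_smul, inv_mul_cancel₀ hc, one_smul] at h1
  let U' : Submodule F V :=
    { carrier := {x | x ∈ D ∧ ∀ u ∈ U, polar Q u x = 0}
      zero_mem' := ⟨D.zero_mem, fun u _ => by simp⟩
      add_mem' := fun {x z} h h' => ⟨D.add_mem h.1 h'.1, fun u hu => by
        rw [polar_add_right, h.2 u hu, h'.2 u hu, add_zero]⟩
      smul_mem' := fun k x h => ⟨D.smul_mem k h.1, fun u hu => by
        rw [polar_smul_right, h.2 u hu, smul_zero]⟩ }
  rcases B.nosplit hQa (U' := U') hU (fun x hx => hx.1) (fun x hx z hz => hz.2 x hx) (fun a' ha' hQa' => by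
    by_cases h : ∀ u ∈ U, polar Q u a' = 0
    · exact Or.inr ⟨ha', h⟩
    push Not at h
    obtain ⟨u, hu, hua⟩ := h
    left
    obtain ⟨u₁, hu₁, hua₁, hgood⟩ : ∃ u₁ ∈ U, polar Q u₁ a' ≠ 0 ∧
        (Module.finrank F D = 3 → Q u₁ ≠ 0 ∨ u₁ = 0) := by
      by_cases hk : Module.finrank F D = 3
      · have hq := (B.small3 hk).1
        let f : Polynomial F := (Polynomial.C (polar Q u a') + Polynomial.C (polar Q a a') * Polynomial.X) *
          (Polynomial.C (Q u) + Polynomial.C (polar Q u a) * Polynomial.X +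
            Polynomial.C (Q a) * Polynomial.X ^ 2)
        obtain ⟨t, ht⟩ : ∃ t : F, f.eval t ≠ 0 := by
          by_contra hall
          push Not at hall
          have hf0 : f ≠ 0 := mul_ne_zero
            (fun e => hua (by simpa [Polynomial.coeff_X] using congrArg (fun r => r.coeff 0) e))
            (fun e => hQa (by simpa [Polynomial.coeff_X, Polynomial.coeff_C] using congrArg (fun r => r.coeff 2) e))
          refine hf0 (Polynomial.eq_zero_of_natDegree_lt_card_of_eval_eq_zero f Function.injective_id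
            hall (lt_of_le_of_lt (b := 1 + 2) ?_ (by omega)))
          refine le_trans Polynomial.natDegree_mul_le (Nat.add_le_add ?_ ?_) <;> compute_degree
        simp only [f, Polynomial.eval_mul, Polynomial.eval_add, Polynomial.eval_C, Polynomial.eval_X,
          Polynomial.eval_pow, mul_ne_zero_iff] at ht
        refine ⟨u + t • a, U.add_mem hu (U.smul_mem t haU), ?_, fun _ => Or.inl ?_⟩
        · rw [polar_add_left, polar_smul_left, smul_eq_mul]
          convert ht.1 using 1
          ring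
        · rw [QuadraticMap.map_add ⇑Q, QuadraticMap.map_smul, polar_smul_right, smul_eq_mul, smul_eq_mul]
          convert ht.2 using 1
          ring
      · exact ⟨u, hu, hua, fun h => absurd h hk⟩
    obtain ⟨b', hb', hQb', hub⟩ := B.rep_perp (hU hu₁) hgood (Q a')
    have hQa'0 : Q a' ≠ 0 := hQa'.symm ▸ hQa
    have h1 := hinv a' ha' b' hb' hQa'0 hQb' u₁ hu₁
    rw [refl_apply (w := b') (by rw [hQb']; exact hQa'0), hub, zero_div, zero_smul, sub_zero,
      refl_apply hQa'0] at h1
    have h2 := U.smul_mem (polar Q u₁ a' / Q a')⁻¹ (U.sub_mem hu₁ h1)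
    rwa [sub_sub_cancel, smul_smul, inv_mul_cancel₀ (div_ne_zero hua₁ hQa'0), one_smul] at h2) with h | h
  · exact B.span_level _ h
  · exfalso
    exact hy0 (B.nd y (hU hy) fun z hz => (B.span_level (S := U') _ h hz).2 y hy)

omit B in
lemma level_curve {R : QuadraticForm F V} {μ : F} (hq : 5 ≤ Fintype.card F)
    (hP : ∀ d ∈ D, Q d = μ → R d = 0) {a b w : V} (ha : a ∈ D) (hb : b ∈ D) (hw : w ∈ D)
    (hQa : Q a = 0) (hQb : Q b = 0) (hab : polar Q a b = 1) (haw : polar Q a w = 0)
    (hbw : polar Q b w = 0) (hQw : Q w ≠ 0) :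
    R a = 0 ∧ polar R w a = 0 ∧ polar R b w = 0 ∧ R w = Q w * polar R b a ∧
      R b + μ * polar R b a = 0 := by
  let f : Polynomial F := Polynomial.C (Q w ^ 2 * R a) * Polynomial.X ^ 4 +
    Polynomial.C (-(Q w * polar R w a)) * Polynomial.X ^ 3 +
    Polynomial.C (R w - Q w * polar R b a - 2 * μ * Q w * R a) * Polynomial.X ^ 2 +
    Polynomial.C (polar R b w + μ * polar R w a) * Polynomial.X +
    Polynomial.C (R b + μ * polar R b a + μ ^ 2 * R a)
  have hf : f = 0 := by
    refine Polynomial.eq_zero_of_natDegree_lt_card_of_eval_eq_zero f Function.injective_id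
      (fun t => ?_) (lt_of_le_of_lt (b := 4) (by simp only [f]; compute_degree) (by omega))
    have hd : Q (b + t • w + (μ - t ^ 2 * Q w) • a) = μ := by
      rw [QuadraticMap.map_add ⇑Q (b + t • w), QuadraticMap.map_add ⇑Q b, QuadraticMap.map_smul,
        QuadraticMap.map_smul, hQa, hQb, polar_add_left, polar_smul_right, polar_smul_right,
        polar_smul_left, polar_smul_right, polar_comm Q b a, polar_comm Q w a, hab, haw, hbw]
      simp only [smul_eq_mul]
      ring
    have h := hP _ (D.add_mem (D.add_mem hb (D.smul_mem _ hw)) (D.smul_mem _ ha)) hd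
    rw [QuadraticMap.map_add ⇑R (b + t • w), QuadraticMap.map_add ⇑R b, QuadraticMap.map_smul,
      QuadraticMap.map_smul, polar_add_left, polar_smul_right, polar_smul_right, polar_smul_left,
      polar_smul_right] at h
    simp only [smul_eq_mul] at h
    simp [f]
    linear_combination h
  have c4 := congrArg (fun r => r.coeff 4) hf
  have c3 := congrArg (fun r => r.coeff 3) hf
  have c2 := congrArg (fun r => r.coeff 2) hf
  have c1 := congrArg (fun r => r.coeff 1) hf
  have c0 := congrArg (fun r => r.coeff 0) hf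
  simp only [f, Polynomial.coeff_add, Polynomial.coeff_C_mul, Polynomial.coeff_X_pow,
    Polynomial.coeff_X, Polynomial.coeff_C, Polynomial.coeff_zero] at c4 c3 c2 c1 c0
  norm_num at c4 c3 c2 c1 c0
  have hRa : R a = 0 := c4.resolve_left hQw
  have hwa : polar R w a = 0 := c3.resolve_left hQw
  refine ⟨hRa, hwa, by linear_combination c1 - μ * hwa, by linear_combination c2 + 2 * μ * Q w * hRa,
    by linear_combination c0 - μ ^ 2 * hRa⟩

/-- In dimension three a quadratic form vanishing on all vectors of one value vanishes. -/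
lemma quad_zero (hk : Module.finrank F D = 3) (R : QuadraticForm F V) {μ : F} (hμ : μ ≠ 0)
    (hP : ∀ d ∈ D, Q d = μ → R d = 0) : ∀ d ∈ D, R d = 0 := by
  have hq := (B.small3 hk).1
  obtain ⟨s, hs, z, hz, hQs, hQz, h1⟩ := B.exists_pair
  intro d hd
  have hzs : polar Q z s = 1 := by rw [polar_comm, h1]
  obtain ⟨w₀, hw₀, hsw₀, hzw₀, hQw₀⟩ : ∃ w₀ ∈ D, polar Q s w₀ = 0 ∧ polar Q z w₀ = 0 ∧ Q w₀ ≠ 0 := by
    by_contra hc
    push Not at hc
    obtain ⟨y, hy, hy0⟩ : ∃ y ∈ perpIn Q D s ⊓ perpIn Q D z, y ≠ 0 := by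
      refine Submodule.exists_mem_ne_zero_of_ne_bot fun e => ?_
      have h1 := finrank_perpIn (Q := Q) D s
      have h2 := finrank_perpIn (Q := Q) D z
      have h3 := Submodule.finrank_sup_add_finrank_inf_eq (perpIn Q D s) (perpIn Q D z)
      have h4 := Submodule.finrank_mono
        (sup_le inf_le_left inf_le_left : perpIn Q D s ⊔ perpIn Q D z ≤ D)
      rw [e, finrank_bot] at h3
      omega
    obtain ⟨hy1, hy2⟩ := Submodule.mem_inf.1 hy
    rw [mem_perpIn] at hy1 hy2
    refine hy0 (B.nd y hy1.1 fun x hx => ?_)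
    obtain ⟨x₀, hx₀, hsx, hzx, e⟩ := proj_pair hs hz hQs hQz h1 hx
    have h0 := hc (y + x₀) (D.add_mem hy1.1 hx₀) (by rw [polar_add_right, hy1.2, hsx, add_zero])
      (by rw [polar_add_right, hy2.2, hzx, add_zero])
    rw [QuadraticMap.map_add ⇑Q, hc y hy1.1 hy1.2 hy2.2, hc x₀ hx₀ hsx hzx, add_zero, zero_add] at h0
    rw [e, polar_add_right, polar_add_right, polar_smul_right, polar_smul_right, polar_comm Q y s,
      polar_comm Q y z, hy1.2, hy2.2, h0]
    simp
  obtain ⟨g1, g2, g3, g4, g5⟩ := level_curve hq hP hs hz hw₀ hQs hQz h1 hsw₀ hzw₀ hQw₀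
  obtain ⟨k1, k2, k3, k4, k5⟩ := level_curve hq hP hz hs hw₀ hQz hQs hzs hzw₀ hsw₀ hQw₀
  have hsz : polar R s z = 0 := by
    rw [g1, zero_add] at k5
    exact (mul_eq_zero.1 k5).resolve_left hμ
  have hli : LinearIndependent F ![s, z, w₀] := by
    rw [Fintype.linearIndependent_iff]
    intro c hc
    rw [Fin.sum_univ_three] at hc
    have es := congrArg (fun x => polar Q z x) hc
    have ez := congrArg (fun x => polar Q s x) hc
    simp [polar_add_right, polar_smul_right, polar_self_sing hQs, polar_self_sing hQz, h1, hzs,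
      hsw₀, hzw₀] at es ez
    rw [es, ez] at hc
    simp at hc
    have hw₀0 : w₀ ≠ 0 := fun e => hQw₀ (by rw [e, map_zero])
    intro i
    fin_cases i
    · exact es
    · exact ez
    · exact hc.resolve_right hw₀0
  have hle : Submodule.span F (Set.range ![s, z, w₀]) ≤ D := by
    rw [Submodule.span_le]
    rintro _ ⟨i, rfl⟩
    fin_cases i <;> assumption
  have e := Submodule.eq_of_le_of_finrank_le hle (by rw [finrank_span_eq_card hli, Fintype.card_fin, hk])
  rw [← e] at hd
  obtain ⟨c, rfl⟩ := (Submodule.mem_span_range_iff_exists_fun F).1 hd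
  rw [Fin.sum_univ_three]
  have hR0 : R w₀ = 0 := by rw [g4, polar_comm R z s, hsz, mul_zero]
  simp [QuadraticMap.map_add ⇑R, QuadraticMap.map_smul, polar_add_left, polar_smul_left,
    polar_smul_right, g1, k1, hR0, hsz, polar_comm R s w₀, g2, g3]

end Blk

end Cfsg.Agent.Lib.Forms
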