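import Cfsg.Agent.Lib.Forms.OrthDec

/-!
The stabiliser of an orthogonal decomposition is maximal in Ω.
-/

set_option autoImplicit false

namespace Cfsg.Agent.Lib.Forms

open Matrix QuadraticMap Cfsg.Agent.Lib.Classical.Quad Cfsg.Agent.Lib.Classical.QuadOmega

variable {ι : Type} [Fintype ι] [DecidableEq ι] {F : Type*} [Field F] [Fintype F]
  {Q : QuadraticForm F (ι → F)} {t k : ℕ}

/-- A vector whose reflection differs by an element of the group from one of a block. -/
def InR (Q : QuadraticForm F (ι → F)) (D : Fin t → Submodule F (ι → F)) (M : Subgroup (GL ι F))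
    (v : ι → F) : Prop :=
  Q v ≠ 0 ∧ ∃ i, ∃ a ∈ D i, Q a = Q v ∧ rr Q v a ∈ M

namespace ODec

variable {D : Fin t → Submodule F (ι → F)} (h : ODec Q k D) {M : Subgroup (GL ι F)}
  (hle : Cfsg.Geo.decompositionStabilizer D ⊓ Cfsg.Geo.omegaGL ⇑Q ≤ M)
  (hM : M ≤ Cfsg.Geo.omegaGL ⇑Q)
include h hle hM

omit hM in
lemma inR_pair {v : ι → F} (hv : InR Q D M v) {i : Fin t} {a : ι → F} (ha : a ∈ D i)
    (hQ : Q a = Q v) : rr Q v a ∈ M := by
  obtain ⟨hv0, j, b, hb, hQb, hr⟩ := hv
  have hQb0 : Q b ≠ 0 := by rw [hQb]; exact hv0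
  rw [← rr_mul hQb0 v a]
  exact M.mul_mem hr (hle (h.rr_mem hb ha hQb0 (by rw [hQ, hQb])))

/-- An element of the group fixing a non-singular block vector preserves the blocks or moves one of
their vectors out of all of them. -/
lemma step {x : GL ι F} (hx : x ∈ M) {l : Fin t} {c : ι → F} (hc : c ∈ D l) (hQc : Q c ≠ 0)
    (hfix : (x : Matrix ι ι F) *ᵥ c = c) :
    x ∈ Cfsg.Geo.decompositionStabilizer D ∨ ∃ v, InR Q D M v ∧ ∀ i, v ∉ D i := by
  classical
  by_contra hcon
  push Not at hcon
  obtain ⟨hns, hall⟩ := hcon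
  have hxi := mem_isometryGroup_of_omega (hM hx)
  have hR : ∀ i, ∀ d ∈ D i, Q d = Q c → ∃ j, (x : Matrix ι ι F) *ᵥ d ∈ D j := by
    intro i d hd hQd
    by_contra hno
    push Not at hno
    have hQd0 : Q d ≠ 0 := by rw [hQd]; exact hQc
    have h1 := M.mul_mem (M.mul_mem hx (hle (h.rr_mem hd hc hQd0 hQd.symm))) (M.inv_mem hx)
    rw [rr_conj (hM hx) hQd0 hQc, hfix] at h1
    obtain ⟨j, hj⟩ := hall _ ⟨by rw [hxi]; exact hQd0, l, c, hc, by rw [hxi, hQd], h1⟩
    exact hno j hj
  refine hns (h.mem_stab_of_blocks hxi fun i => ?_)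
  obtain ⟨u, hu, hQu⟩ := (h.blk i).rep (Q c)
  obtain ⟨j, hj⟩ := hR i u hu hQu
  refine ⟨j, ?_⟩
  let U : Submodule F (ι → F) := D i ⊓ (D j).comap (Matrix.toLin' (x : Matrix ι ι F))
  let U' : Submodule F (ι → F) :=
    { carrier := {d | d ∈ D i ∧ ∀ z ∈ U, polar Q z d = 0}
      zero_mem' := ⟨(D i).zero_mem, fun z _ => by simp⟩
      add_mem' := fun {a b} ha hb => ⟨(D i).add_mem ha.1 hb.1, fun z hz => by
        rw [polar_add_right, ha.2 z hz, hb.2 z hz, add_zero]⟩
      smul_mem' := fun r a ha => ⟨(D i).smul_mem r ha.1, fun z hz => by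
        rw [polar_smul_right, ha.2 z hz, smul_zero]⟩ }
  have hUmem : ∀ z, z ∈ U ↔ z ∈ D i ∧ (x : Matrix ι ι F) *ᵥ z ∈ D j := fun z => by simp [U]
  have huU : u ∈ U := (hUmem u).2 ⟨hu, hj⟩
  rcases (h.blk i).nosplit hQc (U := U) (U' := U') inf_le_left (fun d hd => hd.1)
    (fun a ha b hb => hb.2 a ha) (fun d hd hQd => by
      obtain ⟨j', hj'⟩ := hR i d hd hQd
      rcases eq_or_ne j' j with rfl | hne
      · exact Or.inl ((hUmem d).2 ⟨hd, hj'⟩)
      · refine Or.inr ⟨hd, fun z hz => ?_⟩
        rw [← polar_of_isometry hxi]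
        exact h.orth j j' hne.symm _ ((hUmem z).1 hz).2 _ hj') with h1 | h1
  · intro a ha
    exact ((hUmem a).1 ((h.blk i).span_level _ h1 ha)).2
  · exfalso
    refine hQc ?_
    rw [← hQu, (h.blk i).nd u hu fun z hz => ((h.blk i).span_level _ h1 hz).2 u huU, map_zero]

lemma no_move {g : GL ι F} (hg : g ∈ M) {a b : ι → F} (hQa : Q a ≠ 0) (hQb : Q b ≠ 0)
    (hx : g * rr Q a b * g⁻¹ ∈ Cfsg.Geo.decompositionStabilizer D) (v : ι → F) :
    ∃ α β : F, ((g * rr Q a b * g⁻¹ : GL ι F) : Matrix ι ι F) *ᵥ v =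
      v - α • ((g : Matrix ι ι F) *ᵥ a) - β • ((g : Matrix ι ι F) *ᵥ b) ∧
      ∀ i, v ∈ D i → ((g * rr Q a b * g⁻¹ : GL ι F) : Matrix ι ι F) *ᵥ v ∈ D i := by
  classical
  have hgi := mem_isometryGroup_of_omega (hM hg)
  rw [rr_conj (hM hg) hQa hQb] at hx ⊢
  set A := (g : Matrix ι ι F) *ᵥ a
  set B := (g : Matrix ι ι F) *ᵥ b
  have hA : Q A ≠ 0 := by rw [hgi]; exact hQa
  have hB : Q B ≠ 0 := by rw [hgi]; exact hQb
  have form : ∀ y, ∃ α β : F, (rr Q A B : Matrix ι ι F) *ᵥ y = y - α • A - β • B := fun y =>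
    ⟨polar Q (y - (polar Q y B / Q B) • B) A / Q A, polar Q y B / Q B, by
      rw [rr_mulVec, refl_apply hB, refl_apply hA]; module⟩
  obtain ⟨α, β, e⟩ := form v
  refine ⟨α, β, e, fun i hi => ?_⟩
  obtain ⟨j, hj⟩ := h.exists_block hx i
  rcases eq_or_ne j i with rfl | hne
  · exact hj v hi
  exfalso
  let f : D i →ₗ[F] (ι → F) :=
    (Matrix.toLin' (rr Q A B : Matrix ι ι F) - LinearMap.id).comp (D i).subtype
  have hfv : ∀ y : D i, f y = (rr Q A B : Matrix ι ι F) *ᵥ (y : ι → F) - (y : ι → F) := fun y => by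
    simp [f]
  have hf : Function.Injective f := by
    rw [← LinearMap.ker_eq_bot]
    refine LinearMap.ker_eq_bot'.2 fun y hy => Subtype.ext ?_
    rw [hfv, sub_eq_zero] at hy
    exact (h.blk i).nd _ y.2 fun z hz => h.orth j i hne _ (hy ▸ hj _ y.2) z hz
  have hr : LinearMap.range f ≤ Submodule.span F (Set.range ![A, B]) := by
    rintro _ ⟨y, rfl⟩
    obtain ⟨α', β', e'⟩ := form (y : ι → F)
    rw [hfv, e', show (y : ι → F) - α' • A - β' • B - y = (-α') • A + (-β') • B by module]
    exact Submodule.add_mem _ (Submodule.smul_mem _ _ (Submodule.subset_span ⟨0, rfl⟩))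
      (Submodule.smul_mem _ _ (Submodule.subset_span ⟨1, rfl⟩))
  have h1 := (Submodule.finrank_mono hr).trans (finrank_range_le_card _)
  rw [LinearMap.finrank_range_of_inj hf, h.rank, Fintype.card_fin] at h1
  have := h.three
  omega

/-- When all pairs of a block are admissible its image is a block. -/
lemma block_image {g : GL ι F} (hg : g ∈ M) (m : Fin t)
    (hadm : ∀ a ∈ D m, ∀ b ∈ D m, Q a ≠ 0 → Q b = Q a → ∃ l, ∃ c ∈ D l, Q c ≠ 0 ∧
      polar Q ((g : Matrix ι ι F) *ᵥ a) c = 0 ∧ polar Q ((g : Matrix ι ι F) *ᵥ b) c = 0) :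
    (∃ v, InR Q D M v ∧ ∀ i, v ∉ D i) ∨ ∃ j, ∀ a ∈ D m, (g : Matrix ι ι F) *ᵥ a ∈ D j := by
  classical
  by_cases hR : ∃ v, InR Q D M v ∧ ∀ i, v ∉ D i
  · exact Or.inl hR
  right
  have hgi := mem_isometryGroup_of_omega (hM hg)
  have hst : ∀ a ∈ D m, ∀ b ∈ D m, Q a ≠ 0 → Q b = Q a →
      g * rr Q a b * g⁻¹ ∈ Cfsg.Geo.decompositionStabilizer D := by
    intro a ha b hb hQa hQb
    obtain ⟨l, c, hc, hQc, hca, hcb⟩ := hadm a ha b hb hQa hQb
    have hQb0 : Q b ≠ 0 := by rw [hQb]; exact hQa
    refine (h.step hle hM (M.mul_mem (M.mul_mem hg (hle (h.rr_mem ha hb hQa hQb))) (M.inv_mem hg))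
      hc hQc ?_).resolve_right hR
    rw [rr_conj (hM hg) hQa hQb0, rr_mulVec, refl_apply_perp (w := (g : Matrix ι ι F) *ᵥ b) (by rw [hgi]; exact hQb0)
      (by rw [polar_comm, hcb]), refl_apply_perp (w := (g : Matrix ι ι F) *ᵥ a) (by rw [hgi]; exact hQa) (by rw [polar_comm, hca])]
  obtain ⟨d₀, hd₀, hQd₀⟩ := (h.blk m).rep 1
  obtain ⟨i, hi⟩ : ∃ i, ∃ y, (g : Matrix ι ι F) *ᵥ y ∈ D i ∧ polar Q y d₀ ≠ 0 := by
    by_contra hc
    push Not at hc
    have h0 : d₀ = 0 := h.nd d₀ fun y => by
      have e : y = ∑ i, ((g⁻¹ : GL ι F) : Matrix ι ι F) *ᵥ h.part i ((g : Matrix ι ι F) *ᵥ y) := by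
        rw [← mulVec_sum, h.sum_part, ← mul_mulVec', inv_mul_cancel, Units.val_one, one_mulVec]
      rw [polar_comm, e, ← polarBilin_apply_apply, map_sum, LinearMap.sum_apply]
      refine Finset.sum_eq_zero fun i _ => hc i _ ?_
      rw [mulVec_inv_mulVec]
      exact h.part_mem i _
    rw [h0, map_zero] at hQd₀
    exact zero_ne_one hQd₀
  obtain ⟨y, hy, hyd⟩ := hi
  refine ⟨i, ?_⟩
  let Y : Submodule F (ι → F) := (D i).comap (Matrix.toLin' (g : Matrix ι ι F))
  have hY : ∀ z, z ∈ Y ↔ (g : Matrix ι ι F) *ᵥ z ∈ D i := fun z => by simp [Y]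
  have hinv : ∀ a ∈ D m, ∀ b ∈ D m, Q a ≠ 0 → Q b = Q a → ∀ z ∈ Y,
      (refl Q a).1 ((refl Q b).1 z) ∈ Y := by
    intro a ha b hb hQa hQb z hz
    have hQb0 : Q b ≠ 0 := by rw [hQb]; exact hQa
    obtain ⟨-, -, -, h2⟩ := h.no_move hle hM hg hQa hQb0 (hst a ha b hb hQa hQb) ((g : Matrix ι ι F) *ᵥ z)
    have h3 := h2 i ((hY z).1 hz)
    rw [hY, ← rr_mulVec]
    rwa [mul_mulVec', mul_mulVec', ← mul_mulVec' g⁻¹ g z, inv_mul_cancel, Units.val_one,
      one_mulVec] at h3
  obtain ⟨a, ha, b, hb, hQa, hQb, c, hc, e⟩ := (h.blk m).exists_move hd₀ hyd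
  have haY : a ∈ Y := by
    have h1 := Y.smul_mem c⁻¹ (Y.sub_mem ((hY y).2 hy) (e ▸ hinv a ha b hb hQa hQb y ((hY y).2 hy)))
    rwa [sub_sub_cancel, smul_smul, inv_mul_cancel₀ hc, one_smul] at h1
  have hU := (h.blk m).irreducible (U := Y ⊓ D m) inf_le_right
    (fun e => hQa (by
      have : a ∈ Y ⊓ D m := ⟨haY, ha⟩
      rw [e, Submodule.mem_bot] at this
      rw [this, map_zero]))
    (fun a' ha' b' hb' hQa' hQb' z hz => ⟨hinv a' ha' b' hb' hQa' hQb' z hz.1,
      h.refl_block ha' hQa' (h.refl_block hb' (by rw [hQb']; exact hQa') hz.2)⟩)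
  exact fun a' ha' => (hY a').1 (hU ha').1

omit hle hM in
/-- A non-singular block vector orthogonal to two vectors, in dimension at least four. -/
lemma exists_perp_two (hk : 4 ≤ k) {A B : ι → F} (hA : Q A ≠ 0) :
    ∃ l, ∃ c ∈ D l, Q c ≠ 0 ∧ polar Q A c = 0 ∧ polar Q B c = 0 := by
  obtain ⟨l, hl⟩ := h.exists_part_nonsing hA
  refine ⟨l, ?_⟩
  set W := perpIn Q (perpIn Q (D l) A) B with hW
  by_contra hc
  push Not at hc
  have hWm : ∀ x ∈ W, x ∈ D l ∧ polar Q A x = 0 ∧ polar Q B x = 0 := fun x hx => by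
    rw [hW, mem_perpIn, mem_perpIn] at hx
    exact ⟨hx.1.1, hx.1.2, hx.2⟩
  have hW0 : ∀ x ∈ W, Q x = 0 := fun x hx => by
    obtain ⟨h1, h2, h3⟩ := hWm x hx
    by_contra h0
    exact hc x h1 h0 h2 h3
  have hWl : h.part l A ∉ W := fun hm => hl (hW0 _ hm)
  have h1 := (h.blk l).add_le (T := W) (S := W ⊔ Submodule.span F {h.part l A})
    (fun x hx => (hWm x hx).1) (sup_le (fun x hx => (hWm x hx).1)
      ((Submodule.span_singleton_le_iff_mem _ _).2 (h.part_mem l A))) fun x hx y hy => by
      obtain ⟨w, hw, w₀, hw₀, rfl⟩ := Submodule.mem_sup.1 hy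
      obtain ⟨r, rfl⟩ := Submodule.mem_span_singleton.1 hw₀
      rw [polar_add_right, polar_smul_right, polar_comm Q x (h.part l A), ← h.polar_part (hWm x hx).1,
        (hWm x hx).2.1, smul_zero, add_zero]
      simp [polar, hW0 x hx, hW0 w hw, hW0 _ (W.add_mem hx hw)]
  have h2 : Module.finrank F W < Module.finrank F ↥(W ⊔ Submodule.span F {h.part l A}) :=
    Submodule.finrank_lt_finrank_of_lt (left_lt_sup.2 fun hs =>
      hWl (hs (Submodule.mem_span_singleton_self _)))
  have h3 := finrank_perpIn (Q := Q) (D l) A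
  have h4 := finrank_perpIn (Q := Q) (perpIn Q (D l) A) B
  rw [h.rank] at h1 h3
  rw [← hW] at h4
  omega

omit hle hM in
/-- A non-singular block vector orthogonal to two vectors with dependent parts. -/
lemma exists_perp_dep {A B : ι → F} {l : Fin t} {y : ι → F} (hy : y ∈ D l)
    (hA : h.part l A ∈ Submodule.span F {y}) (hB : h.part l B ∈ Submodule.span F {y}) :
    ∃ c ∈ D l, Q c ≠ 0 ∧ polar Q A c = 0 ∧ polar Q B c = 0 := by
  have h1 := finrank_perpIn (Q := Q) (D l) y
  have := h.three
  rw [h.rank] at h1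
  obtain ⟨c, hc, hQc⟩ := (h.blk l).exists_nonsing (W := perpIn Q (D l) y) inf_le_left
    (by rw [h.rank]; omega)
  obtain ⟨hcD, hyc⟩ := mem_perpIn.1 hc
  obtain ⟨r, hr⟩ := Submodule.mem_span_singleton.1 hA
  obtain ⟨r', hr'⟩ := Submodule.mem_span_singleton.1 hB
  exact ⟨c, hcD, hQc, by rw [h.polar_part hcD, ← hr, polar_smul_left, hyc, smul_zero],
    by rw [h.polar_part hcD, ← hr', polar_smul_left, hyc, smul_zero]⟩

omit hle hM in
/-- In dimension three some independent pair of a block has an admissible image. -/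
lemma exists_pair_three (hk : k = 3) (g : GL ι F) (m : Fin t) :
    ∃ a ∈ D m, ∃ b ∈ D m, Q a ≠ 0 ∧ Q b = Q a ∧ LinearIndependent F ![a, b] ∧
      ∃ l, ∃ c ∈ D l, Q c ≠ 0 ∧ polar Q ((g : Matrix ι ι F) *ᵥ a) c = 0 ∧
        polar Q ((g : Matrix ι ι F) *ᵥ b) c = 0 := by
  classical
  have hkm : Module.finrank F (D m) = 3 := (h.rank m).trans hk
  obtain ⟨hq, h2⟩ := (h.blk m).small3 hkm
  let L : (ι → F) →ₗ[F] (ι → F) := (h.part m).comp (Matrix.toLin' (g : Matrix ι ι F))
  have hLx : ∀ x, L x = h.part m ((g : Matrix ι ι F) *ᵥ x) := fun x => by simp [L]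
  by_cases hker : ∃ z ∈ D m, z ≠ 0 ∧ L z = 0
  · obtain ⟨z, hz, hz0, hLz⟩ := hker
    obtain ⟨a, ha, b, hb, hQa, hQb, hli, α, β, hzab⟩ : ∃ a ∈ D m, ∃ b ∈ D m, Q a ≠ 0 ∧ Q b = Q a ∧
        LinearIndependent F ![a, b] ∧ ∃ α β : F, z = α • a + β • b := by
      obtain ⟨d, hd, hzd⟩ := (h.blk m).exists_partner hz hz0
      rcases eq_or_ne (Q z) 0 with hQz | hQz
      · obtain ⟨a, ha, hQa, hza⟩ := (h.blk m).exists_level 1 hd hzd
        obtain ⟨c, hc0, hc1⟩ : ∃ c : F, c ≠ 0 ∧ c * c ≠ 1 := by
          by_contra hcc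
          push Not at hcc
          have : (Finset.univ : Finset F) ⊆ {0, 1, -1} := fun c _ => by
            simp only [Finset.mem_insert, Finset.mem_singleton]
            exact (eq_or_ne c 0).imp_right fun h0 => mul_self_eq_one_iff.1 (hcc c h0)
          have := (Finset.card_le_card this).trans Finset.card_le_three
          rw [Finset.card_univ] at this
          omega
        set r := (1 / (c * c) - 1) / polar Q a z with hr
        have haz : polar Q a z ≠ 0 := by rwa [polar_comm]
        have hr0 : r ≠ 0 := by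
          refine div_ne_zero (sub_ne_zero.2 fun e => hc1 ?_) haz
          field_simp at e
          rw [← pow_two]; exact e.symm
        refine ⟨a, ha, c • (a + r • z), (D m).smul_mem c ((D m).add_mem ha ((D m).smul_mem r hz)),
          by rw [hQa]; exact one_ne_zero, ?_, ?_, -r⁻¹, (c * r)⁻¹, ?_⟩
        · rw [QuadraticMap.map_smul, QuadraticMap.map_add ⇑Q, QuadraticMap.map_smul, hQz, hQa,
            smul_zero, add_zero, polar_smul_right, smul_eq_mul, smul_eq_mul, hr, div_mul_cancel₀ _ haz]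
          field_simp
          ring
        · rw [LinearIndependent.pair_iff]
          intro s u hsu
          have e1 := congrArg (polar Q z) hsu
          simp [polar_add_right, polar_smul_right, polar_self_sing hQz] at e1
          have e2 : (s + u * c) * polar Q z a = 0 := by linear_combination e1
          have e3 : s + u * c = 0 := (mul_eq_zero.1 e2).resolve_right hza
          have e4 : (u * c * r) • z = 0 := by
            have : s • a + u • c • (a + r • z) = (s + u * c) • a + (u * c * r) • z := by module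
            rw [this, e3, zero_smul, zero_add] at hsu
            exact hsu
          have hu : u = 0 := by simpa [hc0, hr0, hz0] using e4
          exact ⟨by simpa [hu] using e3, hu⟩
        · match_scalars <;> field_simp <;> ring
      · obtain ⟨a, ha, hQa, hza, haz⟩ : ∃ a ∈ D m, Q a = 1 ∧ polar Q z a ≠ 0 ∧
            a ∉ Submodule.span F {z} := by
          by_contra hcc
          push Not at hcc
          rcases (h.blk m).nosplit one_ne_zero (U := Submodule.span F {z}) (U' := perpIn Q (D m) z)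
            ((Submodule.span_singleton_le_iff_mem _ _).2 hz) inf_le_left
            (fun x hx y hy => by
              obtain ⟨r, rfl⟩ := Submodule.mem_span_singleton.1 hx
              rw [polar_smul_left, (mem_perpIn.1 hy).2, smul_zero])
            (fun a ha hQa => by
              by_cases h0 : polar Q z a = 0
              · exact Or.inr (mem_perpIn.2 ⟨ha, h0⟩)
              · exact Or.inl (hcc a ha hQa h0)) with h1 | h1
          · have := Submodule.finrank_mono ((h.blk m).span_level _ h1)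
            rw [finrank_span_singleton hz0] at this
            omega
          · exact hzd (mem_perpIn.1 ((h.blk m).span_level _ h1 hd)).2
        set c := polar Q a z / Q z with hc
        have hc0 : c ≠ 0 := div_ne_zero (by rwa [polar_comm]) hQz
        refine ⟨a, ha, a - c • z, (D m).sub_mem ha ((D m).smul_mem c hz), by rw [hQa]; exact one_ne_zero,
          ?_, ?_, c⁻¹, -c⁻¹, ?_⟩
        · have e := iso_Q (refl Q z) a
          rwa [refl_apply hQz] at e
        · rw [LinearIndependent.pair_iff]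
          intro s u hsu
          have e1 : (s + u) • a = (u * c) • z := by
            rw [← sub_eq_zero, ← hsu]; module
          have e2 : s + u = 0 := by
            by_contra h0
            exact haz (Submodule.mem_span_singleton.2 ⟨(s + u)⁻¹ * (u * c), by
              rw [mul_smul, ← e1, smul_smul, inv_mul_cancel₀ h0, one_smul]⟩)
          rw [e2, zero_smul, eq_comm, smul_eq_zero] at e1
          have hu : u = 0 := by simpa [hc0, hz0] using e1
          exact ⟨by simpa [hu] using e2, hu⟩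
        · match_scalars <;> field_simp <;> ring
    have hdep : α • h.part m ((g : Matrix ι ι F) *ᵥ a) + β • h.part m ((g : Matrix ι ι F) *ᵥ b) = 0 := by
      rw [← hLx, ← hLx, ← map_smul, ← map_smul, ← map_add, ← hzab, hLz]
    refine ⟨a, ha, b, hb, hQa, hQb, hli, m, ?_⟩
    rcases eq_or_ne β 0 with hβ | hβ
    · have hα : α ≠ 0 := fun hα => hz0 (by rw [hzab, hα, hβ]; simp)
      rw [hβ, zero_smul, add_zero, smul_eq_zero] at hdep
      exact h.exists_perp_dep (h.part_mem m ((g : Matrix ι ι F) *ᵥ b))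
        (by rw [hdep.resolve_left hα]; exact zero_mem _) (Submodule.mem_span_singleton_self _)
    · refine h.exists_perp_dep (h.part_mem m ((g : Matrix ι ι F) *ᵥ a))
        (Submodule.mem_span_singleton_self _) (Submodule.mem_span_singleton.2 ⟨-(β⁻¹ * α), ?_⟩)
      have := congrArg (fun v => β⁻¹ • v) hdep
      simp only [smul_add, smul_smul, inv_mul_cancel₀ hβ, one_smul, smul_zero] at this
      rw [neg_smul, eq_neg_of_add_eq_zero_right this]
  · push Not at hker
    let f : D m →ₗ[F] D m := (L.comp (D m).subtype).codRestrict (D m) fun x => h.part_mem m _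
    have hf : Function.Surjective f := (LinearMap.injective_iff_surjective).1 (by
      rw [← LinearMap.ker_eq_bot]
      refine LinearMap.ker_eq_bot'.2 fun x hx => Subtype.ext (by_contra fun hx0 => hker x x.2 hx0 ?_)
      exact congrArg Subtype.val hx)
    obtain ⟨a, ha, hQa, hQ'a⟩ : ∃ a ∈ D m, Q a = 1 ∧ Q (L a) ≠ 0 := by
      by_contra hcc
      push Not at hcc
      have hz := (h.blk m).quad_zero hkm (Q.comp L) one_ne_zero hcc
      obtain ⟨y, hy, hQy⟩ := (h.blk m).rep 1
      obtain ⟨x, hx⟩ := hf ⟨y, hy⟩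
      have := hz x x.2
      rw [QuadraticMap.comp_apply, show L (x : ι → F) = y from congrArg Subtype.val hx, hQy] at this
      exact one_ne_zero this
    let R : QuadraticForm F (ι → F) := (4 * Q (L a)) • Q.comp L -
      QuadraticMap.sq.comp ((polarBilin Q (L a)).comp L)
    have hRv : ∀ x, R x = 4 * Q (L a) * Q (L x) - polar Q (L a) (L x) * polar Q (L a) (L x) := fun x => by
      simp [R, QuadraticMap.comp_apply]
    obtain ⟨e, he, hQe, hRe⟩ : ∃ e ∈ D m, Q e = 1 ∧ R e ≠ 0 := by
      by_contra hcc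
      push Not at hcc
      have hz := (h.blk m).quad_zero hkm R one_ne_zero hcc
      obtain ⟨y, hy, hQy, hAy⟩ := (h.blk m).rep_perp (h.part_mem m ((g : Matrix ι ι F) *ᵥ a))
        (fun _ => Or.inl (by rw [← hLx]; exact hQ'a)) 1
      obtain ⟨x, hx⟩ := hf ⟨y, hy⟩
      have := hz x x.2
      rw [hRv, show L (x : ι → F) = y from congrArg Subtype.val hx, hQy, hLx a, hAy] at this
      have h4 : (4 : F) ≠ 0 := by
        intro h4
        exact mul_ne_zero h2 h2 (by linear_combination h4)
      simp [h4] at this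
      exact hQ'a (by rw [hLx]; exact this)
    have hli : LinearIndependent F ![a, e] := by
      rw [LinearIndependent.pair_iff' (fun e0 => by rw [e0, map_zero] at hQa; exact zero_ne_one hQa)]
      intro r hr
      refine hRe ?_
      rw [hRv, ← hr, map_smul, QuadraticMap.map_smul, polar_smul_right, polar_self, smul_eq_mul,
        smul_eq_mul, nsmul_eq_mul, Nat.cast_ofNat]
      ring
    refine ⟨a, ha, e, he, by rw [hQa]; exact one_ne_zero, by rw [hQe, hQa], hli, m, ?_⟩
    set A := L a with hA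
    set E := L e with hE
    have hAD : A ∈ D m := h.part_mem m _
    have hED : E ∈ D m := h.part_mem m _
    obtain ⟨s, hs, hs0⟩ : ∃ s ∈ perpIn Q (perpIn Q (D m) A) E, s ≠ 0 := by
      refine Submodule.exists_mem_ne_zero_of_ne_bot fun hb => ?_
      have h3 := finrank_perpIn (Q := Q) (D m) A
      have h4 := finrank_perpIn (Q := Q) (perpIn Q (D m) A) E
      rw [hb, finrank_bot] at h4
      omega
    rw [mem_perpIn, mem_perpIn] at hs
    obtain ⟨⟨hsD, hAs⟩, hEs⟩ := hs
    refine ⟨s, hsD, fun hQs => ?_, by rw [h.polar_part hsD, ← hLx]; exact hAs,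
      by rw [h.polar_part hsD, ← hLx]; exact hEs⟩
    have hli3 : LinearIndependent F ![s, A, E] := by
      rw [Fintype.linearIndependent_iff]
      intro c hc
      rw [Fin.sum_univ_three] at hc
      have e1 := congrArg (polar Q A) hc
      have e2 := congrArg (polar Q E) hc
      simp [polar_add_right, polar_smul_right, hAs, hEs, polar_comm Q E A] at e1 e2
      rw [hRv] at hRe
      have c1 : c 1 = 0 := (mul_eq_zero.1 (show (4 * Q A * Q E - polar Q A E * polar Q A E) * c 1 = 0 by
        linear_combination 2 * Q E * e1 - polar Q A E * e2)).resolve_left hRe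
      have c2 : c 2 = 0 := (mul_eq_zero.1 (show (4 * Q A * Q E - polar Q A E * polar Q A E) * c 2 = 0 by
        linear_combination 2 * Q A * e2 - polar Q A E * e1)).resolve_left hRe
      simp [c1, c2] at hc
      intro i
      fin_cases i
      · exact hc.resolve_right hs0
      · exact c1
      · exact c2
    have hsub : ∀ x ∈ Set.range ![s, A, E], x ∈ D m ∧ polar Q s x = 0 := by
      rintro _ ⟨i, rfl⟩
      fin_cases i
      · exact ⟨hsD, polar_self_sing hQs⟩
      · exact ⟨hAD, by rw [polar_comm]; exact hAs⟩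
      · exact ⟨hED, by rw [polar_comm]; exact hEs⟩
    have h5 := (h.blk m).add_le (T := Submodule.span F {s}) (S := Submodule.span F (Set.range ![s, A, E]))
      ((Submodule.span_singleton_le_iff_mem _ _).2 hsD) (Submodule.span_le.2 fun x hx => (hsub x hx).1)
      fun x hx y hy => by
        obtain ⟨r, rfl⟩ := Submodule.mem_span_singleton.1 hx
        rw [polar_smul_left]
        have : polar Q s y = 0 := by
          induction hy using Submodule.span_induction with
          | mem z hz => exact (hsub z hz).2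
          | zero => simp
          | add z w _ _ hz hw => rw [polar_add_right, hz, hw, add_zero]
          | smul r z _ hz => rw [polar_smul_right, hz, smul_zero]
        rw [this, smul_zero]
    rw [finrank_span_singleton hs0, finrank_span_eq_card hli3, Fintype.card_fin, hkm] at h5
    omega

/-- Some vector outside all blocks belongs to the class of the block vectors. -/
lemma seed {g : GL ι F} (hg : g ∈ M) (hgn : g ∉ Cfsg.Geo.decompositionStabilizer D) :
    ∃ v, InR Q D M v ∧ ∀ i, v ∉ D i := by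
  classical
  by_contra hR
  have hgi := mem_isometryGroup_of_omega (hM hg)
  refine hgn (h.mem_stab_of_blocks hgi fun m => ?_)
  rcases Nat.lt_or_ge k 4 with hk4 | hk4
  · have hk : k = 3 := by have := h.three; omega
    let K : Fin t → Submodule F (ι → F) := fun l =>
      D m ⊓ LinearMap.ker ((h.part l).comp (Matrix.toLin' (g : Matrix ι ι F)))
    have hKm : ∀ l x, x ∈ K l ↔ x ∈ D m ∧ h.part l ((g : Matrix ι ι F) *ᵥ x) = 0 := fun l x => by
      simp [K]
    by_cases hbig : ∃ l, 2 ≤ Module.finrank F (K l)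
    · obtain ⟨l, hl⟩ := hbig
      refine (h.block_image hle hM hg m fun a ha b hb hQa hQb => ⟨l, ?_⟩).resolve_left hR
      let f : D m →ₗ[F] (ι → F) :=
        ((h.part l).comp (Matrix.toLin' (g : Matrix ι ι F))).comp (D m).subtype
      have h1 := f.finrank_range_add_finrank_ker
      rw [h.rank, hk] at h1
      have h2 : Module.finrank F (K l) ≤ Module.finrank F (LinearMap.ker f) := by
        have hKD : K l ≤ D m := inf_le_left
        rw [← (Submodule.comapSubtypeEquivOfLe hKD).finrank_eq]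
        exact Submodule.finrank_mono fun x hx => ((hKm l x).1 hx).2
      obtain ⟨y, hy⟩ : ∃ y, LinearMap.range f ≤ Submodule.span F {y} ∧ y ∈ D l := by
        rcases eq_or_ne (LinearMap.range f) ⊥ with he | he
        · exact ⟨0, by rw [he]; exact bot_le, zero_mem _⟩
        · obtain ⟨y, hy, hy0⟩ := Submodule.exists_mem_ne_zero_of_ne_bot he
          refine ⟨y, (Submodule.eq_of_le_of_finrank_le ((Submodule.span_singleton_le_iff_mem _ _).2 hy)
            (by rw [finrank_span_singleton hy0]; omega)).ge, ?_⟩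
          obtain ⟨x, rfl⟩ := hy
          exact h.part_mem l _
      exact h.exists_perp_dep hy.2 (hy.1 ⟨⟨a, ha⟩, rfl⟩) (hy.1 ⟨⟨b, hb⟩, rfl⟩)
    · push Not at hbig
      exfalso
      obtain ⟨a, ha, b, hb, hQa, hQb, hli, l, c, hc, hQc, hca, hcb⟩ := h.exists_pair_three hk g m
      have hQb0 : Q b ≠ 0 := by rw [hQb]; exact hQa
      set x := g * rr Q a b * g⁻¹ with hx
      have hst : x ∈ Cfsg.Geo.decompositionStabilizer D := by
        refine (h.step hle hM (M.mul_mem (M.mul_mem hg (hle (h.rr_mem ha hb hQa hQb))) (M.inv_mem hg))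
          hc hQc ?_).resolve_right hR
        rw [rr_conj (hM hg) hQa hQb0, rr_mulVec, refl_apply_perp (w := (g : Matrix ι ι F) *ᵥ b) (by rw [hgi]; exact hQb0)
          (by rw [polar_comm, hcb]), refl_apply_perp (w := (g : Matrix ι ι F) *ᵥ a) (by rw [hgi]; exact hQa) (by rw [polar_comm, hca])]
      have indep : ∀ u v : ι → F, ∀ i j, i ≠ j → u ∈ D i → v ∈ D j → u ≠ 0 → v ≠ 0 →
          ∀ p q : F, p • u + q • v = 0 → p = 0 ∧ q = 0 := by
        intro u v i j hij hu hv hu0 hv0 p q e
        have e1 := congrArg (h.part i) e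
        have e2 := congrArg (h.part j) e
        simp [h.part_of_mem hu, h.part_of_mem hv, hij, hij.symm, hu0, hv0] at e1 e2
        exact ⟨e1, e2⟩
      have comm : ∀ i y, h.part i ((x : Matrix ι ι F) *ᵥ y) = (x : Matrix ι ι F) *ᵥ h.part i y := by
        intro i y
        refine h.part_eq (p := fun i => (x : Matrix ι ι F) *ᵥ h.part i y) (fun i => ?_)
          (by rw [← mulVec_sum, h.sum_part]) i
        obtain ⟨-, -, -, h2⟩ := h.no_move hle hM hg hQa hQb0 hst (h.part i y)
        exact h2 i (h.part_mem i y)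
      have hsplit : ∀ u : ι → F, (∃ w, ((rr Q a b : GL ι F) : Matrix ι ι F) *ᵥ w = w - u) →
          ∀ i, ∃ v ∈ D m, (g : Matrix ι ι F) *ᵥ v = h.part i ((g : Matrix ι ι F) *ᵥ u) ∧
            v ∈ Submodule.span F (Set.range ![a, b]) := by
        rintro u ⟨w, hw⟩ i
        have h1 : (x : Matrix ι ι F) *ᵥ ((g : Matrix ι ι F) *ᵥ w) =
            (g : Matrix ι ι F) *ᵥ w - (g : Matrix ι ι F) *ᵥ u := by
          rw [hx, mul_mulVec', mul_mulVec', ← mul_mulVec' g⁻¹ g, inv_mul_cancel, Units.val_one,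
            one_mulVec, hw, mulVec_sub]
        obtain ⟨α, β, h3, -⟩ := h.no_move hle hM hg hQa hQb0 hst (h.part i ((g : Matrix ι ι F) *ᵥ w))
        rw [← comm, h1, map_sub] at h3
        refine ⟨α • a + β • b, (D m).add_mem ((D m).smul_mem α ha) ((D m).smul_mem β hb), ?_, ?_⟩
        · rw [mulVec_add, mulVec_smul, mulVec_smul]
          linear_combination (norm := module) h3
        · exact Submodule.add_mem _ (Submodule.smul_mem _ _ (Submodule.subset_span ⟨0, rfl⟩))
            (Submodule.smul_mem _ _ (Submodule.subset_span ⟨1, rfl⟩))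
      have single : ∀ u ∈ D m, u ≠ 0 → (∃ w, ((rr Q a b : GL ι F) : Matrix ι ι F) *ᵥ w = w - u) →
          ∃ i, (g : Matrix ι ι F) *ᵥ u ∈ D i := by
        intro u hu hu0 hw
        have hgu : (g : Matrix ι ι F) *ᵥ u ≠ 0 := fun e =>
          hu0 (gl_mulVec_injective g (by simpa using e))
        obtain ⟨i, hi⟩ := h.exists_part_ne hgu
        refine ⟨i, h.mem_of_part fun j hji => by_contra fun hj => ?_⟩
        obtain ⟨vi, hvi, evi, -⟩ := hsplit u hw i
        obtain ⟨vj, hvj, evj, -⟩ := hsplit u hw j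
        obtain ⟨l', hl'i, hl'j⟩ := h.exists_ne₂ hk i j
        have hmi : vi ∈ K l' := (hKm l' vi).2 ⟨hvi, by
          rw [evi, h.part_of_mem (h.part_mem i _), if_neg hl'i]⟩
        have hmj : vj ∈ K l' := (hKm l' vj).2 ⟨hvj, by
          rw [evj, h.part_of_mem (h.part_mem j _), if_neg hl'j]⟩
        have hl2 : LinearIndependent F ![vi, vj] := by
          rw [LinearIndependent.pair_iff]
          intro p q e
          have := congrArg (fun z => (g : Matrix ι ι F) *ᵥ z) e
          simp only [mulVec_add, mulVec_smul, evi, evj, mulVec_zero] at this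
          exact indep _ _ i j hji.symm (h.part_mem i _) (h.part_mem j _) hi hj p q this
        have h3 : Submodule.span F (Set.range ![vi, vj]) ≤ K l' := by
          rw [Submodule.span_le]
          rintro _ ⟨r, rfl⟩
          fin_cases r <;> assumption
        have := Submodule.finrank_mono h3
        rw [finrank_span_eq_card hl2, Fintype.card_fin] at this
        have := hbig l'
        omega
      have ha0 : a ≠ 0 := fun e => hQa (by rw [e, map_zero])
      have hb0 : b ≠ 0 := fun e => hQb0 (by rw [e, map_zero])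
      have hnb : ∀ r : F, a ≠ r • b := fun r e => by
        have := (LinearIndependent.pair_iff.1 hli) 1 (-r) (by rw [e]; module)
        exact one_ne_zero this.1
      have hna : ∀ r : F, b ≠ r • a := fun r e => by
        have := (LinearIndependent.pair_iff.1 hli) (-r) 1 (by rw [e]; module)
        exact one_ne_zero this.2
      obtain ⟨i, hi⟩ := single a ha ha0 (by
        obtain ⟨w, hwb, hwa⟩ := h.nd.exists_one_perp hnb
        refine ⟨Q a • w, ?_⟩
        rw [rr_mulVec, refl_apply_perp hQb0 (by rw [polar_smul_left, polar_comm, hwb, smul_zero]),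
          refl_apply hQa, polar_smul_left, polar_comm Q w a, hwa, smul_eq_mul, mul_one, div_self hQa,
          one_smul])
      obtain ⟨j, hj⟩ := single b hb hb0 (by
        obtain ⟨w, hwa, hwb⟩ := h.nd.exists_one_perp hna
        refine ⟨(refl Q b).1 ((-Q b) • w), ?_⟩
        rw [rr_mulVec, refl_refl hQb0, refl_apply_perp (w := a) hQa
            (by rw [polar_smul_left, polar_comm, hwa, smul_zero]),
          refl_apply hQb0, polar_smul_left, polar_comm Q w b, hwb, smul_eq_mul, mul_one,
          neg_div, div_self hQb0]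
        module)
      obtain ⟨l', hl'i, hl'j⟩ := h.exists_ne₂ hk i j
      have hmi : a ∈ K l' := (hKm l' a).2 ⟨ha, by rw [h.part_of_mem hi, if_neg hl'i]⟩
      have hmj : b ∈ K l' := (hKm l' b).2 ⟨hb, by rw [h.part_of_mem hj, if_neg hl'j]⟩
      have h3 : Submodule.span F (Set.range ![a, b]) ≤ K l' := by
        rw [Submodule.span_le]
        rintro _ ⟨r, rfl⟩
        fin_cases r <;> assumption
      have := Submodule.finrank_mono h3
      rw [finrank_span_eq_card hli, Fintype.card_fin] at this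
      have := hbig l'
      omega
  · exact (h.block_image hle hM hg m fun a ha b hb hQa hQb =>
      h.exists_perp_two hk4 (by rw [hgi]; exact hQa)).resolve_left hR

end ODec

end Cfsg.Agent.Lib.Forms
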