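import Cfsg.Agent.Lib.Classical.QuadOmega.Apply
import Cfsg.Agent.Lib.Forms.QuadHyp

/-!
Facts inside one non-degenerate plane.
-/

set_option autoImplicit false

namespace Cfsg.Agent.Lib.Forms

open QuadraticMap Cfsg.Agent.Lib.Classical.Quad Cfsg.Agent.Lib.Classical.QuadOmega
attribute [local instance] _root_.Classical.propDecidable

variable {F : Type*} [Field F] [Fintype F] {V : Type*} [AddCommGroup V] [Module F V]
  [FiniteDimensional F V] {Q : QuadraticForm F V}

/-- A non-degenerate plane over a field which is not too small for its type. -/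
structure Pl (Q : QuadraticForm F V) (D : Submodule F V) : Prop where
  nd : ∀ x ∈ D, (∀ y ∈ D, polar Q x y = 0) → x = 0
  two : Module.finrank F D = 2
  hq : 7 ≤ Fintype.card F ∨ ((∀ x ∈ D, Q x = 0 → x = 0) ∧ Fintype.card F ≠ 3)

/-- The values by which a vector of a plane can be moved without changing its value. -/
noncomputable def dset (Q : QuadraticForm F V) (D : Submodule F V) (v : V) : Finset F :=
  Finset.univ.filter fun r => r ≠ 0 ∧ ∃ u ∈ D, Q u = r ∧ polar Q v u = -r

lemma mem_dset {D : Submodule F V} {v : V} {r : F} :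
    r ∈ dset Q D v ↔ r ≠ 0 ∧ ∃ u ∈ D, Q u = r ∧ polar Q v u = -r := by
  simp [dset]

omit [Fintype F] in
lemma polar_two (Q : QuadraticForm F V) (x : V) : polar Q x x = 2 * Q x := by
  rw [polar_self, two_nsmul, two_mul]

/-- A non-trivial equation of degree two has at most two solutions. -/
lemma card_quad_le {a b e : F} (h : a ≠ 0 ∨ b ≠ 0 ∨ e ≠ 0) :
    (Finset.univ.filter fun κ : F => a + b * κ + e * (κ * κ) = 0).card ≤ 2 := by
  set S := Finset.univ.filter fun κ : F => a + b * κ + e * (κ * κ) = 0 with hS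
  rcases S.eq_empty_or_nonempty with h0 | ⟨r, hr⟩
  · simp [h0]
  have hr' : a + b * r + e * (r * r) = 0 := (Finset.mem_filter.1 hr).2
  have hsub : S ⊆ {r, if e = 0 then r else -b / e - r} := fun κ hκ => by
    have hκ' : a + b * κ + e * (κ * κ) = 0 := (Finset.mem_filter.1 hκ).2
    simp only [Finset.mem_insert, Finset.mem_singleton]
    by_cases hκr : κ = r
    · exact Or.inl hκr
    have h1 : (κ - r) * (b + e * (κ + r)) = 0 := by linear_combination hκ' - hr'
    have h2 := (mul_eq_zero.1 h1).resolve_left (sub_ne_zero.2 hκr)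
    split_ifs with he
    · subst he
      have hb : b = 0 := by simpa using h2
      subst hb
      simp at hr' h
      exact absurd hr' h
    · refine Or.inr ?_
      field_simp
      linear_combination h2
  exact (Finset.card_le_card hsub).trans Finset.card_le_two

namespace Pl

variable {D : Submodule F V} (B : Pl Q D)
include B

lemma four : 4 ≤ Fintype.card F ∨ (2 : F) = 0 := by
  rcases B.hq with h | ⟨-, h⟩
  · exact Or.inl (by omega)
  · by_contra hc
    push Not at hc
    have h2 : Fintype.card F ≠ 2 := fun e => hc.2 (by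
      have := Nat.cast_card_eq_zero F
      rw [e] at this
      exact_mod_cast this)
    have := Fintype.one_lt_card (α := F)
    omega

lemma exists_partner {x : V} (hx : x ∈ D) (hx0 : x ≠ 0) : ∃ y ∈ D, polar Q x y ≠ 0 := by
  by_contra h
  push Not at h
  exact hx0 (B.nd x hx h)

lemma coord {a b : V} (ha : a ∈ D) (hb : b ∈ D) (hli : LinearIndependent F ![a, b]) {x : V}
    (hx : x ∈ D) : ∃ α β : F, x = α • a + β • b := by
  have hle : Submodule.span F (Set.range ![a, b]) ≤ D :=
    Submodule.span_le.2 (by rintro _ ⟨r, rfl⟩; fin_cases r <;> assumption)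
  have heq := Submodule.eq_of_le_of_finrank_le hle (by
    rw [B.two, finrank_span_eq_card hli, Fintype.card_fin])
  obtain ⟨c, hc⟩ := (Submodule.mem_span_range_iff_exists_fun F).1 (heq ▸ hx : x ∈ Submodule.span F (Set.range ![a, b]))
  exact ⟨c 0, c 1, by simpa [Fin.sum_univ_two] using hc.symm⟩

omit B in
lemma li_of_ne {a b : V} (ha : a ≠ 0) (h : ∀ c : F, b ≠ c • a) : LinearIndependent F ![a, b] := by
  rw [LinearIndependent.pair_iff]
  intro s t hst
  have ht : t = 0 := by
    by_contra ht
    refine h (-(t⁻¹ * s)) ?_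
    have := congrArg (fun z => t⁻¹ • z) hst
    simp only [smul_add, smul_smul, inv_mul_cancel₀ ht, one_smul, smul_zero] at this
    rw [neg_smul]
    exact eq_neg_of_add_eq_zero_right this
  refine ⟨?_, ht⟩
  rw [ht, zero_smul, add_zero, smul_eq_zero] at hst
  exact hst.resolve_right ha

omit B in
lemma ne_smul_of_li {a b : V} (hli : LinearIndependent F ![a, b]) (c : F) : b ≠ c • a := fun e => by
  have := (LinearIndependent.pair_iff.1 hli c (-1) (by rw [e]; module)).2
  simp at this

/-- The vectors of a plane orthogonal to a given one form a line. -/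
lemma perp_line {u : V} (hu : u ∈ D) (hu0 : u ≠ 0) {y : V} (hy : y ∈ D) (hy0 : y ≠ 0)
    (huy : polar Q u y = 0) {x : V} (hx : x ∈ D) (hux : polar Q u x = 0) : ∃ c : F, x = c • y := by
  by_contra hc
  push Not at hc
  refine hu0 (B.nd u hu fun z hz => ?_)
  obtain ⟨α, β, rfl⟩ := B.coord hy hx (li_of_ne hy0 hc) hz
  rw [polar_add_right, polar_smul_right, polar_smul_right, huy, hux, smul_zero, smul_zero, add_zero]

lemma exists_perp (u : V) : ∃ y ∈ D, y ≠ 0 ∧ polar Q u y = 0 := by
  have hne : D ⊓ LinearMap.ker (polarBilin Q u) ≠ ⊥ := fun e => by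
    have h1 := Submodule.finrank_sup_add_finrank_inf_eq D (LinearMap.ker (polarBilin Q u))
    have h2 := Submodule.finrank_le (D ⊔ LinearMap.ker (polarBilin Q u))
    have h3 := LinearMap.finrank_range_add_finrank_ker (polarBilin Q u)
    have h4 := Submodule.finrank_le (LinearMap.range (polarBilin Q u))
    rw [Module.finrank_self] at h4
    rw [e, finrank_bot, B.two] at h1
    omega
  obtain ⟨y, hy, hy0⟩ := Submodule.exists_mem_ne_zero_of_ne_bot hne
  exact ⟨y, hy.1, hy0, by simpa using hy.2⟩

lemma perp_nonsing {u : V} (hu : u ∈ D) (hQu : Q u ≠ 0) {y : V} (hy : y ∈ D) (hy0 : y ≠ 0)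
    (huy : polar Q u y = 0) : Q y ≠ 0 := fun hQy => by
  have hu0 : u ≠ 0 := fun e => hQu (by rw [e, map_zero])
  obtain ⟨c, hc⟩ := B.perp_line hy hy0 hy hy0 (polar_self_sing hQy) hu (by rw [polar_comm, huy])
  exact hQu (by rw [hc, QuadraticMap.map_smul, hQy, smul_zero])

lemma exists_nonsing : ∃ a ∈ D, Q a ≠ 0 := by
  by_contra h
  push Not at h
  have hne : D ≠ ⊥ := fun e => by
    have := B.two
    rw [e, finrank_bot] at this
    omega
  obtain ⟨x, hx, hx0⟩ := Submodule.exists_mem_ne_zero_of_ne_bot hne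
  refine hx0 (B.nd x hx fun y hy => ?_)
  rw [polar, h _ (D.add_mem hx hy), h x hx, h y hy, sub_zero, sub_zero]

lemma exists_cross {a : V} (ha : a ∈ D) (hQa : Q a ≠ 0) :
    ∃ a' ∈ D, polar Q a a' = 1 ∧ LinearIndependent F ![a, a'] := by
  have ha0 : a ≠ 0 := fun e => hQa (by rw [e, map_zero])
  obtain ⟨y, hy, hay⟩ := B.exists_partner ha ha0
  set a' := (polar Q a y)⁻¹ • y with ha'
  have h1 : polar Q a a' = 1 := by
    rw [ha', polar_smul_right, smul_eq_mul, inv_mul_cancel₀ hay]
  have ha'D : a' ∈ D := D.smul_mem _ hy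
  by_cases hc : ∀ c : F, a' ≠ c • a
  · exact ⟨a', ha'D, h1, li_of_ne ha0 hc⟩
  push Not at hc
  obtain ⟨c, hc⟩ := hc
  obtain ⟨z, hz, hz0, haz⟩ := B.exists_perp a
  have hcz : ∀ e : F, z ≠ e • a := fun e he => by
    have h2 : e * polar Q a a = 0 := by rw [he, polar_smul_right, smul_eq_mul] at haz; exact haz
    rw [hc, polar_smul_right, smul_eq_mul] at h1
    rcases mul_eq_zero.1 h2 with h | h
    · exact hz0 (by rw [he, h, zero_smul])
    · rw [h, mul_zero] at h1; exact zero_ne_one h1
  refine ⟨a' + z, D.add_mem ha'D hz, by rw [polar_add_right, h1, haz, add_zero], li_of_ne ha0 fun e he => hcz (e - c) ?_⟩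
  rw [sub_smul, ← hc, ← he, add_sub_cancel_left]

/-- A second vector of the same value, in general position. -/
lemma mov {a : V} (ha : a ∈ D) (hQa : Q a ≠ 0) :
    ∃ w ∈ D, Q w = Q a ∧ polar Q a w ≠ 0 ∧ Q (w - a) ≠ 0 ∧ LinearIndependent F ![a, w] := by
  classical
  obtain ⟨a', ha', h1, hli⟩ := B.exists_cross ha hQa
  set c := Q a with hc
  set e := Q a' with he
  let S1 := Finset.univ.filter fun κ : F => (1 : F) + 2 * c * κ = 0
  let S2 := Finset.univ.filter fun κ : F => e + 1 * κ + c * (κ * κ) = 0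
  let S3 := Finset.univ.filter fun κ : F => (1 - 2 * c * e) + 2 * c * κ + 2 * c * c * (κ * κ) = 0
  have hS1 : S1.card ≤ 1 := Finset.card_le_one.2 fun x hx y hy => by
    simp only [S1, Finset.mem_filter] at hx hy
    have h0 : 2 * c ≠ 0 := fun h => by simp [h] at hx
    exact mul_left_cancel₀ h0 (by linear_combination hx.2 - hy.2)
  have hS2 : S2.card ≤ 2 := card_quad_le (Or.inr (Or.inl one_ne_zero))
  have hS3 : S3.card ≤ 2 := card_quad_le (by
    by_cases h2 : (2 : F) = 0
    · exact Or.inl (by simp [h2])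
    · exact Or.inr (Or.inl (mul_ne_zero h2 hQa)))
  have hlt : (S1 ∪ S2 ∪ S3).card < Fintype.card F := by
    have hu := (Finset.card_union_le (S1 ∪ S2) S3).trans (Nat.add_le_add_right (Finset.card_union_le S1 S2) _)
    rcases B.hq with h | ⟨han, h3⟩
    · omega
    · have hS2' : S2 = ∅ := Finset.filter_eq_empty_iff.2 fun κ _ h0 => by
        refine ne_smul_of_li hli (-κ) ?_
        have hz := han (a' + κ • a) (D.add_mem ha' (D.smul_mem _ ha)) (by
          rw [QuadraticMap.map_add ⇑Q, QuadraticMap.map_smul, polar_smul_right, polar_comm Q a' a, h1,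
            ← hc, ← he, smul_eq_mul, smul_eq_mul]
          linear_combination h0)
        rw [neg_smul]
        exact eq_neg_of_add_eq_zero_left hz
      have h20 : S2.card = 0 := by rw [hS2', Finset.card_empty]
      rcases B.four with h4 | h2
      · omega
      · have e1 : S1 = ∅ := Finset.filter_eq_empty_iff.2 fun κ _ h0 => by simp [h2] at h0
        have e3 : S3 = ∅ := Finset.filter_eq_empty_iff.2 fun κ _ h0 => by simp [h2] at h0
        rw [hS2', e1, e3]
        simpa using Fintype.card_pos (α := F)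
  obtain ⟨κ, hκ⟩ : ∃ κ, κ ∉ S1 ∪ S2 ∪ S3 := by
    by_contra hc
    push Not at hc
    rw [Finset.eq_univ_of_forall hc, Finset.card_univ] at hlt
    exact lt_irrefl _ hlt
  simp only [S1, S2, S3, Finset.mem_union, Finset.mem_filter, Finset.mem_univ, true_and, not_or] at hκ
  obtain ⟨⟨k1, k2⟩, k3⟩ := hκ
  set p := a' + κ • a with hp
  have hpD : p ∈ D := D.add_mem ha' (D.smul_mem _ ha)
  have hπ : polar Q a p = 1 + 2 * c * κ := by
    rw [hp, polar_add_right, h1, polar_smul_right, polar_two, smul_eq_mul, hc]; ring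
  have hQp : Q p = e + 1 * κ + c * (κ * κ) := by
    rw [hp, QuadraticMap.map_add ⇑Q, QuadraticMap.map_smul, polar_smul_right, polar_comm Q a' a, h1,
      ← hc, ← he, smul_eq_mul, smul_eq_mul]
    ring
  have hQp0 : Q p ≠ 0 := by rw [hQp]; exact k2
  set lam := polar Q a p / Q p with hlam
  have hlam0 : lam ≠ 0 := div_ne_zero (by rw [hπ]; exact k1) hQp0
  refine ⟨a - lam • p, D.sub_mem ha (D.smul_mem _ hpD), ?_, ?_, ?_, li_of_ne (fun e' => hQa (by
    rw [hc, e', map_zero])) fun d hd => ?_⟩
  · have := iso_Q (refl Q p) a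
    rwa [refl_apply hQp0] at this
  · rw [polar_sub_right, polar_smul_right, polar_two, smul_eq_mul, hlam, ← hc, hπ, hQp]
    intro h0
    apply k3
    field_simp at h0
    rw [sub_eq_zero, eq_div_iff (by intro e0; apply k2; linear_combination e0)] at h0
    linear_combination -h0
  · rw [sub_sub_cancel_left, QuadraticMap.map_neg, QuadraticMap.map_smul, smul_eq_mul]
    exact mul_ne_zero (mul_ne_zero hlam0 hlam0) hQp0
  · have h4 : lam • a' = (1 - d - lam * κ) • a := by
      have : lam • p = (1 - d) • a := by rw [sub_smul, one_smul, ← hd, sub_sub_cancel]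
      rw [hp, smul_add, smul_smul] at this
      rw [sub_smul _ (lam * κ), ← this, add_sub_cancel_right]
    refine ne_smul_of_li hli (lam⁻¹ * (1 - d - lam * κ)) ?_
    rw [mul_smul, ← h4, smul_smul, inv_mul_cancel₀ hlam0, one_smul]

/-- A plane takes every value. -/
lemma rep (μ : F) : ∃ b ∈ D, Q b = μ := by
  obtain ⟨a, ha, hQa⟩ := B.exists_nonsing
  by_cases h2 : (2 : F) = 0
  · haveI : CharP F 2 := CharTwo.of_one_ne_zero_of_two_eq_zero one_ne_zero h2
    have := isSquare_of_charTwo' (R := F) (μ / Q a)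
    obtain ⟨κ, hκ⟩ := this
    exact ⟨κ • a, D.smul_mem _ ha, by
      rw [QuadraticMap.map_smul, smul_eq_mul, ← hκ, div_mul_cancel₀ _ hQa]⟩
  · obtain ⟨y, hy, hy0, hay⟩ := B.exists_perp a
    have hQy := B.perp_nonsing ha hQa hy hy0 hay
    have hodd : Fintype.card F % 2 = 1 := by
      refine FiniteField.odd_card_of_char_ne_two fun h => h2 ?_
      haveI : CharP F 2 := ringChar.eq_iff.1 h
      exact CharTwo.two_eq_zero
    obtain ⟨s, t, hst⟩ := FiniteField.exists_root_sum_quadratic
      (f := Polynomial.C (Q a) * Polynomial.X ^ 2)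
      (g := Polynomial.C (Q y) * Polynomial.X ^ 2 - Polynomial.C μ)
      (Polynomial.degree_C_mul_X_pow 2 hQa)
      (by
        rw [Polynomial.degree_sub_eq_left_of_degree_lt] <;>
          rw [Polynomial.degree_C_mul_X_pow 2 hQy]
        · rfl
        · exact (Polynomial.degree_C_le (a := μ)).trans_lt (WithBot.coe_lt_coe.2 Nat.two_pos))
      hodd
    simp at hst
    refine ⟨s • a + t • y, D.add_mem (D.smul_mem _ ha) (D.smul_mem _ hy), ?_⟩
    rw [QuadraticMap.map_add ⇑Q, QuadraticMap.map_smul, QuadraticMap.map_smul, polar_smul_left,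
      polar_smul_right, hay, smul_zero, smul_zero, add_zero, smul_eq_mul, smul_eq_mul]
    linear_combination hst

lemma sing_two {s z y : V} (hs : s ∈ D) (hz : z ∈ D) (hy : y ∈ D) (hQs : Q s = 0) (hQz : Q z = 0)
    (hQy : Q y = 0) (hli : LinearIndependent F ![s, z]) :
    (∃ c : F, y = c • s) ∨ ∃ c : F, y = c • z := by
  obtain ⟨α, β, rfl⟩ := B.coord hs hz hli hy
  have hsz : polar Q s z ≠ 0 := fun h0 => by
    have hs0 : s ≠ 0 := fun e => by
      have := (LinearIndependent.pair_iff.1 hli 1 0 (by rw [e]; simp)).1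
      exact one_ne_zero this
    refine hs0 (B.nd s hs fun w hw => ?_)
    obtain ⟨γ, ε, rfl⟩ := B.coord hs hz hli hw
    rw [polar_add_right, polar_smul_right, polar_smul_right, polar_self_sing hQs, h0, smul_zero,
      smul_zero, add_zero]
  rw [QuadraticMap.map_add ⇑Q, QuadraticMap.map_smul, QuadraticMap.map_smul, hQs, hQz, polar_smul_left,
    polar_smul_right] at hQy
  simp only [smul_eq_mul, mul_zero, zero_add] at hQy
  rcases mul_eq_zero.1 hQy with h | h
  · exact Or.inr ⟨β, by rw [h, zero_smul, zero_add]⟩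
  · exact Or.inl ⟨α, by rw [(mul_eq_zero.1 h).resolve_right hsz, zero_smul, add_zero]⟩

/-- The number of values by which a nonsingular vector can be moved. -/
lemma dset_card {v : V} (hv : v ∈ D) (hQv : Q v ≠ 0) :
    Fintype.card F ≤ 2 * (dset Q D v).card + 2 ∧
      ((∀ x ∈ D, Q x = 0 → x = 0) → Fintype.card F ≤ 2 * (dset Q D v).card) := by
  classical
  obtain ⟨a', ha', h1, hli⟩ := B.exists_cross hv hQv
  obtain ⟨y, hy, hy0, hvy⟩ := B.exists_perp v
  have hQy := B.perp_nonsing hv hQv hy hy0 hvy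
  have hv0 : v ≠ 0 := fun e => hQv (by rw [e, map_zero])
  set c := Q v with hc
  set e := Q a' with he
  let p : F → V := fun κ => a' + κ • v
  have hπ : ∀ κ, polar Q v (p κ) = 1 + 2 * c * κ := fun κ => by
    rw [polar_add_right, h1, polar_smul_right, polar_two, smul_eq_mul, hc]; ring
  have hQp : ∀ κ, Q (p κ) = e + 1 * κ + c * (κ * κ) := fun κ => by
    rw [QuadraticMap.map_add ⇑Q, QuadraticMap.map_smul, polar_smul_right, polar_comm Q a' v, h1,
      ← hc, ← he, smul_eq_mul, smul_eq_mul]
    ring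
  let U : Option F → V := fun o => o.elim ((-2 : F) • v)
    fun κ => (-(polar Q v (p κ) / Q (p κ))) • p κ
  let good : Finset (Option F) := Finset.univ.filter fun o => U o ∈ D ∧ Q (U o) ≠ 0 ∧
    polar Q v (U o) = -Q (U o) ∧ ∀ o', U o' = U o → o' = o
  let S1 := Finset.univ.filter fun κ : F => (1 : F) + 2 * c * κ = 0
  let S2 := Finset.univ.filter fun κ : F => e + 1 * κ + c * (κ * κ) = 0
  have hS2 : S2.card ≤ 2 := card_quad_le (Or.inr (Or.inl one_ne_zero))
  have hpD : ∀ κ, p κ ∈ D := fun κ => D.add_mem ha' (D.smul_mem _ hv)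
  have hp : ∀ κ r, p κ ≠ r • v := fun κ r h => ne_smul_of_li hli (r - κ) (by
    rw [sub_smul, ← h, add_sub_cancel_right])
  have hinj : ∀ κ, polar Q v (p κ) ≠ 0 → Q (p κ) ≠ 0 → ∀ o', U o' = U (some κ) → o' = some κ := by
    intro κ k1 k2 o' h
    have hl0 : -(polar Q v (p κ) / Q (p κ)) ≠ 0 := neg_ne_zero.2 (div_ne_zero k1 k2)
    set l := -(polar Q v (p κ) / Q (p κ))
    cases o' with
    | none =>
      exfalso
      refine hp κ (l⁻¹ * (-2)) ?_
      have h' : (-2 : F) • v = l • p κ := h
      rw [mul_smul, h', smul_smul, inv_mul_cancel₀ hl0, one_smul]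
    | some κ' =>
      set l' := -(polar Q v (p κ') / Q (p κ'))
      have h' : l' • a' + (l' * κ') • v = l • a' + (l * κ) • v := by
        have : l' • (a' + κ' • v) = l • (a' + κ • v) := h
        simpa [smul_add, smul_smul] using this
      have h2 := LinearIndependent.pair_iff.1 hli (l' * κ' - l * κ) (l' - l) (by
        rw [sub_smul, sub_smul]
        linear_combination (norm := module) h')
      rw [sub_eq_zero, sub_eq_zero] at h2
      rw [h2.2] at h2
      rw [mul_left_cancel₀ hl0 h2.1]
  have hsome : ∀ κ, κ ∉ S1 ∪ S2 → some κ ∈ good := fun κ hκ => by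
    simp only [S1, S2, Finset.mem_union, Finset.mem_filter, Finset.mem_univ, true_and, not_or] at hκ
    rw [← hπ, ← hQp] at hκ
    refine Finset.mem_filter.2 ⟨Finset.mem_univ _, D.smul_mem _ (hpD κ), ?_, ?_, hinj κ hκ.1 hκ.2⟩
    · change Q ((_ : F) • p κ) ≠ 0
      rw [QuadraticMap.map_smul, smul_eq_mul]
      exact mul_ne_zero (mul_ne_zero (neg_ne_zero.2 (div_ne_zero hκ.1 hκ.2))
        (neg_ne_zero.2 (div_ne_zero hκ.1 hκ.2))) hκ.2
    · change polar Q v ((_ : F) • p κ) = -Q ((_ : F) • p κ)
      rw [polar_smul_right, QuadraticMap.map_smul, smul_eq_mul, smul_eq_mul]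
      field_simp [hκ.2]
  have hnone : (2 : F) ≠ 0 → none ∈ good := fun h2 => by
    refine Finset.mem_filter.2 ⟨Finset.mem_univ _, D.smul_mem _ hv, ?_, ?_, fun o' h => ?_⟩
    · change Q ((-2 : F) • v) ≠ 0
      rw [QuadraticMap.map_smul, smul_eq_mul]
      exact mul_ne_zero (mul_ne_zero (neg_ne_zero.2 h2) (neg_ne_zero.2 h2)) hQv
    · change polar Q v ((-2 : F) • v) = -Q ((-2 : F) • v)
      rw [polar_smul_right, QuadraticMap.map_smul, polar_two, smul_eq_mul, smul_eq_mul]
      ring
    · cases o' with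
      | none => rfl
      | some κ' =>
        exfalso
        set l' := -(polar Q v (p κ') / Q (p κ'))
        have h' : l' • p κ' = (-2 : F) • v := h
        rcases eq_or_ne l' 0 with hl | hl
        · rw [hl, zero_smul, eq_comm, smul_eq_zero] at h'
          exact h'.elim (neg_ne_zero.2 h2) hv0
        · refine hp κ' (l'⁻¹ * (-2)) ?_
          rw [mul_smul, ← h', smul_smul, inv_mul_cancel₀ hl, one_smul]
  have hcount : Fintype.card F ≤ good.card + 2 ∧
      ((∀ x ∈ D, Q x = 0 → x = 0) → Fintype.card F ≤ good.card) := by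
    let g' : Finset (Option F) := ((S1 ∪ S2)ᶜ).map Function.Embedding.some
    have hg : g' ⊆ good := fun o ho => by
      obtain ⟨κ, hκ, rfl⟩ := Finset.mem_map.1 ho
      exact hsome κ (Finset.mem_compl.1 hκ)
    have hgc : g'.card = Fintype.card F - (S1 ∪ S2).card := by
      rw [Finset.card_map, Finset.card_compl]
    have hu := Finset.card_union_le S1 S2
    have hS2' : (∀ x ∈ D, Q x = 0 → x = 0) → S2 = ∅ := fun han => Finset.filter_eq_empty_iff.2 fun κ _ h0 =>
      hp κ 0 (by rw [zero_smul]; exact han _ (hpD κ) (by rw [hQp]; exact h0))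
    by_cases h2 : (2 : F) = 0
    · have hS1 : S1 = ∅ := Finset.filter_eq_empty_iff.2 fun κ _ h0 => by simp [h2] at h0
      have := Finset.card_le_card hg
      have h10 : S1.card = 0 := by rw [hS1, Finset.card_empty]
      exact ⟨by omega, fun han => by
        have h20 : S2.card = 0 := by rw [hS2' han, Finset.card_empty]
        omega⟩
    · have hS1 : S1.card ≤ 1 := Finset.card_le_one.2 fun x hx y hy => by
        simp only [S1, Finset.mem_filter] at hx hy
        exact mul_left_cancel₀ (mul_ne_zero h2 hQv) (by linear_combination hx.2 - hy.2)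
      have hno : none ∉ g' := by simp [g']
      have := Finset.card_le_card (Finset.insert_subset (hnone h2) hg)
      rw [Finset.card_insert_of_notMem hno] at this
      exact ⟨by omega, fun han => by
        have h20 : S2.card = 0 := by rw [hS2' han, Finset.card_empty]
        omega⟩
  have him : good.card ≤ 2 * (dset Q D v).card := by
    refine Finset.card_le_mul_card_image_of_maps_to (f := fun o => Q (U o)) (fun o ho => ?_) 2 fun r hr => ?_
    · obtain ⟨-, k1, k2, k3, -⟩ := Finset.mem_filter.1 ho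
      exact mem_dset.2 ⟨k2, U o, k1, rfl, k3⟩
    · obtain ⟨-, u₀, hu₀, hQu₀, hp₀⟩ := mem_dset.1 hr
      refine le_trans (Finset.card_le_card_of_injOn (t := {u₀, u₀ - (polar Q u₀ y / Q y) • y}) U
        (fun o ho => ?_) fun o ho o' ho' h => ((Finset.mem_filter.1 (Finset.mem_filter.1 ho).1).2.2.2.2 o' h.symm).symm)
        Finset.card_le_two
      obtain ⟨ho1, hor⟩ := Finset.mem_filter.1 ho
      obtain ⟨-, k1, -, k3, -⟩ := Finset.mem_filter.1 ho1
      have hd : polar Q v (U o - u₀) = 0 := by rw [polar_sub_right, k3, hor, hp₀, sub_self]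
      obtain ⟨s, hs⟩ := B.perp_line hv hv0 hy hy0 hvy (D.sub_mem k1 hu₀) hd
      have hUo : U o = u₀ + s • y := by rw [← hs, add_sub_cancel]
      have hQ : Q (U o) = r + s * (s * Q y + polar Q u₀ y) := by
        rw [hUo, QuadraticMap.map_add ⇑Q, QuadraticMap.map_smul, polar_smul_right, hQu₀, smul_eq_mul, smul_eq_mul]
        ring
      rw [hor, left_eq_add, mul_eq_zero] at hQ
      simp only [Finset.coe_insert, Finset.coe_singleton, Set.mem_insert_iff, Set.mem_singleton_iff]
      rcases hQ with h0 | h0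
      · exact Or.inl (by rw [hUo, h0, zero_smul, add_zero])
      · refine Or.inr ?_
        rw [hUo, show s = -(polar Q u₀ y / Q y) by field_simp; linear_combination h0, neg_smul,
          sub_eq_add_neg]
  exact ⟨by omega, fun han => by have := hcount.2 han; omega⟩

/-- In a hyperbolic plane over a larger field some value and its negative both occur. -/
lemma dset_symm (h2 : (2 : F) ≠ 0) (hq : 7 ≤ Fintype.card F) {s₀ : V} (hs₀ : s₀ ∈ D) (hs₀0 : s₀ ≠ 0)
    (hQs : Q s₀ = 0) {v : V} (hv : v ∈ D) (hQv : Q v ≠ 0) :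
    ∃ r, r ∈ dset Q D v ∧ -r ∈ dset Q D v := by
  classical
  obtain ⟨z₁, hz₁, hsz₁⟩ := B.exists_partner hs₀ hs₀0
  set z₂ := (polar Q s₀ z₁)⁻¹ • z₁ with hz₂
  have hp2 : polar Q s₀ z₂ = 1 := by rw [hz₂, polar_smul_right, smul_eq_mul, inv_mul_cancel₀ hsz₁]
  have hz₂D : z₂ ∈ D := D.smul_mem _ hz₁
  clear_value z₂
  set z := z₂ + (-Q z₂) • s₀ with hz
  have hzD : z ∈ D := D.add_mem hz₂D (D.smul_mem _ hs₀)
  have hQz : Q z = 0 := by
    rw [hz, QuadraticMap.map_add ⇑Q, QuadraticMap.map_smul, hQs, polar_smul_right, polar_comm Q z₂ s₀,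
      hp2, smul_eq_mul, smul_eq_mul]
    ring
  have hsz : polar Q s₀ z = 1 := by
    rw [hz, polar_add_right, hp2, polar_smul_right, polar_self_sing hQs, smul_zero, add_zero]
  obtain ⟨α, β, hve⟩ := B.coord hs₀ hzD (li_of_ne hs₀0 fun c hc => by
    rw [hc, polar_smul_right, polar_self_sing hQs, smul_zero] at hsz
    exact zero_ne_one hsz) hv
  have hQxy : ∀ X Y : F, Q (X • s₀ + Y • z) = X * Y := fun X Y => by
    rw [QuadraticMap.map_add ⇑Q, QuadraticMap.map_smul, QuadraticMap.map_smul, hQs, hQz, polar_smul_left,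
      polar_smul_right, hsz, smul_eq_mul, smul_eq_mul, smul_eq_mul, smul_eq_mul]
    ring
  have hαβ : α * β ≠ 0 := by rw [← hQxy, ← hve]; exact hQv
  have hpol : ∀ X Y : F, polar Q v (X • s₀ + Y • z) = α * Y + β * X := fun X Y => by
    rw [hve, polar_add_left, polar_add_right, polar_add_right]
    simp only [polar_smul_left, polar_smul_right, smul_eq_mul, polar_self_sing hQs, polar_self_sing hQz,
      hsz, polar_comm Q z s₀]
    ring
  obtain ⟨τ, t0, t1⟩ : ∃ τ : F, τ ≠ 0 ∧ τ ^ 4 ≠ 1 := by
    by_contra hc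
    push Not at hc
    set P : Polynomial F := Polynomial.X ^ 5 - Polynomial.X with hP
    have hd : P.natDegree = 5 := by
      rw [hP, Polynomial.natDegree_sub_eq_left_of_natDegree_lt] <;> simp
    have hP0 : P ≠ 0 := fun e => by simp [e] at hd
    have hle : (Finset.univ : Finset F) ⊆ P.roots.toFinset := fun τ _ => by
      rw [Multiset.mem_toFinset, Polynomial.mem_roots hP0, hP]
      simp only [Polynomial.IsRoot, Polynomial.eval_sub, Polynomial.eval_pow, Polynomial.eval_X]
      rcases eq_or_ne τ 0 with rfl | h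
      · simp
      · linear_combination τ * hc τ h
    have := (Finset.card_le_card hle).trans ((Multiset.toFinset_card_le _).trans
      (Polynomial.card_roots' _))
    rw [Finset.card_univ, hd] at this
    omega
  have tp : 1 + τ ≠ 0 := fun e => t1 (by linear_combination (τ - 1) * (τ ^ 2 + 1) * e)
  have tm : 1 - τ ≠ 0 := fun e => t1 (by linear_combination -(τ + 1) * (τ ^ 2 + 1) * e)
  have ts : 1 + τ ^ 2 ≠ 0 := fun e => t1 (by linear_combination (τ ^ 2 - 1) * e)
  have hmem : ∀ ν : F, ν ≠ 0 → ν + 1 ≠ 0 → α * β * (ν + 1) ^ 2 / ν ∈ dset Q D v := fun ν hν hν1 => by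
    refine mem_dset.2 ⟨div_ne_zero (mul_ne_zero hαβ (pow_ne_zero 2 hν1)) hν,
      (-(α * (ν + 1) / ν)) • s₀ + (-(β * (ν + 1))) • z, D.add_mem (D.smul_mem _ hs₀) (D.smul_mem _ hzD),
      ?_, ?_⟩
    · rw [hQxy]; field_simp
    · rw [hpol]; field_simp; ring
  refine ⟨_, hmem (τ * (1 + τ) / (1 - τ)) (div_ne_zero (mul_ne_zero t0 tp) tm) ?_, ?_⟩
  · rw [div_add_one tm]
    exact div_ne_zero (by rw [show τ * (1 + τ) + (1 - τ) = 1 + τ ^ 2 by ring]; exact ts) tm
  · have h := hmem (-(τ * (1 - τ)) / (1 + τ)) (div_ne_zero (neg_ne_zero.2 (mul_ne_zero t0 tm)) tp) (by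
      rw [div_add_one tp]
      exact div_ne_zero (by rw [show -(τ * (1 - τ)) + (1 + τ) = 1 + τ ^ 2 by ring]; exact ts) tp)
    convert h using 1
    field_simp
    ring

/-- A non-zero additive subgroup stable under the reflections of a plane contains it. -/
lemma full_of_inv (A : AddSubgroup V) {d : V} (hdD : d ∈ D) (hdA : d ∈ A) (hd0 : d ≠ 0)
    (hinv : ∀ a ∈ D, Q a ≠ 0 → ∀ x ∈ D, x ∈ A → x - (polar Q x a / Q a) • a ∈ A) :
    ∀ x ∈ D, x ∈ A := by
  classical
  have hdiff : ∀ a ∈ D, Q a ≠ 0 → ∀ x ∈ D, x ∈ A → (polar Q x a / Q a) • a ∈ A := fun a ha hQa x hx hxA => by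
    have := A.sub_mem hxA (hinv a ha hQa x hx hxA)
    rwa [sub_sub_cancel] at this
  have hline : ∀ a ∈ D, Q a ≠ 0 → ∀ κ₀ : F, κ₀ ≠ 0 → κ₀ • a ∈ A → ∀ κ : F, κ • a ∈ A := by
    intro a ha hQa κ₀ hκ₀ hκA κ
    let R : Subring F :=
      { carrier := {k | ∀ l : F, l • a ∈ A → (k * l) • a ∈ A}
        mul_mem' := fun {x y} hx hy l hl => by rw [mul_assoc]; exact hx _ (hy l hl)
        one_mem' := fun l hl => by rwa [one_mul]
        add_mem' := fun {x y} hx hy l hl => by rw [add_mul, add_smul]; exact A.add_mem (hx l hl) (hy l hl)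
        zero_mem' := fun l _ => by rw [zero_mul, zero_smul]; exact A.zero_mem
        neg_mem' := fun {x} hx l hl => by rw [neg_mul, neg_smul]; exact A.neg_mem (hx l hl) }
    let K : Subfield F :=
      { R with
        inv_mem' := fun x hx => by
          rcases eq_or_ne x 0 with rfl | h0
          · rw [inv_zero]; exact R.zero_mem
          · rw [show x⁻¹ = x ^ (Fintype.card F - 2) by
              refine inv_eq_of_mul_eq_one_right ?_
              rw [← pow_succ', show Fintype.card F - 2 + 1 = Fintype.card F - 1 by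
                have := Fintype.one_lt_card (α := F); omega, FiniteField.pow_card_sub_one_eq_one x h0]]
            exact R.pow_mem hx _ }
    have hΔ : ∀ r ∈ dset Q D a, r / Q a ∈ K := by
      intro r hr l hl
      obtain ⟨hr0, u, hu, hQu, hau⟩ := mem_dset.1 hr
      have hQu0 : Q u ≠ 0 := by rw [hQu]; exact hr0
      have h1 := hdiff u hu hQu0 _ (D.smul_mem l ha) hl
      have h2 := hdiff a ha hQa _ (D.smul_mem _ hu) h1
      rw [polar_smul_left, polar_smul_left, polar_comm Q u a, hau, hQu] at h2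
      convert h2 using 2
      simp only [smul_eq_mul]
      field_simp
    have hK : K = ⊤ := by
      by_contra hne
      have hm : 2 ≤ Module.finrank K F := by
        by_contra hlt
        refine hne (eq_top_iff.2 fun x _ => ?_)
        have h1 : Module.finrank K F = 1 := by
          have := Module.finrank_pos (R := K) (M := F)
          omega
        obtain ⟨k, hk⟩ := (finrank_eq_one_iff_of_nonzero' (1 : F) one_ne_zero).1 h1 x
        rw [← hk, Subfield.smul_def, smul_eq_mul, mul_one]
        exact k.2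
      haveI : Fintype K := Fintype.ofFinite K
      have hcard := Module.card_eq_pow_finrank (K := K) (V := F)
      have hsq : Fintype.card K ^ 2 ≤ Fintype.card F := by
        rw [hcard]; exact Nat.pow_le_pow_right Fintype.card_pos hm
      have hsub : (dset Q D a).card + 1 ≤ Fintype.card K := by
        let T : Finset F := insert 0 ((dset Q D a).image fun r => r / Q a)
        have hT : T.card = (dset Q D a).card + 1 := by
          rw [Finset.card_insert_of_notMem, Finset.card_image_of_injective _ fun x y h => by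
            field_simp at h; exact h]
          simp only [Finset.mem_image, not_exists, not_and]
          exact fun r hr => div_ne_zero (mem_dset.1 hr).1 hQa
        rw [← hT, ← Finset.card_univ]
        refine Finset.card_le_card_of_injOn (fun x => if h : x ∈ K then (⟨x, h⟩ : K) else 0)
          (fun x _ => Finset.mem_univ _) fun x hx y hy h => ?_
        have hmem : ∀ x ∈ (T : Set F), x ∈ K := fun x hx => by
          rcases Finset.mem_insert.1 hx with rfl | hx
          · exact zero_mem K
          · obtain ⟨r, hr, rfl⟩ := Finset.mem_image.1 hx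
            exact hΔ r hr
        simp only [dif_pos (hmem x hx), dif_pos (hmem y hy)] at h
        exact congrArg Subtype.val h
      obtain ⟨h1, h1'⟩ := B.dset_card ha hQa
      have h3 := le_trans (Nat.pow_le_pow_left hsub 2) hsq
      rcases B.hq with h | ⟨han, -⟩
      · nlinarith
      · have := h1' han
        have := Fintype.one_lt_card (α := F)
        nlinarith
    have hk : κ / κ₀ ∈ K := hK ▸ Subfield.mem_top _
    have := hk κ₀ hκA
    rwa [div_mul_cancel₀ _ hκ₀] at this
  obtain ⟨a₀, ha₀, hQa₀⟩ := B.exists_nonsing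
  obtain ⟨w₀, hw₀, hQw₀, -, -, hli₀⟩ := B.mov ha₀ hQa₀
  obtain ⟨a, ha, hQa, hda⟩ : ∃ a ∈ D, Q a ≠ 0 ∧ polar Q d a ≠ 0 := by
    by_contra hc
    push Not at hc
    refine hd0 (B.nd d hdD fun y hy => ?_)
    obtain ⟨α, β, rfl⟩ := B.coord ha₀ hw₀ hli₀ hy
    rw [polar_add_right, polar_smul_right, polar_smul_right, hc a₀ ha₀ hQa₀,
      hc w₀ hw₀ (by rw [hQw₀]; exact hQa₀), smul_zero, smul_zero, add_zero]
  have hA := hline a ha hQa _ (div_ne_zero hda hQa) (hdiff a ha hQa d hdD hdA)
  obtain ⟨w, hw, hQw, haw, -, hli⟩ := B.mov ha hQa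
  have haA : a ∈ A := by simpa using hA 1
  have hQw0 : Q w ≠ 0 := by rw [hQw]; exact hQa
  have hW := hline w hw hQw0 _ (div_ne_zero haw hQw0) (hdiff w hw hQw0 a ha haA)
  intro x hx
  obtain ⟨α, β, rfl⟩ := B.coord ha hw hli hx
  exact A.add_mem (hA α) (hW β)

end Pl

/-- Among three nonsingular vectors two can be moved by opposite values. -/
lemma match_three {D : Fin 3 → Submodule F V} (hD : ∀ n, Pl Q (D n)) {v : Fin 3 → V}
    (hv : ∀ n, v n ∈ D n) (hQv : ∀ n, Q (v n) ≠ 0) :
    ∃ n m, n ≠ m ∧ ∃ r, r ∈ dset Q (D n) (v n) ∧ -r ∈ dset Q (D m) (v m) := by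
  by_contra hc
  push Not at hc
  let X : Fin 3 → Finset F := fun n => dset Q (D n) (v n)
  let N : Fin 3 → Finset F := fun n => (X n).image fun r => -r
  have hN : ∀ n, (N n).card = (X n).card := fun n => Finset.card_image_of_injective _ neg_injective
  have hdisj : ∀ n m, n ≠ m → Disjoint (N n) (X m) := fun n m hnm => by
    rw [Finset.disjoint_left]
    intro r hr
    obtain ⟨s, hs, rfl⟩ := Finset.mem_image.1 hr
    exact hc n m hnm s hs
  have hX0 : ∀ n, X n ⊆ Finset.univ.erase 0 := fun n r hr =>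
    Finset.mem_erase.2 ⟨(mem_dset.1 hr).1, Finset.mem_univ _⟩
  have hN0 : ∀ n, N n ⊆ Finset.univ.erase 0 := fun n r hr => by
    obtain ⟨s, hs, rfl⟩ := Finset.mem_image.1 hr
    exact Finset.mem_erase.2 ⟨neg_ne_zero.2 (mem_dset.1 hs).1, Finset.mem_univ _⟩
  have he : (Finset.univ.erase (0 : F)).card = Fintype.card F - 1 := by simp
  have hpair : ∀ n m, n ≠ m → (X n).card + (X m).card ≤ Fintype.card F - 1 := fun n m hnm => by
    rw [← hN n, ← Finset.card_union_of_disjoint (hdisj n m hnm), ← he]
    exact Finset.card_le_card (Finset.union_subset (hN0 n) (hX0 m))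
  have hge : ∀ n, Fintype.card F ≤ 2 * (X n).card + 2 := fun n => ((hD n).dset_card (hv n) (hQv n)).1
  have han2 : ∀ n, (∀ x ∈ D n, Q x = 0 → x = 0) → Fintype.card F ≤ 2 * (X n).card := fun n h =>
    ((hD n).dset_card (hv n) (hQv n)).2 h
  by_cases h2 : (2 : F) = 0
  · haveI : CharP F 2 := CharTwo.of_one_ne_zero_of_two_eq_zero one_ne_zero h2
    have hneg : ∀ n, N n = X n := fun n => by
      simp only [N, CharTwo.neg_eq]; exact Finset.image_id
    have hd : ∀ n m, n ≠ m → Disjoint (X n) (X m) := fun n m h => by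
      have := hdisj n m h
      rwa [hneg] at this
    have h3 : (X 0 ∪ X 1 ∪ X 2).card = (X 0).card + (X 1).card + (X 2).card := by
      rw [Finset.card_union_of_disjoint (Finset.disjoint_union_left.2 ⟨hd 0 2 (by decide), hd 1 2 (by decide)⟩),
        Finset.card_union_of_disjoint (hd 0 1 (by decide))]
    have := Finset.card_le_card (Finset.union_subset (Finset.union_subset (hX0 0) (hX0 1)) (hX0 2))
    rw [h3, he] at this
    have := hge 0; have := hge 1; have := hge 2
    have := Fintype.one_lt_card (α := F)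
    rcases (hD 0).hq with hq | ⟨h0, -⟩
    · omega
    · rcases (hD 1).hq with hq | ⟨h1, -⟩
      · omega
      · have := han2 0 h0; have := han2 1 h1; have := hpair 0 1 (by decide)
        omega
  · have hodd : Fintype.card F % 2 = 1 := by
      refine FiniteField.odd_card_of_char_ne_two fun h => h2 ?_
      haveI : CharP F 2 := ringChar.eq_iff.1 h
      exact CharTwo.two_eq_zero
    have han : ∀ n, ¬ ∀ x ∈ D n, Q x = 0 → x = 0 := fun n h => by
      obtain ⟨m, hm⟩ : ∃ m, n ≠ m := ⟨if n = 0 then 1 else 0, by split_ifs with e <;> simp [e]⟩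
      have := han2 n h
      have := hpair n m hm
      have := hge m
      have := Fintype.one_lt_card (α := F)
      omega
    have hq : 7 ≤ Fintype.card F := (hD 0).hq.resolve_right fun h => han 0 h.1
    have hcomp : ∀ m, m ≠ 0 → X m = (Finset.univ.erase 0) \ N 0 := fun m hm => by
      refine Finset.eq_of_subset_of_card_le (fun r hr => Finset.mem_sdiff.2 ⟨hX0 m hr, fun h =>
        Finset.disjoint_left.1 (hdisj 0 m hm.symm) h hr⟩) ?_
      rw [Finset.card_sdiff_of_subset (hN0 0), he, hN]
      have := hge m; have := hge 0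
      omega
    have hsing := han 1
    push Not at hsing
    obtain ⟨s, hs, hQs, hs0⟩ := hsing
    obtain ⟨r, hr1, hr2⟩ := (hD 1).dset_symm h2 hq hs hs0 hQs (hv 1) (hQv 1)
    refine Finset.disjoint_left.1 (hdisj 1 2 (by decide)) (Finset.mem_image.2 ⟨-r, hr2, neg_neg r⟩) ?_
    rw [hcomp 2 (by decide), ← hcomp 1 (by decide)]
    exact hr1

end Cfsg.Agent.Lib.Forms
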