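import Cfsg.Agent.Lib.Forms.OrthDecMax
import Cfsg.Agent.Lib.Forms.OrthPlane

/-!
Orthogonal decompositions into planes: parts, moves and the action on blocks.
-/

set_option autoImplicit false

namespace Cfsg.Agent.Lib.Forms

open Matrix QuadraticMap Cfsg.Agent.Lib.Classical.Quad Cfsg.Agent.Lib.Classical.QuadOmega

variable {ι : Type} [Fintype ι] [DecidableEq ι] {F : Type*} [Field F] [Fintype F]
  {Q : QuadraticForm F (ι → F)} {t : ℕ}

/-- An orthogonal decomposition into isometric planes. -/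
structure PDec (Q : QuadraticForm F (ι → F)) (D : Fin t → Submodule F (ι → F)) : Prop where
  nd : Nd Q
  big : 13 ≤ Fintype.card ι
  rank : ∀ i, Module.finrank F (D i) = 2
  spans : iSup D = ⊤
  orth : ∀ i j, i ≠ j → ∀ a ∈ D i, ∀ b ∈ D j, polar Q a b = 0
  isom : ∀ i j, Cfsg.Geo.AreIsometricFor ⇑Q (D i) (D j)
  blk : ∀ i, Pl Q (D i)

namespace PDec

variable {D : Fin t → Submodule F (ι → F)} (h : PDec Q D)
include h

lemma exists_parts (x : ι → F) : ∃ p : Fin t → (ι → F), (∀ i, p i ∈ D i) ∧ ∑ i, p i = x := by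
  have hx : x ∈ iSup D := by rw [h.spans]; trivial
  rw [Submodule.mem_iSup_iff_exists_finsupp] at hx
  obtain ⟨f, hf, hfx⟩ := hx
  exact ⟨f, hf, by rw [← hfx, Finsupp.sum_fintype]; exact fun _ => rfl⟩

lemma polar_sum {p : Fin t → (ι → F)} (hp : ∀ i, p i ∈ D i) {j : Fin t} {z : ι → F}
    (hz : z ∈ D j) : polar Q (∑ i, p i) z = polar Q (p j) z := by
  rw [← polarBilin_apply_apply, map_sum, LinearMap.sum_apply, Finset.sum_eq_single j]
  · rfl
  · exact fun i _ hij => h.orth i j hij _ (hp i) _ hz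
  · simp

lemma parts_unique {p q : Fin t → (ι → F)} (hp : ∀ i, p i ∈ D i) (hq : ∀ i, q i ∈ D i)
    (he : ∑ i, p i = ∑ i, q i) : p = q := by
  funext i
  refine sub_eq_zero.1 ((h.blk i).nd _ ((D i).sub_mem (hp i) (hq i)) fun z hz => ?_)
  rw [polar_sub_left, ← h.polar_sum hp hz, ← h.polar_sum hq hz, he, sub_self]

/-- The part of a vector in a block. -/
noncomputable def part (i : Fin t) : (ι → F) →ₗ[F] (ι → F) where
  toFun x := (h.exists_parts x).choose i
  map_add' x y := by
    have e := h.parts_unique (p := (h.exists_parts (x + y)).choose)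
      (q := (h.exists_parts x).choose + (h.exists_parts y).choose) (h.exists_parts (x + y)).choose_spec.1
      (fun l => (D l).add_mem ((h.exists_parts x).choose_spec.1 l) ((h.exists_parts y).choose_spec.1 l))
      (by simp [Finset.sum_add_distrib, (h.exists_parts (x + y)).choose_spec.2,
        (h.exists_parts x).choose_spec.2, (h.exists_parts y).choose_spec.2])
    rw [e]; rfl
  map_smul' c x := by
    have e := h.parts_unique (p := (h.exists_parts (c • x)).choose)
      (q := c • (h.exists_parts x).choose) (h.exists_parts (c • x)).choose_spec.1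
      (fun l => (D l).smul_mem c ((h.exists_parts x).choose_spec.1 l))
      (by simp [← Finset.smul_sum, (h.exists_parts (c • x)).choose_spec.2,
        (h.exists_parts x).choose_spec.2])
    rw [e]; rfl

lemma part_mem (i : Fin t) (x : ι → F) : h.part i x ∈ D i := (h.exists_parts x).choose_spec.1 i

lemma sum_part (x : ι → F) : ∑ i, h.part i x = x := (h.exists_parts x).choose_spec.2

lemma part_eq {p : Fin t → (ι → F)} (hp : ∀ i, p i ∈ D i) {x : ι → F} (hx : ∑ i, p i = x)
    (i : Fin t) : h.part i x = p i :=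
  congrFun (h.parts_unique (p := fun i => h.part i x) (h.part_mem · x) hp
    (by rw [h.sum_part, hx])) i

lemma part_of_mem {i : Fin t} {x : ι → F} (hx : x ∈ D i) (l : Fin t) :
    h.part l x = if l = i then x else 0 :=
  h.part_eq (p := fun l => if l = i then x else 0)
    (fun l => by split_ifs with hl <;> [exact hl ▸ hx; exact zero_mem _]) (by simp) l

lemma polar_part {j : Fin t} {z : ι → F} (hz : z ∈ D j) (x : ι → F) :
    polar Q x z = polar Q (h.part j x) z := by
  conv_lhs => rw [← h.sum_part x]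
  exact h.polar_sum (h.part_mem · x) hz

lemma mem_of_part {i : Fin t} {x : ι → F} (hx : ∀ l, l ≠ i → h.part l x = 0) : x ∈ D i := by
  rw [← h.sum_part x, Finset.sum_eq_single i (fun l _ hl => hx l hl) (by simp)]
  exact h.part_mem i x

lemma exists_part_ne {x : ι → F} (hx : x ≠ 0) : ∃ i, h.part i x ≠ 0 := by
  by_contra hc
  push Not at hc
  exact hx (by rw [← h.sum_part x]; simp [hc])

lemma exists_part_ne_of_notMem {x : ι → F} {i : Fin t} (hx : x ∉ D i) :
    ∃ j, j ≠ i ∧ h.part j x ≠ 0 := by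
  by_contra hc
  push Not at hc
  exact hx (h.mem_of_part hc)

lemma Q_sum {p : Fin t → (ι → F)} (hp : ∀ i, p i ∈ D i) (s : Finset (Fin t)) :
    Q (∑ i ∈ s, p i) = ∑ i ∈ s, Q (p i) := by
  induction s using Finset.induction with
  | empty => simp
  | insert i s hi ih =>
    rw [Finset.sum_insert hi, Finset.sum_insert hi, QuadraticMap.map_add ⇑Q, ih,
      ← polarBilin_apply_apply, map_sum,
      Finset.sum_eq_zero (f := fun j => polarBilin Q (p i) (p j)) fun j hj => h.orth i j
        (fun e => hi (e ▸ hj)) _ (hp i) _ (hp j), add_zero]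

lemma exists_part_nonsing {v : ι → F} (hv : Q v ≠ 0) : ∃ i, Q (h.part i v) ≠ 0 := by
  by_contra hc
  push Not at hc
  refine hv ?_
  conv_lhs => rw [← h.sum_part v, h.Q_sum (h.part_mem · v) Finset.univ]
  simp [hc]

lemma card_le_mul : Fintype.card ι ≤ t * 2 := by
  let L : ((i : Fin t) → D i) →ₗ[F] (ι → F) := ∑ i, (D i).subtype.comp (LinearMap.proj i)
  have hL : Function.Surjective L := fun x => ⟨fun i => ⟨h.part i x, h.part_mem i x⟩, by
    simp only [L, LinearMap.sum_apply, LinearMap.comp_apply, LinearMap.proj_apply, Submodule.coe_subtype]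
    exact h.sum_part x⟩
  have h1 := L.finrank_range_add_finrank_ker
  rw [LinearMap.range_eq_top.2 hL, finrank_top, Module.finrank_fintype_fun_eq_card,
    Module.finrank_pi_fintype] at h1
  simp [h.rank] at h1
  omega

lemma seven : 7 ≤ t := by
  have := h.card_le_mul
  have := h.big
  omega

lemma exists_notMem (s : Finset (Fin t)) (hs : s.card < 7) : ∃ n, n ∉ s := by
  by_contra hc
  push Not at hc
  have := h.seven
  rw [Finset.eq_univ_of_forall hc, Finset.card_univ, Fintype.card_fin] at hs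
  omega

lemma mem_stab_of_blocks {g : GL ι F} (hgi : ∀ v, Q ((g : Matrix ι ι F) *ᵥ v) = Q v)
    (hg : ∀ i, ∃ j, ∀ a ∈ D i, (g : Matrix ι ι F) *ᵥ a ∈ D j) :
    g ∈ Cfsg.Geo.decompositionStabilizer D := by
  choose σ hσ using hg
  have hσeq : ∀ i, (D i).map (Matrix.toLin' (g : Matrix ι ι F)) = D (σ i) := fun i =>
    Submodule.eq_of_le_of_finrank_eq (map_le_of_mulVec_mem (hσ i))
      (by rw [finrank_map_gl, h.rank, h.rank])
  have hinj : Function.Injective σ := by
    intro a b hab
    by_contra hne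
    obtain ⟨x, hx, -⟩ := (h.blk a).rep 1
    obtain ⟨y, hy, hy0⟩ := (h.blk a).rep 1
    have h1 : (Matrix.toLin' (g : Matrix ι ι F)) y ∈ (D b).map (Matrix.toLin' (g : Matrix ι ι F)) := by
      rw [hσeq b, ← hab, ← hσeq a]; exact Submodule.mem_map_of_mem hy
    obtain ⟨y', hy', e⟩ := h1
    rw [Matrix.toLin'_apply, Matrix.toLin'_apply] at e
    have e' := gl_mulVec_injective g e
    subst e'
    have := (h.blk a).nd y' hy fun z hz => h.orth b a (Ne.symm hne) y' hy' z hz
    rw [this, map_zero] at hy0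
    exact zero_ne_one hy0
  exact ⟨Equiv.ofBijective σ (Finite.injective_iff_bijective.1 hinj), hσeq⟩

lemma exists_block {g : GL ι F} (hg : g ∈ Cfsg.Geo.decompositionStabilizer D) (i : Fin t) :
    ∃ j, ∀ a ∈ D i, (g : Matrix ι ι F) *ᵥ a ∈ D j := by
  obtain ⟨σ, hσ⟩ := hg
  exact ⟨σ i, fun a ha => by rw [← hσ i, ← Matrix.toLin'_apply]; exact Submodule.mem_map_of_mem ha⟩

lemma reg : Reg F (ι → F) := Or.inr (by
  rw [Module.finrank_fintype_fun_eq_card]; have := h.big; omega)

lemma refl_block {i : Fin t} {a : ι → F} (ha : a ∈ D i) (hQa : Q a ≠ 0) {l : Fin t} {v : ι → F}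
    (hv : v ∈ D l) : (refl Q a).1 v ∈ D l := by
  rw [refl_apply hQa]
  rcases eq_or_ne l i with rfl | hl
  · exact (D l).sub_mem hv ((D l).smul_mem _ ha)
  · rw [h.orth l i hl v hv a ha, zero_div, zero_smul, sub_zero]; exact hv

lemma rr_fix {i : Fin t} {a b : ι → F} (ha : a ∈ D i) (hb : b ∈ D i) (hQa : Q a ≠ 0) (hQb : Q b ≠ 0)
    {x : ι → F} (hx : h.part i x = 0) : (rr Q a b : Matrix ι ι F) *ᵥ x = x := by
  rw [rr_mulVec, refl_apply hQb, h.polar_part hb x, hx, polar_zero_left, zero_div, zero_smul, sub_zero,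
    refl_apply hQa, h.polar_part ha x, hx, polar_zero_left, zero_div, zero_smul, sub_zero]

lemma rr_mem {i j : Fin t} {a b : ι → F} (ha : a ∈ D i) (hb : b ∈ D j) (hQa : Q a ≠ 0)
    (hQ : Q b = Q a) : rr Q a b ∈ Cfsg.Geo.decompositionStabilizer D ⊓ Cfsg.Geo.omegaGL ⇑Q := by
  have hQb : Q b ≠ 0 := by rw [hQ]; exact hQa
  refine ⟨⟨1, fun l => Submodule.eq_of_le_of_finrank_eq (map_le_of_mulVec_mem fun v hv => ?_)
    (by rw [finrank_map_gl]; rfl)⟩, refl_pair_omega h.nd h.reg hQa hQ⟩
  rw [rr_mulVec]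
  exact h.refl_block ha hQa (h.refl_block hb hQb hv)

/-- An element of Ω interchanging two blocks and fixing the others. -/
lemma exists_swap {j l : Fin t} (hjl : j ≠ l) :
    ∃ s ∈ Cfsg.Geo.decompositionStabilizer D ⊓ Cfsg.Geo.omegaGL ⇑Q,
      (∀ a ∈ D j, (s : Matrix ι ι F) *ᵥ a ∈ D l) ∧
      ∀ i, i ≠ j → i ≠ l → ∀ a ∈ D i, (s : Matrix ι ι F) *ᵥ a = a := by
  classical
  obtain ⟨e, he⟩ := h.isom j l
  let π : ∀ i, (ι → F) →ₗ[F] D i := fun i => (h.part i).codRestrict (D i) (h.part_mem i)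
  let q : (ι → F) → Fin t → (ι → F) := fun x i =>
    if i = j then (e.symm (π l x) : ι → F) else if i = l then (e (π j x) : ι → F) else h.part i x
  have hqm : ∀ x i, q x i ∈ D i := fun x i => by
    simp only [q]
    split_ifs with h1 h2
    exacts [h1 ▸ (e.symm _).2, h2 ▸ (e _).2, h.part_mem i x]
  let L : (ι → F) →ₗ[F] (ι → F) := LinearMap.id +
    ((D l).subtype.comp (e.toLinearMap.comp (π j)) - (D j).subtype.comp (π j)) +
    ((D j).subtype.comp (e.symm.toLinearMap.comp (π l)) - (D l).subtype.comp (π l))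
  have hL : ∀ x, L x = ∑ i, q x i := by
    intro x
    rw [← Finset.add_sum_erase _ _ (Finset.mem_univ j),
      ← Finset.add_sum_erase _ _ (Finset.mem_erase.2 ⟨hjl.symm, Finset.mem_univ l⟩)]
    have e1 : ∑ i ∈ (Finset.univ.erase j).erase l, q x i =
        ∑ i ∈ (Finset.univ.erase j).erase l, h.part i x := Finset.sum_congr rfl fun i hi => by
      simp only [Finset.mem_erase] at hi
      simp [q, hi.1, hi.2.1]
    have e2 : x = h.part j x + (h.part l x + ∑ i ∈ (Finset.univ.erase j).erase l, h.part i x) := by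
      rw [Finset.add_sum_erase _ (fun i => h.part i x) (Finset.mem_erase.2 ⟨hjl.symm, Finset.mem_univ l⟩),
        Finset.add_sum_erase _ (fun i => h.part i x) (Finset.mem_univ j), h.sum_part]
    rw [e1]
    simp only [L, LinearMap.add_apply, LinearMap.sub_apply, LinearMap.id_coe, id_eq,
      LinearMap.comp_apply, LinearEquiv.coe_coe, Submodule.coe_subtype, π,
      LinearMap.codRestrict_apply, q, if_true, if_neg hjl.symm]
    conv_lhs => arg 1; arg 1; rw [e2]
    abel
  have hLpart : ∀ x i, h.part i (L x) = q x i := fun x i => h.part_eq (hqm x) (hL x).symm i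
  have hLL : ∀ x, L (L x) = x := by
    intro x
    rw [hL (L x)]
    conv_rhs => rw [← h.sum_part x]
    refine Finset.sum_congr rfl fun i _ => ?_
    have hπl : π l (L x) = e (π j x) := Subtype.ext (by
      simp only [π, LinearMap.codRestrict_apply, hLpart, q, if_true, if_neg hjl.symm])
    have hπj : π j (L x) = e.symm (π l x) := Subtype.ext (by
      simp only [π, LinearMap.codRestrict_apply, hLpart, q, if_true])
    simp only [q]
    split_ifs with h1 h2
    · rw [hπl, e.symm_apply_apply, h1]; rfl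
    · rw [hπj, e.apply_symm_apply, h2]; rfl
    · simp [hLpart, q, h1, h2]
  have hLQ : ∀ x, Q (L x) = Q x := by
    intro x
    rw [hL x, h.Q_sum (hqm x)]
    conv_rhs => rw [← h.sum_part x, h.Q_sum (h.part_mem · x)]
    rw [← Equiv.sum_comp (Equiv.swap j l) (fun i => Q (h.part i x))]
    refine Finset.sum_congr rfl fun i _ => ?_
    simp only [q]
    split_ifs with h1 h2
    · subst h1
      rw [Equiv.swap_apply_left]
      have := he (e.symm (π l x))
      rw [e.apply_symm_apply] at this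
      exact this.symm
    · subst h2
      rw [Equiv.swap_apply_right]
      exact he (π j x)
    · rw [Equiv.swap_apply_of_ne_of_ne h1 h2]
  let σ : isoG Q := ⟨LinearEquiv.ofLinear L L (LinearMap.ext hLL) (LinearMap.ext hLL), hLQ⟩
  obtain ⟨ρ, hρ, hcom⟩ : ∃ ρ : isoG Q, (∀ m, ∀ v ∈ D m, ρ.1 v ∈ D m ∧ (m ≠ j → ρ.1 v = v)) ∧
      σ * ρ ∈ commutator (isoG Q) := by
    have hr : ∀ a ∈ D j, Q a ≠ 0 → ∀ m, ∀ v ∈ D m,
        (refl Q a).1 v ∈ D m ∧ (m ≠ j → (refl Q a).1 v = v) := fun a ha hQa m v hv =>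
      ⟨h.refl_block ha hQa hv, fun hm => refl_apply_perp hQa (h.orth m j hm v hv a ha)⟩
    have hone : ∀ m, ∀ v ∈ D m, (1 : isoG Q).1 v ∈ D m ∧ (m ≠ j → (1 : isoG Q).1 v = v) :=
      fun m v hv => ⟨hv, fun _ => rfl⟩
    by_cases h2 : (2 : F) = 0
    · rcases Int.units_eq_one_or (dick h.nd σ) with hd | hd
      · exact ⟨1, hone, by rw [mul_one, mem_commutator_iff_two h.nd h.reg h2]; exact hd⟩
      · obtain ⟨a, ha, hQa⟩ := (h.blk j).rep 1
        have hQa0 : Q a ≠ 0 := by rw [hQa]; exact one_ne_zero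
        exact ⟨refl Q a, hr a ha hQa0, by
          rw [mem_commutator_iff_two h.nd h.reg h2, map_mul, hd, dick_refl h.nd hQa0]; rfl⟩
    · obtain ⟨c, hc, hcs⟩ := exists_sign (F := F) h2 (spn h.nd σ)
      obtain ⟨a, ha, hQa⟩ := (h.blk j).rep c
      obtain ⟨b, hb, hQb⟩ := (h.blk j).rep 1
      have hQa0 : Q a ≠ 0 := by rw [hQa]; exact hc
      have hQb0 : Q b ≠ 0 := by rw [hQb]; exact one_ne_zero
      have hsq : spn h.nd σ * spn h.nd σ = 1 := Int.units_mul_self _
      rcases Int.units_eq_one_or (dick h.nd σ) with hd | hd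
      · refine ⟨refl Q a * refl Q b, fun m v hv => ?_, ?_⟩
        · obtain ⟨h1, h1'⟩ := hr b hb hQb0 m v hv
          obtain ⟨h3, h3'⟩ := hr a ha hQa0 m _ h1
          exact ⟨h3, fun hm => (h3' hm).trans (h1' hm)⟩
        · rw [mem_commutator_iff h.nd h2, map_mul, map_mul, map_mul, map_mul, hd,
            dick_refl h.nd hQa0, dick_refl h.nd hQb0, spn_refl h.nd h2 hQa0, spn_refl h.nd h2 hQb0,
            hQa, hQb, hcs, sqSign_one, mul_one]
          exact ⟨by simp, hsq⟩
      · refine ⟨refl Q a, hr a ha hQa0, ?_⟩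
        rw [mem_commutator_iff h.nd h2, map_mul, map_mul, hd, dick_refl h.nd hQa0,
          spn_refl h.nd h2 hQa0, hQa, hcs]
        exact ⟨by simp, hsq⟩
  have hΩ : isoMat Q (σ * ρ) ∈ Cfsg.Geo.omegaGL ⇑Q := by
    refine ⟨(isoEquiv (Q := Q) ⇑Q (LinearEquiv.refl F _) fun _ => rfl).symm (σ * ρ), ?_, rfl⟩
    rw [SetLike.mem_coe, mem_omega_iff ⇑Q (LinearEquiv.refl F _) fun _ => rfl,
      MulEquiv.apply_symm_apply]
    exact hcom
  have hact : ∀ v, (isoMat Q (σ * ρ) : Matrix ι ι F) *ᵥ v = L (ρ.1 v) := fun v => by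
    rw [isoMat_mulVec, Subgroup.coe_mul, LinearEquiv.mul_apply]; rfl
  have hLblock : ∀ m, ∀ a ∈ D m, L a ∈ D (Equiv.swap j l m) := by
    intro m a ha
    refine h.mem_of_part fun i hi => ?_
    rw [hLpart]
    simp only [q]
    split_ifs with h1 h2
    · have : π l a = 0 := Subtype.ext (by
        simp only [π, LinearMap.codRestrict_apply, h.part_of_mem ha]
        rw [if_neg (fun e => hi (by rw [← e, Equiv.swap_apply_right, h1]))]; rfl)
      rw [this, map_zero]; rfl
    · have : π j a = 0 := Subtype.ext (by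
        simp only [π, LinearMap.codRestrict_apply, h.part_of_mem ha]
        rw [if_neg (fun e => hi (by rw [← e, Equiv.swap_apply_left, h2]))]; rfl)
      rw [this, map_zero]; rfl
    · rw [h.part_of_mem ha, if_neg (fun e => hi (by rw [← e, Equiv.swap_apply_of_ne_of_ne h1 h2]))]
  refine ⟨isoMat Q (σ * ρ), ⟨h.mem_stab_of_blocks (mem_isometryGroup_of_omega hΩ) fun m =>
    ⟨Equiv.swap j l m, fun a ha => by rw [hact]; exact hLblock m _ (hρ m a ha).1⟩, hΩ⟩,
    fun a ha => ?_, fun i hij hil a ha => ?_⟩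
  · rw [hact]
    have := hLblock j _ (hρ j a ha).1
    rwa [Equiv.swap_apply_left] at this
  · rw [hact, (hρ i a ha).2 hij, hL]
    rw [Finset.sum_eq_single i]
    · simp [q, hij, hil, h.part_of_mem ha]
    · intro m _ hm
      simp only [q]
      split_ifs with h1 h2
      · have : π l a = 0 := Subtype.ext (by simp [π, h.part_of_mem ha, hil.symm])
        rw [this, map_zero]; rfl
      · have : π j a = 0 := Subtype.ext (by simp [π, h.part_of_mem ha, hij.symm])
        rw [this, map_zero]; rfl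
      · simp [h.part_of_mem ha, hm]
    · simp

end PDec

end Cfsg.Agent.Lib.Forms
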