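import Cfsg.Agent.Lib.Forms.OrthDecPlane

/-!
A group above the stabiliser of a decomposition into planes contains a reflection pair leaving the
blocks, or stabilises them.
-/

set_option autoImplicit false

namespace Cfsg.Agent.Lib.Forms

open Matrix QuadraticMap Cfsg.Agent.Lib.Classical.Quad Cfsg.Agent.Lib.Classical.QuadOmega

attribute [local instance] _root_.Classical.propDecidable

variable {ι : Type} [Fintype ι] [DecidableEq ι] {F : Type*} [Field F] [Fintype F]
  {Q : QuadraticForm F (ι → F)} {t : ℕ}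

omit [Fintype ι] [DecidableEq ι] in
/-- Two of three non-zero scalars differ by a square. -/
lemma exists_square_ratio (c : Fin 3 → F) (hc : ∀ n, c n ≠ 0) :
    ∃ n m, n ≠ m ∧ IsSquare (c n / c m) := by
  obtain ⟨n, m, hne, he⟩ := Fintype.exists_ne_map_eq_of_card_lt (fun n => sqSign (c n)) (by
    decide)
  refine ⟨n, m, hne, sqSign_eq_one_iff.1 ?_⟩
  have : sqSign (c n / c m * c m) = sqSign (c n / c m) * sqSign (c m) :=
    sqSign_mul (div_ne_zero (hc n) (hc m)) (hc m)
  rw [div_mul_cancel₀ _ (hc m)] at this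
  rw [he] at this
  exact mul_eq_right.1 this.symm

/-- An injective plane map has at most two lines of singular values. -/
lemma Pl.card_sing {V : Type*} [AddCommGroup V] [Module F V] [FiniteDimensional F V]
    {R : QuadraticForm F V} {D : Submodule F V} (B : Pl R D) (L : F × F →ₗ[F] V)
    (hL : ∀ p, L p ∈ D) (hinj : Function.Injective L) :
    ((Finset.univ.erase (0 : F × F)).filter fun p => R (L p) = 0).card ≤
      2 * (Fintype.card F - 1) := by
  set T := (Finset.univ.erase (0 : F × F)).filter fun p => R (L p) = 0 with hT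
  have hmem : ∀ p, p ∈ T ↔ p ≠ 0 ∧ R (L p) = 0 := fun p => by simp [hT]
  rcases T.eq_empty_or_nonempty with h0 | ⟨p₁, hp₁⟩
  · simp [h0]
  let M : F × F → Finset (F × F) := fun p => ((Finset.univ : Finset F).erase 0).image fun κ => κ • p
  have hM : ∀ p, (M p).card ≤ Fintype.card F - 1 := fun p =>
    Finset.card_image_le.trans (by simp)
  have hin : ∀ p ∈ T, ∀ p', ∀ c : F, L p = c • L p' → p ∈ M p' := fun p hp p' c hc => by
    have e : p = c • p' := hinj (by rw [map_smul]; exact hc)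
    refine Finset.mem_image.2 ⟨c, Finset.mem_erase.2 ⟨fun e0 => ((hmem p).1 hp).1 (by
      rw [e, e0, zero_smul]), Finset.mem_univ _⟩, e.symm⟩
  by_cases h2 : ∃ p₂ ∈ T, ∀ c : F, L p₂ ≠ c • L p₁
  · obtain ⟨p₂, hp₂, hne⟩ := h2
    have hsub : T ⊆ M p₁ ∪ M p₂ := fun p hp => by
      have h10 : L p₁ ≠ 0 := fun e => ((hmem p₁).1 hp₁).1 (hinj (by rw [e, map_zero]))
      rcases B.sing_two (hL p₁) (hL p₂) (hL p) ((hmem p₁).1 hp₁).2 ((hmem p₂).1 hp₂).2
        ((hmem p).1 hp).2 (Pl.li_of_ne h10 hne) with ⟨c, hc⟩ | ⟨c, hc⟩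
      · exact Finset.mem_union_left _ (hin p hp p₁ c hc)
      · exact Finset.mem_union_right _ (hin p hp p₂ c hc)
    have := (Finset.card_le_card hsub).trans (Finset.card_union_le _ _)
    have := hM p₁; have := hM p₂
    omega
  · push Not at h2
    have hsub : T ⊆ M p₁ := fun p hp => by
      obtain ⟨c, hc⟩ := h2 p hp
      exact hin p hp p₁ c hc
    have := Finset.card_le_card hsub
    have := hM p₁
    omega

namespace PDec

variable {D : Fin t → Submodule F (ι → F)} (h : PDec Q D)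
include h

lemma rr_isometry {A B : ι → F} (v : ι → F) : Q ((rr Q A B : Matrix ι ι F) *ᵥ v) = Q v := by
  rw [rr_mulVec, iso_Q, iso_Q]

lemma rr_sub {A B : ι → F} (hA : Q A ≠ 0) (hB : Q B ≠ 0) (v : ι → F) :
    ∃ α β : F, (rr Q A B : Matrix ι ι F) *ᵥ v = v - α • A - β • B :=
  ⟨polar Q (v - (polar Q v B / Q B) • B) A / Q A, polar Q v B / Q B, by
    rw [rr_mulVec, refl_apply hB, refl_apply hA]; module⟩

lemma rr_fixed {A B : ι → F} (hA : Q A ≠ 0) (hB : Q B ≠ 0) {v : ι → F} (h1 : polar Q v A = 0)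
    (h2 : polar Q v B = 0) : (rr Q A B : Matrix ι ι F) *ᵥ v = v := by
  rw [rr_mulVec, refl_apply_perp hB h2, refl_apply_perp hA h1]

lemma rr_fixed_only {A B : ι → F} (hA : Q A ≠ 0) (hB : Q B ≠ 0) (hli : LinearIndependent F ![A, B])
    {v : ι → F} (hv : (rr Q A B : Matrix ι ι F) *ᵥ v = v) : polar Q v A = 0 ∧ polar Q v B = 0 := by
  rw [rr_mulVec, refl_apply hB, refl_apply hA] at hv
  set β := polar Q v B / Q B with hβ
  set α := polar Q (v - β • B) A / Q A with hα
  obtain ⟨hα0, hβ0⟩ := LinearIndependent.pair_iff.1 hli (-α) (-β) (by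
    linear_combination (norm := module) hv)
  rw [neg_eq_zero] at hα0 hβ0
  rw [hβ, div_eq_zero_iff] at hβ0
  have hvB := hβ0.resolve_right hB
  have hβ00 : β = 0 := by rw [hβ, hvB, zero_div]
  rw [hα, hβ00, zero_smul, sub_zero, div_eq_zero_iff] at hα0
  exact ⟨hα0.resolve_right hA, hvB⟩

/-- A vector orthogonal to `B` but not to an independent vector `A`. -/
lemma exists_sep {A B : ι → F} (hli : LinearIndependent F ![A, B]) :
    ∃ w, polar Q w B = 0 ∧ polar Q w A ≠ 0 := by
  by_contra hc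
  push Not at hc
  have hB0 : B ≠ 0 := fun e => one_ne_zero (LinearIndependent.pair_iff.1 hli 0 1 (by simp [e])).2
  obtain ⟨u, hu⟩ : ∃ u, polar Q B u ≠ 0 := by
    by_contra h'
    push Not at h'
    exact hB0 (h.nd B h')
  rw [polar_comm] at hu
  set c := polar Q u A / polar Q u B with hcdef
  have := (LinearIndependent.pair_iff.1 hli 1 (-c) ?_).1
  · exact one_ne_zero this
  refine h.nd _ fun w => ?_
  have h1 := hc (w - (polar Q w B / polar Q u B) • u) (by
    rw [polar_sub_left, polar_smul_left, smul_eq_mul, div_mul_cancel₀ _ hu, sub_self])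
  rw [polar_sub_left, polar_smul_left, smul_eq_mul] at h1
  rw [one_smul, polar_add_left, polar_smul_left, smul_eq_mul, polar_comm Q A w, polar_comm Q B w, hcdef]
  field_simp at h1 ⊢
  linear_combination h1

lemma part_add_mem {P : Submodule F (ι → F)} {z : GL ι F}
    (hz : ∀ v, (z : Matrix ι ι F) *ᵥ v - v ∈ P)
    (hp : ∀ l, ∀ d ∈ D l, (z : Matrix ι ι F) *ᵥ d ∈ D l) (w : ι → F) (l : Fin t) :
    h.part l ((z : Matrix ι ι F) *ᵥ w - w) ∈ P := by
  have e : h.part l ((z : Matrix ι ι F) *ᵥ w) = (z : Matrix ι ι F) *ᵥ h.part l w :=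
    h.part_eq (p := fun n => (z : Matrix ι ι F) *ᵥ h.part n w) (fun n => hp n _ (h.part_mem n w))
      (by rw [← mulVec_sum, h.sum_part]) l
  rw [map_sub, e]
  exact hz _

lemma sub_mem_span {A B : ι → F} (hA : Q A ≠ 0) (hB : Q B ≠ 0) (v : ι → F) :
    (rr Q A B : Matrix ι ι F) *ᵥ v - v ∈ Submodule.span F (Set.range ![A, B]) := by
  obtain ⟨α, β, e⟩ := h.rr_sub hA hB v
  rw [e, show v - α • A - β • B - v = (-α) • A + (-β) • B by module]
  exact Submodule.add_mem _ (Submodule.smul_mem _ _ (Submodule.subset_span ⟨0, rfl⟩))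
    (Submodule.smul_mem _ _ (Submodule.subset_span ⟨1, rfl⟩))

omit h in
lemma mem_span_pair {A B s : ι → F} (hs : s ∈ Submodule.span F (Set.range ![A, B])) :
    ∃ x y : F, s = x • A + y • B := by
  obtain ⟨c, rfl⟩ := (Submodule.mem_span_range_iff_exists_fun F).1 hs
  exact ⟨c 0, c 1, by simp [Fin.sum_univ_two]⟩

/-- If all blocks are preserved, the parts of the two vectors lie in their span. -/
lemma parts_mem {A B : ι → F} (hA : Q A ≠ 0) (hB : Q B ≠ 0) (hli : LinearIndependent F ![A, B])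
    (hp : ∀ l, ∀ d ∈ D l, (rr Q A B : Matrix ι ι F) *ᵥ d ∈ D l) (l : Fin t) :
    h.part l A ∈ Submodule.span F (Set.range ![A, B]) ∧
      h.part l B ∈ Submodule.span F (Set.range ![A, B]) := by
  set P := Submodule.span F (Set.range ![A, B]) with hP
  have key := h.part_add_mem (P := P) (z := rr Q A B) (h.sub_mem_span hA hB) hp
  have hAm : h.part l A ∈ P := by
    obtain ⟨w, hwB, hwA⟩ := h.exists_sep hli
    have h1 := key w l
    rw [rr_mulVec, refl_apply_perp hB hwB, refl_apply hA,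
      show w - (polar Q w A / Q A) • A - w = (-(polar Q w A / Q A)) • A by module, map_smul,
      Submodule.smul_mem_iff _ (neg_ne_zero.2 (div_ne_zero hwA hA))] at h1
    exact h1
  refine ⟨hAm, ?_⟩
  set A' := A - (polar Q B A / Q B) • B with hA'
  obtain ⟨w, hwA, hwB⟩ := h.exists_sep (A := B) (B := A') (by
    rw [LinearIndependent.pair_iff]
    intro x y hxy
    obtain ⟨hy, hx⟩ := LinearIndependent.pair_iff.1 hli y (x - y * (polar Q B A / Q B)) (by
      rw [← hxy, hA']; module)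
    exact ⟨by simpa [hy] using hx, hy⟩)
  have h1 := key w l
  set μ := polar Q w B / Q B with hμ
  have hA0 : polar Q (w - μ • B) A = 0 := by
    rw [hA', polar_sub_right, polar_smul_right, smul_eq_mul] at hwA
    rw [polar_sub_left, polar_smul_left, smul_eq_mul, hμ]
    field_simp at hwA ⊢
    linear_combination hwA
  rw [rr_mulVec, refl_apply hB, ← hμ, refl_apply_perp hA hA0,
    show w - μ • B - w = (-μ) • B by module, map_smul,
    Submodule.smul_mem_iff _ (neg_ne_zero.2 (div_ne_zero hwB hB))] at h1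
  exact h1

/-- If a block is moved, the two vectors are supported on it and its image, projecting onto each. -/
lemma moved_pair {A B : ι → F} (hA : Q A ≠ 0) (hB : Q B ≠ 0) (hli : LinearIndependent F ![A, B])
    {l l' : Fin t} (hll : l ≠ l') (hm : ∀ d ∈ D l, (rr Q A B : Matrix ι ι F) *ᵥ d ∈ D l') :
    ∀ s ∈ Submodule.span F (Set.range ![A, B]), (∀ n, n ≠ l → n ≠ l' → h.part n s = 0) ∧
      (h.part l s = 0 → s = 0) ∧ (h.part l' s = 0 → s = 0) := by
  set P := Submodule.span F (Set.range ![A, B]) with hP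
  let f : D l →ₗ[F] (ι → F) :=
    (Matrix.toLin' (rr Q A B : Matrix ι ι F) - LinearMap.id).comp (D l).subtype
  have hfv : ∀ y : D l, f y = (rr Q A B : Matrix ι ι F) *ᵥ (y : ι → F) - (y : ι → F) := fun y => by
    simp [f]
  have hf : Function.Injective f := by
    rw [← LinearMap.ker_eq_bot]
    refine LinearMap.ker_eq_bot'.2 fun y hy => Subtype.ext ?_
    rw [hfv, sub_eq_zero] at hy
    exact (h.blk l).nd _ y.2 fun z hz => h.orth l' l hll.symm _ (hy ▸ hm _ y.2) z hz
  have hle : LinearMap.range f ≤ P := by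
    rintro _ ⟨y, rfl⟩
    rw [hfv]
    exact h.sub_mem_span hA hB _
  have heq : LinearMap.range f = P := Submodule.eq_of_le_of_finrank_le hle (by
    rw [LinearMap.finrank_range_of_inj hf, h.rank, hP, finrank_span_eq_card hli, Fintype.card_fin])
  intro s hs
  rw [← heq] at hs
  obtain ⟨y, rfl⟩ := hs
  have hy' := hm _ y.2
  refine ⟨fun n hn hn' => ?_, fun h0 => ?_, fun h0 => ?_⟩
  · rw [hfv, map_sub, h.part_of_mem hy', h.part_of_mem y.2, if_neg hn', if_neg hn, sub_zero]
  · rw [hfv, map_sub, h.part_of_mem hy', h.part_of_mem y.2, if_neg hll, if_pos rfl, zero_sub,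
      neg_eq_zero] at h0
    rw [hfv, h0, mulVec_zero, sub_zero]
  · rw [hfv, map_sub, h.part_of_mem hy', h.part_of_mem y.2, if_pos rfl, if_neg hll.symm, sub_zero] at h0
    rw [hfv, h0, gl_mulVec_injective (rr Q A B) (h0.trans (mulVec_zero _).symm), sub_zero]

/-- A stabilising pair of order more than two whose span is non-degenerate lies in one block. -/
lemma plane_in_block {A B : ι → F} (hA : Q A ≠ 0) (hB : Q B ≠ 0) (hli : LinearIndependent F ![A, B])
    (hst : rr Q A B ∈ Cfsg.Geo.decompositionStabilizer D)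
    (hndP : ∀ x y : F, polar Q (x • A + y • B) A = 0 → polar Q (x • A + y • B) B = 0 →
      x • A + y • B = 0)
    (hsq : ∃ v, (rr Q A B : Matrix ι ι F) *ᵥ ((rr Q A B : Matrix ι ι F) *ᵥ v) ≠ v) :
    ∃ j, A ∈ D j ∧ B ∈ D j := by
  set P := Submodule.span F (Set.range ![A, B]) with hP
  have hzP := h.sub_mem_span hA hB
  have hAP : A ∈ P := Submodule.subset_span ⟨0, rfl⟩
  have hBP : B ∈ P := Submodule.subset_span ⟨1, rfl⟩
  have hA0 : A ≠ 0 := fun e => hA (by rw [e, map_zero])
  obtain ⟨σ, hσ⟩ := hst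
  have hm : ∀ n, ∀ d ∈ D n, (rr Q A B : Matrix ι ι F) *ᵥ d ∈ D (σ n) := fun n d hd => by
    rw [← hσ n, ← Matrix.toLin'_apply]; exact Submodule.mem_map_of_mem hd
  set z : Matrix ι ι F := (rr Q A B : Matrix ι ι F) with hz
  by_contra hcon
  push Not at hcon
  obtain ⟨v₀, hv₀⟩ := hsq
  by_cases hall : ∀ n, σ n = n
  · have hp : ∀ l, ∀ d ∈ D l, z *ᵥ d ∈ D l := fun l d hd => by simpa [hall] using hm l d hd
    obtain ⟨l, hl⟩ := h.exists_part_ne hA0
    obtain ⟨n, hnl, hn⟩ : ∃ n, n ≠ l ∧ (h.part n A ≠ 0 ∨ h.part n B ≠ 0) := by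
      by_contra hc
      push Not at hc
      exact hcon l (h.mem_of_part fun n hn => (hc n hn).1) (h.mem_of_part fun n hn => (hc n hn).2)
    obtain ⟨s₂, hs₂, hs₂D, hs₂0⟩ : ∃ s ∈ P, s ∈ D n ∧ s ≠ 0 := by
      rcases hn with hn | hn
      · exact ⟨_, (h.parts_mem hA hB hli hp n).1, h.part_mem n A, hn⟩
      · exact ⟨_, (h.parts_mem hA hB hli hp n).2, h.part_mem n B, hn⟩
    set s₁ := h.part l A with hs₁
    have hs₁P : s₁ ∈ P := (h.parts_mem hA hB hli hp l).1
    have hs₁D : s₁ ∈ D l := h.part_mem l A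
    have hli' : LinearIndependent F ![s₁, s₂] := Pl.li_of_ne hl fun c e => hs₂0 (by
      have := h.part_of_mem hs₂D n
      rw [e, map_smul, h.part_of_mem hs₁D, if_neg hnl, smul_zero, if_pos rfl, ← e] at this
      exact this.symm)
    have hsP : Submodule.span F (Set.range ![s₁, s₂]) = P := Submodule.eq_of_le_of_finrank_le
      (Submodule.span_le.2 (by rintro _ ⟨r, rfl⟩; fin_cases r <;> assumption))
      (by rw [hP, finrank_span_eq_card hli, finrank_span_eq_card hli'])
    have horth : polar Q s₁ s₂ = 0 := h.orth l n hnl.symm _ hs₁D _ hs₂D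
    have hnd' : ∀ s ∈ P, polar Q s s₁ = 0 → polar Q s s₂ = 0 → s = 0 := fun s hs h1 h2 => by
      obtain ⟨x, y, rfl⟩ := mem_span_pair hs
      have hh : ∀ w ∈ P, polar Q (x • A + y • B) w = 0 := fun w hw => by
        rw [← hsP] at hw
        obtain ⟨α, β, rfl⟩ := mem_span_pair hw
        rw [polar_add_right, polar_smul_right, polar_smul_right, h1, h2, smul_zero, smul_zero, add_zero]
      exact hndP x y (hh A hAP) (hh B hBP)
    have neg : ∀ s ∈ P, ∀ m, s ∈ D m → s ≠ 0 → Q s ≠ 0 →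
        (∀ w ∈ P, w ∈ D m → ∃ c : F, w = c • s) → z *ᵥ s = -s := by
      intro s hs m hsm hs0 hQs hone
      obtain ⟨c, hc⟩ := hone (z *ᵥ s)
        (by have := Submodule.add_mem _ (hzP s) hs; rwa [sub_add_cancel] at this) (hp m s hsm)
      have h1 : c * c * Q s = 1 * Q s := by
        rw [one_mul, ← smul_eq_mul, ← QuadraticMap.map_smul, ← hc, hz, h.rr_isometry]
      rcases mul_self_eq_one_iff.1 (mul_right_cancel₀ hQs h1) with rfl | rfl
      · rw [one_smul] at hc
        obtain ⟨e1, e2⟩ := h.rr_fixed_only hA hB hli hc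
        obtain ⟨x, y, rfl⟩ := mem_span_pair hs
        exact absurd (hndP x y e1 e2) hs0
      · rw [hc, neg_one_smul]
    have hQ1 : Q s₁ ≠ 0 := fun e => hl (hnd' s₁ hs₁P (polar_self_sing e) horth)
    have hQ2 : Q s₂ ≠ 0 := fun e => hs₂0 (hnd' s₂ hs₂ (by rw [polar_comm, horth]) (polar_self_sing e))
    have k1 := neg s₁ hs₁P l hs₁D hl hQ1 fun w hw hwD => by
      rw [← hsP] at hw
      obtain ⟨α, β, rfl⟩ := mem_span_pair hw
      have := h.part_of_mem hwD n
      rw [map_add, map_smul, map_smul, h.part_of_mem hs₁D, if_neg hnl, smul_zero, zero_add,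
        h.part_of_mem hs₂D, if_pos rfl, if_neg hnl, smul_eq_zero] at this
      exact ⟨α, by rw [this.resolve_right hs₂0, zero_smul, add_zero]⟩
    have k2 := neg s₂ hs₂ n hs₂D hs₂0 hQ2 fun w hw hwD => by
      rw [← hsP] at hw
      obtain ⟨α, β, rfl⟩ := mem_span_pair hw
      have := h.part_of_mem hwD l
      rw [map_add, map_smul, map_smul, h.part_of_mem hs₁D, if_pos rfl, h.part_of_mem hs₂D,
        if_neg hnl.symm, smul_zero, add_zero, if_neg hnl.symm, smul_eq_zero] at this
      exact ⟨β, by rw [this.resolve_right hl, zero_smul, zero_add]⟩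
    refine hv₀ ?_
    obtain ⟨α, β, e⟩ := mem_span_pair (hsP.symm ▸ hzP v₀ : z *ᵥ v₀ - v₀ ∈ Submodule.span F (Set.range ![s₁, s₂]))
    rw [sub_eq_iff_eq_add] at e
    rw [e, mulVec_add, mulVec_add, mulVec_smul, mulVec_smul, k1, k2, e]
    module
  · push Not at hall
    obtain ⟨l, hl⟩ := hall
    have hp0 := h.moved_pair hA hB hli (Ne.symm hl) (hm l)
    have key : ∀ n, σ n ≠ n → (n = l ∧ σ n = σ l) ∨ (n = σ l ∧ σ n = l) := fun n hn => by
      have hp1 := h.moved_pair hA hB hli (Ne.symm hn) (hm n) A hAP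
      have q1 : l = n ∨ l = σ n := by
        by_contra hc; push Not at hc
        exact hA0 ((hp0 A hAP).2.1 (hp1.1 l hc.1 hc.2))
      have q2 : σ l = n ∨ σ l = σ n := by
        by_contra hc; push Not at hc
        exact hA0 ((hp0 A hAP).2.2 (hp1.1 _ hc.1 hc.2))
      rcases q1 with q1 | q1
      · exact Or.inl ⟨q1.symm, by rw [q1]⟩
      · rcases q2 with q2 | q2
        · exact Or.inr ⟨q2.symm, q1.symm⟩
        · exact absurd (q2.trans q1.symm) hl
    have hinv : σ (σ l) = l := by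
      rcases key (σ l) (fun e => hl (σ.injective e)) with ⟨e, -⟩ | ⟨-, e⟩
      · exact absurd e hl
      · exact e
    have hblock : ∀ n, ∀ d ∈ D n, z *ᵥ (z *ᵥ d) = d := by
      intro n d hd
      rw [← sub_eq_zero]
      by_cases hn : σ n = n
      · have hfix : z *ᵥ d = d := sub_eq_zero.1 ((hp0 _ (hzP d)).2.1 (by
          have h1 : z *ᵥ d ∈ D n := by simpa [hn] using hm n d hd
          have hnl : l ≠ n := fun e => hl (by rw [e, hn])
          rw [map_sub, h.part_of_mem h1, h.part_of_mem hd, if_neg hnl, if_neg hnl, sub_zero]))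
        rw [hfix, hfix, sub_self]
      · have hsum : z *ᵥ (z *ᵥ d) - d ∈ P := by
          have := Submodule.add_mem _ (hzP (z *ᵥ d)) (hzP d)
          rwa [sub_add_sub_cancel] at this
        have hσσ : σ (σ n) = n := by
          rcases key n hn with ⟨rfl, -⟩ | ⟨rfl, -⟩
          · exact hinv
          · rw [hinv]
        refine (h.moved_pair hA hB hli (Ne.symm hn) (hm n) _ hsum).2.2 ?_
        have h2 := hm _ _ (hm n d hd)
        rw [hσσ] at h2
        rw [map_sub, h.part_of_mem h2, h.part_of_mem hd, if_neg hn, if_neg hn, sub_zero]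
    refine hv₀ ?_
    conv_rhs => rw [← h.sum_part v₀]
    conv_lhs => rw [← h.sum_part v₀]
    rw [mulVec_sum, mulVec_sum]
    exact Finset.sum_congr rfl fun n _ => hblock n _ (h.part_mem n v₀)

/-- The image of a generating pair of a block under an element of Ω. -/
lemma img_pair {g : GL ι F} (hg : g ∈ Cfsg.Geo.omegaGL ⇑Q) {m : Fin t} {a b : ι → F}
    (ha : a ∈ D m) (hb : b ∈ D m) (hQa : Q a ≠ 0) (hQb : Q b = Q a) (hab : polar Q a b ≠ 0)
    (hli : LinearIndependent F ![a, b]) :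
    LinearIndependent F ![(g : Matrix ι ι F) *ᵥ a, (g : Matrix ι ι F) *ᵥ b] ∧
    (∀ x y : F, polar Q (x • ((g : Matrix ι ι F) *ᵥ a) + y • ((g : Matrix ι ι F) *ᵥ b))
        ((g : Matrix ι ι F) *ᵥ a) = 0 →
      polar Q (x • ((g : Matrix ι ι F) *ᵥ a) + y • ((g : Matrix ι ι F) *ᵥ b))
        ((g : Matrix ι ι F) *ᵥ b) = 0 →
      x • ((g : Matrix ι ι F) *ᵥ a) + y • ((g : Matrix ι ι F) *ᵥ b) = 0) ∧
    ∃ v, (rr Q ((g : Matrix ι ι F) *ᵥ a) ((g : Matrix ι ι F) *ᵥ b) : Matrix ι ι F) *ᵥ
      ((rr Q ((g : Matrix ι ι F) *ᵥ a) ((g : Matrix ι ι F) *ᵥ b) : Matrix ι ι F) *ᵥ v) ≠ v := by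
  have hgi := mem_isometryGroup_of_omega hg
  have hQb0 : Q b ≠ 0 := by rw [hQb]; exact hQa
  have hlin : ∀ x y : F, x • ((g : Matrix ι ι F) *ᵥ a) + y • ((g : Matrix ι ι F) *ᵥ b) =
      (g : Matrix ι ι F) *ᵥ (x • a + y • b) := fun x y => by
    rw [mulVec_add, mulVec_smul, mulVec_smul]
  refine ⟨?_, fun x y h1 h2 => ?_, (g : Matrix ι ι F) *ᵥ b, ?_⟩
  · rw [LinearIndependent.pair_iff]
    intro x y hxy
    rw [hlin] at hxy
    exact LinearIndependent.pair_iff.1 hli x y
      (gl_mulVec_injective g (hxy.trans (mulVec_zero _).symm))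
  · rw [hlin, polar_of_isometry hgi] at h1 h2
    rw [hlin, (h.blk m).nd _ ((D m).add_mem ((D m).smul_mem _ ha) ((D m).smul_mem _ hb)) fun u hu => ?_,
      mulVec_zero]
    obtain ⟨α, β, rfl⟩ := (h.blk m).coord ha hb hli hu
    rw [polar_add_right, polar_smul_right, polar_smul_right, h1, h2, smul_zero, smul_zero, add_zero]
  · have hz : ∀ v, (rr Q ((g : Matrix ι ι F) *ᵥ a) ((g : Matrix ι ι F) *ᵥ b) : Matrix ι ι F) *ᵥ
        ((g : Matrix ι ι F) *ᵥ v) = (g : Matrix ι ι F) *ᵥ ((rr Q a b : Matrix ι ι F) *ᵥ v) := fun v => by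
      rw [← rr_conj hg hQa hQb0, mul_mulVec', mul_mulVec', inv_mulVec_mulVec]
    rw [hz, hz]
    intro e
    have e' := gl_mulVec_injective g e
    set lam := polar Q a b / Q a with hlam
    set mu := polar Q a b / Q b with hmu
    have h1 : (rr Q a b : Matrix ι ι F) *ᵥ b = -b + lam • a := by
      rw [rr_mulVec, refl_apply hQb0, polar_two, show 2 * Q b / Q b = 2 by field_simp,
        show b - (2 : F) • b = -b by module, refl_apply hQa, polar_neg_left, polar_comm Q b a, hlam]
      module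
    rw [h1, rr_mulVec, refl_apply hQb0] at e'
    have e2 : -b + lam • a - (polar Q (-b + lam • a) b / Q b) • b = b + lam • a - (lam * mu) • b := by
      rw [polar_add_left, polar_neg_left, polar_smul_left, polar_two, smul_eq_mul, hmu]
      match_scalars <;> field_simp <;> ring
    rw [e2, refl_apply hQa, polar_sub_left, polar_add_left, polar_smul_left, polar_smul_left,
      polar_two, polar_comm Q b a, smul_eq_mul, smul_eq_mul] at e'
    have h3 := (LinearIndependent.pair_iff.1 hli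
      (lam - (polar Q a b + lam * (2 * Q a) - lam * mu * polar Q a b) / Q a) (-(lam * mu)) (by
      linear_combination (norm := module) e')).2
    rw [neg_eq_zero, mul_eq_zero] at h3
    exact h3.elim (div_ne_zero hab hQa) (div_ne_zero hab hQb0)

variable {M : Subgroup (GL ι F)}
  (hle : Cfsg.Geo.decompositionStabilizer D ⊓ Cfsg.Geo.omegaGL ⇑Q ≤ M)
  (hM : M ≤ Cfsg.Geo.omegaGL ⇑Q)
include hle hM

omit hM in
lemma inR_pair {v : ι → F} (hv : InR Q D M v) {i : Fin t} {a : ι → F} (ha : a ∈ D i)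
    (hQ : Q a = Q v) : rr Q v a ∈ M := by
  obtain ⟨hv0, j, b, hb, hQb, hr⟩ := hv
  have hQb0 : Q b ≠ 0 := by rw [hQb]; exact hv0
  rw [← rr_mul hQb0 v a]
  exact M.mul_mem hr (hle (h.rr_mem hb ha hQb0 (by rw [hQ, hQb])))

/-- An element of the group fixing a non-singular block vector preserves the blocks or moves one of
their vectors out of all of them. -/
lemma step {x : GL ι F} (hx : x ∈ M) {l : Fin t} {c : ι → F} (hc : c ∈ D l) (hQc : Q c ≠ 0)
    (hfix : (x : Matrix ι ι F) *ᵥ c = c) :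
    x ∈ Cfsg.Geo.decompositionStabilizer D ∨ ∃ v, InR Q D M v ∧ ∀ i, v ∉ D i := by
  by_contra hcon
  push Not at hcon
  obtain ⟨hns, hall⟩ := hcon
  have hxi := mem_isometryGroup_of_omega (hM hx)
  have hR : ∀ i, ∀ d ∈ D i, Q d = Q c → ∃ j, (x : Matrix ι ι F) *ᵥ d ∈ D j := by
    intro i d hd hQd
    by_contra hno
    push Not at hno
    have hQd0 : Q d ≠ 0 := by rw [hQd]; exact hQc
    have h1 := M.mul_mem (M.mul_mem hx (hle (h.rr_mem hd hc hQd0 hQd.symm))) (M.inv_mem hx)
    rw [rr_conj (hM hx) hQd0 hQc, hfix] at h1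
    obtain ⟨j, hj⟩ := hall _ ⟨by rw [hxi]; exact hQd0, l, c, hc, by rw [hxi, hQd], h1⟩
    exact hno j hj
  refine hns (h.mem_stab_of_blocks hxi fun i => ?_)
  obtain ⟨u, hu, hQu⟩ := (h.blk i).rep (Q c)
  obtain ⟨w, hw, hQw, huw, -, hli⟩ := (h.blk i).mov hu (by rw [hQu]; exact hQc)
  obtain ⟨j, hj⟩ := hR i u hu hQu
  obtain ⟨j', hj'⟩ := hR i w hw (hQw.trans hQu)
  have hjj : j' = j := by
    by_contra hne
    exact huw (by rw [← polar_of_isometry hxi, h.orth j j' (Ne.symm hne) _ hj _ hj'])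
  refine ⟨j, fun a ha => ?_⟩
  obtain ⟨α, β, rfl⟩ := (h.blk i).coord hu hw hli ha
  rw [mulVec_add, mulVec_smul, mulVec_smul]
  exact (D j).add_mem ((D j).smul_mem _ hj) ((D j).smul_mem _ (hjj ▸ hj'))

/-- Some vector outside all blocks belongs to the class of the block vectors. -/
lemma seed {g : GL ι F} (hg : g ∈ M) (hgn : g ∉ Cfsg.Geo.decompositionStabilizer D) :
    ∃ v, InR Q D M v ∧ ∀ i, v ∉ D i := by
  by_contra hR
  have hgi := mem_isometryGroup_of_omega (hM hg)
  refine hgn (h.mem_stab_of_blocks hgi fun m => ?_)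
  obtain ⟨a, ha, hQa1⟩ := (h.blk m).rep 1
  have hQa : Q a ≠ 0 := by rw [hQa1]; exact one_ne_zero
  obtain ⟨b, hb, hQb, hab, -, hli⟩ := (h.blk m).mov ha hQa
  have hQb0 : Q b ≠ 0 := by rw [hQb]; exact hQa
  set A := (g : Matrix ι ι F) *ᵥ a with hA
  set B := (g : Matrix ι ι F) *ᵥ b with hB
  obtain ⟨hliP, hndP, hsqP⟩ := h.img_pair (hM hg) ha hb hQa hQb hab hli
  rw [← hA, ← hB] at hliP hndP hsqP
  have hQA : Q A ≠ 0 := by rw [hA, hgi]; exact hQa
  have hQB : Q B ≠ 0 := by rw [hB, hgi]; exact hQb0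
  have hxM : rr Q A B ∈ M := by
    rw [hA, hB, ← rr_conj (hM hg) hQa hQb0]
    exact M.mul_mem (M.mul_mem hg (hle (h.rr_mem ha hb hQa hQb))) (M.inv_mem hg)
  by_contra hno
  push Not at hno
  have use_fix : ∀ (l : Fin t) (c : ι → F), c ∈ D l → Q c ≠ 0 → polar Q c A = 0 → polar Q c B = 0 →
      False := fun l c hc hQc h1 h2 => by
    have hst := (h.step hle hM hxM hc hQc (h.rr_fixed hQA hQB h1 h2)).resolve_right hR
    obtain ⟨j, hjA, hjB⟩ := h.plane_in_block hQA hQB hliP hst hndP hsqP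
    obtain ⟨y, hy, hyn⟩ := hno j
    obtain ⟨α, β, rfl⟩ := (h.blk m).coord ha hb hli hy
    refine hyn ?_
    rw [mulVec_add, mulVec_smul, mulVec_smul, ← hA, ← hB]
    exact (D j).add_mem ((D j).smul_mem _ hjA) ((D j).smul_mem _ hjB)
  set P := Submodule.span F (Set.range ![A, B]) with hP
  have hAP : A ∈ P := Submodule.subset_span ⟨0, rfl⟩
  have hBP : B ∈ P := Submodule.subset_span ⟨1, rfl⟩
  have hPl : Pl Q P := by
    refine ⟨fun s hs hso => ?_, by rw [hP, finrank_span_eq_card hliP, Fintype.card_fin], ?_⟩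
    · obtain ⟨x, y, rfl⟩ := mem_span_pair hs
      exact hndP x y (hso A hAP) (hso B hBP)
    · refine (h.blk m).hq.imp id (And.imp_left fun han s hs hs0 => ?_)
      obtain ⟨x, y, rfl⟩ := mem_span_pair hs
      have e : x • A + y • B = (g : Matrix ι ι F) *ᵥ (x • a + y • b) := by
        rw [mulVec_add, mulVec_smul, mulVec_smul]
      rw [e, hgi] at hs0
      rw [e, han _ ((D m).add_mem ((D m).smul_mem _ ha) ((D m).smul_mem _ hb)) hs0, mulVec_zero]
  set X : Matrix ι ι F := (rr Q A B : Matrix ι ι F) with hX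
  have hXP := h.sub_mem_span hQA hQB
  have hXr : ∀ q ∈ P, q ≠ 0 → X *ᵥ q - q ≠ 0 := fun q hq hq0 e => by
    obtain ⟨e1, e2⟩ := h.rr_fixed_only hQA hQB hliP (sub_eq_zero.1 e)
    obtain ⟨x, y, rfl⟩ := mem_span_pair hq
    exact hq0 (hndP x y e1 e2)
  have img_line : ∀ s ∈ P, s ≠ 0 → ∀ q ∈ P, q ≠ 0 → polar Q q s = 0 → ∀ v, polar Q v s = 0 →
      ∃ θ : F, X *ᵥ v - v = θ • (X *ᵥ q - q) := by
    intro s hs hs0 q hq hq0 hqs v hvs
    obtain ⟨u, hu, hqu⟩ := hPl.exists_partner hq hq0
    have hli' : LinearIndependent F ![s, u] := Pl.li_of_ne hs0 fun c e => hqu (by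
      rw [e, polar_smul_right, hqs, smul_zero])
    set θ := polar Q v u / polar Q q u with hθ
    have hfix : ∀ w ∈ P, polar Q (v - θ • q) w = 0 := fun w hw => by
      obtain ⟨α, β, rfl⟩ := hPl.coord hs hu hli' hw
      rw [polar_sub_left, polar_smul_left, polar_add_right, polar_add_right]
      simp only [polar_smul_right, hvs, hqs, smul_eq_mul, hθ]
      field_simp
      ring
    refine ⟨θ, ?_⟩
    have := h.rr_fixed hQA hQB (hfix A hAP) (hfix B hBP)
    rw [← hX, mulVec_sub, mulVec_smul] at this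
    linear_combination (norm := module) this
  -- the conjugated pair
  have conj : ∀ {i j : Fin t} {a' b' : ι → F}, a' ∈ D i → b' ∈ D j → Q a' ≠ 0 → Q b' = Q a' →
      ∀ {l : Fin t} {c : ι → F}, c ∈ D l → Q c ≠ 0 → polar Q c (X *ᵥ a') = 0 →
      polar Q c (X *ᵥ b') = 0 →
      rr Q (X *ᵥ a') (X *ᵥ b') ∈ Cfsg.Geo.decompositionStabilizer D := by
    intro i j a' b' ha' hb' hQa' hQb' l c hc hQc h1 h2
    have hQb'0 : Q b' ≠ 0 := by rw [hQb']; exact hQa'
    have hy := M.mul_mem (M.mul_mem hxM (hle (h.rr_mem ha' hb' hQa' hQb'))) (M.inv_mem hxM)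
    rw [rr_conj (hM hxM) hQa' hQb'0] at hy
    exact (h.step hle hM hy hc hQc (h.rr_fixed (by rw [h.rr_isometry]; exact hQa')
      (by rw [h.rr_isometry]; exact hQb'0) h1 h2)).resolve_right hR
  let G := (Finset.univ : Finset (Fin t)).filter fun n => ∀ k ∈ P, h.part n k = 0 → k = 0
  have hG : ∀ n, n ∈ G ↔ ∀ k ∈ P, h.part n k = 0 → k = 0 := fun n => by simp [G]
  -- a block on which the plane projects to a line
  have bad : ∀ l, l ∉ G → ∃ k ∈ P, k ≠ 0 ∧ h.part l k = 0 ∧ Q k = 0 ∧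
      ∀ l', l' ≠ l → h.part l' k ≠ 0 := by
    intro l hl
    rw [hG] at hl
    push Not at hl
    obtain ⟨k, hk, hlk, hk0⟩ := hl
    refine ⟨k, hk, hk0, hlk, ?_⟩
    obtain ⟨w, hw, hkw⟩ : ∃ w ∈ P, ∀ c : F, w ≠ c • k := by
      by_contra hc
      push Not at hc
      obtain ⟨c₁, hc₁⟩ := hc A hAP
      obtain ⟨c₂, hc₂⟩ := hc B hBP
      have h1 := LinearIndependent.pair_iff.1 hliP c₂ (-c₁) (by rw [hc₁, hc₂]; module)
      have : A = 0 := by rw [hc₁, neg_eq_zero.1 h1.2, zero_smul]
      exact hQA (by rw [this, map_zero])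
    have hliK := Pl.li_of_ne hk0 hkw
    set y := h.part l w with hy
    have hpart : ∀ s ∈ P, ∃ θ : F, h.part l s = θ • y := fun s hs => by
      obtain ⟨α, β, rfl⟩ := hPl.coord hk hw hliK hs
      exact ⟨β, by rw [map_add, map_smul, map_smul, hlk, smul_zero, zero_add]⟩
    have hperp : ∀ c ∈ D l, polar Q y c = 0 → ∀ s ∈ P, polar Q c s = 0 := fun c hc hyc s hs => by
      obtain ⟨θ, hθ⟩ := hpart s hs
      rw [polar_comm, h.polar_part hc, hθ, polar_smul_left, hyc, smul_zero]
    by_cases hy0 : y = 0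
    · exfalso
      obtain ⟨c, hc, hQc⟩ := (h.blk l).exists_nonsing
      have h0 := hperp c hc (by rw [hy0, polar_zero_left])
      exact use_fix l c hc hQc (h0 A hAP) (h0 B hBP)
    have hQy : Q y = 0 := by
      by_contra hQy
      obtain ⟨c, hc, hc0, hyc⟩ := (h.blk l).exists_perp y
      have h0 := hperp c hc hyc
      exact use_fix l c hc ((h.blk l).perp_nonsing (h.part_mem l w) hQy hc hc0 hyc) (h0 A hAP) (h0 B hBP)
    obtain ⟨q₀, hq₀, hq₀0, hkq⟩ := hPl.exists_perp k
    set r := X *ᵥ q₀ - q₀ with hr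
    have hrP : r ∈ P := hXP q₀
    have hr0 : r ≠ 0 := hXr q₀ hq₀ hq₀0
    have hrk : Q r = 0 → ∃ e : F, r = e • k := fun hQr => by
      refine hPl.perp_line hq₀ hq₀0 hk hk0 (by rw [polar_comm]; exact hkq) hrP ?_
      have : Q (q₀ + r) = Q q₀ := by rw [hr, add_sub_cancel, hX, h.rr_isometry]
      rw [QuadraticMap.map_add ⇑Q, hQr] at this
      linear_combination this
    obtain ⟨a', ha', hQa'1⟩ := (h.blk l).rep 1
    have hQa' : Q a' ≠ 0 := by rw [hQa'1]; exact one_ne_zero
    obtain ⟨b', hb', hQb', hab', -, hli'⟩ := (h.blk l).mov ha' hQa'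
    obtain ⟨hliX, hndX, hsqX⟩ := h.img_pair (hM hxM) ha' hb' hQa' hQb' hab' hli'
    rw [← hX] at hliX hndX hsqX
    have hkl : ∀ v ∈ D l, polar Q v k = 0 := fun v hv => by
      rw [polar_comm, h.polar_part hv, hlk, polar_zero_left]
    obtain ⟨α, hα⟩ := img_line k hk hk0 q₀ hq₀ hq₀0 (by rw [polar_comm]; exact hkq) a' (hkl a' ha')
    obtain ⟨β, hβ⟩ := img_line k hk hk0 q₀ hq₀ hq₀0 (by rw [polar_comm]; exact hkq) b' (hkl b' hb')
    rw [← hr] at hα hβ
    -- no block vector may be orthogonal to the displacement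
    have final : ∀ (n : Fin t) (c : ι → F), n ≠ l → c ∈ D n → Q c ≠ 0 → polar Q c r = 0 →
        h.part n r ≠ 0 ∨ Q r = 0 → False := by
      intro n c hnl hc hQc hcr hor
      have hcD : ∀ v ∈ D l, ∀ e : F, polar Q c (v + e • r) = 0 := fun v hv e => by
        rw [polar_add_right, polar_smul_right, hcr, h.orth n l hnl c hc v hv, smul_zero, add_zero]
      have eA : X *ᵥ a' = a' + α • r := by rw [← hα]; module
      have eB : X *ᵥ b' = b' + β • r := by rw [← hβ]; module
      have hst := conj ha' hb' hQa' hQb' hc hQc (by rw [eA]; exact hcD a' ha' α)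
        (by rw [eB]; exact hcD b' hb' β)
      obtain ⟨j, hjA, hjB⟩ := h.plane_in_block (by rw [hX, h.rr_isometry]; exact hQa')
        (by rw [hX, h.rr_isometry, hQb']; exact hQa') hliX hst hndX hsqX
      have hα0 : α ≠ 0 := fun e => by
        rw [e, zero_smul, sub_eq_zero, hX] at hα
        obtain ⟨e1, e2⟩ := h.rr_fixed_only hQA hQB hliP hα
        have hperpA : polar Q a' w = 0 := by
          obtain ⟨x, y', rfl⟩ := mem_span_pair hw
          rw [polar_add_right, polar_smul_right, polar_smul_right, e1, e2, smul_zero, smul_zero, add_zero]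
        have h1 : polar Q y a' = 0 := by rw [hy, ← h.polar_part ha', polar_comm, hperpA]
        exact (h.blk l).perp_nonsing ha' hQa' (h.part_mem l w) hy0 (by rw [polar_comm]; exact h1) hQy
      have hcomb : β • a' - α • b' = β • (X *ᵥ a') - α • (X *ᵥ b') := by rw [eA, eB]; module
      have hjl : j = l := by
        by_contra hjl
        have h1 : β • a' - α • b' ∈ D j := hcomb ▸ (D j).sub_mem ((D j).smul_mem _ hjA) ((D j).smul_mem _ hjB)
        have h2 : β • a' - α • b' ∈ D l := (D l).sub_mem ((D l).smul_mem _ ha') ((D l).smul_mem _ hb')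
        have h3 := h.part_of_mem h1 l
        rw [h.part_of_mem h2, if_pos rfl, if_neg (Ne.symm hjl)] at h3
        exact hα0 (neg_eq_zero.1 (LinearIndependent.pair_iff.1 hli' β (-α) (by
          rw [neg_smul, ← sub_eq_add_neg]; exact h3)).2)
      subst hjl
      have hrl : r ∈ D j := by
        have h1 := (D j).sub_mem hjA ha'
        rw [eA, add_sub_cancel_left] at h1
        exact ((D j).smul_mem_iff hα0).1 h1
      rcases hor with hn | hQr
      · exact hn (by rw [h.part_of_mem hrl, if_neg hnl])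
      · obtain ⟨e, he⟩ := hrk hQr
        have := h.part_of_mem hrl j
        rw [if_pos rfl, he, map_smul, hlk, smul_zero, ← he] at this
        exact hr0 this.symm
    have hQr : Q r = 0 := by
      by_contra hQr
      obtain ⟨n, hn⟩ := h.exists_part_nonsing hQr
      have hnl : n ≠ l := fun e => hn (by
        obtain ⟨θ, hθ⟩ := hpart r hrP
        rw [e, hθ, QuadraticMap.map_smul, hQy, smul_zero])
      obtain ⟨c, hc, hc0, hyc⟩ := (h.blk n).exists_perp (h.part n r)
      exact final n c hnl hc ((h.blk n).perp_nonsing (h.part_mem n r) hn hc hc0 hyc)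
        (by rw [polar_comm, h.polar_part hc]; exact hyc) (Or.inl fun e => hn (by rw [e, map_zero]))
    obtain ⟨e, he⟩ := hrk hQr
    refine ⟨?_, fun l' hl' hk' => ?_⟩
    · have he0 : e ≠ 0 := fun e0 => hr0 (by rw [he, e0, zero_smul])
      rw [he, QuadraticMap.map_smul, smul_eq_mul] at hQr
      exact (mul_eq_zero.1 hQr).resolve_left (mul_ne_zero he0 he0)
    · obtain ⟨c, hc, hQc⟩ := (h.blk l').exists_nonsing
      exact final l' c hl' hc hQc (by
        rw [polar_comm, h.polar_part hc, he, map_smul, hk', smul_zero, polar_zero_left]) (Or.inr hQr)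
  have hGc : 5 ≤ G.card := by
    have h7 := h.seven
    have hB2 : Gᶜ.card ≤ 2 := by
      by_contra hgt
      push Not at hgt
      obtain ⟨l₁, h1, l₂, h2, l₃, h3, h12, h13, h23⟩ := Finset.two_lt_card.1 hgt
      obtain ⟨k₁, hk1, k10, e1, q1, u1⟩ := bad l₁ (Finset.mem_compl.1 h1)
      obtain ⟨k₂, hk2, k20, e2, q2, u2⟩ := bad l₂ (Finset.mem_compl.1 h2)
      obtain ⟨k₃, hk3, k30, e3, q3, u3⟩ := bad l₃ (Finset.mem_compl.1 h3)
      have hd : ∀ c : F, k₂ ≠ c • k₁ := fun c e => u2 l₁ h12 (by rw [e, map_smul, e1, smul_zero])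
      rcases hPl.sing_two hk1 hk2 hk3 q1 q2 q3 (Pl.li_of_ne k10 hd) with ⟨c, e⟩ | ⟨c, e⟩
      · exact u3 l₁ h13 (by rw [e, map_smul, e1, smul_zero])
      · exact u3 l₂ h23 (by rw [e, map_smul, e2, smul_zero])
    rw [Finset.card_compl, Fintype.card_fin] at hB2
    omega
  -- coordinates in the plane
  let L₁ : F × F →ₗ[F] (ι → F) :=
    (LinearMap.fst F F F).smulRight A + (LinearMap.snd F F F).smulRight B
  have hL₁ : ∀ p, L₁ p = p.1 • A + p.2 • B := fun p => rfl
  have hL₁P : ∀ p, L₁ p ∈ P := fun p => by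
    rw [hL₁]; exact P.add_mem (P.smul_mem _ hAP) (P.smul_mem _ hBP)
  have hL₁i : Function.Injective L₁ := by
    rw [← LinearMap.ker_eq_bot]
    refine LinearMap.ker_eq_bot'.2 fun p hp => ?_
    obtain ⟨e1, e2⟩ := LinearIndependent.pair_iff.1 hliP p.1 p.2 hp
    exact Prod.ext e1 e2
  let J : (ι → F) →ₗ[F] (ι → F) :=
    ((polarBilin Q).flip B).smulRight A - ((polarBilin Q).flip A).smulRight B
  have hJ : ∀ v, J v = polar Q v B • A - polar Q v A • B := fun v => rfl
  have hJP : ∀ v, J v ∈ P := fun v => by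
    rw [hJ]; exact P.sub_mem (P.smul_mem _ hAP) (P.smul_mem _ hBP)
  have hJs : ∀ v, polar Q (J v) v = 0 := fun v => by
    rw [hJ, polar_sub_left, polar_smul_left, polar_smul_left, polar_comm Q A v, polar_comm Q B v,
      smul_eq_mul, smul_eq_mul]
    ring
  have hJ0 : ∀ s ∈ P, J s = 0 → s = 0 := fun s hs e => by
    rw [hJ, sub_eq_add_neg, ← neg_smul] at e
    obtain ⟨e1, e2⟩ := LinearIndependent.pair_iff.1 hliP _ _ e
    obtain ⟨x, y, rfl⟩ := mem_span_pair hs
    exact hndP x y (neg_eq_zero.1 e2) e1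
  let R : (ι → F) →ₗ[F] (ι → F) := (Matrix.toLin' X - LinearMap.id).comp J
  have hRv : ∀ v, R v = X *ᵥ J v - J v := fun v => by simp [R]
  have hRP : ∀ v, R v ∈ P := fun v => by rw [hRv]; exact hXP _
  have hR0 : ∀ s ∈ P, R s = 0 → s = 0 := fun s hs e => by
    by_contra hs0
    rw [hRv] at e
    exact hXr _ (hJP s) (fun e' => hs0 (hJ0 s hs e')) e
  let badset : F × F → Finset (Fin t) := fun p =>
    G.filter fun n => Q (h.part n (L₁ p)) = 0 ∨ Q (h.part n (R (L₁ p))) = 0
  obtain ⟨p, hp0, hpb⟩ : ∃ p : F × F, p ≠ 0 ∧ 2 * (badset p).card ≤ G.card := by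
    rcases (h.blk m).hq with hq | ⟨han, -⟩
    · let S := Finset.univ.erase (0 : F × F)
      have hS : S.card = Fintype.card F * Fintype.card F - 1 := by simp [S]
      have hbound : ∀ n ∈ G, ∀ L : F × F →ₗ[F] (ι → F), (∀ p, L p ∈ P) → Function.Injective L →
          (S.filter fun p => Q (h.part n (L p)) = 0).card ≤ 2 * (Fintype.card F - 1) := fun n hn L hLP hLi =>
        (h.blk n).card_sing ((h.part n).comp L) (fun p => h.part_mem n _) (by
          rw [← LinearMap.ker_eq_bot]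
          refine LinearMap.ker_eq_bot'.2 fun p hp => hLi ?_
          rw [(hG n).1 hn _ (hLP p) hp, map_zero])
      have hsum : ∑ p ∈ S, (badset p).card ≤ G.card * (4 * (Fintype.card F - 1)) := by
        calc ∑ p ∈ S, (badset p).card
            = ∑ n ∈ G, (S.filter fun p => Q (h.part n (L₁ p)) = 0 ∨ Q (h.part n (R (L₁ p))) = 0).card := by
              simp only [badset, Finset.card_filter]
              exact Finset.sum_comm
          _ ≤ ∑ n ∈ G, 4 * (Fintype.card F - 1) := by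
              refine Finset.sum_le_sum fun n hn => ?_
              rw [Finset.filter_or]
              refine (Finset.card_union_le _ _).trans ?_
              have h1 := hbound n hn L₁ hL₁P hL₁i
              have h2 := hbound n hn (R.comp L₁) (fun p => hRP _) (by
                rw [← LinearMap.ker_eq_bot]
                exact LinearMap.ker_eq_bot'.2 fun p hp => hL₁i (by rw [hR0 _ (hL₁P p) hp, map_zero]))
              simp only [LinearMap.comp_apply] at h2
              omega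
          _ = G.card * (4 * (Fintype.card F - 1)) := by rw [Finset.sum_const, smul_eq_mul]
      obtain ⟨p, hp, hle'⟩ := Finset.exists_le_of_sum_le (s := S)
        (f := fun p => (Fintype.card F + 1) * (badset p).card) (g := fun _ => 4 * G.card)
        (Finset.card_pos.1 (by
          rw [hS]
          have : 7 * 7 ≤ Fintype.card F * Fintype.card F := Nat.mul_le_mul hq hq
          omega)) (by
          rw [← Finset.mul_sum, Finset.sum_const, smul_eq_mul, hS]
          refine (Nat.mul_le_mul_left _ hsum).trans (le_of_eq ?_)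
          obtain ⟨e, he⟩ : ∃ e, Fintype.card F = e + 1 := ⟨Fintype.card F - 1, by omega⟩
          rw [he, Nat.add_sub_cancel, show (e + 1) * (e + 1) - 1 = e * e + 2 * e by
            rw [show (e + 1) * (e + 1) = e * e + 2 * e + 1 by ring]; omega]
          ring)
      refine ⟨p, (Finset.mem_erase.1 hp).1, ?_⟩
      have : 8 * (badset p).card ≤ (Fintype.card F + 1) * (badset p).card :=
        Nat.mul_le_mul_right _ (by omega)
      omega
    · have hanP : ∀ n, ∀ s ∈ D n, Q s = 0 → s = 0 := fun n s hs hs0 => by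
        obtain ⟨φ, hφ⟩ := h.isom n m
        have := han _ (φ ⟨s, hs⟩).2 (by rw [hφ]; exact hs0)
        have e : φ ⟨s, hs⟩ = 0 := Subtype.ext this
        exact congrArg Subtype.val (φ.map_eq_zero_iff.1 e)
      refine ⟨(1, 0), by simp, ?_⟩
      have : badset (1, 0) = ∅ := Finset.filter_eq_empty_iff.2 fun n hn => not_or.2
        ⟨fun e => ?_, fun e => ?_⟩
      · simp [this]
      · have := (hG n).1 hn _ (hL₁P _) (hanP n _ (h.part_mem n _) e)
        rw [hL₁, one_smul, zero_smul, add_zero] at this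
        exact hQA (by rw [this, map_zero])
      · have := hR0 _ (hL₁P _) ((hG n).1 hn _ (hRP _) (hanP n _ (h.part_mem n _) e))
        rw [hL₁, one_smul, zero_smul, add_zero] at this
        exact hQA (by rw [this, map_zero])
  set s := L₁ p with hs
  have hsP : s ∈ P := hL₁P p
  have hs0 : s ≠ 0 := fun e => hp0 (hL₁i (by rw [← hs, e, map_zero]))
  set r := R s with hr
  have hr0 : r ≠ 0 := fun e => hs0 (hR0 s hsP e)
  obtain ⟨i₁, hi₁, i₂, hi₂, i₃, hi₃, h12, h13, h23⟩ := Finset.two_lt_card.1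
    (show 2 < (G \ badset p).card by
      rw [Finset.card_sdiff_of_subset (Finset.filter_subset _ _)]
      change 2 < G.card - (badset p).card
      omega)
  let T : Fin 3 → Fin t := ![i₁, i₂, i₃]
  have hTi : Function.Injective T := by
    intro x y hxy
    fin_cases x <;> fin_cases y <;>
      first
      | rfl
      | exact absurd hxy h12
      | exact absurd hxy h13
      | exact absurd hxy h23
      | exact absurd hxy h12.symm
      | exact absurd hxy h13.symm
      | exact absurd hxy h23.symm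
  have hTg : ∀ n, T n ∈ G ∧ Q (h.part (T n) s) ≠ 0 ∧ Q (h.part (T n) r) ≠ 0 := fun n => by
    have hn : T n ∈ G \ badset p := by fin_cases n <;> assumption
    rw [Finset.mem_sdiff] at hn
    refine ⟨hn.1, ?_, ?_⟩ <;> intro e <;> exact hn.2 (Finset.mem_filter.2 ⟨hn.1, by tauto⟩)
  choose y hy hy0 hsy using fun n => (h.blk (T n)).exists_perp (h.part (T n) s)
  have hQy : ∀ n, Q (y n) ≠ 0 := fun n =>
    (h.blk _).perp_nonsing (h.part_mem _ s) (hTg n).2.1 (hy n) (hy0 n) (hsy n)
  obtain ⟨n₁, n₂, hn12, κ, hκ⟩ := exists_square_ratio (fun n => Q (y n)) hQy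
  obtain ⟨n₃, hn31, hn32⟩ : ∃ n₃ : Fin 3, n₃ ≠ n₁ ∧ n₃ ≠ n₂ := by
    revert hn12; clear hκ; revert n₁ n₂; decide
  set a' := y n₁ with ha'e
  set b' := κ • y n₂ with hb'e
  clear_value b'
  set i := T n₁ with hi
  set j := T n₂ with hj
  have hij : i ≠ j := fun e => hn12 (hTi e)
  have ha' : a' ∈ D i := hy n₁
  have hb' : b' ∈ D j := hb'e ▸ (D j).smul_mem _ (hy n₂)
  have hQb' : Q b' = Q a' := by
    rw [hb'e, QuadraticMap.map_smul, smul_eq_mul, ← hκ, div_mul_cancel₀ _ (hQy n₂)]
  have hQa' : Q a' ≠ 0 := hQy n₁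
  have hsa : polar Q a' s = 0 := by rw [polar_comm, h.polar_part ha', hsy]
  have hsb : polar Q b' s = 0 := by
    rw [polar_comm, h.polar_part hb', hb'e, polar_smul_right, hsy, smul_zero]
  have hJs0 : J s ≠ 0 := fun e => hs0 (hJ0 s hsP e)
  obtain ⟨α, hα⟩ := img_line s hsP hs0 (J s) (hJP s) hJs0 (hJs s) a' hsa
  obtain ⟨β, hβ⟩ := img_line s hsP hs0 (J s) (hJP s) hJs0 (hJs s) b' hsb
  rw [← hRv, ← hr] at hα hβ
  have eA : X *ᵥ a' = a' + α • r := by rw [← hα]; module
  have eB : X *ᵥ b' = b' + β • r := by rw [← hβ]; module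
  obtain ⟨c, hc, hc0, hrc⟩ := (h.blk (T n₃)).exists_perp (h.part (T n₃) r)
  have hcD : ∀ (n' : Fin 3) (v : ι → F), n' ≠ n₃ → v ∈ D (T n') → ∀ e : F, polar Q c (v + e • r) = 0 :=
    fun n' v hn' hv e => by
    rw [polar_add_right, h.orth _ _ (fun e' => hn' (hTi e').symm) c hc v hv, polar_smul_right,
      polar_comm Q c r, h.polar_part hc, hrc, smul_zero, add_zero]
  have hst := conj ha' hb' hQa' hQb' hc
    ((h.blk _).perp_nonsing (h.part_mem _ r) (hTg n₃).2.2 hc hc0 hrc)
    (by rw [eA]; exact hcD n₁ a' hn31.symm ha' α) (by rw [eB]; exact hcD n₂ b' hn32.symm hb' β)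
  have hα0 : α ≠ 0 := fun e => by
    rw [e, zero_smul, sub_eq_zero, hX] at hα
    obtain ⟨e1, e2⟩ := h.rr_fixed_only hQA hQB hliP hα
    have hG1 := (hG i).1 (hTg n₁).1
    have hApart : h.part i A ≠ 0 := fun e0 => hQA (by rw [hG1 A hAP e0, map_zero])
    have hne : ∀ c : F, h.part i B ≠ c • h.part i A := fun c e' => by
      have := hG1 (B - c • A) (P.sub_mem hBP (P.smul_mem _ hAP)) (by rw [map_sub, map_smul, e', sub_self])
      exact Pl.ne_smul_of_li hliP c (sub_eq_zero.1 this)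
    have : a' = 0 := (h.blk i).nd _ ha' fun v hv => by
      obtain ⟨x, y', rfl⟩ := (h.blk i).coord (h.part_mem i A) (h.part_mem i B) (Pl.li_of_ne hApart hne) hv
      rw [polar_add_right, polar_smul_right, polar_smul_right, polar_comm Q a' (h.part i A),
        ← h.polar_part ha', polar_comm Q A a', e1, polar_comm Q a' (h.part i B), ← h.polar_part ha',
        polar_comm Q B a', e2, smul_zero, smul_zero, add_zero]
    exact hQa' (by rw [this, map_zero])
  have hli2 : LinearIndependent F ![X *ᵥ a', X *ᵥ b'] := by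
    rw [LinearIndependent.pair_iff]
    intro x y' hxy
    rw [← mulVec_smul, ← mulVec_smul, ← mulVec_add] at hxy
    have hxy' := gl_mulVec_injective _ (hxy.trans (mulVec_zero _).symm)
    have h1 := congrArg (h.part i) hxy'
    rw [map_add, map_smul, map_smul, h.part_of_mem ha', h.part_of_mem hb', if_pos rfl, if_neg hij,
      smul_zero, add_zero, map_zero, smul_eq_zero] at h1
    have hx0 : x = 0 := h1.resolve_right fun e => hQa' (by rw [e, map_zero])
    rw [hx0, zero_smul, zero_add, smul_eq_zero] at hxy'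
    exact ⟨hx0, hxy'.resolve_right fun e => hQa' (by rw [← hQb', e, map_zero])⟩
  have hrn : ∀ n ∈ G, h.part n r ≠ 0 := fun n hn e => hr0 ((hG n).1 hn r (hRP s) e)
  have hout : ∀ n, n ≠ i → n ≠ j → ∀ x y' : F, h.part n (x • (X *ᵥ a') + y' • (X *ᵥ b')) =
      (x * α + y' * β) • h.part n r := fun n hni hnj x y' => by
    rw [eA, eB, map_add, map_smul, map_smul, map_add, map_add, map_smul, map_smul, h.part_of_mem ha',
      h.part_of_mem hb', if_neg hni, if_neg hnj]
    module
  have hQX : Q (X *ᵥ a') ≠ 0 ∧ Q (X *ᵥ b') ≠ 0 := by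
    rw [hX, h.rr_isometry, h.rr_isometry, hQb']; exact ⟨hQa', hQa'⟩
  obtain ⟨n₄, hn₄, n₅, hn₅, n₆, hn₆, h45, h46, h56⟩ := Finset.two_lt_card.1
    (show 2 < (G \ {i, j}).card by
      have := Finset.le_card_sdiff ({i, j} : Finset (Fin t)) G
      have := Finset.card_le_two (a := i) (b := j)
      omega)
  simp only [Finset.mem_sdiff, Finset.mem_insert, Finset.mem_singleton, not_or] at hn₄ hn₅ hn₆
  have hAn : ∀ n, n ∈ G ∧ ¬n = i ∧ ¬n = j → h.part n (X *ᵥ a') ≠ 0 := fun n hn => by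
    have h1 := hout n hn.2.1 hn.2.2 1 0
    rw [one_smul, zero_smul, add_zero, one_mul, zero_mul, add_zero] at h1
    rw [h1]
    exact smul_ne_zero hα0 (hrn n hn.1)
  obtain ⟨σ, hσ⟩ := hst
  have hm : ∀ n, ∀ d ∈ D n, (rr Q (X *ᵥ a') (X *ᵥ b') : Matrix ι ι F) *ᵥ d ∈ D (σ n) := fun n d hd => by
    rw [← hσ n, ← Matrix.toLin'_apply]; exact Submodule.mem_map_of_mem hd
  by_cases hall : ∀ n, σ n = n
  · have h1 := (h.parts_mem hQX.1 hQX.2 hli2 (fun l d hd => by simpa [hall] using hm l d hd) n₄).1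
    obtain ⟨x, y', hxy⟩ := mem_span_pair h1
    have h5 := congrArg (h.part n₅) hxy
    rw [hout n₅ hn₅.2.1 hn₅.2.2, h.part_of_mem (h.part_mem _ _), if_neg (Ne.symm h45), eq_comm,
      smul_eq_zero] at h5
    have h4 := congrArg (h.part n₄) hxy
    rw [hout n₄ hn₄.2.1 hn₄.2.2, h5.resolve_right (hrn n₅ hn₅.1), zero_smul,
      h.part_of_mem (h.part_mem _ _), if_pos rfl] at h4
    exact hAn n₄ hn₄ h4
  · push Not at hall
    obtain ⟨l, hl⟩ := hall
    have hp0' := (h.moved_pair hQX.1 hQX.2 hli2 (Ne.symm hl) (hm l) _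
      (Submodule.subset_span ⟨0, rfl⟩)).1
    have key : ∀ n, n ∈ G ∧ ¬n = i ∧ ¬n = j → n = l ∨ n = σ l := fun n hn => by
      by_contra hc
      push Not at hc
      exact hAn n hn (hp0' n hc.1 hc.2)
    rcases key n₄ hn₄ with e4 | e4 <;> rcases key n₅ hn₅ with e5 | e5 <;>
      rcases key n₆ hn₆ with e6 | e6 <;>
      first
      | exact h45 (e4.trans e5.symm)
      | exact h46 (e4.trans e6.symm)
      | exact h56 (e5.trans e6.symm)

end PDec

end Cfsg.Agent.Lib.Forms
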