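import Cfsg.Agent.Lib.Forms.OrthDecPlaneSeed

/-!
The stabiliser of an orthogonal decomposition into planes is maximal in Ω: from a reflection pair
leaving the blocks a degenerate pair gives a root element, and these fill a root group.
-/

set_option autoImplicit false

namespace Cfsg.Agent.Lib.Forms

open Matrix QuadraticMap Cfsg.Agent.Lib.Classical.Quad Cfsg.Agent.Lib.Classical.QuadOmega

attribute [local instance] _root_.Classical.propDecidable

variable {ι : Type} [Fintype ι] [DecidableEq ι] {F : Type*} [Field F] [Fintype F]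
  {Q : QuadraticForm F (ι → F)} {t : ℕ}

/-- A root element of the group with given centre. -/
def SgMem (Q : QuadraticForm F (ι → F)) (M : Subgroup (GL ι F)) (x u : ι → F) : Prop :=
  polar Q x u = 0 ∧ sg Q x u ∈ M

/-- The root elements of the group with given centre form an additive subgroup. -/
def sgSub (Q : QuadraticForm F (ι → F)) (M : Subgroup (GL ι F)) {x : ι → F} (hx : Q x = 0) :
    AddSubgroup (ι → F) where
  carrier := {u | SgMem Q M x u}
  zero_mem' := ⟨polar_zero_right Q x, by rw [sg_zero hx]; exact M.one_mem⟩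
  add_mem' := fun {u u'} hu hu' => ⟨by rw [polar_add_right, hu.1, hu'.1, add_zero], by
    rw [sg_add hx hu.1 hu'.1]; exact M.mul_mem hu.2 hu'.2⟩
  neg_mem' := fun {u} hu => ⟨by rw [polar_neg_right, hu.1, neg_zero], by
    rw [sg_neg hx hu.1]; exact M.inv_mem hu.2⟩

omit [Fintype F] in
lemma sg_self {x : ι → F} (hx : Q x = 0) (c : F) : sg Q x (c • x) = 1 := by
  refine gl_ext fun v => ?_
  rw [sg_mulVec hx (by rw [polar_smul_right, polar_self_sing hx, smul_zero]), QuadraticMap.map_smul, hx,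
    Units.val_one, one_mulVec, polar_smul_right, smul_zero, zero_mul, zero_smul, sub_zero, smul_smul,
    smul_eq_mul, mul_comm c, add_sub_cancel_right]

omit [Fintype F] in
/-- A degenerate pair of reflections is a root element. -/
lemma rr_eq_sg {x v : ι → F} (hx : Q x = 0) (hxv : polar Q x v = 0) (hv : Q v ≠ 0) :
    rr Q (v + x) v = sg Q x (-(Q v)⁻¹ • v) := by
  have hQ : Q (v + x) = Q v := by
    rw [QuadraticMap.map_add ⇑Q, hx, polar_comm Q v x, hxv, add_zero, add_zero]
  refine gl_ext fun z => ?_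
  rw [rr_mulVec, refl_apply hv, refl_apply (by rw [hQ]; exact hv),
    sg_mulVec hx (by rw [polar_smul_right, hxv, smul_zero]), QuadraticMap.map_smul, hQ]
  simp only [polar_sub_left, polar_add_right, polar_smul_left, polar_smul_right, polar_two,
    polar_comm Q v x, hxv, smul_eq_mul]
  match_scalars <;> field_simp <;> ring

omit [Fintype F] in
/-- A reflection moving a vector by its centre. -/
lemma refl_shift {u w : ι → F} (hu : Q u ≠ 0) (h : polar Q w u = -Q u) : (refl Q u).1 w = w + u := by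
  rw [refl_apply hu, h, neg_div, div_self hu]
  module

namespace PDec

variable {D : Fin t → Submodule F (ι → F)} (h : PDec Q D)
include h

/-- Four reflections with values `r`, `-r`, `s`, `-s` give an element of Ω. -/
lemma four_mem {a b c e : ι → F} {r s : F} (hr : r ≠ 0) (hs : s ≠ 0) (ha : Q a = r) (hb : Q b = -r)
    (hc : Q c = s) (he : Q e = -s) :
    isoMat Q (refl Q a * refl Q b * (refl Q c * refl Q e)) ∈ Cfsg.Geo.omegaGL ⇑Q := by
  refine ⟨(isoEquiv (Q := Q) ⇑Q (LinearEquiv.refl F _) fun _ => rfl).symm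
    (refl Q a * refl Q b * (refl Q c * refl Q e)), ?_, rfl⟩
  rw [SetLike.mem_coe, mem_omega_iff ⇑Q (LinearEquiv.refl F _) fun _ => rfl,
    MulEquiv.apply_symm_apply]
  have ha' : Q a ≠ 0 := by rw [ha]; exact hr
  have hb' : Q b ≠ 0 := by rw [hb]; exact neg_ne_zero.2 hr
  have hc' : Q c ≠ 0 := by rw [hc]; exact hs
  have he' : Q e ≠ 0 := by rw [he]; exact neg_ne_zero.2 hs
  by_cases h2 : (2 : F) = 0
  · rw [mem_commutator_iff_two h.nd h.reg h2, map_mul, map_mul, map_mul, dick_refl h.nd ha',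
      dick_refl h.nd hb', dick_refl h.nd hc', dick_refl h.nd he']
    simp
  · rw [mem_commutator_iff h.nd h2]
    simp only [map_mul, dick_refl h.nd ha', dick_refl h.nd hb', dick_refl h.nd hc', dick_refl h.nd he',
      spn_refl h.nd h2 ha', spn_refl h.nd h2 hb', spn_refl h.nd h2 hc', spn_refl h.nd h2 he']
    refine ⟨by simp, ?_⟩
    rw [← sqSign_mul ha' hb', ← sqSign_mul hc' he', ← sqSign_mul (mul_ne_zero ha' hb') (mul_ne_zero hc' he'),
      sqSign_eq_one_iff, ha, hb, hc, he]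
    exact ⟨r * s, by ring⟩

/-- An element of Ω in the stabiliser fixing the blocks outside a pair and interchanging the pair fixes
the vectors without parts in the pair. -/
lemma swap_fix {m l : Fin t} {σ : GL ι F}
    (hσ : ∀ i, i ≠ m → i ≠ l → ∀ a ∈ D i, (σ : Matrix ι ι F) *ᵥ a = a) {x : ι → F}
    (hm : h.part m x = 0) (hl : h.part l x = 0) : (σ : Matrix ι ι F) *ᵥ x = x := by
  conv_rhs => rw [← h.sum_part x]
  conv_lhs => rw [← h.sum_part x, mulVec_sum]
  refine Finset.sum_congr rfl fun i _ => ?_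
  rcases eq_or_ne i m with rfl | h1
  · rw [hm, mulVec_zero]
  rcases eq_or_ne i l with rfl | h2
  · rw [hl, mulVec_zero]
  exact hσ i h1 h2 _ (h.part_mem i x)

/-- The values attained in a block by vectors moving a given one. -/
lemma exists_move_vec {v : ι → F} {i : Fin t} {r : F} (hr : r ∈ dset Q (D i) (h.part i v)) :
    ∃ u ∈ D i, Q u = r ∧ polar Q v u = -r := by
  obtain ⟨-, u, hu, hQu, hvu⟩ := mem_dset.1 hr
  exact ⟨u, hu, hQu, by rw [h.polar_part hu, hvu]⟩

/-- Two of the parts can be moved by opposite values. -/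
lemma exists_match {v : ι → F} {S : Finset (Fin t)} (hS : 2 < S.card)
    (hv : ∀ n ∈ S, Q (h.part n v) ≠ 0) :
    ∃ i ∈ S, ∃ j ∈ S, i ≠ j ∧ ∃ r : F, r ≠ 0 ∧ ∃ a ∈ D i, ∃ b ∈ D j,
      Q a = r ∧ Q b = -r ∧ polar Q v a = -r ∧ polar Q v b = r := by
  obtain ⟨i₁, h1, i₂, h2, i₃, h3, h12, h13, h23⟩ := Finset.two_lt_card.1 hS
  let T : Fin 3 → Fin t := ![i₁, i₂, i₃]
  have hT : ∀ n, T n ∈ S := fun n => by fin_cases n <;> assumption
  obtain ⟨n, m, hnm, r, hr, hr'⟩ := match_three (fun n => h.blk (T n)) (fun n => h.part_mem (T n) v)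
    (fun n => hv _ (hT n))
  obtain ⟨a, ha, hQa, hva⟩ := h.exists_move_vec hr
  obtain ⟨b, hb, hQb, hvb⟩ := h.exists_move_vec hr'
  refine ⟨T n, hT n, T m, hT m, ?_, r, (mem_dset.1 hr).1, a, ha, b, hb, hQa, hQb, hva, by rw [hvb, neg_neg]⟩
  intro e
  apply hnm
  fin_cases n <;> fin_cases m <;>
    first
    | rfl
    | exact absurd e h12
    | exact absurd e h13
    | exact absurd e h23
    | exact absurd e h12.symm
    | exact absurd e h13.symm
    | exact absurd e h23.symm

variable {M : Subgroup (GL ι F)}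
  (hle : Cfsg.Geo.decompositionStabilizer D ⊓ Cfsg.Geo.omegaGL ⇑Q ≤ M)
  (hM : M ≤ Cfsg.Geo.omegaGL ⇑Q)
include hle hM

lemma inR_map {k : GL ι F} (hk : k ∈ Cfsg.Geo.decompositionStabilizer D ⊓ Cfsg.Geo.omegaGL ⇑Q)
    {v : ι → F} (hv : InR Q D M v) : InR Q D M ((k : Matrix ι ι F) *ᵥ v) := by
  obtain ⟨hv0, i, a, ha, hQa, hr⟩ := hv
  have hki := mem_isometryGroup_of_omega hk.2
  obtain ⟨j, hj⟩ := h.exists_block hk.1 i
  have h1 := M.mul_mem (M.mul_mem (hle hk) hr) (M.inv_mem (hle hk))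
  rw [rr_conj hk.2 hv0 (by rw [hQa]; exact hv0)] at h1
  exact ⟨by rw [hki]; exact hv0, j, _, hj a ha, by rw [hki, hki, hQa], h1⟩

lemma sg_of_shift {k : GL ι F} (hk : k ∈ Cfsg.Geo.decompositionStabilizer D ⊓ Cfsg.Geo.omegaGL ⇑Q)
    {v x : ι → F} (hv : InR Q D M v) (hkv : (k : Matrix ι ι F) *ᵥ v = v + x) (hx : Q x = 0)
    (hxv : polar Q x v = 0) : SgMem Q M x (-(Q v)⁻¹ • v) := by
  have hw := h.inR_map hle hM hk hv
  rw [hkv] at hw
  obtain ⟨hv0, i, a, ha, hQa, hr⟩ := id hv
  have h1 := h.inR_pair hle hw ha (by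
    rw [hQa, QuadraticMap.map_add ⇑Q, hx, polar_comm Q v x, hxv, add_zero, add_zero])
  have h2 := M.inv_mem hr
  rw [rr_inv hv0 (by rw [hQa]; exact hv0)] at h2
  have h3 := M.mul_mem h1 h2
  rw [rr_mul (by rw [hQa]; exact hv0)] at h3
  exact ⟨by rw [polar_smul_right, hxv, smul_zero], by rw [← rr_eq_sg hx hxv hv0]; exact h3⟩

lemma sgMem_map {k : GL ι F} (hk : k ∈ M) {x : ι → F} (hx : Q x = 0)
    (hkx : (k : Matrix ι ι F) *ᵥ x = x) {u : ι → F} (hu : SgMem Q M x u) :
    SgMem Q M x ((k : Matrix ι ι F) *ᵥ u) := by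
  have hki := mem_isometryGroup_of_omega (hM hk)
  have h1 := M.mul_mem (M.mul_mem hk hu.2) (M.inv_mem hk)
  rw [sg_conj hki hx hu.1, hkx] at h1
  refine ⟨?_, h1⟩
  have h2 := polar_of_isometry hki x u
  rwa [hkx, hu.1] at h2

lemma plane_full {x : ι → F} (hx : Q x = 0) {m n : Fin t} (hmn : m ≠ n) (hm : h.part m x = 0)
    (hn : h.part n x = 0) {d : ι → F} (hd : d ∈ D m) (hd0 : d ≠ 0) (hdP : SgMem Q M x d) :
    ∀ e ∈ D m, SgMem Q M x e := by
  refine (h.blk m).full_of_inv (sgSub Q M hx) hd hdP hd0 fun a ha hQa u hu huP => ?_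
  obtain ⟨e, he, hQe⟩ := (h.blk n).rep (Q a)
  have hQe0 : Q e ≠ 0 := by rw [hQe]; exact hQa
  have hk := hle (h.rr_mem ha he hQa hQe)
  have hkx : (rr Q a e : Matrix ι ι F) *ᵥ x = x := by
    rw [rr_mulVec, refl_apply_perp hQe0 (by rw [h.polar_part he, hn, polar_zero_left]),
      refl_apply_perp hQa (by rw [h.polar_part ha, hm, polar_zero_left])]
  have h1 := h.sgMem_map hle hM hk hx hkx huP
  rwa [rr_mulVec, refl_apply_perp hQe0 (h.orth m n hmn u hu e he), refl_apply hQa] at h1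

lemma block_full {x u : ι → F} (hx : Q x = 0) (hu : SgMem Q M x u) {m n : Fin t} (hmn : m ≠ n)
    (hm : h.part m x = 0) (hn : h.part n x = 0) (hmu : h.part m u ≠ 0) :
    ∀ e ∈ D m, SgMem Q M x e := by
  obtain ⟨a, ha, hQa1⟩ := (h.blk m).rep 1
  have hQa : Q a ≠ 0 := by rw [hQa1]; exact one_ne_zero
  obtain ⟨b, hb, hQb, -, -, hli⟩ := (h.blk m).mov ha hQa
  have hQb0 : Q b ≠ 0 := by rw [hQb]; exact hQa
  set z : Matrix ι ι F := (rr Q a b : Matrix ι ι F) with hz
  have hk := hle (h.rr_mem ha hb hQa hQb)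
  have hrest : z *ᵥ (u - h.part m u) = u - h.part m u := h.rr_fix ha hb hQa hQb0 (by
    rw [map_sub, h.part_of_mem (h.part_mem m u), if_pos rfl, sub_self])
  have e1 : z *ᵥ u - u = z *ᵥ h.part m u - h.part m u := by
    rw [mulVec_sub] at hrest
    linear_combination (norm := module) hrest
  refine h.plane_full hle hM hx hmn hm hn (d := z *ᵥ u - u) ?_ ?_ ?_
  · rw [e1]
    refine (D m).sub_mem ?_ (h.part_mem m u)
    rw [hz, rr_mulVec]
    exact h.refl_block ha hQa (h.refl_block hb hQb0 (h.part_mem m u))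
  · rw [e1]
    intro e
    obtain ⟨e2, e3⟩ := h.rr_fixed_only hQa hQb0 hli (sub_eq_zero.1 e)
    refine hmu ((h.blk m).nd _ (h.part_mem m u) fun y hy => ?_)
    obtain ⟨α, β, rfl⟩ := (h.blk m).coord ha hb hli hy
    rw [polar_add_right, polar_smul_right, polar_smul_right, e2, e3, smul_zero, smul_zero, add_zero]
  · exact (sgSub Q M hx).sub_mem (h.sgMem_map hle hM hk hx (h.rr_fix ha hb hQa hQb0 hm) hu) hu

lemma spread {x : ι → F} (hx : Q x = 0) {m l : Fin t} (hm : h.part m x = 0) (hl : h.part l x = 0)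
    (hfull : ∀ e ∈ D m, SgMem Q M x e) : ∀ e ∈ D l, SgMem Q M x e := by
  rcases eq_or_ne m l with rfl | hml
  · exact hfull
  obtain ⟨σ, hσ, hσm, hσf⟩ := h.exists_swap hml
  obtain ⟨d, hd, hQd⟩ := (h.blk m).rep 1
  refine h.plane_full hle hM hx hml.symm hl hm (hσm d hd) (fun e => ?_)
    (h.sgMem_map hle hM (hle hσ) hx (h.swap_fix hσf hm hl) (hfull d hd))
  have := mem_isometryGroup_of_omega hσ.2 d
  rw [e, map_zero, hQd] at this
  exact zero_ne_one this

/-- A full root vector with a zero part and a non-zero part gives Ω. -/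
lemma finish_pair {x : ι → F} (hfull : RootFull Q M x) {i n : Fin t} (hi : h.part i x ≠ 0)
    (hn : h.part n x = 0) : Cfsg.Geo.omegaGL ⇑Q ≤ M := by
  obtain ⟨p, hp, hQp, hxp⟩ : ∃ p ∈ D i, Q p ≠ 0 ∧ polar Q (h.part i x) p ≠ 0 := by
    obtain ⟨a, ha, hQa⟩ := (h.blk i).exists_nonsing
    obtain ⟨w, hw, hQw, -, -, hli⟩ := (h.blk i).mov ha hQa
    by_contra hc
    push Not at hc
    refine hi ((h.blk i).nd _ (h.part_mem i x) fun y hy => ?_)
    obtain ⟨α, β, rfl⟩ := (h.blk i).coord ha hw hli hy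
    rw [polar_add_right, polar_smul_right, polar_smul_right, hc a ha hQa,
      hc w hw (by rw [hQw]; exact hQa), smul_zero, smul_zero, add_zero]
  obtain ⟨d, hd, hQd⟩ := (h.blk n).rep (Q p)
  have hpol : polar Q x p ≠ 0 := by rwa [h.polar_part hp]
  refine omega_le_of_pair h.nd (by have := h.big; omega) hM hfull
    (rootFull_conj hM hfull (hle (h.rr_mem hp hd hQp hQd))) ?_
  rw [rr_mulVec, refl_apply_perp (w := d) (by rw [hQd]; exact hQp) (by rw [h.polar_part hd, hn, polar_zero_left]),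
    refl_apply hQp, polar_sub_right, polar_self_sing hfull.1, polar_smul_right, smul_eq_mul, zero_sub,
    neg_ne_zero]
  exact mul_ne_zero (div_ne_zero hpol hQp) hpol

/-- Root elements with a centre having a full block outside give Ω. -/
lemma stage {x : ι → F} (hx : Q x = 0) {i m n : Fin t} (hmn : m ≠ n) (hi : Q (h.part i x) ≠ 0)
    (hm : h.part m x = 0) (hn : h.part n x = 0) (hmP : ∀ e ∈ D m, SgMem Q M x e) :
    Cfsg.Geo.omegaGL ⇑Q ≤ M := by
  set a := h.part i x with ha
  have haD : a ∈ D i := h.part_mem i x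
  have him : i ≠ m := fun e => hi (by rw [ha, e, hm, map_zero])
  have hin : i ≠ n := fun e => hi (by rw [ha, e, hn, map_zero])
  obtain ⟨j, hji, hj⟩ := h.exists_part_ne_of_notMem (x := x) (i := i) fun hm' => hi (by
    rw [ha, h.part_of_mem hm', if_pos rfl, hx])
  have hjm : j ≠ m := fun e => hj (e ▸ hm)
  have hjn : j ≠ n := fun e => hj (e ▸ hn)
  obtain ⟨w, hwD, hQw, -, hQwa, hli⟩ := (h.blk i).mov haD hi
  set u₁ := w - a with hu₁
  have hu₁D : u₁ ∈ D i := (D i).sub_mem hwD haD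
  set r := Q u₁ with hr
  have hau : polar Q a u₁ = -r := by
    have : Q (a + u₁) = Q a := by rw [hu₁, add_sub_cancel, hQw]
    rw [QuadraticMap.map_add ⇑Q, ← hr] at this
    linear_combination this
  have hli₁ : LinearIndependent F ![a, u₁] := by
    refine Pl.li_of_ne (fun e => hi (by rw [e, map_zero])) fun c e => Pl.ne_smul_of_li hli (c + 1) ?_
    rw [add_smul, one_smul, ← e, hu₁, sub_add_cancel]
  obtain ⟨u₂, hu₂D, hQu₂⟩ := (h.blk m).rep (-r)
  have hQu₂0 : Q u₂ ≠ 0 := by rw [hQu₂]; exact neg_ne_zero.2 hQwa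
  obtain ⟨w₂, hw₂D, hQw₂, hπ₂, -, hli₂⟩ := (h.blk m).mov hu₂D hQu₂0
  set κ := r / polar Q u₂ w₂ with hκ
  have hκ0 : κ ≠ 0 := div_ne_zero hQwa hπ₂
  set d := κ • w₂ with hd
  have hdD : d ∈ D m := (D m).smul_mem _ hw₂D
  have hdu : polar Q d u₂ = r := by
    rw [hd, polar_smul_left, smul_eq_mul, polar_comm, hκ, div_mul_cancel₀ _ hπ₂]
  have hQd : Q d ≠ 0 := by
    rw [hd, QuadraticMap.map_smul, hQw₂, smul_eq_mul]; exact mul_ne_zero (mul_ne_zero hκ0 hκ0) hQu₂0
  have hli' : LinearIndependent F ![u₂, d] :=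
    Pl.li_of_ne (fun e => hQu₂0 (by rw [e, map_zero])) fun c e => Pl.ne_smul_of_li hli₂ (κ⁻¹ * c) (by
      rw [mul_smul, ← e, hd, smul_smul, inv_mul_cancel₀ hκ0, one_smul])
  clear_value d
  have hxd : polar Q x d = 0 := by rw [h.polar_part hdD, hm, polar_zero_left]
  set v := d + x with hv
  have hQv : Q v = Q d := by
    rw [hv, QuadraticMap.map_add ⇑Q, hx, polar_comm Q d x, hxd, add_zero, add_zero]
  have hvR : InR Q D M v := ⟨by rw [hQv]; exact hQd, m, d, hdD, hQv.symm, by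
    rw [hv, rr_eq_sg hx hxd hQd]; exact (hmP _ ((D m).smul_mem _ hdD)).2⟩
  have hpv : ∀ l, h.part l v = (if l = m then d else 0) + h.part l x := fun l => by
    rw [hv, map_add, h.part_of_mem hdD]
  have hvi : h.part i v = a := by rw [hpv, if_neg him, zero_add]
  have hvm : h.part m v = d := by rw [hpv, if_pos rfl, hm, add_zero]
  have hvn : h.part n v = 0 := by rw [hpv, if_neg hmn.symm, hn, zero_add]
  have hvj : h.part j v ≠ 0 := by rw [hpv, if_neg hjm, zero_add]; exact hj
  -- a second root element, with centre in two blocks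
  obtain ⟨d₁, hd₁, hQd₁⟩ := (h.blk n).rep r
  obtain ⟨e₁, he₁, hQe₁⟩ := (h.blk n).rep (-r)
  have hk : rr Q u₁ d₁ * rr Q u₂ e₁ ∈ Cfsg.Geo.decompositionStabilizer D ⊓ Cfsg.Geo.omegaGL ⇑Q :=
    mul_mem (h.rr_mem hu₁D hd₁ hQwa hQd₁) (h.rr_mem hu₂D he₁ hQu₂0 (hQe₁.trans hQu₂.symm))
  have hvu₁ : polar Q v u₁ = -r := by rw [h.polar_part hu₁D, hvi, hau]
  have hvu₂ : polar Q v u₂ = r := by rw [h.polar_part hu₂D, hvm, hdu]
  have hkv : ((rr Q u₁ d₁ * rr Q u₂ e₁ : GL ι F) : Matrix ι ι F) *ᵥ v = v + (u₁ + u₂) := by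
    rw [mul_mulVec', rr_mulVec (a := u₂), refl_apply_perp (w := e₁) (by rw [hQe₁]; exact neg_ne_zero.2 hQwa)
        (by rw [h.polar_part he₁, hvn, polar_zero_left]),
      refl_shift hQu₂0 (by rw [hvu₂, hQu₂, neg_neg]), rr_mulVec,
      refl_apply_perp (w := d₁) (by rw [hQd₁]; exact hQwa)
        (by rw [polar_add_left, h.polar_part hd₁, hvn, polar_zero_left,
          h.orth m n hmn u₂ hu₂D d₁ hd₁, add_zero]),
      refl_shift hQwa (by rw [polar_add_left, hvu₁, h.orth m i him.symm u₂ hu₂D u₁ hu₁D, add_zero])]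
    abel
  set X := u₁ + u₂ with hX
  have hu12 : polar Q u₁ u₂ = 0 := h.orth i m him u₁ hu₁D u₂ hu₂D
  have hQX : Q X = 0 := by
    rw [hX, QuadraticMap.map_add ⇑Q, hu12, ← hr, hQu₂]; ring
  have hXv : polar Q X v = 0 := by
    rw [hX, polar_add_left, polar_comm Q u₁, polar_comm Q u₂, hvu₁, hvu₂, neg_add_cancel]
  have hpX : ∀ l, h.part l X = (if l = i then u₁ else 0) + (if l = m then u₂ else 0) := fun l => by
    rw [hX, map_add, h.part_of_mem hu₁D, h.part_of_mem hu₂D]
  have hX0 : ∀ l, l ≠ i → l ≠ m → h.part l X = 0 := fun l h1 h2 => by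
    rw [hpX, if_neg h1, if_neg h2, add_zero]
  set P := sgSub Q M hQX with hP
  have hmem : ∀ u, u ∈ P ↔ SgMem Q M X u := fun u => Iff.rfl
  have hv0P := h.sg_of_shift hle hM hk hvR hkv hQX hXv
  have hjP : ∀ e ∈ D j, e ∈ P := h.block_full hle hM hQX hv0P hjn (hX0 j hji hjm) (hX0 n hin.symm hmn.symm) (by
    rw [map_smul]; exact smul_ne_zero (neg_ne_zero.2 (inv_ne_zero (by rw [hQv]; exact hQd))) hvj)
  have hout : ∀ l, l ≠ i → l ≠ m → ∀ e ∈ D l, e ∈ P := fun l h1 h2 =>
    h.spread hle hM hQX (hX0 j hji hjm) (hX0 l h1 h2) hjP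
  have hmult : ∀ c : F, c • v ∈ P := by
    intro c
    obtain ⟨a', ha', hQa'⟩ := (h.blk n).rep (Q v)
    have hQa'0 : Q a' ≠ 0 := by rw [hQa']; exact hvR.1
    have hk2 := h.inR_pair hle hvR ha' hQa'
    have hfix : (rr Q v a' : Matrix ι ι F) *ᵥ X = X := h.rr_fixed hvR.1 hQa'0 hXv
      (by rw [h.polar_part ha', hX0 n hin.symm hmn.symm, polar_zero_left])
    obtain ⟨e₀, he₀, hpe⟩ := (h.blk j).exists_partner (h.part_mem j v) hvj
    have hpe' : polar Q e₀ v ≠ 0 := by rw [polar_comm, h.polar_part he₀]; exact hpe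
    set e := (-(c * Q v) / polar Q e₀ v) • e₀ with he
    have heD : e ∈ D j := (D j).smul_mem _ he₀
    have h1 := P.sub_mem ((hmem _).2 (h.sgMem_map hle hM hk2 hQX hfix (hjP e heD))) (hjP e heD)
    rw [rr_mulVec, refl_apply_perp hQa'0 (h.orth j n hjn e heD a' ha'), refl_apply hvR.1,
      sub_sub_cancel_left] at h1
    convert h1 using 1
    rw [← neg_smul, he, polar_smul_left, smul_eq_mul]
    congr 1
    field_simp
    exact (mul_div_cancel_right₀ c hvR.1).symm
  have hS : ∀ c : F, c • (a + d) ∈ P := by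
    intro c
    have hsub : ({i, m} : Finset (Fin t)) ⊆ Finset.univ := Finset.subset_univ _
    have e : v = (∑ l ∈ Finset.univ \ {i, m}, h.part l v) + (a + d) := by
      conv_lhs => rw [← h.sum_part v, ← Finset.sum_sdiff hsub]
      rw [Finset.sum_pair him, hvi, hvm]
    have h1 := P.sub_mem (hmult c) (P.sum_mem (t := Finset.univ \ {i, m})
      (f := fun l => c • h.part l v) fun l hl => by
      simp only [Finset.mem_sdiff, Finset.mem_insert, Finset.mem_singleton, not_or] at hl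
      exact hout l hl.2.1 hl.2.2 _ ((D l).smul_mem _ (h.part_mem l v)))
    rw [← Finset.smul_sum, ← smul_sub] at h1
    convert h1 using 2
    rw [eq_sub_iff_add_eq', ← e]
  set b' := u₂ + (2 : F) • d with hb'
  have hb'D : b' ∈ D m := (D m).add_mem hu₂D ((D m).smul_mem _ hdD)
  have hu₂b : polar Q u₂ b' = 0 := by
    rw [hb', polar_add_right, polar_smul_right, polar_two, polar_comm Q u₂ d, hdu, hQu₂, smul_eq_mul]
    ring
  have hb'0 : b' ≠ 0 := fun e => one_ne_zero (LinearIndependent.pair_iff.1 hli' 1 2 (by rw [one_smul]; exact e)).1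
  have hQb' : Q b' ≠ 0 := (h.blk m).perp_nonsing hu₂D hQu₂0 hb'D hb'0 hu₂b
  have hbP : ∀ c : F, c • b' ∈ P := by
    intro c
    obtain ⟨e, he, hQe⟩ := (h.blk n).rep (Q b')
    have hQe0 : Q e ≠ 0 := by rw [hQe]; exact hQb'
    have hfix : (rr Q b' e : Matrix ι ι F) *ᵥ X = X := h.rr_fixed hQb' hQe0
      (by rw [hX, polar_add_left, h.orth i m him u₁ hu₁D b' hb'D, hu₂b, add_zero])
      (by rw [h.polar_part he, hX0 n hin.symm hmn.symm, polar_zero_left])
    have h1 := P.sub_mem (hS c)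
      ((hmem _).2 (h.sgMem_map hle hM (hle (h.rr_mem hb'D he hQb' hQe)) hQX hfix (hS c)))
    have hpe : polar Q (c • (a + d)) e = 0 := by
      rw [polar_smul_left, polar_add_left, h.orth i n hin a haD e he, h.orth m n hmn d hdD e he, add_zero,
        smul_zero]
    have hdb : polar Q d b' = Q b' := by
      rw [hb', QuadraticMap.map_add ⇑Q, QuadraticMap.map_smul, polar_add_right, polar_smul_right,
        polar_smul_right, polar_two, polar_comm Q u₂ d, hdu, hQu₂, smul_eq_mul, smul_eq_mul, smul_eq_mul]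
      ring
    rw [rr_mulVec, refl_apply_perp hQe0 hpe, refl_apply hQb', sub_sub_cancel, polar_smul_left,
      polar_add_left, h.orth i m him a haD b' hb'D, zero_add, hdb, smul_eq_mul,
      mul_div_assoc, div_self hQb', mul_one] at h1
    exact h1
  refine h.finish_pair hle hM (x := X) ⟨hQX, fun u hu => ?_⟩ (i := i) (n := n) ?_ (hX0 n hin.symm hmn.symm)
  swap
  · rw [hpX, if_pos rfl, if_neg him, add_zero]
    exact fun e => hQwa (by rw [hr, e, map_zero])
  obtain ⟨β, α, hui⟩ := (h.blk i).coord haD hu₁D hli₁ (h.part_mem i u)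
  obtain ⟨γ, ε, hum⟩ := (h.blk m).coord hu₂D hdD hli' (h.part_mem m u)
  have hrel : 2 * α - β - 2 * γ + ε = 0 := by
    have e : polar Q X u = polar Q (h.part i u) u₁ + polar Q (h.part m u) u₂ := by
      rw [polar_comm, hX, polar_add_right, h.polar_part hu₁D, h.polar_part hu₂D]
    rw [hu, hui, hum, polar_add_left, polar_add_left, polar_smul_left, polar_smul_left, polar_smul_left,
      polar_smul_left, polar_two, polar_two, hau, hdu, hQu₂, ← hr, smul_eq_mul, smul_eq_mul, smul_eq_mul,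
      smul_eq_mul] at e
    exact (mul_eq_zero.1 (show r * (2 * α - β - 2 * γ + ε) = 0 by linear_combination -e)).resolve_left hQwa
  have hpair : h.part i u + h.part m u = α • X + β • (a + d) + (γ - α) • b' := by
    rw [hui, hum, hX, hb', show ε = β + 2 * γ - 2 * α by linear_combination hrel]
    module
  have hu' : u ∈ P := by
    rw [← h.sum_part u, ← Finset.sum_sdiff (Finset.subset_univ ({i, m} : Finset (Fin t))),
      Finset.sum_pair him, hpair]
    refine P.add_mem (P.sum_mem fun l hl => ?_) (P.add_mem (P.add_mem ?_ (hS β)) (hbP _))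
    · simp only [Finset.mem_sdiff, Finset.mem_insert, Finset.mem_singleton, not_or] at hl
      exact hout l hl.2.1 hl.2.2 _ (h.part_mem l u)
    · exact ⟨by rw [polar_smul_right, polar_self_sing hQX, smul_zero], by rw [sg_self hQX]; exact M.one_mem⟩
  exact hu'.2

/-- Some vector of the class has at least three parts. -/
lemma enlarge {v : ι → F} (hv : InR Q D M v) (hout : ∀ i, v ∉ D i) :
    ∃ w, InR Q D M w ∧ 2 < (Finset.univ.filter fun l => h.part l w ≠ 0).card := by
  by_cases hS : 2 < (Finset.univ.filter fun l => h.part l v ≠ 0).card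
  · exact ⟨v, hv, hS⟩
  obtain ⟨i, hi⟩ := h.exists_part_nonsing hv.1
  obtain ⟨j, hji, hj⟩ := h.exists_part_ne_of_notMem (hout i)
  have hij : ∀ l, l ≠ i → l ≠ j → h.part l v = 0 := fun l h1 h2 => by
    by_contra hl
    refine hS (Finset.two_lt_card.2 ⟨i, ?_, j, ?_, l, ?_, hji.symm, h1.symm, h2.symm⟩) <;>
      simp only [Finset.mem_filter, Finset.mem_univ, true_and]
    exacts [fun e => hi (by rw [e, map_zero]), hj, hl]
  obtain ⟨m, hm⟩ := h.exists_notMem {i, j} (Finset.card_le_two.trans_lt (by norm_num))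
  obtain ⟨n, hn⟩ := h.exists_notMem {i, j, m} (Finset.card_le_three.trans_lt (by norm_num))
  obtain ⟨n', hn'⟩ := h.exists_notMem {i, j, m, n} (Finset.card_le_four.trans_lt (by norm_num))
  simp only [Finset.mem_insert, Finset.mem_singleton, not_or] at hm hn hn'
  obtain ⟨σ, hσ, hσj, hσf⟩ := h.exists_swap (Ne.symm hm.2)
  set vi := h.part i v with hvi
  set vj := h.part j v with hvj
  have hviD : vi ∈ D i := h.part_mem i v
  have hv2 : v = vi + vj := by
    conv_lhs => rw [← h.sum_part v, Finset.sum_eq_add i j hji.symm (fun l _ hl => hij l hl.1 hl.2)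
      (by simp) (by simp)]
  obtain ⟨wi, hwi, hQwi, hπ, hQp, hli⟩ := (h.blk i).mov hviD hi
  set p := wi - vi with hp
  obtain ⟨d, hd, hQd⟩ := (h.blk n).rep (Q p)
  set wm := (σ : Matrix ι ι F) *ᵥ vj with hwm
  have hwmD : wm ∈ D m := hσj vj (h.part_mem j v)
  have hk := mul_mem (h.rr_mem ((D i).sub_mem hwi hviD) hd hQp hQd) hσ
  set w := ((rr Q p d * σ : GL ι F) : Matrix ι ι F) *ᵥ v with hw
  have hσi : (σ : Matrix ι ι F) *ᵥ vi = vi := hσf i hji.symm (Ne.symm hm.1) vi hviD
  have hpvi : polar Q vi p = -Q p := by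
    have : Q (vi + p) = Q vi := by rw [hp, add_sub_cancel, hQwi]
    rw [QuadraticMap.map_add ⇑Q] at this
    linear_combination this
  have hwe : w = wi + wm := by
    rw [hw, mul_mulVec', hv2, mulVec_add, hσi, ← hwm, mulVec_add, rr_mulVec, rr_mulVec,
      refl_apply_perp (by rw [hQd]; exact hQp) (h.orth i n (Ne.symm hn.1) vi hviD d hd),
      refl_apply_perp (v := wm) (by rw [hQd]; exact hQp) (h.orth m n (Ne.symm hn.2.2) wm hwmD d hd),
      refl_shift hQp hpvi, refl_apply_perp hQp (h.orth m i hm.1 wm hwmD p ((D i).sub_mem hwi hviD))]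
    rw [hp, add_sub_cancel]
  have hwR : InR Q D M w := h.inR_map hle hM hk hv
  have hQw : Q w = Q v := by
    rw [hw]; exact mem_isometryGroup_of_omega hk.2 v
  obtain ⟨a, ha, hQa⟩ := (h.blk n).rep (Q v)
  obtain ⟨d', hd', hQd'⟩ := (h.blk n').rep (Q v)
  have hQa0 : Q a ≠ 0 := by rw [hQa]; exact hv.1
  have hk2 := h.inR_pair hle hv ha hQa
  have hd'fix : (rr Q v a : Matrix ι ι F) *ᵥ d' = d' := h.rr_fixed hv.1 hQa0
    (by rw [polar_comm, h.polar_part hd', hij n' hn'.1 hn'.2.1, polar_zero_left])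
    (h.orth n' n hn'.2.2.2 d' hd' a ha)
  have h1 := M.mul_mem (M.mul_mem hk2 (h.inR_pair hle hwR hd' (by rw [hQd', hQw]))) (M.inv_mem hk2)
  rw [rr_conj (hM hk2) (by rw [hQw]; exact hv.1) (by rw [hQd']; exact hv.1), hd'fix] at h1
  have hwn : polar Q w a = 0 := by
    rw [hwe, polar_add_left, h.orth i n (Ne.symm hn.1) wi hwi a ha, h.orth m n (Ne.symm hn.2.2) wm hwmD a ha,
      add_zero]
  set new := (rr Q v a : Matrix ι ι F) *ᵥ w with hnew
  have hne : new = w - (polar Q w v / Q v) • v := by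
    rw [hnew, rr_mulVec, refl_apply_perp hQa0 hwn, refl_apply hv.1]
  have hwv : polar Q w v = polar Q vi wi := by
    rw [hwe, polar_add_left, polar_comm Q wi v, h.polar_part hwi, polar_comm Q wm v, h.polar_part hwmD,
      hij m hm.1 hm.2, polar_zero_left, add_zero]
  have hlam : polar Q w v / Q v ≠ 0 := by rw [hwv]; exact div_ne_zero hπ hv.1
  refine ⟨new, ⟨by rw [hnew, mem_isometryGroup_of_omega (hM hk2), hQw]; exact hv.1, n', d', hd',
    by rw [hQd', hnew, mem_isometryGroup_of_omega (hM hk2), hQw], h1⟩, ?_⟩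
  have hpart : ∀ l, h.part l new = (if l = i then wi else 0) + (if l = m then wm else 0) -
      (polar Q w v / Q v) • h.part l v := fun l => by
    rw [hne, map_sub, map_smul, hwe, map_add, h.part_of_mem hwi, h.part_of_mem hwmD]
  refine Finset.two_lt_card.2 ⟨i, ?_, j, ?_, m, ?_, hji.symm, Ne.symm hm.1, Ne.symm hm.2⟩ <;>
    simp only [Finset.mem_filter, Finset.mem_univ, true_and] <;> rw [hpart]
  · rw [if_pos rfl, if_neg (Ne.symm hm.1), add_zero, ← hvi, sub_ne_zero]
    exact Pl.ne_smul_of_li hli _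
  · rw [if_neg hji, if_neg (Ne.symm hm.2), add_zero, zero_sub, neg_ne_zero, ← hvj]
    exact smul_ne_zero hlam hj
  · rw [if_neg hm.1, if_pos rfl, zero_add, hij m hm.1 hm.2, smul_zero, sub_zero, hwm]
    exact fun e => hj (gl_mulVec_injective σ (e.trans (mulVec_zero _).symm))

/-- A vector outside all blocks gives Ω. -/
lemma finish {v₀ : ι → F} (hv₀ : InR Q D M v₀) (hout : ∀ i, v₀ ∉ D i) :
    Cfsg.Geo.omegaGL ⇑Q ≤ M := by
  obtain ⟨v, hv, hS⟩ := h.enlarge hle hM hv₀ hout
  set S := Finset.univ.filter fun l => h.part l v ≠ 0 with hSdef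
  have hSmem : ∀ l, l ∈ S ↔ h.part l v ≠ 0 := fun l => by simp [hSdef]
  have hc0 : -(Q v)⁻¹ ≠ 0 := neg_ne_zero.2 (inv_ne_zero hv.1)
  by_cases hsing : ∃ l, h.part l v ≠ 0 ∧ Q (h.part l v) = 0
  · -- a singular part
    obtain ⟨l, hl, hQy⟩ := hsing
    set y := h.part l v with hy
    have hyD : y ∈ D l := h.part_mem l v
    obtain ⟨m, hmS, hml⟩ := Finset.exists_mem_ne (lt_trans one_lt_two hS) l
    obtain ⟨n, hn⟩ := h.exists_notMem {l, m} (Finset.card_le_two.trans_lt (by norm_num))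
    simp only [Finset.mem_insert, Finset.mem_singleton, not_or] at hn
    obtain ⟨a, ha, hQa⟩ := (h.blk l).exists_nonsing
    obtain ⟨b, hb, hQb, -, -, hli⟩ := (h.blk l).mov ha hQa
    have hQb0 : Q b ≠ 0 := by rw [hQb]; exact hQa
    have hnot : ∀ {p : ι → F}, p ∈ D l → Q p ≠ 0 → ∀ {s : ι → F}, s ∈ D l → s ≠ 0 → Q s = 0 →
        ∀ c : F, (refl Q p).1 s ≠ c • s := by
      intro p hp hQp s hs hs0 hQs c e
      rw [refl_apply hQp] at e
      have hps : polar Q s p ≠ 0 := fun e0 =>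
        (h.blk l).perp_nonsing hp hQp hs hs0 (by rw [polar_comm, e0]) hQs
      have e' : p = ((1 - c) / (polar Q s p / Q p)) • s := by
        rw [div_eq_inv_mul, mul_smul, show (1 - c) • s = (polar Q s p / Q p) • p by
          linear_combination (norm := module) e, smul_smul,
          inv_mul_cancel₀ (div_ne_zero hps hQp), one_smul]
      exact hQp (by rw [e', QuadraticMap.map_smul, hQs, smul_zero])
    set y' := (refl Q b).1 y with hy'
    have hy'D : y' ∈ D l := h.refl_block hb hQb0 hyD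
    have hQy' : Q y' = 0 := by rw [hy', iso_Q, hQy]
    have hy'0 : y' ≠ 0 := fun e => hnot hb hQb0 hyD hl hQy 0 (by rw [zero_smul, ← hy', e])
    set z : Matrix ι ι F := (rr Q a b : Matrix ι ι F) with hz
    have hzy : z *ᵥ y = (refl Q a).1 y' := by rw [hz, rr_mulVec, hy']
    obtain ⟨lam, hlam⟩ : ∃ c : F, z *ᵥ y = c • y := by
      rcases (h.blk l).sing_two hyD hy'D (h.refl_block ha hQa hy'D) hQy hQy' (by rw [iso_Q, hQy'])
        (Pl.li_of_ne hl fun c e => hnot hb hQb0 hyD hl hQy c e) with ⟨c, e⟩ | ⟨c, e⟩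
      · exact ⟨c, hzy.trans e⟩
      · exact absurd e (hnot ha hQa hy'D hy'0 hQy' c)
    have hlam1 : lam - 1 ≠ 0 := fun e => by
      rw [sub_eq_zero.1 e, one_smul] at hlam
      obtain ⟨e1, e2⟩ := h.rr_fixed_only hQa hQb0 hli hlam
      exact (h.blk l).perp_nonsing ha hQa hyD hl (by rw [polar_comm, e1]) hQy
    set x := (lam - 1) • y with hx
    have hQx : Q x = 0 := by rw [hx, QuadraticMap.map_smul, hQy, smul_zero]
    have hxv : polar Q x v = 0 := by
      rw [hx, polar_smul_left, polar_comm, h.polar_part hyD, ← hy, polar_self_sing hQy, smul_zero]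
    have hkv : z *ᵥ v = v + x := by
      have hrest : z *ᵥ (v - y) = v - y := h.rr_fix ha hb hQa hQb0 (by
        rw [map_sub, h.part_of_mem hyD, if_pos rfl, ← hy, sub_self])
      rw [mulVec_sub, hlam] at hrest
      rw [hx]
      linear_combination (norm := module) hrest
    have hu := h.sg_of_shift hle hM (h.rr_mem ha hb hQa hQb) hv hkv hQx hxv
    have hxp : ∀ l', l' ≠ l → h.part l' x = 0 := fun l' hl' => by
      rw [hx, map_smul, h.part_of_mem hyD, if_neg hl', smul_zero]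
    have hmP := h.block_full hle hM hQx hu (Ne.symm hn.2) (hxp m hml) (hxp n hn.1) (by
      rw [map_smul]; exact smul_ne_zero hc0 ((hSmem m).1 hmS))
    refine h.finish_pair hle hM (x := x) ⟨hQx, fun u hu' => ?_⟩ (i := l) (n := n) ?_ (hxp n hn.1)
    · have : u ∈ sgSub Q M hQx := by
        rw [← h.sum_part u]
        refine (sgSub Q M hQx).sum_mem fun l' _ => ?_
        rcases eq_or_ne l' l with rfl | hl'
        · obtain ⟨c, hc⟩ := (h.blk _).perp_line hyD hl hyD hl (polar_self_sing hQy) (h.part_mem _ u) (by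
            rw [hx, polar_smul_left, smul_eq_mul, mul_eq_zero] at hu'
            rw [polar_comm, ← h.polar_part hyD, polar_comm]
            exact hu'.resolve_left hlam1)
          rw [hc, show c • y = (c / (lam - 1)) • x by rw [hx, smul_smul, div_mul_cancel₀ _ hlam1]]
          exact ⟨by rw [polar_smul_right, polar_self_sing hQx, smul_zero], by
            rw [sg_self hQx]; exact M.one_mem⟩
        · exact h.spread hle hM hQx (hxp m hml) (hxp l' hl') hmP _ (h.part_mem l' u)
      exact this.2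
    · rw [hx, map_smul, h.part_of_mem hyD, if_pos rfl]
      exact smul_ne_zero hlam1 hl
  push Not at hsing
  have hns : ∀ l ∈ S, Q (h.part l v) ≠ 0 := fun l hl => hsing l ((hSmem l).1 hl)
  -- all parts non-singular
  obtain ⟨k, hk, x, hkv, hQx, hxv, i, m, n, hmn, hi, hm, hn, hmv⟩ :
      ∃ k ∈ Cfsg.Geo.decompositionStabilizer D ⊓ Cfsg.Geo.omegaGL ⇑Q, ∃ x,
        (k : Matrix ι ι F) *ᵥ v = v + x ∧ Q x = 0 ∧ polar Q x v = 0 ∧ ∃ i m n, m ≠ n ∧
          Q (h.part i x) ≠ 0 ∧ h.part m x = 0 ∧ h.part n x = 0 ∧ h.part m v ≠ 0 := by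
    obtain ⟨i, hiS, j, hjS, hij, r, hr, a, ha, b, hb, hQa, hQb, hva, hvb⟩ := h.exists_match hS hns
    have hQa0 : Q a ≠ 0 := by rw [hQa]; exact hr
    have hQb0 : Q b ≠ 0 := by rw [hQb]; exact neg_ne_zero.2 hr
    have hab : polar Q a b = 0 := h.orth i j hij a ha b hb
    have hQab : Q (a + b) = 0 := by rw [QuadraticMap.map_add ⇑Q, hab, hQa, hQb]; ring
    have habv : polar Q (a + b) v = 0 := by
      rw [polar_comm, polar_add_right, hva, hvb, neg_add_cancel]
    by_cases hz : ∃ z, h.part z v = 0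
    · obtain ⟨z, hz⟩ := hz
      obtain ⟨m, hm⟩ : ∃ m, m ∈ S \ {i, j} := Finset.card_pos.1 (by
        have := Finset.le_card_sdiff ({i, j} : Finset (Fin t)) S
        have := Finset.card_le_two (a := i) (b := j)
        omega)
      simp only [Finset.mem_sdiff, Finset.mem_insert, Finset.mem_singleton, not_or] at hm
      obtain ⟨d, hd, hQd⟩ := (h.blk z).rep r
      obtain ⟨e, he, hQe⟩ := (h.blk z).rep (-r)
      have hzi : i ≠ z := fun e' => (hSmem i).1 hiS (e' ▸ hz)
      have hzj : j ≠ z := fun e' => (hSmem j).1 hjS (e' ▸ hz)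
      have hzm : m ≠ z := fun e' => (hSmem m).1 hm.1 (e' ▸ hz)
      have hp : ∀ l, h.part l (a + b) = (if l = i then a else 0) + (if l = j then b else 0) := fun l => by
        rw [map_add, h.part_of_mem ha, h.part_of_mem hb]
      refine ⟨rr Q a d * rr Q b e, mul_mem (h.rr_mem ha hd hQa0 (hQd.trans hQa.symm))
        (h.rr_mem hb he hQb0 (hQe.trans hQb.symm)), a + b, ?_, hQab, habv, i, m, z, hzm, ?_, ?_, ?_,
        (hSmem m).1 hm.1⟩
      · rw [mul_mulVec', rr_mulVec (a := b), refl_apply_perp (w := e) (by rw [hQe]; exact neg_ne_zero.2 hr)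
            (by rw [h.polar_part he, hz, polar_zero_left]),
          refl_shift hQb0 (by rw [hvb, hQb, neg_neg]), rr_mulVec,
          refl_apply_perp (w := d) (by rw [hQd]; exact hr) (by
            rw [polar_add_left, h.polar_part hd, hz, polar_zero_left, h.orth j z hzj b hb d hd, add_zero]),
          refl_shift hQa0 (by rw [polar_add_left, hva, polar_comm Q b a, hab, add_zero, hQa])]
        abel
      · rw [hp, if_pos rfl, if_neg hij, add_zero]; exact hQa0
      · rw [hp, if_neg hm.2.1, if_neg hm.2.2, add_zero]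
      · rw [hp, if_neg hzi.symm, if_neg hzj.symm, add_zero]
    · push Not at hz
      obtain ⟨k₁, hk1, k₂, hk2, hk12, s, hs, c, hc, e, he, hQc, hQe, hvc, hve⟩ :=
        h.exists_match (v := v) (S := Finset.univ \ {i, j}) (by
          have := Finset.le_card_sdiff ({i, j} : Finset (Fin t)) Finset.univ
          have := Finset.card_le_two (a := i) (b := j)
          have := h.seven
          rw [Finset.card_univ, Fintype.card_fin] at *
          omega) (fun l _ => hns l ((hSmem l).2 (hz l)))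
      simp only [Finset.mem_sdiff, Finset.mem_univ, true_and, Finset.mem_insert, Finset.mem_singleton,
        not_or] at hk1 hk2
      have hQc0 : Q c ≠ 0 := by rw [hQc]; exact hs
      have hQe0 : Q e ≠ 0 := by rw [hQe]; exact neg_ne_zero.2 hs
      obtain ⟨m, hm⟩ := h.exists_notMem {i, j, k₁, k₂} (Finset.card_le_four.trans_lt (by norm_num))
      obtain ⟨n, hn⟩ := h.exists_notMem {i, j, k₁, k₂, m} (Finset.card_le_five.trans_lt (by norm_num))
      simp only [Finset.mem_insert, Finset.mem_singleton, not_or] at hm hn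
      set g := refl Q a * refl Q b * (refl Q c * refl Q e) with hg
      have hgΩ := h.four_mem hr hs hQa hQb hQc hQe
      rw [← hg] at hgΩ
      have hgD : ∀ l, ∀ u ∈ D l, (isoMat Q g : Matrix ι ι F) *ᵥ u ∈ D l := fun l u hu => by
        rw [isoMat_mulVec, hg]
        simp only [Subgroup.coe_mul, LinearEquiv.mul_apply]
        exact h.refl_block ha hQa0 (h.refl_block hb hQb0 (h.refl_block hc hQc0 (h.refl_block he hQe0 hu)))
      have hac := h.orth i k₁ (Ne.symm hk1.1) a ha c hc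
      have hae := h.orth i k₂ (Ne.symm hk2.1) a ha e he
      have hbc := h.orth j k₁ (Ne.symm hk1.2) b hb c hc
      have hbe := h.orth j k₂ (Ne.symm hk2.2) b hb e he
      have hce := h.orth k₁ k₂ hk12 c hc e he
      have hp : ∀ l, h.part l (a + b + (c + e)) = (if l = i then a else 0) + (if l = j then b else 0) +
          ((if l = k₁ then c else 0) + (if l = k₂ then e else 0)) := fun l => by
        simp only [map_add, h.part_of_mem ha, h.part_of_mem hb, h.part_of_mem hc, h.part_of_mem he]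
      refine ⟨isoMat Q g, ⟨h.mem_stab_of_blocks (mem_isometryGroup_of_omega hgΩ) fun l => ⟨l, hgD l⟩, hgΩ⟩,
        a + b + (c + e), ?_, ?_, ?_, i, m, n, Ne.symm hn.2.2.2.2, ?_, ?_, ?_, hz m⟩
      · rw [isoMat_mulVec, hg]
        simp only [Subgroup.coe_mul, LinearEquiv.mul_apply]
        rw [refl_shift hQe0 (by rw [hve, hQe, neg_neg]),
          refl_shift hQc0 (by rw [polar_add_left, hvc, polar_comm Q e c, hce, add_zero, hQc]),
          refl_shift hQb0 (by rw [polar_add_left, polar_add_left, hvb, polar_comm Q e b, hbe,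
            polar_comm Q c b, hbc, add_zero, add_zero, hQb, neg_neg]),
          refl_shift hQa0 (by rw [polar_add_left, polar_add_left, polar_add_left, hva, polar_comm Q e a, hae,
            polar_comm Q c a, hac, polar_comm Q b a, hab, add_zero, add_zero, add_zero, hQa])]
        abel
      · rw [QuadraticMap.map_add ⇑Q, hQab, QuadraticMap.map_add ⇑Q, hQc, hQe, hce, polar_add_left,
          polar_add_right, polar_add_right, hac, hae, hbc, hbe]
        ring
      · rw [polar_add_left, habv, zero_add, polar_comm, polar_add_right, hvc, hve, neg_add_cancel]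
      · rw [hp, if_pos rfl, if_neg hij, if_neg (Ne.symm hk1.1), if_neg (Ne.symm hk2.1), add_zero, add_zero,
          add_zero]
        exact hQa0
      · rw [hp, if_neg hm.1, if_neg hm.2.1, if_neg hm.2.2.1, if_neg hm.2.2.2]; simp
      · rw [hp, if_neg hn.1, if_neg hn.2.1, if_neg hn.2.2.1, if_neg hn.2.2.2.1]; simp
  have hu := h.sg_of_shift hle hM hk hv hkv hQx hxv
  exact h.stage hle hM hQx hmn hi hm hn (h.block_full hle hM hQx hu hmn hm hn (by
    rw [map_smul]; exact smul_ne_zero hc0 hmv))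

omit hle hM in
/-- The stabiliser of an orthogonal decomposition into planes is maximal in Ω. -/
theorem isMaximalIn :
    Cfsg.Geo.IsMaximalIn (Cfsg.Geo.omegaGL ⇑Q)
      (Cfsg.Geo.decompositionStabilizer D ⊓ Cfsg.Geo.omegaGL ⇑Q) := by
  refine isMaximalIn_of inf_le_right ?_ fun N hle hN g hg hgn => ?_
  · obtain ⟨l₁, -⟩ := h.exists_notMem ∅ (by simp)
    obtain ⟨l₂, h2⟩ := h.exists_notMem {l₁} (by simp)
    obtain ⟨l₃, h3⟩ := h.exists_notMem {l₁, l₂} (Finset.card_le_two.trans_lt (by norm_num))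
    obtain ⟨l₄, h4⟩ := h.exists_notMem {l₁, l₂, l₃} (Finset.card_le_three.trans_lt (by norm_num))
    simp only [Finset.mem_insert, Finset.mem_singleton, not_or] at h2 h3 h4
    obtain ⟨p₁, hp₁, hQ1⟩ := (h.blk l₁).rep 1
    obtain ⟨p₂, hp₂, hQ2⟩ := (h.blk l₂).rep 1
    obtain ⟨p₃, hp₃, hQ3⟩ := (h.blk l₃).rep (-1)
    obtain ⟨a, ha, hQa⟩ := (h.blk l₄).rep 1
    set v := p₁ + p₂ + p₃ with hv
    have hQv : Q v = 1 := by
      rw [hv, QuadraticMap.map_add ⇑Q, QuadraticMap.map_add ⇑Q, polar_add_left, hQ1, hQ2, hQ3,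
        h.orth l₁ l₂ (Ne.symm h2) p₁ hp₁ p₂ hp₂, h.orth l₁ l₃ (Ne.symm h3.1) p₁ hp₁ p₃ hp₃,
        h.orth l₂ l₃ (Ne.symm h3.2) p₂ hp₂ p₃ hp₃]
      ring
    have hQv0 : Q v ≠ 0 := by rw [hQv]; exact one_ne_zero
    have hQa0 : Q a ≠ 0 := by rw [hQa]; exact one_ne_zero
    have hne : ∀ {p : ι → F} {μ : F}, μ ≠ 0 → Q p = μ → p ≠ 0 := fun hμ hp e => hμ (by rw [← hp, e, map_zero])
    obtain ⟨e, he, hpe⟩ := (h.blk l₁).exists_partner hp₁ (hne one_ne_zero hQ1)
    refine ⟨rr Q v a, refl_pair_omega h.nd h.reg hQv0 (hQa.trans hQv.symm), fun hs => ?_⟩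
    obtain ⟨j, hj⟩ := h.exists_block hs.1 l₁
    have h1 := hj e he
    have hev : polar Q e v = polar Q p₁ e := by
      rw [hv, polar_add_right, polar_add_right, h.orth l₁ l₂ (Ne.symm h2) e he p₂ hp₂,
        h.orth l₁ l₃ (Ne.symm h3.1) e he p₃ hp₃, add_zero, add_zero, polar_comm]
    rw [rr_mulVec, refl_apply_perp hQa0 (h.orth l₁ l₄ (Ne.symm h4.1) e he a ha), refl_apply hQv0, hQv,
      div_one, hev] at h1
    have hp : ∀ l, h.part l (e - polar Q p₁ e • v) = (if l = l₁ then e else 0) -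
        polar Q p₁ e • ((if l = l₁ then p₁ else 0) + (if l = l₂ then p₂ else 0) + (if l = l₃ then p₃ else 0)) :=
      fun l => by
      rw [map_sub, map_smul, hv, map_add, map_add, h.part_of_mem he, h.part_of_mem hp₁, h.part_of_mem hp₂,
        h.part_of_mem hp₃]
    rcases eq_or_ne j l₂ with rfl | hj2
    · have h5 := h.part_of_mem h1 l₃
      rw [hp, if_neg h3.1, if_neg h3.1, if_neg h3.2, if_pos rfl, if_neg h3.2, zero_add, zero_add, zero_sub,
        neg_eq_zero, smul_eq_zero] at h5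
      exact hne (neg_ne_zero.2 one_ne_zero) hQ3 (h5.resolve_left hpe)
    · have h5 := h.part_of_mem h1 l₂
      rw [hp, if_neg h2, if_neg h2, if_pos rfl, if_neg (Ne.symm h3.2), if_neg hj2.symm, zero_add, add_zero,
        zero_sub, neg_eq_zero, smul_eq_zero] at h5
      exact hne one_ne_zero hQ2 (h5.resolve_left hpe)
  · obtain ⟨v, hv, hout⟩ := h.seed hle hN hg fun h' => hgn ⟨h', hN hg⟩
    exact h.finish hle hN hv hout

end PDec

omit [DecidableEq ι] in
/-- A plane which is not of plus type has no singular vectors. -/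
lemma aniso_of_not_plus {W : Submodule F (ι → F)} (hd : Module.finrank F W = 2)
    (hp : ¬ Cfsg.Geo.IsPlusTypeOn ⇑Q W) : ∀ x ∈ W, Q x = 0 → x = 0 := by
  intro x hx hQx
  by_contra hx0
  refine hp ⟨Submodule.span F {x}, (Submodule.span_singleton_le_iff_mem _ _).2 hx, fun u hu => ?_,
    by rw [finrank_span_singleton hx0, hd]⟩
  obtain ⟨c, rfl⟩ := Submodule.mem_span_singleton.1 hu
  rw [QuadraticMap.map_smul, hQx, smul_zero]

/-- Maximality for an orthogonal decomposition into planes. -/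
theorem decompStab_maximal_two (hQ : Nd Q) (hn : 13 ≤ Fintype.card ι)
    {D : Fin t → Submodule F (ι → F)} (hD : Cfsg.Geo.IsOrthogonalMDecomposition ⇑Q 2 D)
    (hq : ∀ i, 7 ≤ Fintype.card F ∨
      (¬ Cfsg.Geo.IsPlusTypeOn ⇑Q (D i) ∧ Fintype.card F ≠ 3)) :
    Cfsg.Geo.IsMaximalIn (Cfsg.Geo.omegaGL ⇑Q)
      (Cfsg.Geo.decompositionStabilizer D ⊓ Cfsg.Geo.omegaGL ⇑Q) := by
  refine PDec.isMaximalIn ⟨hQ, hn, hD.decomp.decomp.finrank_eq, hD.decomp.decomp.iSup_eq_top,
    hD.decomp.orthogonal, hD.isometric, fun i => ⟨fun x hx h => ?_, hD.decomp.decomp.finrank_eq i,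
    (hq i).imp id (And.imp_left fun hp => aniso_of_not_plus (hD.decomp.decomp.finrank_eq i) hp)⟩⟩
  by_contra hx0
  obtain ⟨y, hy, hne⟩ := (hD.decomp.nondegenerate i x hx hx0).2
  exact hne (h y hy)

omit [Fintype ι] [DecidableEq ι] [Fintype F] in
/-- Plus type passes between isometric subspaces. -/
lemma isPlusTypeOn_of_isometric {U W : Submodule F (ι → F)} (hi : Cfsg.Geo.AreIsometricFor ⇑Q U W)
    (hp : Cfsg.Geo.IsPlusTypeOn ⇑Q U) : Cfsg.Geo.IsPlusTypeOn ⇑Q W := by
  obtain ⟨φ, hφ⟩ := hi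
  obtain ⟨S, hSU, hS, hd⟩ := hp
  refine ⟨((S.comap U.subtype).map φ.toLinearMap).map W.subtype, ?_, ?_, ?_⟩
  · rintro _ ⟨w, -, rfl⟩
    exact w.2
  · rintro _ ⟨_, ⟨u, hu, rfl⟩, rfl⟩
    change Q (φ u : ι → F) = 0
    rw [hφ]
    exact hS _ hu
  · rw [Submodule.finrank_map_subtype_eq, LinearEquiv.finrank_map_eq, ← φ.finrank_eq,
      (Submodule.comapSubtypeEquivOfLe hSU).finrank_eq, hd]

end Cfsg.Agent.Lib.Forms
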