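import Cfsg.Agent.Lib.Forms.OrthDecOver

/-!
The small cases in which a decomposition stabiliser is not maximal.
-/

set_option autoImplicit false

namespace Cfsg.Agent.Lib.Forms

open Matrix QuadraticMap Cfsg.Agent.Lib.Classical.Quad Cfsg.Agent.Lib.Classical.QuadOmega

variable {ι : Type} [Fintype ι] [DecidableEq ι] {F : Type*} [Field F] [Fintype F]
  {Q : QuadraticForm F (ι → F)} {t k : ℕ}

lemma frame2_three : ∀ c₀ c₁ x₀ x₁ : ZMod 3, c₀ ≠ 0 → c₁ ≠ 0 →
    c₀ * x₀ * x₀ + c₁ * x₁ * x₁ = c₀ → ∀ y₀ y₁ : ZMod 3, c₀ * y₀ * y₀ + c₁ * y₁ * y₁ = c₀ →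
      (y₀ = x₀ ∧ y₁ = x₁) ∨ (y₀ = -x₀ ∧ y₁ = -x₁) ∨ c₀ * x₀ * y₀ + c₁ * x₁ * y₁ = 0 := by decide

lemma frame2_five : ∀ c₀ r x₀ x₁ : ZMod 5, c₀ ≠ 0 → r ≠ 0 →
    c₀ * x₀ * x₀ + -(c₀ * r * r) * x₁ * x₁ = c₀ → ∀ y₀ y₁ : ZMod 5,
      c₀ * y₀ * y₀ + -(c₀ * r * r) * y₁ * y₁ = c₀ →
      (y₀ = x₀ ∧ y₁ = x₁) ∨ (y₀ = -x₀ ∧ y₁ = -x₁) ∨ c₀ * x₀ * y₀ + -(c₀ * r * r) * x₁ * y₁ = 0 := by
  decide

lemma frame3_three : ∀ c₀ c₁ c₂ x₀ x₁ x₂ : ZMod 3, c₀ ≠ 0 → c₁ ≠ 0 → c₂ ≠ 0 →
    c₀ * x₀ * x₀ + c₁ * x₁ * x₁ + c₂ * x₂ * x₂ = c₀ * c₁ * c₂ → ∀ y₀ y₁ y₂ : ZMod 3,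
      c₀ * y₀ * y₀ + c₁ * y₁ * y₁ + c₂ * y₂ * y₂ = c₀ * c₁ * c₂ →
      (y₀ = x₀ ∧ y₁ = x₁ ∧ y₂ = x₂) ∨ (y₀ = -x₀ ∧ y₁ = -x₁ ∧ y₂ = -x₂) ∨
        c₀ * x₀ * y₀ + c₁ * x₁ * y₁ + c₂ * x₂ * y₂ = 0 := by decide

lemma frame3_exists : ∀ c₀ c₁ c₂ : ZMod 3, c₀ ≠ 0 → c₁ ≠ 0 → c₂ ≠ 0 → ∃ x₀ x₁ x₂ : ZMod 3,
    c₀ * x₀ * x₀ + c₁ * x₁ * x₁ + c₂ * x₂ * x₂ = c₀ * c₁ * c₂ := by decide

section

variable {K V : Type*} [Field K] [AddCommGroup V] [Module K V] [FiniteDimensional K V]
  {R : QuadraticForm K V}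

lemma orth_add_le {D T S : Submodule K V} (hnd : ∀ x ∈ D, x ≠ 0 → ∃ y ∈ D, polar R x y ≠ 0)
    (hT : T ≤ D) (hS : S ≤ D) (h : ∀ x ∈ T, ∀ y ∈ S, polar R x y = 0) :
    Module.finrank K T + Module.finrank K S ≤ Module.finrank K D := by
  obtain ⟨C, hC⟩ := exists_isCompl (S.comap D.subtype)
  let Φ : T →ₗ[K] Module.Dual K C :=
    ((polarBilin R).comp T.subtype).compl₂ (D.subtype.comp C.subtype)
  have hΦ : Function.Injective Φ := by
    rw [← LinearMap.ker_eq_bot]
    refine LinearMap.ker_eq_bot'.2 fun x hx => Subtype.ext (by_contra fun hx0 => ?_)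
    obtain ⟨y, hy, hne⟩ := hnd x (hT x.2) hx0
    obtain ⟨s, hs, c, hc, e⟩ := Submodule.mem_sup.1
      (hC.sup_eq_top ▸ Submodule.mem_top : (⟨y, hy⟩ : D) ∈ S.comap D.subtype ⊔ C)
    rw [show y = (s : V) + (c : V) from congrArg Subtype.val e.symm, polar_add_right, h x x.2 s hs,
      zero_add] at hne
    exact hne (LinearMap.congr_fun hx ⟨c, hc⟩)
  have h1 := LinearMap.finrank_le_finrank_of_injective hΦ
  rw [Subspace.dual_finrank_eq] at h1
  have h2 := Submodule.finrank_add_eq_of_isCompl hC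
  rw [(Submodule.comapSubtypeEquivOfLe hS).finrank_eq] at h2
  omega

end

namespace SmallDec

variable {D : Fin t → Submodule F (ι → F)} (h : SmallDec Q k D)
include h

/-- The frame condition passes from one member to all. -/
lemma frame_all {μ : F} {i₀ : Fin t}
    (hS : ∀ a ∈ D i₀, ∀ b ∈ D i₀, Q a = μ → Q b = μ → b = a ∨ b = -a ∨ polar Q a b = 0) :
    ∀ i, ∀ a ∈ D i, ∀ b ∈ D i, Q a = μ → Q b = μ → b = a ∨ b = -a ∨ polar Q a b = 0 := by
  intro i a ha b hb hQa hQb
  obtain ⟨φ, hφ⟩ := h.dec.isometric i i₀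
  rcases hS _ (φ ⟨a, ha⟩).2 _ (φ ⟨b, hb⟩).2 ((hφ _).trans hQa) ((hφ _).trans hQb) with e | e | e
  · exact Or.inl (congrArg Subtype.val (φ.injective (Subtype.ext e)) :)
  · exact Or.inr (Or.inl (congrArg Subtype.val
      (φ.injective (Subtype.ext (a1 := φ ⟨b, hb⟩) (a2 := φ (-⟨a, ha⟩))
        (by rw [map_neg, Submodule.coe_neg]; exact e))) :))
  · exact Or.inr (Or.inr (by rwa [h.polar_iso φ hφ] at e))

lemma exists_nonsing_mem (h2 : (2 : F) ≠ 0) {W : Submodule F (ι → F)}
    (hnd : ∀ x ∈ W, (∀ y ∈ W, polar Q x y = 0) → x = 0) (hW : W ≠ ⊥) : ∃ a ∈ W, Q a ≠ 0 := by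
  by_contra hc
  push Not at hc
  obtain ⟨x, hx, hx0⟩ := W.exists_mem_ne_zero_of_ne_bot hW
  exact hx0 (hnd x hx fun y hy => by simp [polar, hc x hx, hc y hy, hc _ (W.add_mem hx hy)])

/-- An orthogonal basis of a member of dimension two or three. -/
lemma exists_orth (h2 : (2 : F) ≠ 0) (hk : 2 ≤ k) (i : Fin t) :
    ∃ a ∈ D i, ∃ b ∈ D i, Q a ≠ 0 ∧ Q b ≠ 0 ∧ polar Q a b = 0 ∧
      (k = 2 → ∀ x ∈ D i, ∃ p q : F, x = p • a + q • b) ∧
      (k = 3 → ∃ c ∈ D i, Q c ≠ 0 ∧ polar Q a c = 0 ∧ polar Q b c = 0 ∧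
        ∀ x ∈ D i, ∃ p q r : F, x = p • a + q • b + r • c) := by
  have hnd : ∀ x ∈ D i, (∀ y ∈ D i, polar Q x y = 0) → x = 0 := fun x hx h0 => by
    by_contra hx0
    obtain ⟨y, hy, hne⟩ := h.nd_block hx hx0
    exact hne (h0 y hy)
  have hrk := h.dec.decomp.decomp.finrank_eq i
  obtain ⟨a, ha, hQa⟩ := h.exists_nonsing_mem h2 hnd fun e => by rw [e, finrank_bot] at hrk; omega
  have hproj : ∀ {u : ι → F}, u ∈ D i → Q u ≠ 0 → ∀ y : ι → F,
      polar Q u (y - (polar Q u y / (2 * Q u)) • u) = 0 := fun {u} _ hu y => by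
    rw [polar_sub_right, polar_smul_right, polar_self, nsmul_eq_mul, smul_eq_mul, Nat.cast_ofNat,
      div_mul_cancel₀ _ (mul_ne_zero h2 hu), sub_self]
  have hnd₁ : ∀ x ∈ perpIn Q (D i) a, (∀ y ∈ perpIn Q (D i) a, polar Q x y = 0) → x = 0 := by
    intro x hx h0
    obtain ⟨hxD, hax⟩ := mem_perpIn.1 hx
    refine hnd x hxD fun y hy => ?_
    have h1 := h0 _ (mem_perpIn.2 ⟨(D i).sub_mem hy ((D i).smul_mem _ ha), hproj ha hQa y⟩)
    rwa [polar_sub_right, polar_smul_right, polar_comm Q x a, hax, smul_zero, sub_zero] at h1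
  have hd₁ := finrank_perpIn (Q := Q) (D i) a
  rw [hrk] at hd₁
  obtain ⟨b, hb, hQb⟩ := h.exists_nonsing_mem h2 hnd₁ fun e => by rw [e, finrank_bot] at hd₁; omega
  obtain ⟨hbD, hab⟩ := mem_perpIn.1 hb
  have hli2 : LinearIndependent F ![a, b] := by
    rw [LinearIndependent.pair_iff]
    intro p q e
    have e1 := congrArg (polar Q a) e
    have e2 := congrArg (polar Q b) e
    simp [polar_add_right, polar_smul_right, hab, polar_self, h2, hQa] at e1
    simp [polar_add_right, polar_smul_right, polar_comm Q b a, hab, polar_self, h2, hQb] at e2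
    exact ⟨e1, e2⟩
  refine ⟨a, ha, b, hbD, hQa, hQb, hab, fun hk2 x hx => ?_, fun hk3 => ?_⟩
  · have e := Submodule.eq_of_le_of_finrank_le
      (Submodule.span_le.2 (by rintro _ ⟨r, rfl⟩; fin_cases r <;> assumption) :
        Submodule.span F (Set.range ![a, b]) ≤ D i)
      (by rw [finrank_span_eq_card hli2, Fintype.card_fin, hrk, hk2])
    rw [← e] at hx
    obtain ⟨c, rfl⟩ := (Submodule.mem_span_range_iff_exists_fun F).1 hx
    exact ⟨c 0, c 1, by simp [Fin.sum_univ_two]⟩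
  · have hnd₂ : ∀ x ∈ perpIn Q (perpIn Q (D i) a) b,
        (∀ y ∈ perpIn Q (perpIn Q (D i) a) b, polar Q x y = 0) → x = 0 := by
      intro x hx h0
      obtain ⟨hxP, hbx⟩ := mem_perpIn.1 hx
      refine hnd₁ x hxP fun y hy => ?_
      obtain ⟨hyD, hay⟩ := mem_perpIn.1 hy
      have h1 := h0 _ (mem_perpIn.2 ⟨(perpIn Q (D i) a).sub_mem hy ((perpIn Q (D i) a).smul_mem _ hb),
        hproj hbD hQb y⟩)
      rwa [polar_sub_right, polar_smul_right, polar_comm Q x b, hbx, smul_zero, sub_zero] at h1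
    have hd₂ := finrank_perpIn (Q := Q) (perpIn Q (D i) a) b
    obtain ⟨c, hc, hQc⟩ := h.exists_nonsing_mem h2 hnd₂ fun e => by rw [e, finrank_bot] at hd₂; omega
    obtain ⟨hcP, hbc⟩ := mem_perpIn.1 hc
    obtain ⟨hcD, hac⟩ := mem_perpIn.1 hcP
    refine ⟨c, hcD, hQc, hac, hbc, fun x hx => ?_⟩
    have hli3 : LinearIndependent F ![a, b, c] := by
      rw [Fintype.linearIndependent_iff]
      intro g hg
      rw [Fin.sum_univ_three] at hg
      have e1 := congrArg (polar Q a) hg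
      have e2 := congrArg (polar Q b) hg
      have e3 := congrArg (polar Q c) hg
      simp [polar_add_right, polar_smul_right, hab, hac, polar_self, h2, hQa] at e1
      simp [polar_add_right, polar_smul_right, polar_comm Q b a, hab, hbc, polar_self, h2, hQb] at e2
      simp [polar_add_right, polar_smul_right, polar_comm Q c a, polar_comm Q c b, hac, hbc,
        polar_self, h2, hQc] at e3
      intro r
      fin_cases r
      · exact e1
      · exact e2
      · exact e3
    have e := Submodule.eq_of_le_of_finrank_le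
      (Submodule.span_le.2 (by rintro _ ⟨r, rfl⟩; fin_cases r <;> assumption) :
        Submodule.span F (Set.range ![a, b, c]) ≤ D i)
      (by rw [finrank_span_eq_card hli3, Fintype.card_fin, hrk, hk3])
    rw [← e] at hx
    obtain ⟨g, rfl⟩ := (Submodule.mem_span_range_iff_exists_fun F).1 hx
    exact ⟨g 0, g 1, g 2, by simp [Fin.sum_univ_three]⟩

/-- Frames over three or five elements. -/
theorem small_frame_overgroup
    (hc : (Fintype.card F = 3 ∧ (k = 2 ∨ k = 3)) ∨
      (Fintype.card F = 5 ∧ k = 2 ∧ ∀ i, Cfsg.Geo.IsPlusTypeOn ⇑Q (D i))) :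
    ∃ K : Subgroup (GL ι F), Cfsg.Geo.decompositionStabilizer D ⊓ Cfsg.Geo.omegaGL ⇑Q < K ∧
      K < Cfsg.Geo.omegaGL ⇑Q := by
  have hq : Fintype.card F = 3 ∨ Fintype.card F = 5 := hc.elim (fun a => Or.inl a.1) fun a => Or.inr a.1
  have hk : k = 2 ∨ k = 3 := hc.elim (fun a => a.2) fun a => Or.inl a.2.1
  have h2 : (2 : F) ≠ 0 := two_ne_zero_of_odd (by rcases hq with e | e <;> rw [e] <;> decide)
  have h4 := h.four
  let i₀ : Fin t := ⟨0, by omega⟩
  obtain ⟨a, ha, b, hb, hQa, hQb, hab, hspan2, hspan3⟩ := h.exists_orth h2 (by omega) i₀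
  have hk2' : 2 ≤ k := by omega
  rcases hk with hk | hk
  · obtain ⟨p, hp, f, hfr⟩ : ∃ p : ℕ, p.Prime ∧ ∃ f : ZMod p ≃+* F, ∀ x₀ x₁ y₀ y₁ : ZMod p,
        f.symm (Q a) * x₀ * x₀ + f.symm (Q b) * x₁ * x₁ = f.symm (Q a) →
        f.symm (Q a) * y₀ * y₀ + f.symm (Q b) * y₁ * y₁ = f.symm (Q a) →
        (y₀ = x₀ ∧ y₁ = x₁) ∨ (y₀ = -x₀ ∧ y₁ = -x₁) ∨
          f.symm (Q a) * x₀ * y₀ + f.symm (Q b) * x₁ * y₁ = 0 := by
      rcases hc with ⟨e, -⟩ | ⟨e, -, hplus⟩
      · let f := ZMod.ringEquivOfPrime F Nat.prime_three e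
        exact ⟨3, Nat.prime_three, f, fun x₀ x₁ y₀ y₁ h1 h1' =>
          frame2_three _ _ x₀ x₁ (by simpa using hQa) (by simpa using hQb) h1 y₀ y₁ h1'⟩
      · let f := ZMod.ringEquivOfPrime F (by norm_num : Nat.Prime 5) e
        obtain ⟨s, hs, z, -, hQs, -, hsz, -⟩ := h.exists_pair_two hk i₀ (hplus i₀)
        obtain ⟨u, v, hsuv⟩ := hspan2 hk s hs
        have h0 : u * u * Q a + v * v * Q b = 0 := by
          rw [hsuv, QuadraticMap.map_add ⇑Q, QuadraticMap.map_smul, QuadraticMap.map_smul,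
            polar_smul_left, polar_smul_right, hab] at hQs
          simpa using hQs
        have hv : v ≠ 0 := by
          rintro rfl
          have hu : u = 0 := by simpa [hQa] using h0
          rw [hsuv, hu] at hsz
          simp at hsz
        have hu : u ≠ 0 := by
          rintro rfl
          simp [hQb, hv] at h0
        have hr : Q b = -(Q a * (u / v) * (u / v)) := by
          field_simp
          linear_combination h0
        refine ⟨5, by norm_num, f, fun x₀ x₁ y₀ y₁ h1 h1' => ?_⟩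
        rw [hr, map_neg, map_mul, map_mul] at h1 h1' ⊢
        exact frame2_five _ _ x₀ x₁ (by simpa using hQa) (by simp [hu, hv]) h1 y₀ y₁ h1'
    refine h.frame_overgroup h2 hk2' hQa ⟨a, ha, rfl⟩ (h.frame_all (i₀ := i₀) fun x hx y hy hQx hQy => ?_)
    obtain ⟨x₀, x₁, rfl⟩ := hspan2 hk x hx
    obtain ⟨y₀, y₁, rfl⟩ := hspan2 hk y hy
    have hval : ∀ p q : F, Q (p • a + q • b) = p * p * Q a + q * q * Q b := fun p q => by
      rw [QuadraticMap.map_add ⇑Q, QuadraticMap.map_smul, QuadraticMap.map_smul, polar_smul_left,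
        polar_smul_right, hab]
      simp
    rw [hval] at hQx hQy
    rcases hfr (f.symm x₀) (f.symm x₁) (f.symm y₀) (f.symm y₁)
      (by simp only [← map_mul, ← map_add, EmbeddingLike.apply_eq_iff_eq]; linear_combination hQx)
      (by simp only [← map_mul, ← map_add, EmbeddingLike.apply_eq_iff_eq]; linear_combination hQy)
      with ⟨e₀, e₁⟩ | ⟨e₀, e₁⟩ | e
    · rw [f.symm.injective e₀, f.symm.injective e₁]; exact Or.inl rfl
    · rw [← map_neg] at e₀ e₁
      rw [f.symm.injective e₀, f.symm.injective e₁]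
      exact Or.inr (Or.inl (by module))
    · simp only [← map_mul, ← map_add, EmbeddingLike.map_eq_zero_iff] at e
      refine Or.inr (Or.inr ?_)
      simp only [polar_add_left, polar_add_right, polar_smul_left, polar_smul_right, hab,
        polar_comm Q b a, polar_self, smul_eq_mul, nsmul_eq_mul, mul_zero, add_zero, zero_add]
      push_cast
      linear_combination 2 * e
  · have hq3 : Fintype.card F = 3 := hc.elim (fun x => x.1) fun x => absurd x.2.1 (by omega)
    let f := ZMod.ringEquivOfPrime F Nat.prime_three hq3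
    obtain ⟨c, hcD, hQc, hac, hbc, hspan⟩ := hspan3 hk
    have hval : ∀ p q r : F, Q (p • a + q • b + r • c) = p * p * Q a + q * q * Q b + r * r * Q c :=
      fun p q r => by
        simp [QuadraticMap.map_add ⇑Q, QuadraticMap.map_smul, polar_add_left, polar_smul_left,
          polar_smul_right, hab, hac, hbc]
    have hμ : Q a * Q b * Q c ≠ 0 := mul_ne_zero (mul_ne_zero hQa hQb) hQc
    obtain ⟨p, q, r, hpqr⟩ := frame3_exists (f.symm (Q a)) (f.symm (Q b)) (f.symm (Q c))
      (by simpa using hQa) (by simpa using hQb) (by simpa using hQc)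
    refine h.frame_overgroup h2 hk2' hμ ⟨f p • a + f q • b + f r • c, (D i₀).add_mem ((D i₀).add_mem
      ((D i₀).smul_mem _ ha) ((D i₀).smul_mem _ hb)) ((D i₀).smul_mem _ hcD), ?_⟩
      (h.frame_all (i₀ := i₀) fun x hx y hy hQx hQy => ?_)
    · have := congrArg f hpqr
      simp only [map_add, map_mul, RingEquiv.apply_symm_apply] at this
      rw [hval]
      linear_combination this
    obtain ⟨x₀, x₁, x₂, rfl⟩ := hspan x hx
    obtain ⟨y₀, y₁, y₂, rfl⟩ := hspan y hy
    rw [hval] at hQx hQy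
    rcases frame3_three (f.symm (Q a)) (f.symm (Q b)) (f.symm (Q c)) (f.symm x₀) (f.symm x₁) (f.symm x₂)
      (by simpa using hQa) (by simpa using hQb) (by simpa using hQc)
      (by simp only [← map_mul, ← map_add, EmbeddingLike.apply_eq_iff_eq]; linear_combination hQx)
      (f.symm y₀) (f.symm y₁) (f.symm y₂)
      (by simp only [← map_mul, ← map_add, EmbeddingLike.apply_eq_iff_eq]; linear_combination hQy)
      with ⟨e₀, e₁, e₂⟩ | ⟨e₀, e₁, e₂⟩ | e
    · rw [f.symm.injective e₀, f.symm.injective e₁, f.symm.injective e₂]; exact Or.inl rfl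
    · rw [← map_neg] at e₀ e₁ e₂
      rw [f.symm.injective e₀, f.symm.injective e₁, f.symm.injective e₂]
      exact Or.inr (Or.inl (by module))
    · simp only [← map_mul, ← map_add, EmbeddingLike.map_eq_zero_iff] at e
      refine Or.inr (Or.inr ?_)
      simp only [polar_add_left, polar_add_right, polar_smul_left, polar_smul_right, hab, hac, hbc,
        polar_comm Q b a, polar_comm Q c a, polar_comm Q c b, polar_self, smul_eq_mul, nsmul_eq_mul,
        mul_zero, add_zero, zero_add]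
      push_cast
      linear_combination 2 * e

/-- Plus-type members of dimension four over two elements. -/
theorem plus_four_two_overgroup (hk : k = 4) (hq : Fintype.card F = 2)
    (hp : ∀ i, Cfsg.Geo.IsPlusTypeOn ⇑Q (D i)) :
    ∃ K : Subgroup (GL ι F), Cfsg.Geo.decompositionStabilizer D ⊓ Cfsg.Geo.omegaGL ⇑Q < K ∧
      K < Cfsg.Geo.omegaGL ⇑Q := by
  classical
  have hone : ∀ x : F, x ≠ 0 → x = 1 := fun x hx => by
    have := FiniteField.pow_card_sub_one_eq_one x hx
    rw [hq] at this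
    simpa using this
  have h2 : (2 : F) = 0 := by
    have h := FiniteField.cast_card_eq_zero F
    rwa [hq, Nat.cast_ofNat] at h
  have hn7 : 7 ≤ Module.finrank F (ι → F) := by
    rw [Module.finrank_fintype_fun_eq_card]; have := h.big; omega
  -- the two minus planes of a member
  have planes : ∀ i, ∃ a ∈ D i, ∃ a' ∈ D i, Q a = 1 ∧ Q a' = 1 ∧ polar Q a a' = 1 ∧
      ∀ x ∈ D i, Q x = 1 → x = a ∨ x = a' ∨ x = a + a' ∨ (polar Q a x = 0 ∧ polar Q a' x = 0) := by
    intro i
    obtain ⟨U, hU, hts, hd⟩ := hp i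
    rw [h.dec.decomp.decomp.finrank_eq, hk] at hd
    let bU := Module.finBasisOfFinrankEq F U (n := 2) (by omega)
    have hUU : ∀ x ∈ U, ∀ y ∈ U, polar Q x y = 0 := fun x hx y hy => by
      simp [polar, hts x hx, hts y hy, hts _ (U.add_mem hx hy)]
    set u₁ := (bU 0 : ι → F) with hu₁
    set u₂ := (bU 1 : ι → F) with hu₂
    have hu12 : ∀ x y : F, x • u₁ + y • u₂ = 0 → x = 0 ∧ y = 0 := fun x y e => by
      have := Fintype.linearIndependent_iff.1 bU.linearIndependent ![x, y]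
        (Subtype.ext (by simpa [Fin.sum_univ_two] using e))
      exact ⟨this 0, this 1⟩
    have hspanU : ∀ x ∈ U, ∃ p q : F, x = p • u₁ + q • u₂ := fun x hx => ⟨bU.repr ⟨x, hx⟩ 0,
      bU.repr ⟨x, hx⟩ 1, by
        have := congrArg Subtype.val (bU.sum_repr ⟨x, hx⟩).symm
        simp only [Fin.sum_univ_two, Submodule.coe_add, Submodule.coe_smul] at this
        exact this⟩
    -- dual vectors
    have dual : ∀ c₁ c₂ : F, ∃ z ∈ D i, polar Q u₁ z = c₁ ∧ polar Q u₂ z = c₂ := by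
      let f : D i →ₗ[F] F × F := ((polarBilin Q u₁).comp (D i).subtype).prod
        ((polarBilin Q u₂).comp (D i).subtype)
      have hker : Module.finrank F (LinearMap.ker f) ≤ 2 := by
        set W := (LinearMap.ker f).map (D i).subtype with hW
        rw [← Submodule.finrank_map_subtype_eq (D i) (LinearMap.ker f), ← hW]
        have hWD : W ≤ D i := by rw [hW]; exact Submodule.map_subtype_le _ _
        have h1 := orth_add_le (D := D i) (T := U) (S := W) (fun x hx hx0 => h.nd_block hx hx0) hU hWD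
          fun x hx w hw => by
            rw [hW] at hw
            obtain ⟨w', hw', rfl⟩ := hw
            obtain ⟨p, q, rfl⟩ := hspanU x hx
            have h0 : polar Q u₁ (w' : ι → F) = 0 ∧ polar Q u₂ (w' : ι → F) = 0 := by simpa [f] using hw'
            rw [polar_add_left, polar_smul_left, polar_smul_left]
            simp [h0.1, h0.2]
        rw [h.dec.decomp.decomp.finrank_eq, hk] at h1
        omega
      have hsurj : Function.Surjective f := by
        rw [← LinearMap.range_eq_top]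
        apply Submodule.eq_top_of_finrank_eq
        have h1 := f.finrank_range_add_finrank_ker
        have h3 := Submodule.finrank_le (LinearMap.range f)
        rw [h.dec.decomp.decomp.finrank_eq, hk] at h1
        rw [Module.finrank_prod, Module.finrank_self] at h3 ⊢
        omega
      intro c₁ c₂
      obtain ⟨z, hz⟩ := hsurj (c₁, c₂)
      exact ⟨z, z.2, congrArg Prod.fst hz, congrArg Prod.snd hz⟩
    obtain ⟨z₁, hz₁, h11, h21⟩ := dual 1 0
    obtain ⟨z₂, hz₂, h12, h22⟩ := dual 0 1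
    set w₁ := z₁ + Q z₁ • u₁ with hw₁
    set w₂ := z₂ + Q z₂ • u₂ + polar Q z₂ w₁ • u₁ with hw₂
    have hu₁D : u₁ ∈ D i := hU (bU 0).2
    have hu₂D : u₂ ∈ D i := hU (bU 1).2
    have hQu₁ : Q u₁ = 0 := hts _ (bU 0).2
    have hQu₂ : Q u₂ = 0 := hts _ (bU 1).2
    have p12 : polar Q u₁ u₂ = 0 := hUU _ (bU 0).2 _ (bU 1).2
    have a1 : polar Q u₁ w₁ = 1 := by
      rw [hw₁, polar_add_right, polar_smul_right, polar_self_sing hQu₁, h11]; simp
    have a2 : polar Q u₂ w₁ = 0 := by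
      rw [hw₁, polar_add_right, polar_smul_right, h21, polar_comm Q u₂ u₁, p12]; simp
    have a3 : Q w₁ = 0 := by
      rw [hw₁, QuadraticMap.map_add ⇑Q, QuadraticMap.map_smul, hQu₁, polar_smul_right,
        polar_comm Q z₁ u₁, h11]
      simp only [smul_eq_mul]
      linear_combination Q z₁ * h2
    have b1 : polar Q u₁ w₂ = 0 := by
      rw [hw₂, polar_add_right, polar_add_right, polar_smul_right, polar_smul_right, h12, p12,
        polar_self_sing hQu₁]
      simp
    have b2 : polar Q u₂ w₂ = 1 := by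
      rw [hw₂, polar_add_right, polar_add_right, polar_smul_right, polar_smul_right, h22,
        polar_comm Q u₂ u₁, p12, polar_self_sing hQu₂]
      simp
    have b3 : Q w₂ = 0 := by
      rw [hw₂, QuadraticMap.map_add ⇑Q, QuadraticMap.map_add ⇑Q, QuadraticMap.map_smul,
        QuadraticMap.map_smul, hQu₁, hQu₂, polar_add_left, polar_smul_right, polar_smul_right,
        polar_smul_left, polar_smul_right, polar_comm Q z₂ u₁, polar_comm Q z₂ u₂, h12, h22,
        polar_comm Q u₂ u₁, p12]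
      simp only [smul_eq_mul]
      linear_combination Q z₂ * h2
    have b4 : polar Q w₁ w₂ = 0 := by
      rw [hw₂, polar_add_right, polar_add_right, polar_smul_right, polar_smul_right,
        polar_comm Q w₁ u₁, polar_comm Q w₁ u₂, a1, a2, polar_comm Q w₁ z₂]
      simp only [smul_eq_mul]
      linear_combination polar Q z₂ w₁ * h2
    have hw₁D : w₁ ∈ D i := (D i).add_mem hz₁ ((D i).smul_mem _ hu₁D)
    have hw₂D : w₂ ∈ D i := (D i).add_mem ((D i).add_mem hz₂ ((D i).smul_mem _ hu₂D)) ((D i).smul_mem _ hu₁D)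
    clear_value w₁ w₂
    have hli : LinearIndependent F ![u₁, u₂, w₁, w₂] := by
      rw [Fintype.linearIndependent_iff]
      intro g hg
      rw [Fin.sum_univ_four] at hg
      have c2 := congrArg (polar Q u₁) hg
      have c3 := congrArg (polar Q u₂) hg
      have c0 := congrArg (polar Q w₁) hg
      have c1 := congrArg (polar Q w₂) hg
      simp [polar_add_right, polar_smul_right, polar_self_sing hQu₁, p12, a1, b1] at c2
      simp [polar_add_right, polar_smul_right, polar_self_sing hQu₂, polar_comm Q u₂ u₁, p12, a2, b2] at c3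
      simp [polar_add_right, polar_smul_right, polar_comm Q w₁ u₁, polar_comm Q w₁ u₂, a1, a2,
        polar_self_sing a3, b4] at c0
      simp [polar_add_right, polar_smul_right, polar_comm Q w₂ u₁, polar_comm Q w₂ u₂,
        polar_comm Q w₂ w₁, b1, b2, polar_self_sing b3, b4] at c1
      intro r
      fin_cases r
      exacts [c0, c1, c2, c3]
    have hspan : Submodule.span F (Set.range ![u₁, u₂, w₁, w₂]) = D i :=
      Submodule.eq_of_le_of_finrank_le
        (Submodule.span_le.2 (by rintro _ ⟨r, rfl⟩; fin_cases r <;> assumption))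
        (by rw [finrank_span_eq_card hli, Fintype.card_fin, h.dec.decomp.decomp.finrank_eq, hk])
    -- the plane spanned by `u₁ + w₁` and `u₁ + u₂ + w₂`
    refine ⟨u₁ + w₁, (D i).add_mem hu₁D hw₁D, u₁ + u₂ + w₂,
      (D i).add_mem ((D i).add_mem hu₁D hu₂D) hw₂D, ?_, ?_, ?_, fun x hx hQx => ?_⟩
    · rw [QuadraticMap.map_add ⇑Q, hQu₁, a3, a1]; simp
    · rw [QuadraticMap.map_add ⇑Q, QuadraticMap.map_add ⇑Q, hQu₁, hQu₂, b3, polar_add_left, p12, b1, b2]
      simp
    · simp [polar_add_left, polar_add_right, polar_self_sing hQu₁, p12, b1, polar_comm Q w₁ u₁,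
        polar_comm Q w₁ u₂, a1, a2, b4]
    rw [← hspan] at hx
    obtain ⟨g, rfl⟩ := (Submodule.mem_span_range_iff_exists_fun F).1 hx
    simp only [Fin.sum_univ_four, Matrix.cons_val_zero, Matrix.cons_val_one, Matrix.cons_val,
      ] at hQx ⊢
    have hval : Q (g 0 • u₁ + g 1 • u₂ + g 2 • w₁ + g 3 • w₂) = g 0 * g 2 + g 1 * g 3 := by
      simp [QuadraticMap.map_add ⇑Q, QuadraticMap.map_smul, polar_add_left, polar_smul_left,
        polar_smul_right, hQu₁, hQu₂, a3, b3, p12, a1, a2, b1, b2, b4]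
      ring
    rw [hval] at hQx
    have hpa : polar Q (u₁ + w₁) (g 0 • u₁ + g 1 • u₂ + g 2 • w₁ + g 3 • w₂) = g 0 + g 2 := by
      simp [polar_add_left, polar_add_right, polar_smul_right, polar_self_sing hQu₁, polar_self_sing a3,
        p12, polar_comm Q w₁ u₁, polar_comm Q w₁ u₂, a1, a2, b1, b4]
    have hpa' : polar Q (u₁ + u₂ + w₂) (g 0 • u₁ + g 1 • u₂ + g 2 • w₁ + g 3 • w₂) = g 1 + g 2 + g 3 := by
      simp [polar_add_left, polar_add_right, polar_smul_right, polar_self_sing hQu₁,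
        polar_self_sing hQu₂, polar_self_sing b3, p12, polar_comm Q u₂ u₁, polar_comm Q w₂ u₁,
        polar_comm Q w₂ u₂, polar_comm Q w₂ w₁, a1, a2, b1, b2, b4]
    rw [hpa, hpa']
    have h1' : (1 : F) + 1 = 0 := by linear_combination h2
    have hself : ∀ v : ι → F, v + v = 0 := fun v => by
      rw [← two_smul F v, h2, zero_smul]
    rcases eq_or_ne (g 0) 0 with e0 | e0 <;> rcases eq_or_ne (g 1) 0 with e1 | e1 <;>
      rcases eq_or_ne (g 2) 0 with e2 | e2 <;> rcases eq_or_ne (g 3) 0 with e3 | e3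
    all_goals (first
      | (rw [e0] at hQx ⊢) | (rw [hone _ e0] at hQx ⊢))
    all_goals (first
      | (rw [e1] at hQx ⊢) | (rw [hone _ e1] at hQx ⊢))
    all_goals (first
      | (rw [e2] at hQx ⊢) | (rw [hone _ e2] at hQx ⊢))
    all_goals (first
      | (rw [e3] at hQx ⊢) | (rw [hone _ e3] at hQx ⊢))
    all_goals simp [h1'] at hQx
    all_goals simp only [zero_smul, one_smul, zero_add, add_zero, true_or, or_true]
    all_goals first
      | (left; abel1)
      | (right; left; abel1)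
      | (right; right; right; simp [h1']; done)
      | (right; right; left
         rw [show u₁ + w₁ + (u₁ + u₂ + w₂) = (u₁ + u₁) + (u₂ + w₁ + w₂) by abel, hself, zero_add]; done)
  choose a ha a' ha' hQa hQa' haa' hcl using planes
  have h4 := h.four
  let i₀ : Fin t := ⟨0, by omega⟩
  let i₁ : Fin t := ⟨1, by omega⟩
  have hij : i₀ ≠ i₁ := by simp [i₀, i₁, Fin.ext_iff]
  have hcross : ∀ i j, i ≠ j → Q (a i + a j) = 0 ∧ Q (a' i + a' j) = 0 ∧
      polar Q (a i + a j) (a' i + a' j) = 0 := fun i j hne => by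
    refine ⟨?_, ?_, ?_⟩
    · rw [QuadraticMap.map_add ⇑Q, hQa, hQa, h.orth hne (ha i) (ha j)]; linear_combination h2
    · rw [QuadraticMap.map_add ⇑Q, hQa', hQa', h.orth hne (ha' i) (ha' j)]; linear_combination h2
    · simp only [polar_add_left, polar_add_right, haa', h.orth hne (ha i) (ha' j),
        h.orth (Ne.symm hne) (ha j) (ha' i)]
      linear_combination h2
  obtain ⟨hX, hY, hXY⟩ := hcross i₀ i₁ hij
  set X := a i₀ + a i₁ with hXdef
  set Y := a' i₀ + a' i₁ with hYdef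
  have hmv : ∀ v, (sg Q X Y : Matrix ι ι F) *ᵥ v = v + polar Q v X • Y + polar Q v Y • X := fun v => by
    rw [sg_mulVec hX hXY, hY, zero_mul, zero_smul, sub_zero, sub_eq_add_neg, ← neg_smul,
      show -polar Q v Y = polar Q v Y by linear_combination -polar Q v Y * h2]
  have hvv : ∀ v : ι → F, v + v = 0 := fun v => by rw [← two_smul F v, h2, zero_smul]
  have hQ1 : ∀ i, polar Q (a i) (a i) = 0 ∧ polar Q (a' i) (a' i) = 0 := fun i => by
    simp [polar_self, hQa, hQa', h2]
  have hT : ∀ v ∈ blockLevel Q D 1, (sg Q X Y : Matrix ι ι F) *ᵥ v ∈ blockLevel Q D 1 := by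
    rintro v ⟨hQv, l, hl⟩
    refine ⟨by rw [sg_isometry, hQv], ?_⟩
    rw [hmv]
    have case : ∀ i j, i ≠ j → l = i → ∃ m, v + polar Q v (a i + a j) • (a' i + a' j) +
        polar Q v (a' i + a' j) • (a i + a j) ∈ D m := by
      rintro i j hne rfl
      rw [polar_add_right, polar_add_right, h.orth hne hl (ha j), h.orth hne hl (ha' j), add_zero, add_zero]
      rcases hcl l v hl hQv with rfl | rfl | rfl | ⟨e1, e2⟩
      · refine ⟨j, ?_⟩
        rw [(hQ1 l).1, haa', zero_smul, add_zero, one_smul, ← add_assoc, hvv, zero_add]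
        exact ha j
      · refine ⟨j, ?_⟩
        rw [polar_comm Q (a' l) (a l), haa', (hQ1 l).2, one_smul, zero_smul, add_zero, ← add_assoc,
          hvv, zero_add]
        exact ha' j
      · refine ⟨j, ?_⟩
        rw [polar_add_left, polar_add_left, (hQ1 l).1, (hQ1 l).2, polar_comm Q (a' l) (a l), haa',
          zero_add, add_zero, one_smul, one_smul,
          show a l + a' l + (a' l + a' j) + (a l + a j) = (a l + a l) + (a' l + a' l) + (a j + a' j) by abel,
          hvv, hvv, zero_add, zero_add]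
        exact (D j).add_mem (ha j) (ha' j)
      · refine ⟨l, ?_⟩
        rw [polar_comm Q v (a l), e1, polar_comm Q v (a' l), e2]
        simpa using hl
    by_cases hl0 : l = i₀
    · exact case i₀ i₁ hij hl0
    by_cases hl1 : l = i₁
    · obtain ⟨m, hm⟩ := case i₁ i₀ hij.symm hl1
      exact ⟨m, by rw [hXdef, hYdef, add_comm (a i₀), add_comm (a' i₀)]; exact hm⟩
    refine ⟨l, ?_⟩
    rw [hXdef, hYdef, polar_add_right, polar_add_right, h.orth hl0 hl (ha _), h.orth hl1 hl (ha _),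
      h.orth hl0 hl (ha' _), h.orth hl1 hl (ha' _)]
    simpa using hl
  obtain ⟨y, hy, hy0, hay, ha'y⟩ : ∃ y ∈ D i₀, y ≠ 0 ∧ polar Q (a i₀) y = 0 ∧ polar Q (a' i₀) y = 0 := by
    have h1 := finrank_perpIn (Q := Q) (D i₀) (a i₀)
    have h3 := finrank_perpIn (Q := Q) (perpIn Q (D i₀) (a i₀)) (a' i₀)
    rw [h.dec.decomp.decomp.finrank_eq, hk] at h1
    obtain ⟨y, hy, hy0⟩ := Submodule.exists_mem_ne_zero_of_ne_bot
      (p := perpIn Q (perpIn Q (D i₀) (a i₀)) (a' i₀)) fun e => by rw [e, finrank_bot] at h3; omega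
    obtain ⟨hy1, hy2⟩ := mem_perpIn.1 hy
    exact ⟨y, (mem_perpIn.1 hy1).1, hy0, (mem_perpIn.1 hy1).2, hy2⟩
  have hgy : (sg Q X Y : Matrix ι ι F) *ᵥ y = y := by
    rw [hmv, hXdef, hYdef, polar_add_right, polar_add_right, polar_comm Q y (a i₀), hay,
      polar_comm Q y (a' i₀), ha'y, h.orth hij hy (ha _), h.orth hij hy (ha' _)]
    simp
  have hga : (sg Q X Y : Matrix ι ι F) *ᵥ a i₀ = a i₁ := by
    rw [hmv, hXdef, hYdef, polar_add_right, polar_add_right, (hQ1 i₀).1, h.orth hij (ha _) (ha _),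
      haa', h.orth hij (ha _) (ha' _), add_zero, zero_smul, add_zero, add_zero, one_smul, ← add_assoc,
      hvv, zero_add]
  obtain ⟨w, hQw, hw⟩ := h.exists_outside one_ne_zero (ha i₀) (hQa i₀)
  exact overgroup_of_set h.nd h.big (blockLevel Q D 1) (fun g hg v hv => blockLevel_inv hg hv)
    (sg_mem_omegaGL (good_of_finrank h.nd hn7) hX hXY) hT hy
    (fun l hl => by_contra fun hne => hy0 (h.eq_zero_of_mem (Ne.symm hne) hy (hgy ▸ hl)))
    (ha i₀) (fun hm => by
      rw [hga] at hm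
      have := h.eq_zero_of_mem hij.symm (ha i₁) hm
      have e := hQa i₁
      rw [this, map_zero] at e
      exact zero_ne_one e) rfl
    (v := a i₀) ⟨hQa _, i₀, ha _⟩ (by rw [hQa]; exact one_ne_zero) (fun hwT => hwT.2.elim hw)
    (by rw [hQw, hQa])

end SmallDec

end Cfsg.Agent.Lib.Forms
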