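import Cfsg.Agent.Lib.Forms.OrthDecMax

/-!
From a vector outside all blocks to Ω, and the maximality theorem.
-/

set_option autoImplicit false

namespace Cfsg.Agent.Lib.Forms

open Matrix QuadraticMap Cfsg.Agent.Lib.Classical.Quad Cfsg.Agent.Lib.Classical.QuadOmega

variable {ι : Type} [Fintype ι] [DecidableEq ι] {F : Type*} [Field F] [Fintype F]
  {Q : QuadraticForm F (ι → F)} {t k : ℕ}

namespace ODec

variable {D : Fin t → Submodule F (ι → F)} (h : ODec Q k D) {M : Subgroup (GL ι F)}
  (hle : Cfsg.Geo.decompositionStabilizer D ⊓ Cfsg.Geo.omegaGL ⇑Q ≤ M)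
  (hM : M ≤ Cfsg.Geo.omegaGL ⇑Q)
include h hle hM

/-- The class of block vectors is invariant under block reflections (dimension three). -/
lemma inR_refl (hk : k = 3) {v : ι → F} (hv : InR Q D M v) {i : Fin t} {b : ι → F} (hb : b ∈ D i)
    (hQb : Q b ≠ 0) : InR Q D M ((refl Q v).1 b) := by
  obtain ⟨l, hl⟩ := h.exists_good hv.1
  obtain ⟨b₀, hb₀, hQb₀, hvb₀⟩ := hl (Q b)
  obtain ⟨l', hl'l, hl'i⟩ := h.exists_ne₂ hk l i
  obtain ⟨a, ha, hQa⟩ := (h.blk l').rep (Q v)
  have hQa0 : Q a ≠ 0 := by rw [hQa]; exact hv.1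
  have hQb₀0 : Q b₀ ≠ 0 := by rw [hQb₀]; exact hQb
  have hr : rr Q v a ∈ M := h.inR_pair hle hv ha hQa
  have h1 := M.mul_mem (M.mul_mem hr (hle (h.rr_mem hb hb₀ hQb hQb₀))) (M.inv_mem hr)
  rw [rr_conj (hM hr) hQb hQb₀0] at h1
  have e1 : (rr Q v a : Matrix ι ι F) *ᵥ b₀ = b₀ := by
    rw [rr_mulVec, refl_apply_perp (w := a) hQa0 (h.orth l l' hl'l.symm b₀ hb₀ a ha),
      refl_apply_perp (w := v) hv.1 (by rw [polar_comm, hvb₀])]
  have e2 : (rr Q v a : Matrix ι ι F) *ᵥ b = (refl Q v).1 b := by
    rw [rr_mulVec, refl_apply_perp (w := a) hQa0 (h.orth i l' hl'i.symm b hb a ha)]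
  rw [e1, e2] at h1
  exact ⟨by rw [iso_Q]; exact hQb, l, b₀, hb₀, by rw [iso_Q, hQb₀], h1⟩

/-- A vector of the class with a singular vector of one block orthogonal to it. -/
lemma exists_axis {v : ι → F} (hv : InR Q D M v) (hout : ∀ i, v ∉ D i) :
    ∃ (w : ι → F) (i : Fin t) (x : ι → F), InR Q D M w ∧ (∃ j, j ≠ i ∧ h.part j w ≠ 0) ∧
      x ∈ D i ∧ x ≠ 0 ∧ Q x = 0 ∧ polar Q x (h.part i w) = 0 ∧
      h.part i w ∉ Submodule.span F {x} := by
  classical
  rcases Nat.lt_or_ge k 4 with hk4 | hk4
  · have hk : k = 3 := by have := h.three; omega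
    have hv0 : v ≠ 0 := fun e => hv.1 (by rw [e, map_zero])
    obtain ⟨i, hi⟩ := h.exists_part_ne hv0
    obtain ⟨j, hji, hj⟩ := h.exists_part_ne_of_notMem (hout i)
    have hik : Module.finrank F (D i) = 3 := (h.rank i).trans hk
    obtain ⟨hq, -⟩ := (h.blk i).small3 hik
    set vi := h.part i v with hvi
    have hviD : vi ∈ D i := h.part_mem i v
    obtain ⟨d, hd, hvd⟩ := (h.blk i).exists_partner hviD hi
    obtain ⟨x, hx, hQx, hvx⟩ := (h.blk i).exists_level 0 hd hvd
    have hxv : polar Q x vi ≠ 0 := by rwa [polar_comm]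
    have hx0 : x ≠ 0 := fun e => hxv (by rw [e, polar_zero_left])
    set n := Q v • x - polar Q x vi • vi with hn
    have hN := finrank_perpIn (Q := Q) (D i) n
    rw [hik] at hN
    set N := perpIn Q (D i) n with hNdef
    have hxN : x ∉ N := fun hm => by
      have := (mem_perpIn.1 hm).2
      rw [hn, polar_sub_left, polar_smul_left, polar_smul_left, polar_self_sing hQx,
        polar_comm Q vi x] at this
      simp at this
      exact hxv this
    obtain ⟨e, he, he0⟩ : ∃ e ∈ perpIn Q N vi, e ≠ 0 := by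
      refine Submodule.exists_mem_ne_zero_of_ne_bot fun hb => ?_
      have h4 := finrank_perpIn (Q := Q) N vi
      rw [hb, finrank_bot] at h4
      omega
    obtain ⟨f₀, hf₀, hf₀p⟩ : ∃ f₀ ∈ N, polar Q vi f₀ ≠ 0 := by
      by_contra hc
      push Not at hc
      have hli : LinearIndependent F ![x, vi] := by
        rw [LinearIndependent.pair_iff]
        intro p q hpq
        have := congrArg (polar Q x) hpq
        rw [polar_add_right, polar_smul_right, polar_smul_right, polar_self_sing hQx, smul_zero,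
          zero_add, polar_zero_right, smul_eq_zero] at this
        have hq := this.resolve_right hxv
        rw [hq, zero_smul, add_zero, smul_eq_zero] at hpq
        exact ⟨hpq.resolve_right hx0, hq⟩
      have h7 := (h.blk i).add_le (T := Submodule.span F (Set.range ![x, vi])) (S := N)
        (Submodule.span_le.2 (by rintro _ ⟨r, rfl⟩; fin_cases r <;> assumption)) inf_le_left
        fun z hz u hu => by
          obtain ⟨q, rfl⟩ := (Submodule.mem_span_range_iff_exists_fun F).1 hz
          have h6 := (mem_perpIn.1 hu).2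
          rw [hn, polar_sub_left, polar_smul_left, polar_smul_left, hc u hu, smul_zero, sub_zero,
            smul_eq_zero] at h6
          simp [Fin.sum_univ_two, polar_add_left, polar_smul_left, hc u hu, h6.resolve_left hv.1]
      rw [finrank_span_eq_card hli, Fintype.card_fin, hik] at h7
      omega
    obtain ⟨he', heV⟩ := mem_perpIn.1 he
    have hfree : ∀ r : F, polar Q vi (f₀ + r • e) ≠ 0 := fun r => by
      rwa [polar_add_right, polar_smul_right, heV, smul_zero, add_zero]
    have hNm : ∀ z ∈ N, z ∈ D i ∧ polar Q n z = 0 := fun z hz => mem_perpIn.1 hz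
    obtain ⟨b, hbN, hbv, hQb, hbs⟩ : ∃ b ∈ N, polar Q vi b ≠ 0 ∧ Q b ≠ 0 ∧
        b ∉ Submodule.span F (Set.range ![x, vi]) := by
      by_contra hc
      push Not at hc
      let P : Polynomial F := Polynomial.C (Q e) * Polynomial.X ^ 2 +
        Polynomial.C (polar Q f₀ e) * Polynomial.X + Polynomial.C (Q f₀)
      have hP : ∀ r : F, P.eval r = Q (f₀ + r • e) := fun r => by
        rw [QuadraticMap.map_add ⇑Q, QuadraticMap.map_smul, polar_smul_right]
        simp [P]
        ring
      have hP0 : P ≠ 0 := by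
        intro h0
        have c2 := congrArg (fun p => p.coeff 2) h0
        have c1 := congrArg (fun p => p.coeff 1) h0
        have c0 := congrArg (fun p => p.coeff 0) h0
        simp only [P, Polynomial.coeff_add, Polynomial.coeff_C_mul, Polynomial.coeff_X_pow,
          Polynomial.coeff_X, Polynomial.coeff_C, Polynomial.coeff_zero] at c2 c1 c0
        norm_num at c2 c1 c0
        have hli : LinearIndependent F ![f₀, e] := by
          rw [LinearIndependent.pair_iff]
          intro p q hpq
          have := congrArg (polar Q vi) hpq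
          rw [polar_add_right, polar_smul_right, polar_smul_right, heV, smul_zero, add_zero,
            polar_zero_right, smul_eq_zero] at this
          have hp := this.resolve_right hf₀p
          rw [hp, zero_smul, zero_add, smul_eq_zero] at hpq
          exact ⟨hp, hpq.resolve_right he0⟩
        have h7 := (h.blk i).add_le (T := Submodule.span F (Set.range ![f₀, e]))
          (S := Submodule.span F (Set.range ![f₀, e]))
          (Submodule.span_le.2 (by rintro _ ⟨r, rfl⟩; fin_cases r <;>
            [exact (hNm f₀ hf₀).1; exact (hNm e he').1]))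
          (Submodule.span_le.2 (by rintro _ ⟨r, rfl⟩; fin_cases r <;>
            [exact (hNm f₀ hf₀).1; exact (hNm e he').1]))
          fun z hz w hw => by
            obtain ⟨a, rfl⟩ := (Submodule.mem_span_range_iff_exists_fun F).1 hz
            obtain ⟨a', rfl⟩ := (Submodule.mem_span_range_iff_exists_fun F).1 hw
            simp [Fin.sum_univ_two, polar_add_left, polar_add_right, polar_smul_left,
              polar_smul_right, polar_self, c2, c1, c0, polar_comm Q e f₀]
        rw [finrank_span_eq_card hli, Fintype.card_fin, hik] at h7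
        omega
      have hbad : ∀ r : F, P.eval r = 0 ∨ f₀ + r • e ∈ Submodule.span F (Set.range ![x, vi]) := fun r => by
        rw [hP]
        by_contra hh
        push Not at hh
        exact hh.2 (hc _ (N.add_mem hf₀ (N.smul_mem r he')) (hfree r) hh.1)
      have huniq : ∀ r s : F, f₀ + r • e ∈ Submodule.span F (Set.range ![x, vi]) →
          f₀ + s • e ∈ Submodule.span F (Set.range ![x, vi]) → r = s := by
        intro r s hr hs
        by_contra hne
        have h8 : (r - s) • e ∈ Submodule.span F (Set.range ![x, vi]) := by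
          have := Submodule.sub_mem _ hr hs
          rwa [show f₀ + r • e - (f₀ + s • e) = (r - s) • e by module] at this
        have heS := (Submodule.smul_mem_iff _ (sub_ne_zero.2 hne)).1 h8
        have hfS : f₀ ∈ Submodule.span F (Set.range ![x, vi]) := by
          have := Submodule.sub_mem _ hr (Submodule.smul_mem _ r heS)
          rwa [add_sub_cancel_right] at this
        have hsub : Submodule.span F (Set.range ![f₀, e]) ≤ Submodule.span F (Set.range ![x, vi]) :=
          Submodule.span_le.2 (by rintro _ ⟨r, rfl⟩; fin_cases r <;> assumption)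
        have hli : LinearIndependent F ![f₀, e] := by
          rw [LinearIndependent.pair_iff]
          intro p q hpq
          have := congrArg (polar Q vi) hpq
          rw [polar_add_right, polar_smul_right, polar_smul_right, heV, smul_zero, add_zero,
            polar_zero_right, smul_eq_zero] at this
          have hp := this.resolve_right hf₀p
          rw [hp, zero_smul, zero_add, smul_eq_zero] at hpq
          exact ⟨hp, hpq.resolve_right he0⟩
        have heq := Submodule.eq_of_le_of_finrank_le hsub (by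
          rw [finrank_span_eq_card hli]; exact finrank_range_le_card _)
        have hxmem : x ∈ N := by
          refine (Submodule.span_le.2 ?_ : Submodule.span F (Set.range ![f₀, e]) ≤ N)
            (heq ▸ Submodule.subset_span ⟨0, rfl⟩)
          rintro _ ⟨r, rfl⟩
          fin_cases r
          · exact hf₀
          · exact he'
        exact hxN hxmem
      have hsubset : (Finset.univ : Finset F).filter (fun r => P.eval r ≠ 0) ⊆
          (Finset.univ : Finset F).filter (fun r => f₀ + r • e ∈ Submodule.span F (Set.range ![x, vi])) :=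
        fun r hr => by
          simp only [Finset.mem_filter, Finset.mem_univ, true_and] at hr ⊢
          exact (hbad r).resolve_left hr
      have h9 : ((Finset.univ : Finset F).filter
          (fun r => f₀ + r • e ∈ Submodule.span F (Set.range ![x, vi]))).card ≤ 1 :=
        Finset.card_le_one.2 fun r hr s hs => huniq r s (Finset.mem_filter.1 hr).2 (Finset.mem_filter.1 hs).2
      have h10 : ((Finset.univ : Finset F).filter (fun r => ¬ P.eval r ≠ 0)).card ≤ 2 := by
        refine le_trans (Finset.card_le_card (t := P.roots.toFinset) fun r hr => ?_)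
          ((Multiset.toFinset_card_le _).trans ((Polynomial.card_roots' _).trans
            (by simp only [P]; compute_degree)))
        simp only [Finset.mem_filter, not_not] at hr
        rw [Multiset.mem_toFinset, Polynomial.mem_roots hP0]
        exact hr.2
      have h11 := Finset.card_filter_add_card_filter_not (s := (Finset.univ : Finset F))
        (fun r => P.eval r ≠ 0)
      have := (Finset.card_le_card hsubset).trans h9
      rw [Finset.card_univ] at h11
      omega
    obtain ⟨hbD, hnb⟩ := hNm b hbN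
    have hbv' : polar Q b v = polar Q b vi := by
      rw [polar_comm Q b v, h.polar_part hbD, polar_comm]
    have hbvi : polar Q b vi ≠ 0 := by rwa [polar_comm]
    set c := polar Q b vi / Q v with hc
    have hc0 : c ≠ 0 := div_ne_zero hbvi hv.1
    have hv' : (refl Q v).1 b = b - c • v := by rw [refl_apply hv.1, hbv']
    refine ⟨(refl Q v).1 b, i, x, h.inR_refl hle hM hk hv hbD hQb, ⟨j, hji, ?_⟩, hx, hx0, hQx, ?_, ?_⟩
    · rw [hv', map_sub, map_smul, h.part_of_mem hbD, if_neg hji, zero_sub, neg_ne_zero]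
      exact smul_ne_zero hc0 hj
    · rw [hv', map_sub, map_smul, h.part_of_mem hbD, if_pos rfl, polar_sub_right, polar_smul_right,
        ← hvi, smul_eq_mul, hc]
      rw [hn, polar_sub_left, polar_smul_left, polar_smul_left, smul_eq_mul, smul_eq_mul,
        polar_comm Q vi b] at hnb
      have := hv.1
      field_simp
      linear_combination hnb
    · rw [hv', map_sub, map_smul, h.part_of_mem hbD, if_pos rfl, ← hvi]
      intro hmem
      obtain ⟨r, hr⟩ := Submodule.mem_span_singleton.1 hmem
      refine hbs ?_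
      rw [show b = r • x + c • vi by rw [hr]; module]
      exact Submodule.add_mem _ (Submodule.smul_mem _ _ (Submodule.subset_span ⟨0, rfl⟩))
        (Submodule.smul_mem _ _ (Submodule.subset_span ⟨1, rfl⟩))
  · obtain ⟨i, hi⟩ := h.exists_part_nonsing hv.1
    obtain ⟨j, hji, hj⟩ := h.exists_part_ne_of_notMem (hout i)
    have h1 := finrank_perpIn (Q := Q) (D i) (h.part i v)
    rw [h.rank] at h1
    obtain ⟨x, hx, hx0, hQx⟩ := exists_sing_in Q (W := perpIn Q (D i) (h.part i v)) (by omega)
    obtain ⟨hxD, hvx⟩ := mem_perpIn.1 hx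
    refine ⟨v, i, x, hv, ⟨j, hji, hj⟩, hxD, hx0, hQx, by rw [polar_comm]; exact hvx, fun hm => ?_⟩
    obtain ⟨r, hr⟩ := Submodule.mem_span_singleton.1 hm
    exact hi (by rw [← hr, QuadraticMap.map_smul, hQx, smul_zero])

/-- A vector outside all blocks gives Ω. -/
lemma finish {v : ι → F} (hv : InR Q D M v) (hout : ∀ i, v ∉ D i) :
    Cfsg.Geo.omegaGL ⇑Q ≤ M := by
  classical
  obtain ⟨w, i, x, hw, ⟨j, hji, hj⟩, hxD, hx0, hQx, hxw, hindep⟩ := h.exists_axis hle hM hv hout
  set wi := h.part i w with hwi
  obtain ⟨l₀, hl₀i⟩ := h.exists_ne i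
  obtain ⟨a, ha, hQa⟩ := (h.blk l₀).rep (Q w)
  have hQa0 : Q a ≠ 0 := by rw [hQa]; exact hw.1
  have hr : rr Q w a ∈ M := h.inR_pair hle hw ha hQa
  have hxw' : polar Q x w = 0 := by rw [polar_comm, h.polar_part hxD, polar_comm, hxw]
  have hfix : (rr Q w a : Matrix ι ι F) *ᵥ x = x := by
    rw [rr_mulVec, refl_apply_perp (w := a) hQa0 (h.orth i l₀ hl₀i.symm x hxD a ha),
      refl_apply_perp (w := w) hw.1 hxw']
  obtain ⟨y, hyD, hxy, hwy⟩ : ∃ y ∈ D i, polar Q x y = 0 ∧ polar Q wi y ≠ 0 := by
    by_contra hc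
    push Not at hc
    obtain ⟨z, hz, hxz⟩ := (h.blk i).exists_partner hxD hx0
    set r := polar Q wi z / polar Q x z with hr
    refine hindep (Submodule.mem_span_singleton.2 ⟨r, ?_⟩)
    refine (sub_eq_zero.1 ((h.blk i).nd _ ((D i).sub_mem (h.part_mem i w) ((D i).smul_mem r hxD))
      fun d hd => ?_)).symm
    set s := polar Q x d / polar Q x z with hs
    have hd' : polar Q x (d - s • z) = 0 := by
      rw [polar_sub_right, polar_smul_right, smul_eq_mul, hs, div_mul_cancel₀ _ hxz, sub_self]
    have h1 := hc _ ((D i).sub_mem hd ((D i).smul_mem s hz)) hd'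
    rw [polar_sub_right, polar_smul_right, smul_eq_mul, hwi] at h1
    rw [polar_sub_left, polar_smul_left, smul_eq_mul, hr]
    rw [hs] at h1
    linear_combination h1
  let P : Submodule F (ι → F) :=
    { carrier := {u | polar Q x u = 0 ∧ ∀ c : F, sg Q x (c • u) ∈ M}
      zero_mem' := ⟨polar_zero_right Q x, fun c => by rw [smul_zero, sg_zero hQx]; exact M.one_mem⟩
      add_mem' := fun {u u'} hu hu' => ⟨by rw [polar_add_right, hu.1, hu'.1, add_zero], fun c => by
        rw [smul_add, sg_add hQx (by rw [polar_smul_right, hu.1, smul_zero])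
          (by rw [polar_smul_right, hu'.1, smul_zero])]
        exact M.mul_mem (hu.2 c) (hu'.2 c)⟩
      smul_mem' := fun r u hu => ⟨by rw [polar_smul_right, hu.1, smul_zero], fun c => by
        rw [smul_smul]; exact hu.2 _⟩ }
  have hPi : ∀ u ∈ D i, polar Q x u = 0 → u ∈ P := fun u hu hxu => ⟨hxu, fun c =>
    hle (h.sg_stab hQx (by rw [polar_smul_right, hxu, smul_zero]) hxD ((D i).smul_mem c hu))⟩
  have hPconj : ∀ s ∈ M, (s : Matrix ι ι F) *ᵥ x = x → ∀ u ∈ P, (s : Matrix ι ι F) *ᵥ u ∈ P := by
    intro s hs hsx u hu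
    have hsi := mem_isometryGroup_of_omega (hM hs)
    refine ⟨by rw [← hsx, polar_of_isometry hsi, hu.1], fun c => ?_⟩
    have h1 := M.mul_mem (M.mul_mem hs (hu.2 c)) (M.inv_mem hs)
    rwa [sg_conj hsi hQx (by rw [polar_smul_right, hu.1, smul_zero]), hsx, mulVec_smul] at h1
  have hwP : w - wi ∈ P := by
    have hy := hPi y hyD hxy
    have h1 := P.sub_mem (hPconj _ hr hfix y hy) hy
    have e : (rr Q w a : Matrix ι ι F) *ᵥ y - y = (-(polar Q y w / Q w)) • w := by
      rw [rr_mulVec, refl_apply_perp (w := a) hQa0 (h.orth i l₀ hl₀i.symm y hyD a ha), refl_apply hw.1]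
      module
    rw [e] at h1
    have hne : polar Q y w ≠ 0 := by rwa [polar_comm, h.polar_part hyD]
    have h2 := P.smul_mem (-(polar Q y w / Q w))⁻¹ h1
    rw [smul_smul, inv_mul_cancel₀ (neg_ne_zero.2 (div_ne_zero hne hw.1)), one_smul] at h2
    exact P.sub_mem h2 (hPi wi (h.part_mem i w) hxw)
  have hblock : ∀ l, l ≠ i → ∀ u ∈ P, h.part l u ≠ 0 → D l ≤ P := by
    intro l hl u hu hul
    obtain ⟨d, hd, hud⟩ := (h.blk l).exists_partner (h.part_mem l u) hul
    obtain ⟨a', ha', b', hb', hQa', hQb', c, hc, e⟩ := (h.blk l).exists_move hd hud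
    have hQb'0 : Q b' ≠ 0 := by rw [hQb']; exact hQa'
    have hxi : h.part l x = 0 := by rw [h.part_of_mem hxD, if_neg hl]
    have inv : ∀ a₁ ∈ D l, ∀ b₁ ∈ D l, Q a₁ ≠ 0 → Q b₁ = Q a₁ → ∀ z ∈ P,
        (refl Q a₁).1 ((refl Q b₁).1 z) ∈ P := fun a₁ ha₁ b₁ hb₁ hQa₁ hQb₁ z hz => by
      rw [← rr_mulVec]
      exact hPconj _ (hle (h.rr_mem ha₁ hb₁ hQa₁ hQb₁))
        (h.rr_fix ha₁ hb₁ hQa₁ (by rw [hQb₁]; exact hQa₁) hxi) z hz
    have haP : a' ∈ P := by
      have h1 := P.sub_mem (inv a' ha' b' hb' hQa' hQb' u hu) hu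
      have e' : (refl Q a').1 ((refl Q b').1 u) - u = -(c • a') := by
        have : ∀ z, (refl Q a').1 ((refl Q b').1 z) - z =
            (refl Q a').1 ((refl Q b').1 (h.part l z)) - h.part l z := fun z => by
          simp only [refl_apply hQa', refl_apply hQb'0, polar_sub_left, polar_smul_left,
            ← h.polar_part ha' z, ← h.polar_part hb' z]
          module
        rw [this, e]
        module
      rw [e'] at h1
      have h2 := P.smul_mem (-c)⁻¹ h1
      rwa [← neg_smul, smul_smul, inv_mul_cancel₀ (neg_ne_zero.2 hc), one_smul] at h2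
    exact le_trans ((h.blk l).irreducible (U := P ⊓ D l) inf_le_right
      (fun e => hQa' (by
        have : a' ∈ P ⊓ D l := ⟨haP, ha'⟩
        rw [e, Submodule.mem_bot] at this
        rw [this, map_zero]))
      (fun a₁ ha₁ b₁ hb₁ hQa₁ hQb₁ z hz => ⟨inv a₁ ha₁ b₁ hb₁ hQa₁ hQb₁ z hz.1,
        h.refl_block ha₁ hQa₁ (h.refl_block hb₁ (by rw [hQb₁]; exact hQa₁) hz.2)⟩)) inf_le_left
  have hjP : D j ≤ P := hblock j hji _ hwP (by
    rw [map_sub, h.part_of_mem (h.part_mem i w), if_neg hji, sub_zero]; exact hj)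
  have hall : ∀ l, l ≠ i → D l ≤ P := by
    intro l hl
    rcases eq_or_ne l j with rfl | hlj
    · exact hjP
    obtain ⟨s, hs, hsm, hsf⟩ := h.exists_swap hlj.symm
    obtain ⟨d, hd, hQd⟩ := (h.blk j).rep 1
    have h1 := hPconj s (hle hs) (hsf i hji.symm hl.symm x hxD) d (hjP hd)
    refine hblock l hl _ h1 ?_
    rw [h.part_of_mem (hsm d hd), if_pos rfl]
    intro e
    have := mem_isometryGroup_of_omega hs.2 d
    rw [e, map_zero, hQd] at this
    exact zero_ne_one this
  have hfull : RootFull Q M x := by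
    refine ⟨hQx, fun u hu => ?_⟩
    have : u ∈ P := by
      rw [← h.sum_part u]
      refine P.sum_mem fun l _ => ?_
      rcases eq_or_ne l i with rfl | hl
      · exact hPi _ (h.part_mem _ u) (by rw [polar_comm, ← h.polar_part hxD, polar_comm, hu])
      · exact hall l hl (h.part_mem l u)
    simpa using this.2 1
  obtain ⟨y₀, hy₀, hxy₀⟩ := (h.blk i).exists_partner hxD hx0
  set z := y₀ + (-(Q y₀ / polar Q x y₀)) • x with hz
  have hzD : z ∈ D i := (D i).add_mem hy₀ ((D i).smul_mem _ hxD)
  have hQz : Q z = 0 := by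
    rw [hz, QuadraticMap.map_add ⇑Q, QuadraticMap.map_smul, hQx, polar_smul_right, polar_comm Q y₀ x,
      smul_eq_mul, smul_eq_mul]
    field_simp
    ring
  have hxz : polar Q x z ≠ 0 := by
    rwa [hz, polar_add_right, polar_smul_right, polar_self_sing hQx, smul_zero, add_zero]
  obtain ⟨u, hu, hQu⟩ := (h.blk i).exists_nonsing (W := perpIn Q (D i) z) inf_le_left (by
    have := finrank_perpIn (Q := Q) (D i) z
    have := (h.blk i).three
    omega)
  obtain ⟨huD, hzu⟩ := mem_perpIn.1 hu
  refine omega_le_of_pair h.nd (by have := h.big; omega) hM hfull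
    (rootFull_conj hM hfull (hle (h.sg_stab hQz hzu hzD huD))) ?_
  rw [sg_mulVec hQz hzu]
  simp only [polar_sub_right, polar_add_right, polar_smul_right, polar_self_sing hQx, smul_eq_mul]
  intro e
  refine mul_ne_zero hQu (mul_ne_zero hxz hxz) ?_
  linear_combination -e

omit hle hM in
/-- The stabiliser of an orthogonal decomposition is maximal in Ω. -/
theorem isMaximalIn :
    Cfsg.Geo.IsMaximalIn (Cfsg.Geo.omegaGL ⇑Q)
      (Cfsg.Geo.decompositionStabilizer D ⊓ Cfsg.Geo.omegaGL ⇑Q) := by
  refine isMaximalIn_of inf_le_right ?_ fun N hle hN g hg hgn => ?_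
  · have i : Fin t := ⟨0, by have := h.two; omega⟩
    obtain ⟨l, hli⟩ := h.exists_ne i
    obtain ⟨x, hxD, z, hzD, hQx, -, hxz⟩ := (h.blk i).exists_pair
    obtain ⟨a, ha, hQa⟩ := (h.blk l).rep 1
    have hxa : polar Q x a = 0 := h.orth i l hli.symm x hxD a ha
    refine ⟨sg Q x a, sg_mem_omegaGL (good_of_finrank h.nd (by
      rw [Module.finrank_fintype_fun_eq_card]; have := h.big; omega)) hQx hxa, fun hs => ?_⟩
    obtain ⟨m, hm⟩ := h.exists_block hs.1 i
    have h1 := hm z hzD
    rw [sg_mulVec hQx hxa, polar_comm Q z x, hxz, h.orth i l hli.symm z hzD a ha, one_smul,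
      zero_smul, sub_zero, hQa, mul_one, one_smul] at h1
    have ha0 : a ≠ 0 := fun e => by rw [e, map_zero] at hQa; exact zero_ne_one hQa
    rcases eq_or_ne m l with rfl | hml
    · have h2 : z - x = 0 := by
        have := h.part_of_mem h1 i
        rw [if_neg hli.symm, map_sub, map_add, h.part_of_mem hzD, h.part_of_mem ha,
          h.part_of_mem hxD, if_pos rfl, if_neg hli.symm, if_pos rfl, add_zero] at this
        exact this
      rw [sub_eq_zero.1 h2, polar_self_sing hQx] at hxz
      exact zero_ne_one hxz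
    · have := h.part_of_mem h1 l
      rw [if_neg hml.symm, map_sub, map_add, h.part_of_mem hzD, h.part_of_mem ha,
        h.part_of_mem hxD, if_neg hli, if_pos rfl, if_neg hli, zero_add, sub_zero] at this
      exact ha0 this
  · obtain ⟨v, hv, hout⟩ := h.seed hle hN hg fun h' => hgn ⟨h', hN hg⟩
    exact h.finish hle hN hv hout

end ODec

omit [DecidableEq ι] [Fintype F] in
lemma card_of_mdecomp {D : Fin t → Submodule F (ι → F)} (hD : Cfsg.Geo.IsMDecomposition k D) :
    Fintype.card ι = t * k := by
  classical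
  have hint := DirectSum.isInternal_submodule_of_iSupIndep_of_iSup_eq_top hD.indep hD.iSup_eq_top
  let b := hint.collectedBasis fun i => Module.finBasis F (D i)
  have h1 := Module.finrank_eq_card_basis b
  rw [Module.finrank_fintype_fun_eq_card, Fintype.card_sigma] at h1
  simp [hD.finrank_eq] at h1
  exact h1

/-- Maximality for an orthogonal decomposition into blocks of dimension at least three. -/
theorem decompStab_maximal (hQ : Nd Q) (hn : 13 ≤ Fintype.card ι) (hk : 3 ≤ k)
    {D : Fin t → Submodule F (ι → F)} (hD : Cfsg.Geo.IsOrthogonalMDecomposition ⇑Q k D)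
    (h3 : k = 3 → 5 ≤ Fintype.card F ∧ (2 : F) ≠ 0)
    (h4 : k = 4 → Fintype.card F = 2 → ∀ i, ¬ Cfsg.Geo.IsPlusTypeOn ⇑Q (D i)) :
    Cfsg.Geo.IsMaximalIn (Cfsg.Geo.omegaGL ⇑Q)
      (Cfsg.Geo.decompositionStabilizer D ⊓ Cfsg.Geo.omegaGL ⇑Q) := by
  refine ODec.isMaximalIn ⟨hQ, hn, hD.decomp.decomp.two_le, hD.decomp.decomp.finrank_eq,
    hD.decomp.decomp.iSup_eq_top, hD.decomp.orthogonal, hD.isometric, fun i => ⟨fun x hx h => ?_,
    (hD.decomp.decomp.finrank_eq i).symm ▸ hk, fun e => h3 ((hD.decomp.decomp.finrank_eq i).symm.trans e),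
    fun e hq a ha b hb hQa hQb hab hli => ?_⟩⟩
  · by_contra hx0
    obtain ⟨y, hy, hne⟩ := (hD.decomp.nondegenerate i x hx hx0).2
    exact hne (h y hy)
  · refine h4 ((hD.decomp.decomp.finrank_eq i).symm.trans e) hq i
      ⟨Submodule.span F (Set.range ![a, b]), Submodule.span_le.2 ?_, fun z hz => ?_, ?_⟩
    · rintro _ ⟨r, rfl⟩
      fin_cases r <;> assumption
    · obtain ⟨c, rfl⟩ := (Submodule.mem_span_range_iff_exists_fun F).1 hz
      simp [Fin.sum_univ_two, QuadraticMap.map_add ⇑Q, QuadraticMap.map_smul, polar_smul_left,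
        polar_smul_right, hQa, hQb, hab]
    · rw [finrank_span_eq_card hli, Fintype.card_fin, e]

end Cfsg.Agent.Lib.Forms
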