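import Cfsg.Agent.Lib.Forms.Symplectic

/-!
In characteristic two the orthogonal group is maximal in the symplectic group.
-/

set_option autoImplicit false

namespace Cfsg.Agent.Lib.Forms

open Matrix Cfsg.Geo

variable {ι : Type} [Fintype ι] [DecidableEq ι] {F : Type*} [Field F]

/-- A quadratic function polarising to `B`. -/
structure PolarQuad (B : LinearMap.BilinForm F (ι → F)) (Q : (ι → F) → F) : Prop where
  alt : B.IsAlt
  nd : B.Nondegenerate
  two : (2 : F) = 0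
  smul : ∀ (c : F) (v : ι → F), Q (c • v) = c ^ 2 * Q v
  add : ∀ x y, Q (x + y) = Q x + Q y + B x y
  sqrt : ∀ a : F, ∃ r : F, r ^ 2 = a

variable {B : LinearMap.BilinForm F (ι → F)} {Q : (ι → F) → F}

namespace PolarQuad

omit [Fintype ι] [DecidableEq ι] in
lemma comm (P : PolarQuad B Q) (x y : ι → F) : B x y = B y x := by
  rw [← P.alt.neg_eq y x]; linear_combination (-B y x) * P.two

omit [Fintype ι] [DecidableEq ι] in
lemma zero (P : PolarQuad B Q) : Q 0 = 0 := by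
  have := P.smul 0 0
  simpa using this

omit [DecidableEq ι] in
/-- `Q` takes every value at a non-zero vector orthogonal to few vectors. -/
lemma exists_value (P : PolarQuad B Q) {k : ℕ} (u : Fin k → (ι → F))
    (hk : 2 * k + 3 ≤ Fintype.card ι) (a : F) :
    ∃ y, (∀ i, B (u i) y = 0) ∧ Q y = a ∧ y ≠ 0 := by
  let L : (ι → F) →ₗ[F] (Fin k → F) := LinearMap.pi fun i => B (u i)
  have hW : ∀ y, y ∈ LinearMap.ker L ↔ ∀ i, B (u i) y = 0 := fun y =>
    ⟨fun h i => congrFun (LinearMap.mem_ker.1 h) i, fun h => LinearMap.mem_ker.2 (funext h)⟩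
  set W := LinearMap.ker L
  have hdim : Fintype.card ι ≤ Module.finrank F W + k := by
    have h1 := LinearMap.finrank_range_add_finrank_ker L
    have h2 := Submodule.finrank_le (LinearMap.range L)
    rw [Module.finrank_fintype_fun_eq_card] at h1
    rw [show LinearMap.ker L = W from rfl] at h1
    simp at h2
    omega
  obtain ⟨y₀, hy₀, hy₀'⟩ : ∃ y ∈ W, Q y ≠ 0 := by
    by_contra hcon
    push Not at hcon
    have hle : W ≤ B.orthogonal W := fun x hx => LinearMap.BilinForm.mem_orthogonal_iff.2 fun z hz => by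
      have := P.add z x
      rw [hcon _ (add_mem hz hx), hcon z hz, hcon x hx] at this
      simpa using this.symm
    have := Submodule.finrank_mono hle
    rw [LinearMap.BilinForm.finrank_orthogonal P.nd, Module.finrank_fintype_fun_eq_card] at this
    omega
  rcases eq_or_ne a 0 with rfl | ha
  · -- a singular vector
    obtain ⟨z, hz, hz'⟩ : ∃ z ∈ W ⊓ LinearMap.ker (B y₀), z ∉ Submodule.span F {y₀} := by
      by_contra hcon
      push Not at hcon
      have h1 := Submodule.finrank_mono (show W ⊓ LinearMap.ker (B y₀) ≤ Submodule.span F {y₀} from hcon)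
      have hy0 : y₀ ≠ 0 := fun h => hy₀' (by rw [h, P.zero])
      rw [finrank_span_singleton hy0] at h1
      have h2 := Submodule.finrank_sup_add_finrank_inf_eq W (LinearMap.ker (B y₀))
      have h3 := Submodule.finrank_le (W ⊔ LinearMap.ker (B y₀))
      have h4 := LinearMap.finrank_range_add_finrank_ker (B y₀)
      have h5 := Submodule.finrank_le (LinearMap.range (B y₀))
      rw [Module.finrank_fintype_fun_eq_card] at h3 h4
      simp [Module.finrank_self] at h5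
      omega
    obtain ⟨r, hr⟩ := P.sqrt (Q z / Q y₀)
    refine ⟨z + r • y₀, (hW _).1 (add_mem hz.1 (W.smul_mem _ hy₀)), ?_, fun h => hz' ?_⟩
    · have hzy : B z y₀ = 0 := P.alt.isRefl _ _ hz.2
      rw [P.add, P.smul, hr, map_smul, hzy, smul_zero, add_zero, div_mul_cancel₀ _ hy₀']
      linear_combination Q z * P.two
    · rw [eq_neg_of_add_eq_zero_left h]
      exact neg_mem (Submodule.smul_mem _ _ (Submodule.mem_span_singleton_self y₀))
  · obtain ⟨r, hr⟩ := P.sqrt (a / Q y₀)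
    have hv : Q (r • y₀) = a := by rw [P.smul, hr, div_mul_cancel₀ _ hy₀']
    exact ⟨r • y₀, (hW _).1 (W.smul_mem _ hy₀), hv, fun h => ha (by rw [← hv, h, P.zero])⟩

omit [DecidableEq ι] in
/-- A vector of given value with given products against a family containing a point to avoid. -/
lemma exists_value_prescribed (P : PolarQuad B Q) {k : ℕ} (u : Fin k → (ι → F)) (x₀ : ι → F)
    (hk : 2 * k + 5 ≤ Fintype.card ι) (a : F) :
    ∃ x, (∀ i, B (u i) x = B (u i) x₀) ∧ Q x = a := by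
  obtain ⟨y, hy, hyQ, -⟩ := P.exists_value (Fin.cons x₀ u : Fin (k + 1) → _) (by omega) (a - Q x₀)
  refine ⟨x₀ + y, fun i => ?_, ?_⟩
  · have := hy i.succ
    simp at this
    simp [this]
  · have := hy 0
    simp at this
    rw [P.add, hyQ, this]
    ring

lemma refl_mem (P : PolarQuad B Q) {v : ι → F} (hv : Q v ≠ 0) (x : ι → F) :
    Q ((sympT B v (Q v)⁻¹ : Matrix ι ι F) *ᵥ x) = Q x := by
  rw [sympT_mulVec P.alt, P.add, P.smul, map_smul, smul_eq_mul]
  field_simp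
  linear_combination B x v ^ 2 * P.two

/-- Transitivity on vectors of equal value. -/
lemma exists_trans (P : PolarQuad B Q) (hk : 9 ≤ Fintype.card ι) {w w' : ι → F} (hw : w ≠ 0)
    (hw' : w' ≠ 0) (h : Q w = Q w') :
    ∃ g ∈ isoGroup B, (∀ x, Q ((g : Matrix ι ι F) *ᵥ x) = Q x) ∧
      (g : Matrix ι ι F) *ᵥ w = w' := by
  have step : ∀ {a b : ι → F}, Q a = Q b → B a b ≠ 0 →
      ∃ g ∈ isoGroup B, (∀ x, Q ((g : Matrix ι ι F) *ᵥ x) = Q x) ∧
        (g : Matrix ι ι F) *ᵥ a = b := by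
    intro a b hab hB
    have hv : Q (a + b) = B a b := by rw [P.add, hab]; linear_combination Q b * P.two
    refine ⟨sympT B (a + b) (Q (a + b))⁻¹, sympT_mem P.alt _ _, P.refl_mem (hv ▸ hB), ?_⟩
    rw [sympT_mulVec P.alt, map_add, P.alt.self_eq_zero, zero_add, hv, inv_mul_cancel₀ hB, one_smul,
      ← add_assoc]
    have : a + a = 0 := by
      funext i; show a i + a i = 0; linear_combination a i * P.two
    rw [this, zero_add]
  obtain ⟨z1, h1⟩ : ∃ z, B w z ≠ 0 := by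
    by_contra hcon; push Not at hcon; exact hw (P.nd.1 w hcon)
  obtain ⟨z2, h2⟩ : ∃ z, B w' z ≠ 0 := by
    by_contra hcon; push Not at hcon; exact hw' (P.nd.1 w' hcon)
  obtain ⟨z, -, hz, hz'⟩ := exists_pair_ne_zero (B := B) (U := ⊤) (a := w) (b := w')
    ⟨z1, trivial, h1⟩ ⟨z2, trivial, h2⟩
  obtain ⟨x, hx, hxQ⟩ := P.exists_value_prescribed ![w, w'] z (by omega) (Q w)
  have hxw : B w x ≠ 0 := by
    have := hx 0; simp at this; rw [this]; exact hz
  have hxw' : B x w' ≠ 0 := by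
    have := hx 1; simp at this; rw [P.comm, this]; exact hz'
  obtain ⟨g, hg, hgQ, hgw⟩ := step hxQ.symm hxw
  obtain ⟨g', hg', hg'Q, hgx⟩ := step (hxQ.trans h) hxw'
  exact ⟨g' * g, mul_mem hg' hg, fun y => by rw [mul_mulVec', hg'Q, hgQ],
    by rw [mul_mulVec', hgw, hgx]⟩

/-- Translation attached to a symplectic element. -/
def Shift (B : LinearMap.BilinForm F (ι → F)) (Q : (ι → F) → F) (g : GL ι F) (w : ι → F) : Prop :=
  ∀ x, Q ((g : Matrix ι ι F) *ᵥ x) = Q x + B x w ^ 2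

lemma shift_mul (P : PolarQuad B Q) {g h : GL ι F} (hh : h ∈ isoGroup B) {w u : ι → F}
    (hw : Shift B Q g w) (hu : Shift B Q h u) :
    Shift B Q (g * h) (u + ((h⁻¹ : GL ι F) : Matrix ι ι F) *ᵥ w) := by
  intro x
  rw [mul_mulVec', hw, hu, map_add]
  have := mem_isoGroup.1 hh x (((h⁻¹ : GL ι F) : Matrix ι ι F) *ᵥ w)
  rw [mulVec_inv_mulVec] at this
  rw [this]
  linear_combination (-(B x u * B x (((h⁻¹ : GL ι F) : Matrix ι ι F) *ᵥ w))) * P.two

lemma shift_inv (P : PolarQuad B Q) {g : GL ι F} (hg : g ∈ isoGroup B) {w : ι → F}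
    (hw : Shift B Q g w) : Shift B Q g⁻¹ ((g : Matrix ι ι F) *ᵥ w) := by
  intro x
  have h1 := hw (((g⁻¹ : GL ι F) : Matrix ι ι F) *ᵥ x)
  rw [mulVec_inv_mulVec] at h1
  have h2 := mem_isoGroup.1 hg (((g⁻¹ : GL ι F) : Matrix ι ι F) *ᵥ x) w
  rw [mulVec_inv_mulVec] at h2
  rw [h2]
  linear_combination -h1 - B (((g⁻¹ : GL ι F) : Matrix ι ι F) *ᵥ x) w ^ 2 * P.two

lemma shift_q (P : PolarQuad B Q) {g : GL ι F} {w : ι → F} (hw : Shift B Q g w) :
    Q ((g : Matrix ι ι F) *ᵥ w) = Q w := by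
  rw [hw, P.alt.self_eq_zero]; ring

/-- Every symplectic element is a translation by a vector of Artin–Schreier value. -/
lemma exists_shift (P : PolarQuad B Q) {g : GL ι F} (hg : g ∈ isoGroup B) :
    ∃ w, Shift B Q g w ∧ ∃ b : F, Q w = b + b ^ 2 := by
  let H : Subgroup (GL ι F) :=
    { carrier := {g | g ∈ isoGroup B ∧ ∃ w, Shift B Q g w ∧ ∃ b : F, Q w = b + b ^ 2}
      one_mem' := ⟨one_mem _, 0, fun x => by simp, 0, by simp [P.zero]⟩
      mul_mem' := by
        rintro g h ⟨hg, w, hw, b, hb⟩ ⟨hh, u, hu, c, hc⟩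
        refine ⟨mul_mem hg hh, _, P.shift_mul hh hw hu,
          c + b + B u (((h⁻¹ : GL ι F) : Matrix ι ι F) *ᵥ w), ?_⟩
        have h1 := hu (((h⁻¹ : GL ι F) : Matrix ι ι F) *ᵥ w)
        rw [mulVec_inv_mulVec, P.comm _ u] at h1
        rw [P.add]
        linear_combination hc + hb - h1 - (b * c + (b + c + B u (((h⁻¹ : GL ι F) : Matrix ι ι F) *ᵥ w)) *
          B u (((h⁻¹ : GL ι F) : Matrix ι ι F) *ᵥ w)) * P.two
      inv_mem' := by
        rintro g ⟨hg, w, hw, b, hb⟩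
        exact ⟨inv_mem hg, _, P.shift_inv hg hw, b, by rw [P.shift_q hw, hb]⟩ }
  refine (isoGroup_le_of_sympT P.alt H P.nd (fun v c => ?_) hg).2
  obtain ⟨r, hr⟩ := P.sqrt (c ^ 2 * Q v + c)
  refine ⟨sympT_mem P.alt v c, r • v, fun x => ?_, c * Q v, ?_⟩
  · rw [sympT_mulVec P.alt, P.add, P.smul, map_smul, map_smul, smul_eq_mul, smul_eq_mul, mul_pow r,
      hr]
    ring
  · rw [P.smul, hr]; ring

/-- Maximality of the isometry group of `Q`. -/
theorem isMaximalIn (P : PolarQuad B Q) (hk : 9 ≤ Fintype.card ι) :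
    IsMaximalIn (isoGroup B) (quadSimilarityGroup Q ⊓ isoGroup B) := by
  have hne : ∃ v : ι → F, v ≠ 0 := by
    obtain ⟨y, -, -, hy⟩ := P.exists_value (Fin.elim0 : Fin 0 → (ι → F)) (by omega) 0
    exact ⟨y, hy⟩
  -- members of the small group preserve `Q`
  have hQ : ∀ {g}, g ∈ quadSimilarityGroup Q ⊓ isoGroup B →
      ∀ x, Q ((g : Matrix ι ι F) *ᵥ x) = Q x := by
    rintro g ⟨⟨c, hc⟩, hg⟩ x
    obtain ⟨v, hv⟩ := hne
    obtain ⟨z, hz⟩ : ∃ z, B v z ≠ 0 := by
      by_contra hcon; push Not at hcon; exact hv (P.nd.1 v hcon)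
    have h1 := P.add ((g : Matrix ι ι F) *ᵥ v) ((g : Matrix ι ι F) *ᵥ z)
    rw [← mulVec_add, hc, hc, hc, mem_isoGroup.1 hg, P.add] at h1
    have : (c : F) = 1 := mul_right_cancel₀ hz (by linear_combination h1)
    rw [hc, this, one_mul]
  have hH : ∀ {g}, g ∈ isoGroup B → (∀ x, Q ((g : Matrix ι ι F) *ᵥ x) = Q x) →
      g ∈ quadSimilarityGroup Q ⊓ isoGroup B := fun hg hgq =>
    ⟨⟨1, fun x => by rw [hgq, Units.val_one, one_mul]⟩, hg⟩
  refine isMaximalIn_of inf_le_right ?_ fun M hM h' g hg hgn => ?_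
  · obtain ⟨v, -, hvQ, hv⟩ := P.exists_value (Fin.elim0 : Fin 0 → (ι → F)) (by omega) 0
    obtain ⟨z, hz⟩ : ∃ z, B v z ≠ 0 := by
      by_contra hcon; push Not at hcon; exact hv (P.nd.1 v hcon)
    refine ⟨sympT B v 1, sympT_mem P.alt v 1, fun h => hz ?_⟩
    have h1 := hQ h z
    rw [sympT_mulVec P.alt, P.add, P.smul, hvQ, map_smul, smul_eq_mul] at h1
    rw [P.comm]
    exact pow_eq_zero_iff two_ne_zero |>.1 (by linear_combination h1)
  have hgi := h' hg
  let Ω : (ι → F) → Prop := fun w => ∃ k ∈ M, Shift B Q k w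
  have hΩO : ∀ {w}, Ω w → ∀ h ∈ isoGroup B, (∀ x, Q ((h : Matrix ι ι F) *ᵥ x) = Q x) →
      Ω ((h : Matrix ι ι F) *ᵥ w) := by
    rintro w ⟨k, hk', hw⟩ h hh hhQ
    have hh0 : Shift B Q h⁻¹ ((h : Matrix ι ι F) *ᵥ 0) := P.shift_inv hh (fun x => by simp [hhQ])
    have := P.shift_mul (inv_mem hh) hw hh0
    rw [mulVec_zero, zero_add, inv_inv] at this
    exact ⟨_, mul_mem hk' (inv_mem (hM (hH hh hhQ))), this⟩
  obtain ⟨w₀, hw₀, -⟩ := P.exists_shift hgi
  have hw00 : w₀ ≠ 0 := fun h0 => hgn (hH hgi fun x => by rw [hw₀]; simp [h0])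
  intro x hx
  obtain ⟨w, hw, b, hb⟩ := P.exists_shift hx
  suffices Ω w by
    obtain ⟨k, hk', hkw⟩ := this
    have : x * k⁻¹ ∈ M := hM (hH (mul_mem hx (inv_mem (h' hk'))) fun y => by
      have h1 := hkw (((k⁻¹ : GL ι F) : Matrix ι ι F) *ᵥ y)
      rw [mulVec_inv_mulVec] at h1
      rw [mul_mulVec', hw, h1])
    simpa using mul_mem this hk'
  rcases eq_or_ne w 0 with rfl | hw0
  · exact ⟨1, one_mem _, fun y => by simp⟩
  -- a second vector of the value of `w₀` with product `b`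
  obtain ⟨z, hz⟩ : ∃ z, B w₀ z = b := by
    obtain ⟨z, hz⟩ : ∃ z, B w₀ z ≠ 0 := by
      by_contra hcon; push Not at hcon; exact hw00 (P.nd.1 w₀ hcon)
    exact ⟨(b / B w₀ z) • z, by simp [hz]⟩
  obtain ⟨w', hw'b, hw'Q, hw'0, hw'n⟩ : ∃ w', B w₀ w' = b ∧ Q w' = Q w₀ ∧ w' ≠ 0 ∧ w' ≠ w₀ := by
    by_cases hb0 : b = 0
    · obtain ⟨z1, hz1⟩ : ∃ z, B w₀ z ≠ 0 := by
        by_contra hcon; push Not at hcon; exact hw00 (P.nd.1 w₀ hcon)
      obtain ⟨y, hy, hyQ, hy0⟩ := P.exists_value ![w₀, z1] (by omega) (Q w₀)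
      refine ⟨y, by rw [hb0]; simpa using hy 0, hyQ, hy0, fun e => hz1 ?_⟩
      have := hy 1
      simp [e] at this
      rw [P.comm]; exact this
    · obtain ⟨w', h1, h2⟩ := P.exists_value_prescribed ![w₀] z (by omega) (Q w₀)
      have h3 : B w₀ w' = b := by have := h1 0; simp at this; rw [this, hz]
      exact ⟨w', h3, h2, fun e => hb0 (by rw [← h3, e, map_zero]),
        fun e => hb0 (by rw [← h3, e, P.alt.self_eq_zero])⟩
  obtain ⟨h, hh, hhQ, hhw⟩ := P.exists_trans hk hw00 hw'0 hw'Q.symm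
  obtain ⟨k, hkM, hks⟩ := hhw ▸ hΩO ⟨g, hg, hw₀⟩ h hh hhQ
  -- the quotient of the two elements
  have hq := P.shift_mul (inv_mem (h' hkM)) hw₀ (P.shift_inv (h' hkM) hks)
  rw [inv_inv, ← mulVec_add] at hq
  have hne' : w' + w₀ ≠ 0 := fun e => hw'n (by
    funext i
    have := congrFun e i
    simp at this
    linear_combination this - w₀ i * P.two)
  have hval : Q ((k : Matrix ι ι F) *ᵥ (w' + w₀)) = Q w := by
    rw [hks, P.add, hw'Q, map_add, LinearMap.add_apply, P.alt.self_eq_zero, zero_add, hw'b,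
      P.comm w' w₀, hw'b, hb]
    linear_combination Q w₀ * P.two
  obtain ⟨h2, hh2, hh2Q, hh2w⟩ := P.exists_trans hk
    (fun e => hne' (gl_mulVec_injective k (by simpa using e))) hw0 hval
  exact hh2w ▸ hΩO ⟨_, mul_mem hg (inv_mem hkM), hq⟩ h2 hh2 hh2Q

end PolarQuad

end Cfsg.Agent.Lib.Forms
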