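import Cfsg.Agent.Lib.Forms.OrthInSymp

/-!
In characteristic two the orthogonal group is maximal in the symplectic group as soon as the form
has a non-zero singular vector.

An element outside moves a transvection of the small group to a transvection with singular centre.
-/

set_option autoImplicit false

namespace Cfsg.Agent.Lib.Forms

open Matrix Cfsg.Geo

variable {ι : Type} [Fintype ι] [DecidableEq ι] {F : Type*} [Field F]
  {B : LinearMap.BilinForm F (ι → F)} {Q : (ι → F) → F}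

namespace PolarQuad

/-- A singular vector not orthogonal to two non-zero vectors. -/
lemma exists_singular_pair (P : PolarQuad B Q) {v₀ : ι → F} (hv₀ : v₀ ≠ 0) (hQ₀ : Q v₀ = 0)
    {x : ι → F} (hx : x ≠ 0) : ∃ z, Q z = 0 ∧ B z v₀ ≠ 0 ∧ B z x ≠ 0 ∨ Q z = 0 ∧ z = v₀ ∧ B z x ≠ 0 := by
  by_cases h : B v₀ x = 0
  · obtain ⟨z₁, h1⟩ : ∃ z, B v₀ z ≠ 0 := by
      by_contra hcon; push Not at hcon; exact hv₀ (P.nd.1 v₀ hcon)
    obtain ⟨z₂, h2⟩ : ∃ z, B x z ≠ 0 := by
      by_contra hcon; push Not at hcon; exact hx (P.nd.1 x hcon)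
    obtain ⟨z, -, hz1, hz2⟩ := exists_pair_ne_zero (B := B) (U := ⊤) (a := v₀) (b := x)
      ⟨z₁, trivial, h1⟩ ⟨z₂, trivial, h2⟩
    rw [P.comm] at hz1 hz2
    refine ⟨z + (Q z / B z v₀) • v₀, Or.inl ⟨?_, ?_, ?_⟩⟩
    · rw [P.add, P.smul, hQ₀, map_smul, smul_eq_mul, div_mul_cancel₀ _ hz1]
      linear_combination Q z * P.two
    · simpa [P.alt.self_eq_zero] using hz1
    · simpa [h] using hz2
  · exact ⟨v₀, Or.inr ⟨hQ₀, rfl, h⟩⟩

/-- Maximality of the isometry group when there is a singular vector. -/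
theorem isMaximalIn_of_singular (P : PolarQuad B Q) {v₀ : ι → F} (hv₀ : v₀ ≠ 0) (hQ₀ : Q v₀ = 0) :
    IsMaximalIn (isoGroup B) (quadSimilarityGroup Q ⊓ isoGroup B) := by
  have hA := P.alt
  have ex : ∀ {x : ι → F}, x ≠ 0 → ∃ z, Q z = 0 ∧ B z x ≠ 0 := fun hx => by
    obtain ⟨z, ⟨h1, -, h3⟩ | ⟨h1, -, h3⟩⟩ := P.exists_singular_pair hv₀ hQ₀ hx <;>
      exact ⟨z, h1, h3⟩
  obtain ⟨u₀, hu₀, huv⟩ := ex hv₀
  -- members of the small group preserve `Q`
  have hQ : ∀ {g}, g ∈ quadSimilarityGroup Q ⊓ isoGroup B →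
      ∀ x, Q ((g : Matrix ι ι F) *ᵥ x) = Q x := by
    rintro g ⟨⟨c, hc⟩, hg⟩ x
    have h1 := P.add ((g : Matrix ι ι F) *ᵥ u₀) ((g : Matrix ι ι F) *ᵥ v₀)
    rw [← mulVec_add, hc, hc, hc, mem_isoGroup.1 hg, P.add] at h1
    have : (c : F) = 1 := mul_right_cancel₀ huv (by linear_combination h1)
    rw [hc, this, one_mul]
  have hH : ∀ {g}, g ∈ isoGroup B → (∀ x, Q ((g : Matrix ι ι F) *ᵥ x) = Q x) →
      g ∈ quadSimilarityGroup Q ⊓ isoGroup B := fun hg hgq =>
    ⟨⟨1, fun x => by rw [hgq, Units.val_one, one_mul]⟩, hg⟩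
  refine isMaximalIn_of inf_le_right ?_ fun M hM h' g hg hgn => ?_
  · refine ⟨sympT B v₀ 1, sympT_mem hA v₀ 1, fun h => huv ?_⟩
    have h1 := hQ h u₀
    rw [sympT_mulVec hA, P.add, P.smul, hQ₀, map_smul, smul_eq_mul] at h1
    exact pow_eq_zero_iff two_ne_zero |>.1 (by linear_combination h1)
  have hgi := h' hg
  have hrefl : ∀ v, Q v ≠ 0 → sympT B v (Q v)⁻¹ ∈ M := fun v hv =>
    hM (hH (sympT_mem hA _ _) (P.refl_mem hv))
  obtain ⟨w, hw, -⟩ := P.exists_shift hgi
  have hw0 : w ≠ 0 := fun h0 => hgn (hH hgi fun x => by rw [hw]; simp [h0])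
  -- one singular centre
  obtain ⟨v, hv, hvw⟩ := ex hw0
  have hQgv : Q ((g : Matrix ι ι F) *ᵥ v) = B v w ^ 2 := by rw [hw, hv, zero_add]
  have hc0 : (B v w ^ 2)⁻¹ ≠ 0 := inv_ne_zero (pow_ne_zero 2 hvw)
  have hone : sympT B v (B v w ^ 2)⁻¹ ∈ M := by
    have := mul_mem (mul_mem (inv_mem hg) (hrefl _ (by rw [hQgv]; exact pow_ne_zero 2 hvw))) hg
    have hconj := sympT_conj hA (inv_mem hgi) ((g : Matrix ι ι F) *ᵥ v)
      (Q ((g : Matrix ι ι F) *ᵥ v))⁻¹
    rw [inv_inv, inv_mulVec_mulVec] at hconj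
    rwa [hconj, hQgv] at this
  -- the torus on a hyperbolic pair
  have hv0 : v ≠ 0 := fun e => hvw (by rw [e]; simp)
  have hcv : v ∈ centres B M := by
    intro c
    rcases eq_or_ne c 0 with rfl | hc
    · convert one_mem M
      exact gl_ext fun x => by simp [sympT_mulVec hA]
    obtain ⟨u, hu, huv'⟩ := ex hv0
    obtain ⟨s, hs⟩ := P.sqrt (c / (B v w ^ 2)⁻¹)
    have hs0 : s ≠ 0 := fun e => by
      rw [e] at hs
      exact div_ne_zero hc hc0 (by rw [← hs]; ring)
    set u' := (B u v)⁻¹ • u with hu'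
    have hu'v : B u' v = 1 := by simp [hu', huv']
    have hvu' : B v u' = 1 := by rw [P.comm, hu'v]
    have hQu' : Q u' = 0 := by simp [hu', P.smul, hu]
    clear_value u'
    have hq : ∀ t : F, Q (v + t • u') = t := fun t => by
      rw [P.add, P.smul, hv, hQu', map_smul, hvu', smul_eq_mul]; ring
    set h := sympT B (v + s⁻¹ • u') (Q (v + s⁻¹ • u'))⁻¹ * sympT B (v + (1 : F) • u') (Q (v + (1 : F) • u'))⁻¹
      with hh
    have hhM : h ∈ M := mul_mem (hrefl _ (by rw [hq]; exact inv_ne_zero hs0))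
      (hrefl _ (by rw [hq]; exact one_ne_zero))
    have hhv : (h : Matrix ι ι F) *ᵥ v = s • v := by
      have e1 : (sympT B (v + (1 : F) • u') (Q (v + (1 : F) • u'))⁻¹ : Matrix ι ι F) *ᵥ v = u' := by
        rw [sympT_mulVec hA, hq, map_add, hA.self_eq_zero, map_smul, hvu']
        funext i
        simp
        linear_combination v i * P.two
      rw [hh, mul_mulVec', e1, sympT_mulVec hA, hq, map_add, map_smul, hA.self_eq_zero, hu'v,
        inv_inv]
      funext i
      simp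
      field_simp
      linear_combination u' i * P.two
    have := mul_mem (mul_mem hhM hone) (inv_mem hhM)
    rwa [sympT_conj hA (h' hhM), hhv, sympT_smul hA, mul_assoc, ← sq, hs,
      mul_div_cancel₀ _ hc0] at this
  -- all singular vectors
  have step : ∀ {x y : ι → F}, x ∈ centres B M → Q x = 0 → Q y = 0 → B x y ≠ 0 →
      y ∈ centres B M := by
    intro x y hx hQx hQy hxy
    have hxy' : Q (x + y) = B x y := by rw [P.add, hQx, hQy]; ring
    have hr := hrefl (x + y) (by rwa [hxy'])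
    have := mulVec_mem_centres hA hr (sympT_mem hA _ _) hx
    rw [sympT_mulVec hA, hxy', map_add, hA.self_eq_zero, zero_add, inv_mul_cancel₀ hxy,
      one_smul] at this
    convert this using 1
    funext i
    simp
    linear_combination -(x i) * P.two
  have hsing : ∀ x, Q x = 0 → x ∈ centres B M := by
    intro x hx
    rcases eq_or_ne x 0 with rfl | hx0
    · simpa using smul_mem_centres hA (0 : F) hcv
    obtain ⟨z, ⟨h1, h2, h3⟩ | ⟨h1, rfl, h3⟩⟩ := P.exists_singular_pair hv0 hv hx0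
    · exact step (step hcv hv h1 (by rwa [P.comm])) h1 hx h3
    · exact step hcv hv hx h3
  refine isoGroup_le_of_centres hA P.nd fun y => ?_
  by_cases hy : Q y = 0
  · exact hsing y hy
  obtain ⟨u, hu, huy⟩ := ex (fun e : y = 0 => hy (by rw [e, P.zero]))
  set t := B u y / Q y with ht
  have ht0 : t ≠ 0 := div_ne_zero huy hy
  have hQx : Q (u + t • y) = 0 := by
    rw [P.add, P.smul, hu, map_smul, smul_eq_mul, ht]
    field_simp
    linear_combination B u y ^ 2 * P.two
  have hB : B (u + t • y) u ≠ 0 := by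
    simpa [hA.self_eq_zero, P.comm y u] using mul_ne_zero ht0 huy
  have := smul_mem_centres hA t⁻¹
    (add_smul_mem_centres hA (hsing _ hQx) (hsing _ hu) hB (-1))
  convert this using 1
  simp [smul_smul, inv_mul_cancel₀ ht0]

end PolarQuad

end Cfsg.Agent.Lib.Forms
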