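import Cfsg.Agent.Lib.Classical.QuadOmega.SingularApply
import Cfsg.Agent.Lib.Forms.QuadHyp
import Cfsg.Agent.Lib.Forms.OrthRoot

/-!
The stabiliser of a pair of complementary maximal totally singular subspaces is maximal in Ω when
the half dimension is even.
-/

set_option autoImplicit false

namespace Cfsg.Agent.Lib.Forms

open Matrix QuadraticMap Cfsg.Agent.Lib.Classical.Quad Cfsg.Agent.Lib.Classical.QuadOmega

variable {ι : Type} [Fintype ι] [DecidableEq ι] {F : Type*} [Field F]
  {Q : QuadraticForm F (ι → F)}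

lemma two_cases {a b : Fin 2} (h : a ≠ b) : b = 0 ∧ a = 1 ∨ b = 1 ∧ a = 0 := by
  revert a b; decide

lemma two_or {i j : Fin 2} (h : i ≠ j) (k : Fin 2) : k = i ∨ k = j := by
  revert i j k; decide

/-- A complementary pair of totally singular subspaces of even dimension. -/
structure QPair (Q : QuadraticForm F (ι → F)) (D : Fin 2 → Submodule F (ι → F)) (k : ℕ) :
    Prop where
  nd : Nd Q
  large : 7 ≤ k
  rank : ∀ i, Module.finrank F (D i) = k
  total : Fintype.card ι = 2 * k
  sing : ∀ i, ∀ u ∈ D i, Q u = 0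
  spans : ∀ x, ∃ p : Fin 2 → (ι → F), (∀ i, p i ∈ D i) ∧ p 0 + p 1 = x

namespace QPair

variable {D : Fin 2 → Submodule F (ι → F)} {k : ℕ} (P : QPair Q D k)
include P

lemma orth {i : Fin 2} {u v : ι → F} (hu : u ∈ D i) (hv : v ∈ D i) : polar Q u v = 0 := by
  rw [polar, P.sing i _ ((D i).add_mem hu hv), P.sing i u hu, P.sing i v hv]; simp

lemma lp {i : Fin 2} {u v : ι → F} (hu : u ∈ D i) (hv : v ∈ D i) : LongPair Q u v :=
  ⟨P.sing i u hu, P.sing i v hv, P.orth hu hv⟩

lemma eq_zero_of_perp {i j : Fin 2} (hij : i ≠ j) {a : ι → F} (ha : a ∈ D i)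
    (h : ∀ b ∈ D j, polar Q a b = 0) : a = 0 := by
  refine P.nd a fun x => ?_
  obtain ⟨p, hp, rfl⟩ := P.spans x
  have : ∀ m, polar Q a (p m) = 0 := fun m => by
    rcases two_or hij m with rfl | rfl
    · exact P.orth ha (hp _)
    · exact h _ (hp _)
  rw [polar_add_right, this, this, add_zero]

lemma exists_pairing {i j : Fin 2} (hij : i ≠ j) {a : ι → F} (ha : a ∈ D i) (ha0 : a ≠ 0) :
    ∃ b ∈ D j, polar Q a b = 1 := by
  by_contra hcon
  push Not at hcon
  refine ha0 (P.eq_zero_of_perp hij ha fun b hb => ?_)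
  by_contra hne
  exact hcon _ ((D j).smul_mem (polar Q a b)⁻¹ hb)
    (by rw [polar_smul_right, smul_eq_mul, inv_mul_cancel₀ hne])

lemma exists_sep {i j : Fin 2} (hij : i ≠ j) {a a' : ι → F} (ha : a ∈ D i) (ha' : a' ∈ D i)
    (hind : a ∉ Submodule.span F {a'}) : ∃ b ∈ D j, polar Q a b = 1 ∧ polar Q a' b = 0 := by
  rcases eq_or_ne a' 0 with rfl | ha0
  · obtain ⟨b, hb, hab⟩ := P.exists_pairing hij ha (fun e => hind (by simp [e]))
    exact ⟨b, hb, hab, polar_zero_left Q b⟩
  obtain ⟨b', hb', hab'⟩ := P.exists_pairing hij ha' ha0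
  obtain ⟨b, hb, hab⟩ := P.exists_pairing hij
    ((D i).sub_mem ha ((D i).smul_mem (polar Q a b') ha')) (fun e => hind (by
      rw [sub_eq_zero] at e; rw [e]
      exact Submodule.smul_mem _ _ (Submodule.mem_span_singleton_self a')))
  refine ⟨b - polar Q a' b • b', (D j).sub_mem hb ((D j).smul_mem _ hb'), ?_, ?_⟩
  · rw [polar_sub_right, polar_smul_right, smul_eq_mul]
    rw [polar_sub_left, polar_smul_left, smul_eq_mul] at hab
    linear_combination hab
  · rw [polar_sub_right, polar_smul_right, hab', smul_eq_mul, mul_one, sub_self]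

/-- A functional on one member separating a vector from two others. -/
lemma exists_sep₂ {i j : Fin 2} (hij : i ≠ j) {a a' a'' : ι → F} (ha : a ∈ D i) (ha' : a' ∈ D i)
    (ha'' : a'' ∈ D i) (hind : a ∉ Submodule.span F {a', a''}) :
    ∃ b ∈ D j, polar Q a b = 1 ∧ polar Q a' b = 0 ∧ polar Q a'' b = 0 := by
  by_cases h' : a'' ∈ Submodule.span F {a'}
  · obtain ⟨b, hb, h1, h2⟩ := P.exists_sep hij ha ha' fun h => hind
      (Submodule.span_mono (by simp) h)
    refine ⟨b, hb, h1, h2, ?_⟩
    obtain ⟨c, rfl⟩ := Submodule.mem_span_singleton.1 h'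
    rw [polar_smul_left, h2, smul_zero]
  · obtain ⟨b'', hb'', e1, e2⟩ := P.exists_sep hij ha'' ha' h'
    obtain ⟨b, hb, e3, e4⟩ := P.exists_sep hij ((D i).sub_mem ha ((D i).smul_mem (polar Q a b'') ha''))
      ha' (fun h => by
        obtain ⟨c, hc⟩ := Submodule.mem_span_singleton.1 h
        refine hind (Submodule.mem_span_pair.2 ⟨c, polar Q a b'', ?_⟩)
        rw [hc, sub_add_cancel])
    refine ⟨b - polar Q a'' b • b'', (D j).sub_mem hb ((D j).smul_mem _ hb''), ?_, ?_, ?_⟩
    · rw [polar_sub_left, polar_smul_left, smul_eq_mul] at e3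
      rw [polar_sub_right, polar_smul_right, smul_eq_mul]
      linear_combination e3
    · rw [polar_sub_right, polar_smul_right, e4, e2]; simp
    · rw [polar_sub_right, polar_smul_right, e1]; simp

/-- A long root element across the members stabilises the pair. -/
lemma sg_mem_stab {a b : ι → F} {i j : Fin 2} (hij : i ≠ j) (ha : a ∈ D i) (hb : b ∈ D j)
    (h : polar Q a b = 0) : sg Q a b ∈ Cfsg.Geo.decompositionStabilizer D := by
  have L : LongPair Q a b := ⟨P.sing i a ha, P.sing j b hb, h⟩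
  refine ⟨1, fun m => Submodule.eq_of_le_of_finrank_eq (map_le_of_mulVec_mem fun x hx => ?_)
    (by rw [finrank_map_gl]; rfl)⟩
  rw [L.mulVec]
  rcases two_or hij m with rfl | rfl
  · rw [P.orth hx ha, zero_smul, add_zero]
    exact (D _).sub_mem hx ((D _).smul_mem _ ha)
  · rw [P.orth hx hb, zero_smul, sub_zero]
    exact (D _).add_mem hx ((D _).smul_mem _ hb)

variable [Finite F]

lemma good : Good Q :=
  good_of_finrank P.nd (by
    rw [Module.finrank_fintype_fun_eq_card, P.total]; have := P.large; omega)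

omit [Finite F] in
/-- An isometry exchanging the members lies in Ω. -/
lemma exists_swap [Fintype F] (hev : Even k) : ∃ J ∈ Cfsg.Geo.omegaGL ⇑Q, J ∈ Cfsg.Geo.decompositionStabilizer D ∧
    (D 0).map (Matrix.toLin' (J : Matrix ι ι F)) = D 1 ∧
    (D 1).map (Matrix.toLin' (J : Matrix ι ι F)) = D 0 := by
  classical
  have h01 : (0 : Fin 2) ≠ 1 := by decide
  let a := Module.finBasisOfFinrankEq F (D 0) (P.rank 0)
  let T : D 1 →ₗ[F] (Fin k → F) :=
    LinearMap.pi fun i => ((polarBilin Q (a i : ι → F)).comp (D 1).subtype)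
  have hTinj : Function.Injective T := by
    rw [← LinearMap.ker_eq_bot, LinearMap.ker_eq_bot']
    rintro ⟨y, hy⟩ hT
    have hT' : ∀ u : D 0, polar Q (u : ι → F) y = 0 := fun u => by
      have := LinearMap.congr_fun (a.ext (f₁ := ((polarBilin Q).flip y).comp (D 0).subtype) (f₂ := 0)
        fun i => by simpa [T] using congrFun hT i) u
      simpa using this
    exact Subtype.ext (P.eq_zero_of_perp h01.symm hy fun u hu => by
      rw [polar_comm, hT' ⟨u, hu⟩])
  have hTsur : Function.Surjective T :=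
    (LinearMap.injective_iff_surjective_of_finrank_eq_finrank
      (by rw [Module.finrank_fin_fun, P.rank])).1 hTinj
  choose b hb using fun i => hTsur (Pi.single i (1 : F))
  have hab : ∀ i j, polar Q (a i : ι → F) (b j : ι → F) = if i = j then 1 else 0 := fun i j => by
    have := congrFun (hb j) i
    simpa [T, Pi.single_apply] using this
  have haa : ∀ i j, polar Q (a i : ι → F) (a j : ι → F) = 0 := fun i j => P.orth (a i).2 (a j).2
  have hbb : ∀ i j, polar Q (b i : ι → F) (b j : ι → F) = 0 := fun i j => P.orth (b i).2 (b j).2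
  let d : Fin k → (ι → F) := fun i => (a i : ι → F) - (b i : ι → F)
  have hd : ∀ i, Q (d i) = -1 := fun i => by
    have e : d i = (a i : ι → F) + (-1 : F) • (b i : ι → F) := by simp [d, sub_eq_add_neg]
    rw [e, QuadraticMap.map_add ⇑Q, QuadraticMap.map_smul, polar_smul_right, hab, if_pos rfl,
      P.sing 0 _ (a i).2, P.sing 1 _ (b i).2]
    simp
  have hd0 : ∀ i, Q (d i) ≠ 0 := fun i => by rw [hd]; exact neg_ne_zero.2 one_ne_zero
  have hdd : ∀ i j, i ≠ j → polar Q (d i) (d j) = 0 := fun i j hij => by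
    simp [d, polar_sub_left, polar_sub_right, haa, hbb, hab, polar_comm Q (b i : ι → F), hij,
      Ne.symm hij]
  have hprod : ∀ l : List (Fin k), l.Nodup → ∀ x : ι → F,
      ((l.map fun i => refl Q (d i)).prod).1 x = x + (l.map fun i => polar Q x (d i) • d i).sum := by
    intro l
    induction l with
    | nil => intro _ x; simp
    | cons i l ih =>
      intro hl x
      rw [List.nodup_cons] at hl
      rw [List.map_cons, List.prod_cons, List.map_cons, List.sum_cons, Subgroup.coe_mul,
        LinearEquiv.mul_apply, ih hl.2, refl_apply (hd0 i)]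
      have hz : polar Q ((l.map fun j => polar Q x (d j) • d j).sum) (d i) = 0 := by
        have h' := hl.1
        clear ih hl
        induction l with
        | nil => simp [polar_zero_left]
        | cons j l ih =>
          rw [List.mem_cons, not_or] at h'
          rw [List.map_cons, List.sum_cons, polar_add_left, polar_smul_left,
            hdd j i (Ne.symm h'.1), ih h'.2]
          simp
      rw [polar_add_left, hz, hd, add_zero]
      match_scalars <;> ring
  set J₀ := ((List.finRange k).map fun i => refl Q (d i)).prod with hJ₀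
  have hJ₀x : ∀ x, J₀.1 x = x + ∑ i, polar Q x (d i) • d i := fun x => by
    rw [hJ₀, hprod _ (List.nodup_finRange k), ← List.ofFn_eq_map, List.sum_ofFn]
  have hJa : ∀ j, J₀.1 (a j : ι → F) = (b j : ι → F) := fun j => by
    rw [hJ₀x, Finset.sum_eq_single j]
    · simp [d, polar_sub_right, haa, hab]
    · intro i _ hij
      simp [d, polar_sub_right, haa, hab, Ne.symm hij]
    · simp
  have hJb : ∀ j, J₀.1 (b j : ι → F) = (a j : ι → F) := fun j => by
    rw [hJ₀x, Finset.sum_eq_single j]
    · simp [d, polar_sub_right, hbb, polar_comm Q (b j : ι → F), hab]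
    · intro i _ hij
      simp [d, polar_sub_right, hbb, polar_comm Q (b j : ι → F), hab, hij]
    · simp
  have hspanb : Submodule.span F (Set.range fun j => (b j : ι → F)) = D 1 := by
    have hli : LinearIndependent F b := by
      refine Fintype.linearIndependent_iff.2 fun c hc i => ?_
      have := congrArg (fun y : D 1 => T y i) hc
      simpa only [map_sum, map_smul, Finset.sum_apply, Pi.smul_apply, hb, map_zero, Pi.zero_apply,
        Pi.single_apply, smul_eq_mul, mul_ite, mul_one, mul_zero, Finset.sum_ite_eq, Finset.mem_univ,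
        if_true] using this
    have htop := hli.span_eq_top_of_card_eq_finrank' (by rw [Fintype.card_fin, P.rank])
    have := congrArg (Submodule.map (D 1).subtype) htop
    rw [Submodule.map_span, Submodule.map_top, Submodule.range_subtype, ← Set.range_comp] at this
    exact this
  have hspana : Submodule.span F (Set.range fun j => (a j : ι → F)) = D 0 := by
    have := congrArg (Submodule.map (D 0).subtype) a.span_eq
    rw [Submodule.map_span, Submodule.map_top, Submodule.range_subtype, ← Set.range_comp] at this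
    exact this
  have h1 : (D 0).map (Matrix.toLin' (isoMat Q J₀ : Matrix ι ι F)) = D 1 := by
    rw [← hspana, Submodule.map_span, ← Set.range_comp, ← hspanb]
    congr 2
    funext j
    simp [isoMat_mulVec, hJa]
  have h2 : (D 1).map (Matrix.toLin' (isoMat Q J₀ : Matrix ι ι F)) = D 0 := by
    rw [← hspanb, Submodule.map_span, ← Set.range_comp, ← hspana]
    congr 2
    funext j
    simp [isoMat_mulVec, hJb]
  refine ⟨isoMat Q J₀, ?_, ⟨Equiv.swap 0 1, fun i => by fin_cases i <;> simpa⟩, h1, h2⟩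
  refine ⟨(isoEquiv (Q := Q) ⇑Q (LinearEquiv.refl F _) fun _ => rfl).symm J₀, ?_, rfl⟩
  rw [SetLike.mem_coe, mem_omega_iff ⇑Q (LinearEquiv.refl F _) fun _ => rfl,
    MulEquiv.apply_symm_apply]
  have hl : ∀ v ∈ (List.finRange k).map d, Q v ≠ 0 := fun v hv => by
    obtain ⟨i, -, rfl⟩ := List.mem_map.1 hv
    exact hd0 i
  have hJ' : J₀ = (((List.finRange k).map d).map (refl Q)).prod := by
    rw [hJ₀, List.map_map]; rfl
  have hlen : (-1 : ℤˣ) ^ ((List.finRange k).map d).length = 1 := by
    rw [List.length_map, List.length_finRange, hev.neg_one_pow]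
  by_cases h2' : (2 : F) = 0
  · have hreg : Reg F (ι → F) := Or.inr (by
      rw [Module.finrank_fintype_fun_eq_card, P.total]; have := P.large; omega)
    rw [mem_commutator_iff_two P.nd hreg h2', hJ', dick_prod_refl P.nd _ hl, hlen]
  · obtain ⟨e1, e2, -⟩ := invs_prod_refl P.nd h2' _ hl
    rw [mem_commutator_iff P.nd h2', hJ', e1, e2, hlen]
    refine ⟨rfl, ?_⟩
    have hneg : (((List.finRange k).map d).map fun v => Q v) = List.replicate k (-1) := by
      rw [List.map_map]
      refine List.eq_replicate_iff.2 ⟨by simp, fun v hv => ?_⟩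
      obtain ⟨i, -, rfl⟩ := List.mem_map.1 hv
      exact hd i
    rw [hneg, List.prod_replicate, hev.neg_one_pow, sqSign_one]

variable {G : Subgroup (GL ι F)}
  (hle : Cfsg.Geo.decompositionStabilizer D ⊓ Cfsg.Geo.omegaGL ⇑Q ≤ G)
  (hG : G ≤ Cfsg.Geo.omegaGL ⇑Q)
include hle hG

omit hG in
lemma sg_mem_of_cross [Fintype F] {a b : ι → F} {i j : Fin 2} (hij : i ≠ j) (ha : a ∈ D i)
    (hb : b ∈ D j) (h : polar Q a b = 0) : sg Q a b ∈ G :=
  hle ⟨P.sg_mem_stab hij ha hb h, sg_mem_omegaGL P.good (P.sing i a ha) h⟩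

/-- An element outside the stabiliser gives a long root element inside a member. -/
lemma exists_inside [Fintype F] {g : GL ι F} (hg : g ∈ G)
    (hgn : g ∉ Cfsg.Geo.decompositionStabilizer D) :
    ∃ j, ∃ w ∈ D j, ∃ p ∈ D j, p ∉ Submodule.span F {w} ∧ w ≠ 0 ∧ sg Q w p ∈ G := by
  classical
  by_contra hno
  push Not at hno
  have hgi := mem_isometryGroup_of_omega (hG hg)
  set M := (g : Matrix ι ι F)
  choose p hp hps using P.spans
  have h01 : (0 : Fin 2) ≠ 1 := by decide
  have puniq : ∀ x (q : Fin 2 → (ι → F)), (∀ i, q i ∈ D i) → q 0 + q 1 = x → p x = q := by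
    intro x q hq hx
    have he : p x 0 - q 0 = q 1 - p x 1 := by
      rw [sub_eq_sub_iff_add_eq_add, hps, add_comm (q 1), hx]
    have h0 : p x 0 - q 0 = 0 := P.eq_zero_of_perp h01 ((D 0).sub_mem (hp x 0) (hq 0)) fun b hb => by
      rw [he]; exact P.orth ((D 1).sub_mem (hq 1) (hp x 1)) hb
    funext i
    fin_cases i
    · exact sub_eq_zero.1 h0
    · rw [h0] at he; exact (sub_eq_zero.1 he.symm).symm
  have padd : ∀ x y, p (x + y) = p x + p y := fun x y => puniq _ _
    (fun i => (D i).add_mem (hp x i) (hp y i))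
    (by rw [Pi.add_apply, Pi.add_apply, add_add_add_comm, hps, hps])
  have psmul : ∀ (c : F) x, p (c • x) = c • p x := fun c x => puniq _ _
    (fun i => (D i).smul_mem c (hp x i)) (by rw [Pi.smul_apply, Pi.smul_apply, ← smul_add, hps])
  let π : ∀ (_ : Fin 2), (ι → F) →ₗ[F] (ι → F) := fun i =>
    { toFun := fun x => p (M *ᵥ x) i
      map_add' := fun x y => by rw [mulVec_add, padd]; rfl
      map_smul' := fun c x => by rw [mulVec_smul, psmul]; rfl }
  suffices H : ∀ b : Fin 2, ∀ u₁ u₂ : ι → F, ∀ i₁ i₂ : Fin 2, i₁ ≠ i₂ → u₁ ∈ D i₁ → u₂ ∈ D i₂ →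
      polar Q u₁ u₂ = 0 → π b u₂ ≠ 0 → π b u₁ ∈ Submodule.span F {π b u₂} by
    -- ranks force a kernel
    have hzero : ∀ b, (∀ u ∈ D 0, π b u = 0) ∨ (∀ u ∈ D 1, π b u = 0) := by
      intro b
      by_contra hcon
      push Not at hcon
      obtain ⟨⟨u, hu, hfu⟩, ⟨w, hw, hhw⟩⟩ := hcon
      have hr : ∀ (i i' : Fin 2), i ≠ i' → ∀ w ∈ D i', π b w ≠ 0 →
          Module.finrank F ((D i).map (π b)) ≤ 2 := by
        intro i i' hii w hw hne
        obtain ⟨v, hv, hwv⟩ := P.exists_pairing hii.symm hw (fun e => hne (by rw [e, map_zero]))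
        have hle' : (D i).map (π b) ≤ Submodule.span F {π b w} ⊔ Submodule.span F {π b v} := by
          rintro _ ⟨x, hx, rfl⟩
          have hx' : x + (-polar Q x w) • v ∈ D i := (D i).add_mem hx ((D i).smul_mem _ hv)
          have hperp : polar Q (x + (-polar Q x w) • v) w = 0 := by
            rw [polar_add_left, polar_smul_left, polar_comm Q v w, hwv]; simp
          have h1 := H b _ w i i' hii hx' hw hperp hne
          rw [map_add, map_smul] at h1
          have h2 : (-polar Q x w) • π b v ∈ Submodule.span F {π b v} :=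
            Submodule.smul_mem _ _ (Submodule.mem_span_singleton_self _)
          simpa using Submodule.sub_mem _ (Submodule.mem_sup_left h1) (Submodule.mem_sup_right h2)
        refine le_trans (Submodule.finrank_mono hle')
          (le_trans (Submodule.finrank_add_le_finrank_add_finrank _ _) ?_)
        have := finrank_span_le_card (R := F) ({π b w} : Set (ι → F))
        have := finrank_span_le_card (R := F) ({π b v} : Set (ι → F))
        simp at *
        omega
      have hle' : D b ≤ (D 0).map (π b) ⊔ (D 1).map (π b) := by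
        intro y hy
        set x := ((g⁻¹ : GL ι F) : Matrix ι ι F) *ᵥ y
        have e : π b x = y := by
          change p (M *ᵥ x) b = y
          rw [mulVec_inv_mulVec, puniq y (fun m => if m = b then y else 0) (fun m => by
            split_ifs with hm
            · exact hm ▸ hy
            · exact Submodule.zero_mem _) (by fin_cases b <;> simp)]
          simp
        rw [← e, ← hps x, map_add]
        exact Submodule.add_mem_sup (Submodule.mem_map_of_mem (hp x 0))
          (Submodule.mem_map_of_mem (hp x 1))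
      have := Submodule.finrank_mono hle'
      have := Submodule.finrank_add_le_finrank_add_finrank ((D 0).map (π b)) ((D 1).map (π b))
      have := hr 0 1 h01 w hw hhw
      have := hr 1 0 h01.symm u hu hfu
      have := P.rank b
      have := P.large
      omega
    apply hgn
    have hsum : ∀ x, M *ᵥ x = π 0 x + π 1 x := fun x => (hps _).symm
    have hmem : ∀ (i b : Fin 2), (∀ b', b' ≠ b → ∀ u ∈ D i, π b' u = 0) →
        (D i).map (Matrix.toLin' M) = D b := by
      intro i b hb
      refine Submodule.eq_of_le_of_finrank_eq (map_le_of_mulVec_mem fun u hu => ?_)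
        (by rw [finrank_map_gl, P.rank, P.rank])
      rw [hsum]
      fin_cases b
      · rw [hb 1 (by decide) u hu, add_zero]; exact hp _ 0
      · rw [hb 0 (by decide) u hu, zero_add]; exact hp _ 1
    have hnz : ∀ i, ¬ ((∀ u ∈ D i, π 0 u = 0) ∧ ∀ u ∈ D i, π 1 u = 0) := by
      rintro i ⟨h0, h1⟩
      obtain ⟨u, hu, hu0⟩ : ∃ u ∈ D i, u ≠ 0 := Submodule.exists_mem_ne_zero_of_ne_bot fun e => by
        have h := P.rank i; rw [e, finrank_bot] at h; have := P.large; omega
      apply hu0
      apply gl_mulVec_injective g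
      change M *ᵥ u = M *ᵥ 0
      rw [hsum, h0 u hu, h1 u hu, add_zero, mulVec_zero]
    rcases hzero 0 with a | a <;> rcases hzero 1 with a' | a'
    · exact absurd ⟨a, a'⟩ (hnz 0)
    · refine ⟨Equiv.swap 0 1, fun i => ?_⟩
      fin_cases i
      · simpa using hmem 0 1 (fun b' hb' => by fin_cases b' <;> simp_all)
      · simpa using hmem 1 0 (fun b' hb' => by fin_cases b' <;> simp_all)
    · refine ⟨1, fun i => ?_⟩
      fin_cases i
      · simpa using hmem 0 0 (fun b' hb' => by fin_cases b' <;> simp_all)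
      · simpa using hmem 1 1 (fun b' hb' => by fin_cases b' <;> simp_all)
    · exact absurd ⟨a, a'⟩ (hnz 1)
  intro b u₁ u₂ i₁ i₂ hi hu₁ hu₂ horth hne
  by_contra hind
  set m₁ := M *ᵥ u₁
  set m₂ := M *ᵥ u₂
  have L : LongPair Q u₁ u₂ := ⟨P.sing _ _ hu₁, P.sing _ _ hu₂, horth⟩
  have L' : LongPair Q m₁ m₂ := L.map hgi
  have ht : sg Q m₁ m₂ ∈ G := by
    have h1 := G.mul_mem (G.mul_mem hg (P.sg_mem_of_cross hle hi hu₁ hu₂ horth)) (G.inv_mem hg)
    rwa [sg_conj hgi L.x0 L.xu] at h1
  obtain ⟨a, hab⟩ : ∃ a : Fin 2, a ≠ b := exists_ne b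
  obtain ⟨v, hv, hv1, hv2⟩ := P.exists_sep hab.symm (hp m₁ b) (hp m₂ b) hind
  have hsum : ∀ x, p x b + p x a = x := fun x => by
    rcases two_cases hab with ⟨rfl, rfl⟩ | ⟨rfl, rfl⟩
    · exact hps x
    · rw [add_comm]; exact hps x
  have hBsum : ∀ x, ∀ y ∈ D a, polar Q x y = polar Q (p x b) y := fun x y hy => by
    conv_lhs => rw [← hsum x, polar_add_left, P.orth (hp x a) hy, add_zero]
  have hm1v : polar Q m₁ v = 1 := by rw [hBsum _ _ hv]; exact hv1
  have hm2v : polar Q m₂ v = 0 := by rw [hBsum _ _ hv]; exact hv2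
  obtain ⟨w, hw, hwm1, hwm2, hwv, hwout, hw0⟩ : ∃ w ∈ D b, polar Q w m₁ = 0 ∧ polar Q w m₂ = 0 ∧
      polar Q w v = 0 ∧ p m₂ b ∉ Submodule.span F {w} ∧ w ≠ 0 := by
    let L : D b →ₗ[F] (Fin 3 → F) :=
      { toFun := fun w => ![polar Q (w : ι → F) m₁, polar Q (w : ι → F) m₂, polar Q (w : ι → F) v]
        map_add' := fun x y => by ext i; fin_cases i <;> simp [polar_add_left]
        map_smul' := fun c x => by ext i; fin_cases i <;> simp [polar_smul_left] }
    obtain ⟨w, hwK, hwout⟩ : ∃ w ∈ (LinearMap.ker L).map (D b).subtype,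
        w ∉ Submodule.span F {p m₂ b} := by
      refine SetLike.not_le_iff_exists.1 fun hle' => ?_
      have h1 := Submodule.finrank_mono hle'
      rw [Submodule.finrank_map_subtype_eq] at h1
      have h2 := LinearMap.finrank_range_add_finrank_ker L
      have h3 := Submodule.finrank_le (LinearMap.range L)
      rw [Module.finrank_fin_fun] at h3
      have h4 := finrank_span_le_card (R := F) ({p m₂ b} : Set (ι → F))
      have := P.rank b
      have := P.large
      simp at h4
      omega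
    obtain ⟨⟨w, hw⟩, hker, rfl⟩ := hwK
    have e := LinearMap.mem_ker.1 hker
    refine ⟨w, hw, congrFun e 0, congrFun e 1, congrFun e 2, fun h => hwout ?_,
      fun e' => hwout (by simp [e'])⟩
    obtain ⟨c, hc⟩ := Submodule.mem_span_singleton.1 h
    rcases eq_or_ne c 0 with rfl | hc0
    · exfalso
      refine hne ?_
      change p m₂ b = 0
      rw [← hc, zero_smul]
    · refine Submodule.mem_span_singleton.2 ⟨c⁻¹, ?_⟩
      simp [← hc, smul_smul, hc0]
  have hvw : polar Q v w = 0 := by rw [polar_comm, hwv]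
  have Lvw : LongPair Q v w := ⟨P.sing _ _ hv, P.sing _ _ hw, hvw⟩
  have hs : sg Q v w ∈ G := P.sg_mem_of_cross hle hab hv hw hvw
  have hs1 : (sg Q v w : Matrix ι ι F) *ᵥ m₁ = m₁ + w := by
    rw [Lvw.mulVec, hm1v, polar_comm Q m₁ w, hwm1]; simp
  have hs2 : (sg Q v w : Matrix ι ι F) *ᵥ m₂ = m₂ := by
    rw [Lvw.mulVec, hm2v, polar_comm Q m₂ w, hwm2]; simp
  have h2 := G.mul_mem (G.mul_mem hs ht) (G.inv_mem hs)
  rw [sg_conj (mem_isometryGroup_of_omega (hG hs)) L'.x0 L'.xu, hs1, hs2] at h2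
  have Lw : LongPair Q w m₂ := ⟨P.sing _ _ hw, L'.u0, hwm2⟩
  have L1 : LongPair Q (m₁ + w) m₂ := by
    have := L'.map (g := sg Q v w) (fun x => sg_isometry x)
    rwa [hs1, hs2] at this
  have e21 : sg Q m₂ (m₁ + w) ∈ G := by rw [L1.swap]; exact G.inv_mem h2
  rw [sg_add L'.u0 L'.symm.xu Lw.symm.xu, L'.swap] at e21
  have e2w : sg Q m₂ w ∈ G := by
    have := G.mul_mem ht e21
    rwa [mul_inv_cancel_left] at this
  have ew2 : sg Q w m₂ ∈ G := by rw [Lw.symm.swap]; exact G.inv_mem e2w
  have hwb : polar Q w (p m₂ b) = 0 := P.orth hw (hp m₂ b)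
  have hwa : polar Q w (p m₂ a) = 0 := by
    have := hwm2
    rwa [← hsum m₂, polar_add_right, hwb, zero_add] at this
  rw [← hsum m₂, sg_add (P.sing _ _ hw) hwb hwa] at ew2
  have h4 := G.mul_mem ew2 (G.inv_mem (P.sg_mem_of_cross hle hab.symm hw (hp m₂ a) hwa))
  rw [mul_inv_cancel_right] at h4
  exact hno b w hw (p m₂ b) (hp m₂ b) hwout hw0 h4

/-- The long root elements inside a member spread over it. -/
lemma inside_all [Fintype F] {j : Fin 2} {w p : ι → F} (hw : w ∈ D j) (hp : p ∈ D j)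
    (hind : p ∉ Submodule.span F {w}) (hw0 : w ≠ 0) (hm : sg Q w p ∈ G) {u v : ι → F}
    (hu : u ∈ D j) (hv : v ∈ D j) : sg Q u v ∈ G := by
  obtain ⟨i, hij⟩ : ∃ i : Fin 2, i ≠ j := exists_ne j
  have spread : ∀ {w p : ι → F}, w ∈ D j → p ∈ D j → p ∉ Submodule.span F {w} → w ≠ 0 →
      sg Q w p ∈ G → ∀ x ∈ D j, sg Q w x ∈ G := by
    intro w p hw hp hind hw0 hm
    have out : ∀ x ∈ D j, p ∉ Submodule.span F {w, x} → sg Q w x ∈ G := by
      intro x hx hout
      obtain ⟨y, hy, hpy, hwy, hxy⟩ := P.exists_sep₂ (Ne.symm hij) hp hw hx hout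
      have L : LongPair Q x y := ⟨P.sing _ _ hx, P.sing _ _ hy, hxy⟩
      have hs : sg Q x y ∈ G := P.sg_mem_of_cross hle (Ne.symm hij) hx hy hxy
      have h1 := G.mul_mem (G.mul_mem hs hm) (G.inv_mem hs)
      rw [sg_conj (mem_isometryGroup_of_omega (hG hs)) (P.sing _ _ hw) (P.orth hw hp), L.mulVec,
        L.mulVec, P.orth hw hx, hwy, P.orth hp hx, hpy] at h1
      simp only [zero_smul, one_smul, add_zero, sub_zero] at h1
      rw [show p - x = -x + p by abel, sg_add (P.sing _ _ hw) (by
        rw [polar_neg_right, P.orth hw hx, neg_zero]) (P.orth hw hp)] at h1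
      have h2 := G.mul_mem h1 (G.inv_mem hm)
      rw [mul_inv_cancel_right, sg_neg (P.sing _ _ hw) (P.orth hw hx)] at h2
      exact inv_mem_iff.1 h2
    intro x hx
    by_cases hout : p ∉ Submodule.span F {w, x}
    · exact out x hx hout
    push Not at hout
    obtain ⟨q, hq, hqo⟩ : ∃ q ∈ D j, q ∉ Submodule.span F {w, p} := by
      refine SetLike.not_le_iff_exists.1 fun h => ?_
      have h1 := Submodule.finrank_mono h
      rw [P.rank] at h1
      have h2 : Module.finrank F (Submodule.span F ({w, p} : Set (ι → F))) ≤ 2 := by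
        rw [show ({w, p} : Set (ι → F)) = Set.range ![w, p] by
          ext z; simp [Matrix.range_cons, Matrix.range_empty]; tauto]
        exact (finrank_range_le_card _).trans (by simp)
      have := P.large
      omega
    have hx' : x ∈ Submodule.span F {w, p} := by
      obtain ⟨a, c, e⟩ := Submodule.mem_span_pair.1 hout
      rcases eq_or_ne c 0 with rfl | hc
      · exfalso
        rw [zero_smul, add_zero] at e
        exact hind (Submodule.mem_span_singleton.2 ⟨a, e⟩)
      · refine Submodule.mem_span_pair.2 ⟨-(a / c), c⁻¹, ?_⟩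
        rw [← e, smul_add, smul_smul, smul_smul, inv_mul_cancel₀ hc, one_smul, ← add_assoc,
          ← add_smul, show -(a / c) + c⁻¹ * a = 0 by ring, zero_smul, zero_add]
    have o1 : ∀ z ∈ Submodule.span F ({w, p} : Set (ι → F)),
        p ∉ Submodule.span F {w, z + q} := by
      intro z hz hmem
      obtain ⟨a, c, e⟩ := Submodule.mem_span_pair.1 hmem
      rcases eq_or_ne c 0 with rfl | hc
      · rw [zero_smul, add_zero] at e
        exact hind (Submodule.mem_span_singleton.2 ⟨a, e⟩)
      · refine hqo ?_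
        rw [show q = c⁻¹ • p - (c⁻¹ * a) • w - z by
          rw [← e, smul_add, smul_smul, smul_smul, inv_mul_cancel₀ hc, one_smul]; abel]
        exact Submodule.sub_mem _ (Submodule.sub_mem _
          (Submodule.smul_mem _ _ (Submodule.subset_span (by simp)))
          (Submodule.smul_mem _ _ (Submodule.subset_span (by simp)))) hz
    have h1 := out (x + q) ((D j).add_mem hx hq) (o1 x hx')
    have h2 := out (0 + q) (by rwa [zero_add]) (o1 0 (Submodule.zero_mem _))
    rw [zero_add] at h2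
    rw [sg_add (P.sing _ _ hw) (P.orth hw hx) (P.orth hw hq)] at h1
    have h3 := G.mul_mem h1 (G.inv_mem h2)
    rwa [mul_inv_cancel_right] at h3
  have first : ∀ x ∈ D j, sg Q x w ∈ G := fun x hx => by
    rw [(P.lp hw hx).swap]; exact G.inv_mem (spread hw hp hind hw0 hm x hx)
  by_cases huw : w ∈ Submodule.span F {u}
  · obtain ⟨c, hc⟩ := Submodule.mem_span_singleton.1 huw
    have hc0 : c ≠ 0 := fun e => hw0 (by rw [← hc, e, zero_smul])
    rw [show u = c⁻¹ • w by rw [← hc, smul_smul, inv_mul_cancel₀ hc0, one_smul],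
      sg_smul (P.sing _ _ hw) (P.orth hw hv)]
    exact spread hw hp hind hw0 hm _ ((D j).smul_mem _ hv)
  · rcases eq_or_ne u 0 with rfl | hu0
    · have : sg Q 0 v = 1 := gl_ext fun x => by
        simp [sg_mulVec (map_zero Q) (polar_zero_left Q v), polar_zero_right]
      rw [this]; exact G.one_mem
    exact spread hu hw huw hu0 (first u hu) v hv

/-- An element outside the stabiliser generates Ω with it. -/
theorem omega_le [Fintype F] (hev : Even k) {g : GL ι F} (hg : g ∈ G)
    (hgn : g ∉ Cfsg.Geo.decompositionStabilizer D) : Cfsg.Geo.omegaGL ⇑Q ≤ G := by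
  obtain ⟨j, w, hw, p, hp, hind, hw0, hm⟩ := P.exists_inside hle hG hg hgn
  obtain ⟨J, hJ, hJs, hJ0, hJ1⟩ := P.exists_swap hev
  have hJG : J ∈ G := hle ⟨hJs, hJ⟩
  have hJi := mem_isometryGroup_of_omega hJ
  have inside : ∀ m : Fin 2, ∀ u ∈ D m, ∀ v ∈ D m, sg Q u v ∈ G := by
    intro m u hu v hv
    obtain ⟨i, hij⟩ : ∃ i : Fin 2, i ≠ j := exists_ne j
    rcases two_or hij m with rfl | rfl
    · have key : (D j).map (Matrix.toLin' (J : Matrix ι ι F)) = D m := by
        rcases two_cases hij with ⟨rfl, rfl⟩ | ⟨rfl, rfl⟩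
        · exact hJ0
        · exact hJ1
      rw [← key] at hu hv
      obtain ⟨u', hu', rfl⟩ := hu
      obtain ⟨v', hv', rfl⟩ := hv
      have := G.mul_mem (G.mul_mem hJG (P.inside_all hle hG hw hp hind hw0 hm hu' hv')) (G.inv_mem hJG)
      rwa [sg_conj hJi (P.sing _ _ hu') (P.orth hu' hv')] at this
    · exact P.inside_all hle hG hw hp hind hw0 hm hu hv
  choose c hc hcs using P.spans
  have member : ∀ m : Fin 2, ∀ x ∈ D m, ∀ u, polar Q x u = 0 → sg Q x u ∈ G := by
    intro m x hx u hu
    rw [← hcs u] at hu ⊢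
    have h0 : ∀ i : Fin 2, polar Q x (c u i) = 0 := by
      intro i
      by_cases him : i = m
      · subst him; exact P.orth hx (hc u i)
      · rw [polar_add_right] at hu
        rcases two_cases him with ⟨rfl, rfl⟩ | ⟨rfl, rfl⟩
        · rwa [P.orth hx (hc u 0), zero_add] at hu
        · rwa [P.orth hx (hc u 1), add_zero] at hu
    rw [sg_add (P.sing _ _ hx) (h0 0) (h0 1)]
    have one : ∀ i : Fin 2, sg Q x (c u i) ∈ G := fun i => by
      by_cases him : i = m
      · subst him; exact inside i x hx _ (hc u i)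
      · exact P.sg_mem_of_cross hle (Ne.symm him) hx (hc u i) (h0 i)
    exact G.mul_mem (one 0) (one 1)
  refine omegaGL_le_of_sg P.good fun x u hx hu => ?_
  set x₀ := c x 0 with hx₀
  set x₁ := c x 1 with hx₁
  have hxe : x₀ + x₁ = x := hcs x
  rcases eq_or_ne x₁ 0 with h1 | h1
  · rw [← hxe, h1, add_zero] at hu ⊢
    exact member 0 x₀ (hc x 0) u hu
  have h01 : polar Q x₀ x₁ = 0 := by
    have := hx
    rw [← hxe, QuadraticMap.map_add ⇑Q, P.sing _ _ (hc x 0), P.sing _ _ (hc x 1)] at this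
    simpa using this
  obtain ⟨v, hv, hvx⟩ := P.exists_pairing (by decide : (1 : Fin 2) ≠ 0) (hc x 1) h1
  have hk : sg Q x₀ v ∈ G := inside 0 x₀ (hc x 0) v hv
  set k := sg Q x₀ v
  have hki : ∀ z, Q ((k : Matrix ι ι F) *ᵥ z) = Q z := fun z => sg_isometry z
  have hkx : (k : Matrix ι ι F) *ᵥ x = x₁ := by
    have a1 : polar Q (x₀ + x₁) x₀ = 0 := by
      rw [polar_add_left, P.orth (hc x 0) (hc x 0), polar_comm Q x₁ x₀, h01, add_zero]
    have a2 : polar Q (x₀ + x₁) v = 1 := by
      rw [polar_add_left, P.orth (hc x 0) hv, zero_add]; exact hvx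
    rw [hxe] at a1 a2
    rw [(P.lp (hc x 0) hv).mulVec, a1, a2, zero_smul, add_zero, one_smul]
    exact sub_eq_iff_eq_add.2 (by rw [add_comm]; exact hxe.symm)
  have hu' : polar Q x₁ ((k : Matrix ι ι F) *ᵥ u) = 0 := by
    rw [← hkx, polar_of_isometry hki, hu]
  have := G.mul_mem (G.mul_mem (G.inv_mem hk) (member 1 x₁ (hc x 1) _ hu')) hk
  rw [← hkx, ← sg_conj hki hx hu] at this
  simpa [mul_assoc] using this

omit hle hG in
/-- The stabiliser of the pair is maximal in Ω. -/
theorem isMaximalIn [Fintype F] (hev : Even k) : Cfsg.Geo.IsMaximalIn (Cfsg.Geo.omegaGL ⇑Q)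
    (Cfsg.Geo.decompositionStabilizer D ⊓ Cfsg.Geo.omegaGL ⇑Q) := by
  refine isMaximalIn_of inf_le_right ?_ fun N hle hN g hg hgn =>
    P.omega_le hle hN hev hg fun h => hgn ⟨h, hN hg⟩
  have h01 : (0 : Fin 2) ≠ 1 := by decide
  obtain ⟨a, ha, ha0⟩ : ∃ a ∈ D 0, a ≠ 0 := Submodule.exists_mem_ne_zero_of_ne_bot fun e => by
    have h := P.rank 0; rw [e, finrank_bot] at h; have := P.large; omega
  obtain ⟨w, hw, hwa⟩ : ∃ w ∈ D 0, w ∉ Submodule.span F {a} := by
    refine SetLike.not_le_iff_exists.1 fun h => ?_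
    have h1 := Submodule.finrank_mono h
    rw [P.rank, finrank_span_singleton ha0] at h1
    have := P.large; omega
  obtain ⟨b, hb, hwb, hab⟩ := P.exists_sep h01 hw ha hwa
  refine ⟨sg Q a w, sg_mem_omegaGL P.good (P.sing _ _ ha) (P.orth ha hw), fun hs => ?_⟩
  obtain ⟨⟨σ, hσ⟩, -⟩ := hs
  have hmem : b - a ∈ D (σ 1) := by
    rw [← hσ 1]
    refine ⟨b, hb, ?_⟩
    rw [Matrix.toLin'_apply, (P.lp ha hw).mulVec, polar_comm Q b a, hab, polar_comm Q b w, hwb]
    simp
  have hboth : ∀ i, b - a ∉ D i := fun i hi => by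
    fin_cases i
    · have hb0 : b ∈ D 0 := by simpa using (D 0).add_mem hi ha
      exact one_ne_zero (hwb.symm.trans (P.orth hw hb0))
    · have ha1 : a ∈ D 1 := by simpa using (D 1).sub_mem hb hi
      exact ha0 (P.eq_zero_of_perp h01 ha fun z hz => P.orth ha1 hz)
  exact hboth _ hmem

omit hle hG in
/-- For odd half dimension the stabiliser of the pair lies in a larger proper subgroup. -/
theorem overgroup [Fintype F] (hodd : Odd k) :
    ∃ K : Subgroup (GL ι F), Cfsg.Geo.decompositionStabilizer D ⊓ Cfsg.Geo.omegaGL ⇑Q < K ∧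
      K < Cfsg.Geo.omegaGL ⇑Q := by
  classical
  have h01 : (0 : Fin 2) ≠ 1 := by decide
  have hn' : Module.finrank F (ι → F) = Fintype.card ι := Module.finrank_fintype_fun_eq_card _
  have hU : MaxTS Q (D 0) := ⟨P.sing 0, by rw [P.rank, hn', P.total]⟩
  have hreg : Reg F (ι → F) := Or.inr (by have := P.total; have := P.large; omega)
  -- two independent vectors in each member and a dual
  have pick : ∀ i j : Fin 2, i ≠ j → ∃ a w b, a ∈ D i ∧ w ∈ D i ∧ b ∈ D j ∧ a ≠ 0 ∧
      polar Q w b = 1 ∧ polar Q a b = 0 := by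
    intro i j hij
    obtain ⟨a, ha, ha0⟩ : ∃ a ∈ D i, a ≠ 0 := Submodule.exists_mem_ne_zero_of_ne_bot fun e => by
      have h := P.rank i; rw [e, finrank_bot] at h; have := P.large; omega
    obtain ⟨w, hw, hwa⟩ : ∃ w ∈ D i, w ∉ Submodule.span F {a} := by
      refine SetLike.not_le_iff_exists.1 fun h => ?_
      have h1 := Submodule.finrank_mono h
      rw [P.rank, finrank_span_singleton ha0] at h1
      have := P.large; omega
    obtain ⟨b, hb, hwb, hab⟩ := P.exists_sep hij hw ha hwa
    exact ⟨a, w, b, ha, hw, hb, ha0, hwb, hab⟩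
  -- the moving element of a member
  have moves : ∀ i j : Fin 2, i ≠ j → ∃ x ∈ Cfsg.Geo.omegaGL ⇑Q,
      (∀ v ∈ D i, (x : Matrix ι ι F) *ᵥ v = v) ∧ ∃ v ∈ D j, ∀ m, (x : Matrix ι ι F) *ᵥ v ∉ D m := by
    intro i j hij
    obtain ⟨a, w, b, ha, hw, hb, ha0, hwb, hab⟩ := pick i j hij
    refine ⟨sg Q a w, sg_mem_omegaGL P.good (P.sing _ _ ha) (P.orth ha hw), fun v hv => by
      rw [(P.lp ha hw).mulVec, P.orth hv ha, P.orth hv hw]; simp, b, hb, fun m hm => ?_⟩
    rw [(P.lp ha hw).mulVec, polar_comm Q b a, hab, polar_comm Q b w, hwb, zero_smul, add_zero,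
      one_smul] at hm
    rcases two_or hij m with rfl | rfl
    · have hb0 : b ∈ D m := by simpa using (D m).add_mem hm ha
      exact one_ne_zero (hwb.symm.trans (P.orth hw hb0))
    · have ha1 : a ∈ D m := by simpa using (D m).sub_mem hb hm
      exact ha0 (P.eq_zero_of_perp hij ha fun z hz => P.orth ha1 hz)
  refine ⟨Cfsg.Geo.subspaceStabilizer (D 0) ⊓ Cfsg.Geo.omegaGL ⇑Q, lt_of_le_not_ge ?_ ?_,
    lt_of_le_not_ge inf_le_right ?_⟩
  · rintro g ⟨⟨σ, hσ⟩, hgO⟩
    refine ⟨mem_subspaceStabilizer.2 fun v hv => ?_, hgO⟩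
    have hmem : (g : Matrix ι ι F) *ᵥ v ∈ D (σ 0) := by
      rw [← hσ 0]; exact ⟨v, hv, Matrix.toLin'_apply _ _⟩
    rcases two_or h01.symm (σ 0) with e | e
    · exfalso
      obtain ⟨h, hh, hv'⟩ : ∃ h ∈ commutator (isoG Q), ∀ v, h.1 v = (g : Matrix ι ι F) *ᵥ v := by
        obtain ⟨h, hh, rfl⟩ := hgO
        exact ⟨_, (mem_omega_iff ⇑Q (LinearEquiv.refl F _) (fun _ => rfl) h).1 hh,
          fun v => isoEquiv_apply ⇑Q (LinearEquiv.refl F _) (fun _ => rfl) h v⟩
      obtain ⟨l, hl, hlh⟩ := exists_refl_list P.nd hreg h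
      have hd := commutator_le_ker (dick P.nd) hh
      rw [MonoidHom.mem_ker, ← hlh, dick_prod_refl P.nd l hl] at hd
      have h1 := parS_prod_refl P.nd hU hU l hl
      rw [hlh, hd, one_mul] at h1
      have e' : imgS h (D 0) = D 1 := by
        rw [← e, ← hσ 0]; ext z; simp [mem_imgS, hv']
      have hbot : D 0 ⊓ D 1 = ⊥ := (Submodule.eq_bot_iff _).2 fun z hz =>
        P.eq_zero_of_perp h01 hz.1 fun y hy => P.orth hz.2 hy
      rw [e', parS, parS, inf_idem, hbot, finrank_bot, pow_zero, P.rank, hodd.neg_one_pow] at h1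
      exact absurd h1 (by decide)
    · rwa [e] at hmem
  · intro h
    obtain ⟨x, hx, hfix, v, hv, hvout⟩ := moves 0 1 h01
    obtain ⟨⟨σ, hσ⟩, -⟩ := h ⟨mem_subspaceStabilizer.2 fun z hz => by rwa [hfix z hz], hx⟩
    exact hvout (σ 1) (by rw [← hσ 1]; exact ⟨v, hv, Matrix.toLin'_apply _ _⟩)
  · intro h
    obtain ⟨x, hx, -, v, hv, hvout⟩ := moves 1 0 h01.symm
    exact hvout 0 (mem_subspaceStabilizer.1 (h hx).1 v hv)

end QPair

end Cfsg.Agent.Lib.Forms
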