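import Cfsg.Agent.Lib.Forms.OrthStab

/-!
The stabiliser of a non-degenerate subspace is maximal in Ω.
-/

set_option autoImplicit false

namespace Cfsg.Agent.Lib.Forms

open Matrix QuadraticMap Cfsg.Agent.Lib.Classical.Quad Cfsg.Agent.Lib.Classical.QuadOmega

variable {ι : Type} [Fintype ι] [DecidableEq ι] {F : Type*} [Field F] [Fintype F]
  {Q : QuadraticForm F (ι → F)}

/-- An orthogonal splitting. -/
structure Split (Q : QuadraticForm F (ι → F)) (A B : Submodule F (ι → F)) : Prop where
  nd : Nd Q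
  big : 13 ≤ Fintype.card ι
  orth : ∀ a ∈ A, ∀ b ∈ B, polar Q a b = 0
  top : A ⊔ B = ⊤
  ne : A ≠ ⊥
  total : Module.finrank F A + Module.finrank F B = Fintype.card ι
  le : Module.finrank F A ≤ Module.finrank F B
  small : Fintype.card F ≤ 3 → Module.finrank F A = 2 → ∀ a ∈ A, a ≠ 0 → Q a ≠ 0

/-- An element whose two reflections have the same value lies in Ω. -/
lemma refl_pair_omega (hQ : Nd Q) (hreg : Reg F (ι → F)) {w w' : ι → F} (hw : Q w ≠ 0)
    (h : Q w' = Q w) : isoMat Q (refl Q w * refl Q w') ∈ Cfsg.Geo.omegaGL ⇑Q := by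
  refine ⟨(isoEquiv (Q := Q) ⇑Q (LinearEquiv.refl F _) fun _ => rfl).symm (refl Q w * refl Q w'),
    ?_, rfl⟩
  rw [SetLike.mem_coe, mem_omega_iff ⇑Q (LinearEquiv.refl F _) fun _ => rfl,
    MulEquiv.apply_symm_apply]
  have hw' : Q w' ≠ 0 := by rw [h]; exact hw
  by_cases h2 : (2 : F) = 0
  · rw [mem_commutator_iff_two hQ hreg h2, map_mul, dick_refl hQ hw, dick_refl hQ hw']; simp
  · rw [mem_commutator_iff hQ h2, map_mul, map_mul, dick_refl hQ hw, dick_refl hQ hw',
      spn_refl hQ h2 hw, spn_refl hQ h2 hw', h, ← sqSign_mul hw hw]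
    exact ⟨by simp, sqSign_eq_one_iff.2 ⟨Q w, rfl⟩⟩

omit [DecidableEq ι] [Fintype F] in
/-- The graph of a map which negates the form is totally singular. -/
lemma exists_ts_graph {A B : Submodule F (ι → F)} (horth : ∀ a ∈ A, ∀ b ∈ B, polar Q a b = 0)
    (hdisj : A ⊓ B = ⊥) (φ : B →ₗ[F] (ι → F)) (hφA : ∀ b, φ b ∈ A)
    (hφ : ∀ b : B, Q (φ b) = Q (b : ι → F)) {κ : Type} [Fintype κ] (w ψ : κ → B)
    (hli : LinearIndependent F w) (hQw : ∀ k, Q (w k : ι → F) + Q (ψ k : ι → F) = 0)
    (hp : ∀ k k', k ≠ k' →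
      polar Q (w k : ι → F) (w k' : ι → F) + polar Q (ψ k : ι → F) (ψ k' : ι → F) = 0) :
    ∃ U : Submodule F (ι → F), (∀ u ∈ U, Q u = 0) ∧ Module.finrank F U = Fintype.card κ := by
  classical
  have hφp : ∀ a b : B, polar Q (φ a) (φ b) = polar Q (a : ι → F) (b : ι → F) := fun a b => by
    simp only [polar, ← map_add, hφ, Submodule.coe_add]
  let x : κ → ι → F := fun k => (w k : ι → F) + φ (ψ k)
  have hxli : LinearIndependent F x := by
    rw [Fintype.linearIndependent_iff]
    intro c hc k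
    have hB : ∑ j, c j • (w j : ι → F) ∈ A ⊓ B := by
      refine ⟨?_, B.sum_mem fun j _ => B.smul_mem _ (w j).2⟩
      have e : ∑ j, c j • (w j : ι → F) = -∑ j, c j • φ (ψ j) := by
        rw [eq_neg_iff_add_eq_zero, ← Finset.sum_add_distrib]
        simpa only [x, smul_add] using hc
      rw [e]
      exact A.neg_mem (A.sum_mem fun j _ => A.smul_mem _ (hφA _))
    rw [hdisj, Submodule.mem_bot] at hB
    exact Fintype.linearIndependent_iff.1 hli c (Subtype.ext (by simpa using hB)) k
  have hxQ : ∀ k, Q (x k) = 0 := fun k => by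
    rw [QuadraticMap.map_add ⇑Q, hφ, polar_comm, horth _ (hφA _) _ (w k).2, add_zero, hQw]
  have hxB : ∀ k k', k ≠ k' → polar Q (x k) (x k') = 0 := fun k k' hkk => by
    simp only [x, polar_add_left, polar_add_right, hφp, horth _ (hφA _) _ (w _).2,
      polar_comm Q (w k : ι → F) (φ (ψ k')), add_zero, zero_add]
    exact hp k k' hkk
  refine ⟨Submodule.span F (Set.range x), fun u hu => ?_, finrank_span_eq_card hxli⟩
  obtain ⟨c, rfl⟩ := (Submodule.mem_span_range_iff_exists_fun F).1 hu
  suffices ∀ s : Finset κ, Q (∑ i ∈ s, c i • x i) = 0 from this _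
  intro s
  induction s using Finset.induction with
  | empty => simp
  | insert i s hi ih =>
    rw [Finset.sum_insert hi, QuadraticMap.map_add ⇑Q, QuadraticMap.map_smul, hxQ, ih,
      smul_zero, ← polarBilin_apply_apply, map_sum]
    simp only [polarBilin_apply_apply, polar_smul_left, polar_smul_right, zero_add]
    exact Finset.sum_eq_zero fun j hj => by
      rw [hxB i j (fun e => hi (e ▸ hj)), smul_zero, smul_zero]

omit [DecidableEq ι] in
/-- An even-dimensional subspace isometric to its complement gives a large singular subspace. -/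
lemma exists_ts_of_isometric {A B : Submodule F (ι → F)}
    (horth : ∀ a ∈ A, ∀ b ∈ B, polar Q a b = 0) (hdisj : A ⊓ B = ⊥)
    (hnd : ∀ x ∈ B, (∀ y ∈ B, polar Q x y = 0) → x = 0)
    (hev : Even (Module.finrank F B)) (φ : B →ₗ[F] (ι → F)) (hφA : ∀ b, φ b ∈ A)
    (hφ : ∀ b : B, Q (φ b) = Q (b : ι → F)) :
    ∃ U : Submodule F (ι → F), (∀ u ∈ U, Q u = 0) ∧
      Module.finrank F U = Module.finrank F B := by
  classical
  by_cases h2 : (2 : F) = 0
  · let β := Module.finBasis F B
    have h2x : ∀ t : F, t + t = 0 := fun t => by linear_combination t * h2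
    obtain ⟨U, hU, hd⟩ := exists_ts_graph horth hdisj φ hφA hφ ⇑β ⇑β β.linearIndependent
      (fun k => h2x _) (fun k k' _ => h2x _)
    exact ⟨U, hU, hd.trans (Fintype.card_fin _)⟩
  · haveI : Invertible (2 : F) := invertibleOfNonzero h2
    let R : LinearMap.BilinForm F B := ((polarBilin Q).comp B.subtype).compl₂ B.subtype
    have hR : ∀ a b : B, R a b = polar Q (a : ι → F) (b : ι → F) := fun a b => rfl
    obtain ⟨b, hb⟩ := LinearMap.BilinForm.exists_orthogonal_basis (B := R)
      ⟨fun a b => polar_comm _ _ _⟩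
    obtain ⟨m, hm⟩ := hev
    let e : Fin (Module.finrank F B) ≃ Fin m × Fin 2 :=
      (finCongr (show Module.finrank F B = m * 2 by omega)).trans finProdFinEquiv.symm
    let w : Fin m × Fin 2 → B := fun k => b (e.symm k)
    have horthw : ∀ k k', k ≠ k' → polar Q (w k : ι → F) (w k' : ι → F) = 0 :=
      fun k k' hne => by rw [← hR]; exact hb (e.symm.injective.ne hne)
    have hww : ∀ k, polar Q (w k : ι → F) (w k : ι → F) = 2 * Q (w k : ι → F) := fun k => by
      rw [polar_self, nsmul_eq_mul, Nat.cast_ofNat]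
    have hc0 : ∀ k, Q (w k : ι → F) ≠ 0 := by
      intro k h0
      have hz : ∀ y, R (w k) y = 0 := fun y => by
        refine LinearMap.congr_fun (b.ext (f₁ := R (w k)) (f₂ := 0) fun l => ?_) y
        rcases eq_or_ne l (e.symm k) with rfl | hl
        · change R (w k) (w k) = 0
          rw [hR, hww, h0, mul_zero]
        · exact hb (Ne.symm hl)
      exact b.ne_zero _ (Subtype.ext (hnd _ (w k).2 fun y hy => hz ⟨y, hy⟩))
    have hodd : Fintype.card F % 2 = 1 := FiniteField.odd_card_of_char_ne_two fun h => h2 (by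
      have := ringChar.charP F
      rw [h] at this
      exact CharP.cast_eq_zero F 2)
    have hrep : ∀ i : Fin m, ∃ p q : F, p ^ 2 * Q (w (i, 0) : ι → F) + q ^ 2 * Q (w (i, 1) : ι → F) =
        -Q (w (i, 0) : ι → F) := by
      intro i
      open Polynomial in
      obtain ⟨p, q, hpq⟩ := FiniteField.exists_root_sum_quadratic
        (f := C (Q (w (i, 0) : ι → F)) * X ^ 2 + C (Q (w (i, 0) : ι → F)))
        (g := C (Q (w (i, 1) : ι → F)) * X ^ 2)
        (by rw [degree_add_C (by simp [degree_C_mul_X_pow 2 (hc0 (i, 0))])]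
            exact degree_C_mul_X_pow 2 (hc0 (i, 0)))
        (degree_C_mul_X_pow 2 (hc0 (i, 1))) hodd
      simp at hpq
      exact ⟨p, q, by linear_combination hpq⟩
    choose p q hpq using hrep
    let r : Fin m → F := fun i => -(q i * Q (w (i, 1) : ι → F) / Q (w (i, 0) : ι → F))
    have hr : ∀ i, r i * Q (w (i, 0) : ι → F) = -(q i * Q (w (i, 1) : ι → F)) := fun i => by
      simp only [r, neg_mul, div_mul_cancel₀ _ (hc0 (i, 0))]
    let co : Fin m × Fin 2 → F × F := fun k => ![(p k.1, q k.1), (r k.1, p k.1)] k.2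
    let ψ : Fin m × Fin 2 → B := fun k => (co k).1 • w (k.1, 0) + (co k).2 • w (k.1, 1)
    have hQψ : ∀ k, Q (w k : ι → F) + Q (ψ k : ι → F) = 0 := by
      rintro ⟨i, s⟩
      simp only [ψ, Submodule.coe_add, Submodule.coe_smul, QuadraticMap.map_add ⇑Q,
        QuadraticMap.map_smul, polar_smul_left, polar_smul_right,
        horthw (i, 0) (i, 1) (by simp), smul_eq_mul, mul_zero, add_zero]
      fin_cases s
      · simp [co]; linear_combination hpq i
      · simp [co]
        refine mul_right_cancel₀ (hc0 (i, 0)) ?_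
        linear_combination Q (w (i, 1) : ι → F) * hpq i +
          (r i * Q (w (i, 0) : ι → F) - q i * Q (w (i, 1) : ι → F)) * hr i
    have hpψ : ∀ k k', k ≠ k' →
        polar Q (w k : ι → F) (w k' : ι → F) + polar Q (ψ k : ι → F) (ψ k' : ι → F) = 0 := by
      rintro ⟨i, s⟩ ⟨j, t⟩ hkk
      simp only [ψ, Submodule.coe_add, Submodule.coe_smul, polar_add_left, polar_add_right,
        polar_smul_left, polar_smul_right, smul_eq_mul, horthw _ _ hkk, zero_add]
      rcases eq_or_ne i j with rfl | hij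
      · rw [horthw (i, 0) (i, 1) (by simp), horthw (i, 1) (i, 0) (by simp), hww, hww]
        fin_cases s <;> fin_cases t <;> simp [co] at hkk ⊢ <;>
          linear_combination 2 * p i * hr i
      · have o : ∀ s' t', polar Q (w (i, s') : ι → F) (w (j, t') : ι → F) = 0 := fun s' t' =>
          horthw (i, s') (j, t') fun h => hij (congrArg Prod.fst h)
        simp [o]
    obtain ⟨U, hU, hd⟩ := exists_ts_graph horth hdisj φ hφA hφ w ψ
      (b.linearIndependent.comp _ e.symm.injective) hQψ hpψ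
    exact ⟨U, hU, by rw [hd, Fintype.card_prod, Fintype.card_fin, Fintype.card_fin]; omega⟩

namespace Split

variable {A B : Submodule F (ι → F)} (S : Split Q A B)
include S

lemma ndA {a : ι → F} (ha : a ∈ A) (h : ∀ y ∈ A, polar Q a y = 0) : a = 0 := by
  refine S.nd a fun y => ?_
  obtain ⟨u, hu, v, hv, rfl⟩ := Submodule.mem_sup.1 (S.top ▸ Submodule.mem_top : y ∈ A ⊔ B)
  rw [polar_add_right, h u hu, S.orth a ha v hv, add_zero]

lemma ndB {b : ι → F} (hb : b ∈ B) (h : ∀ y ∈ B, polar Q b y = 0) : b = 0 := by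
  refine S.nd b fun y => ?_
  obtain ⟨u, hu, v, hv, rfl⟩ := Submodule.mem_sup.1 (S.top ▸ Submodule.mem_top : y ∈ A ⊔ B)
  rw [polar_add_right, h v hv, polar_comm, S.orth u hu b hb, zero_add]

lemma disjoint : A ⊓ B = ⊥ :=
  (Submodule.eq_bot_iff _).2 fun v hv => S.ndA hv.1 fun y hy => by
    rw [polar_comm, S.orth y hy v hv.2]

lemma good : Good Q :=
  good_of_finrank S.nd (by rw [Module.finrank_fintype_fun_eq_card]; have := S.big; omega)

lemma ndB' : Nd (Q.comp B.subtype) := fun b hb => Subtype.ext (S.ndB b.2 fun y hy => by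
  have := hb ⟨y, hy⟩; simpa [polar] using this)

lemma dimB : 7 ≤ Module.finrank F B := by have := S.total; have := S.le; have := S.big; omega

/-- A singular vector of the big member orthogonal to a few vectors and outside a line. -/
lemma exists_singB {k : ℕ} (u : Fin k → (ι → F)) (hk : k ≤ 2) (l : Fin 2 → (ι → F)) :
    ∃ z ∈ B, z ≠ 0 ∧ Q z = 0 ∧ (∀ i, polar Q (u i) z = 0) ∧ z ∉ Submodule.span F (Set.range l) := by
  obtain ⟨C, hC⟩ := exists_isCompl (Submodule.span F (Set.range l))
  have h3 : 3 ≤ Module.finrank F ↥((B ⊓ perpK Q u) ⊓ C) := by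
    have := S.dimB
    have h1 := finrank_perpK (Q := Q) u
    have h2 := Submodule.finrank_sup_add_finrank_inf_eq B (perpK Q u)
    have h4 := Submodule.finrank_le (B ⊔ perpK Q u)
    have h5 := Submodule.finrank_sup_add_finrank_inf_eq (B ⊓ perpK Q u) C
    have h6 := Submodule.finrank_le ((B ⊓ perpK Q u) ⊔ C)
    have h7 := Submodule.finrank_add_eq_of_isCompl hC
    have h8 : Module.finrank F (Submodule.span F (Set.range l)) ≤ 2 :=
      (finrank_range_le_card l).trans (by simp)
    omega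
  obtain ⟨z, hz, hz0, hQz⟩ := exists_sing_in Q h3
  exact ⟨z, hz.1.1, hz0, hQz, mem_perpK.1 hz.1.2,
    fun h => hz0 (Submodule.disjoint_def.1 hC.disjoint z h hz.2)⟩

lemma stab_of_B {g : GL ι F} (hg : ∀ v, Q ((g : Matrix ι ι F) *ᵥ v) = Q v)
    (h : ∀ b ∈ B, (g : Matrix ι ι F) *ᵥ b ∈ B) : g ∈ Cfsg.Geo.subspaceStabilizer A := by
  refine mem_stab_of_le fun a ha => ?_
  have hmap : B.map (Matrix.toLin' (g : Matrix ι ι F)) = B :=
    Submodule.eq_of_le_of_finrank_eq (map_le_of_mulVec_mem h) (finrank_map_gl B g)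
  obtain ⟨u, hu, v, hv, e⟩ := Submodule.mem_sup.1
    (S.top ▸ Submodule.mem_top : (g : Matrix ι ι F) *ᵥ a ∈ A ⊔ B)
  have hv0 : v = 0 := S.ndB hv fun y hy => by
    obtain ⟨z, hz, hzy⟩ := (hmap.symm ▸ hy : y ∈ B.map (Matrix.toLin' (g : Matrix ι ι F)))
    rw [Matrix.toLin'_apply] at hzy
    have h1 : polar Q ((g : Matrix ι ι F) *ᵥ a) y = 0 := by
      rw [← hzy, polar_of_isometry hg, S.orth a ha z hz]
    rwa [← e, polar_add_left, S.orth u hu y hy, zero_add] at h1
  rw [← e, hv0, add_zero]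
  exact hu

lemma B_of_stab {g : GL ι F} (hg : ∀ v, Q ((g : Matrix ι ι F) *ᵥ v) = Q v)
    (h : g ∈ Cfsg.Geo.subspaceStabilizer A) {b : ι → F} (hb : b ∈ B) :
    (g : Matrix ι ι F) *ᵥ b ∈ B := by
  have hmap : A.map (Matrix.toLin' (g : Matrix ι ι F)) = A :=
    Submodule.eq_of_le_of_finrank_eq (map_le_of_mulVec_mem (mem_subspaceStabilizer.1 h))
      (finrank_map_gl A g)
  obtain ⟨u, hu, v, hv, e⟩ := Submodule.mem_sup.1
    (S.top ▸ Submodule.mem_top : (g : Matrix ι ι F) *ᵥ b ∈ A ⊔ B)
  have hu0 : u = 0 := S.ndA hu fun y hy => by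
    obtain ⟨z, hz, hzy⟩ := (hmap.symm ▸ hy : y ∈ A.map (Matrix.toLin' (g : Matrix ι ι F)))
    rw [Matrix.toLin'_apply] at hzy
    have h1 : polar Q ((g : Matrix ι ι F) *ᵥ b) y = 0 := by
      rw [← hzy, polar_of_isometry hg, polar_comm, S.orth z hz b hb]
    rwa [← e, polar_add_left, polar_comm Q v y, S.orth y hy v hv, add_zero] at h1
  rw [← e, hu0, zero_add]
  exact hv

lemma sg_stab_B {x u : ι → F} (hx : Q x = 0) (hxu : polar Q x u = 0) (hxB : x ∈ B) (huB : u ∈ B) :
    sg Q x u ∈ Cfsg.Geo.subspaceStabilizer A := by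
  refine mem_stab_of_le fun a ha => ?_
  rw [sg_mulVec hx hxu, S.orth a ha x hxB, S.orth a ha u huB]
  simpa using ha

lemma sg_stab_A {x u : ι → F} (hx : Q x = 0) (hxu : polar Q x u = 0) (hxA : x ∈ A) (huA : u ∈ A) :
    sg Q x u ∈ Cfsg.Geo.subspaceStabilizer A := by
  refine mem_stab_of_le fun a ha => ?_
  rw [sg_mulVec hx hxu]
  exact A.sub_mem (A.sub_mem (A.add_mem ha (A.smul_mem _ huA)) (A.smul_mem _ hxA)) (A.smul_mem _ hxA)

variable {G : Subgroup (GL ι F)}
  (hle : Cfsg.Geo.subspaceStabilizer A ⊓ Cfsg.Geo.omegaGL ⇑Q ≤ G)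
  (hG : G ≤ Cfsg.Geo.omegaGL ⇑Q)
include hle hG

omit hG in
lemma sgB_mem {x u : ι → F} (hx : Q x = 0) (hxu : polar Q x u = 0) (hxB : x ∈ B) (huB : u ∈ B) :
    sg Q x u ∈ G := hle ⟨S.sg_stab_B hx hxu hxB huB, sg_mem_omegaGL S.good hx hxu⟩

/-- An element outside the stabiliser gives a long root element outside it. -/
lemma exists_long_outside
    (hiso : Module.finrank F A = Module.finrank F B →
      ∀ φ : B →ₗ[F] (ι → F), (∀ b, φ b ∈ A) → ∃ b : B, Q (φ b) ≠ Q (b : ι → F))
    {g : GL ι F} (hg : g ∈ G) (hgn : g ∉ Cfsg.Geo.subspaceStabilizer A) :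
    ∃ a b : ι → F, LongPair Q a b ∧ sg Q a b ∈ G ∧ sg Q a b ∉ Cfsg.Geo.subspaceStabilizer A := by
  classical
  by_contra hcon
  push Not at hcon
  have hgi := mem_isometryGroup_of_omega (hG hg)
  have side : ∀ x u : ι → F, x ∈ B → u ∈ B → LongPair Q x u → x ≠ 0 → (∀ c : F, u ≠ c • x) →
      ((g : Matrix ι ι F) *ᵥ x ∈ A ∧ (g : Matrix ι ι F) *ᵥ u ∈ A) ∨
        ((g : Matrix ι ι F) *ᵥ x ∈ B ∧ (g : Matrix ι ι F) *ᵥ u ∈ B) := by
    intro x u hxB huB L hx0 hind
    have ht : sg Q ((g : Matrix ι ι F) *ᵥ x) ((g : Matrix ι ι F) *ᵥ u) ∈ G := by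
      have := G.mul_mem (G.mul_mem hg (S.sgB_mem hle L.x0 L.xu hxB huB)) (G.inv_mem hg)
      rwa [sg_conj hgi L.x0 L.xu] at this
    have hst := hcon _ _ (L.map hgi) ht
    obtain ⟨a₁, ha₁, a₂, ha₂, ea⟩ := Submodule.mem_sup.1
      (S.top ▸ Submodule.mem_top : (g : Matrix ι ι F) *ᵥ x ∈ A ⊔ B)
    obtain ⟨b₁, hb₁, b₂, hb₂, eb⟩ := Submodule.mem_sup.1
      (S.top ▸ Submodule.mem_top : (g : Matrix ι ι F) *ᵥ u ∈ A ⊔ B)
    have key : ∀ w ∈ A, polar Q w a₁ • b₂ - polar Q w b₁ • a₂ = 0 := by
      intro w hw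
      have h1 := mem_subspaceStabilizer.1 hst w hw
      rw [(L.map hgi).mulVec, ← ea, ← eb] at h1
      rw [polar_add_right, polar_add_right, S.orth w hw a₂ ha₂, S.orth w hw b₂ hb₂, add_zero,
        add_zero] at h1
      have h2 : polar Q w a₁ • b₂ - polar Q w b₁ • a₂ ∈ A ⊓ B := by
        refine ⟨?_, B.sub_mem (B.smul_mem _ hb₂) (B.smul_mem _ ha₂)⟩
        have h3 := A.sub_mem (A.sub_mem h1 hw) (A.sub_mem (A.smul_mem (polar Q w a₁) hb₁)
          (A.smul_mem (polar Q w b₁) ha₁))
        have e : polar Q w a₁ • b₂ - polar Q w b₁ • a₂ =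
            w + polar Q w a₁ • (b₁ + b₂) - polar Q w b₁ • (a₁ + a₂) - w -
              (polar Q w a₁ • b₁ - polar Q w b₁ • a₁) := by module
        rw [e]; exact h3
      rwa [S.disjoint, Submodule.mem_bot] at h2
    rcases eq_or_ne a₂ 0 with e0 | e0
    · by_cases ha10 : a₁ = 0
      · exact absurd (gl_mulVec_injective g (show (g : Matrix ι ι F) *ᵥ x = (g : Matrix ι ι F) *ᵥ 0 by
          rw [← ea, ha10, e0, add_zero, mulVec_zero])) hx0
      obtain ⟨w, hw, hwa⟩ : ∃ w ∈ A, polar Q w a₁ ≠ 0 := by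
        by_contra h; push Not at h
        exact ha10 (S.ndA ha₁ fun y hy => by rw [polar_comm, h y hy])
      have := key w hw
      rw [e0, smul_zero, sub_zero, smul_eq_zero] at this
      left
      rw [← ea, ← eb, e0, this.resolve_left hwa, add_zero, add_zero]
      exact ⟨ha₁, hb₁⟩
    · by_cases hdep : ∃ κ : F, b₂ = κ • a₂
      · obtain ⟨κ, hκ⟩ := hdep
        exfalso
        have hb1 : b₁ = κ • a₁ := sub_eq_zero.1 (S.ndA (A.sub_mem hb₁ (A.smul_mem κ ha₁)) fun w hw => by
          have := key w hw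
          rw [hκ, smul_smul, ← sub_smul, smul_eq_zero] at this
          rw [polar_sub_left, polar_smul_left, smul_eq_mul, polar_comm Q b₁ w, polar_comm Q a₁ w]
          linear_combination -(this.resolve_right e0))
        refine hind κ (gl_mulVec_injective g ?_)
        show (g : Matrix ι ι F) *ᵥ u = (g : Matrix ι ι F) *ᵥ (κ • x)
        rw [mulVec_smul, ← ea, ← eb, hb1, hκ, smul_add]
      · push Not at hdep
        have hz : ∀ w ∈ A, polar Q w a₁ = 0 ∧ polar Q w b₁ = 0 := fun w hw => by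
          have := key w hw
          by_cases h : polar Q w a₁ = 0
          · rw [h, zero_smul, zero_sub, neg_eq_zero, smul_eq_zero] at this
            exact ⟨h, this.resolve_right e0⟩
          · exfalso
            refine hdep ((polar Q w a₁)⁻¹ * polar Q w b₁) ?_
            rw [sub_eq_zero] at this
            rw [mul_smul, ← this, smul_smul, inv_mul_cancel₀ h, one_smul]
        right
        rw [← ea, ← eb, S.ndA ha₁ fun w hw => by rw [polar_comm, (hz w hw).1],
          S.ndA hb₁ fun w hw => by rw [polar_comm, (hz w hw).2], zero_add, zero_add]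
        exact ⟨ha₂, hb₂⟩
  have notBoth : ∀ v, v ≠ 0 → (g : Matrix ι ι F) *ᵥ v ∈ A → (g : Matrix ι ι F) *ᵥ v ∉ B :=
    fun v hv hA hB => hv (gl_mulVec_injective g (by
      show (g : Matrix ι ι F) *ᵥ v = (g : Matrix ι ι F) *ᵥ 0
      have : (g : Matrix ι ι F) *ᵥ v ∈ A ⊓ B := ⟨hA, hB⟩
      rw [S.disjoint, Submodule.mem_bot] at this
      rw [this, mulVec_zero]))
  have sides : (∀ x ∈ B, Q x = 0 → (g : Matrix ι ι F) *ᵥ x ∈ A) ∨
      (∀ x ∈ B, Q x = 0 → (g : Matrix ι ι F) *ᵥ x ∈ B) := by
    by_contra h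
    push Not at h
    obtain ⟨⟨x, hxB, hx, hxA⟩, ⟨x', hx'B, hx', hx'A⟩⟩ := h
    have hx0 : x ≠ 0 := fun e => hxA (by rw [e, mulVec_zero]; exact A.zero_mem)
    have hx'0 : x' ≠ 0 := fun e => hx'A (by rw [e, mulVec_zero]; exact B.zero_mem)
    obtain ⟨z, hzB, hz0, hz, hperp, hout⟩ := S.exists_singB ![x, x'] le_rfl ![x, x']
    have o1 : polar Q x z = 0 := by simpa using hperp 0
    have o2 : polar Q x' z = 0 := by simpa using hperp 1
    have s1 := side x z hxB hzB ⟨hx, hz, o1⟩ hx0 fun c e => hout (by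
      rw [e]; exact Submodule.smul_mem _ _ (Submodule.subset_span ⟨0, rfl⟩))
    have s2 := side x' z hx'B hzB ⟨hx', hz, o2⟩ hx'0 fun c e => hout (by
      rw [e]; exact Submodule.smul_mem _ _ (Submodule.subset_span ⟨1, rfl⟩))
    rcases s1 with ⟨a, b⟩ | ⟨a, b⟩
    · exact hxA a
    · rcases s2 with ⟨a', b'⟩ | ⟨a', b'⟩
      · exact notBoth z hz0 b' b
      · exact hx'A a'
  have span : ∀ T : Submodule F (ι → F), (∀ x ∈ B, Q x = 0 → (g : Matrix ι ι F) *ᵥ x ∈ T) →
      ∀ x ∈ B, (g : Matrix ι ι F) *ᵥ x ∈ T := by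
    intro T hT x hx
    exact perpK_induction (V := B) S.ndB' (Fin.elim0 : Fin 0 → B) (by have := S.dimB; omega)
      (p := fun v : B => (g : Matrix ι ι F) *ᵥ (v : ι → F) ∈ T)
      (fun v _ hv => hT v v.2 (by simpa using hv))
      (fun a b ha hb => by rw [Submodule.coe_add, mulVec_add]; exact T.add_mem ha hb)
      (v := ⟨x, hx⟩) (mem_perpK.2 fun i => Fin.elim0 i)
  rcases sides with h | h
  · have hmap : B.map (Matrix.toLin' (g : Matrix ι ι F)) ≤ A := map_le_of_mulVec_mem (span A h)
    have h1 := Submodule.finrank_mono hmap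
    rw [finrank_map_gl] at h1
    have := S.le
    obtain ⟨b, hb⟩ := hiso (by omega) ((Matrix.toLin' (g : Matrix ι ι F)).comp B.subtype)
      (fun b => by simpa using span A h b b.2)
    exact hb (by simpa using hgi b)
  · exact hgn (S.stab_of_B hgi (span B h))

/-- A long root element outside the stabiliser generates Ω with it. -/
lemma omega_le_of_long {a b : ι → F} (L : LongPair Q a b) (ht : sg Q a b ∈ G)
    (htn : sg Q a b ∉ Cfsg.Geo.subspaceStabilizer A) : Cfsg.Geo.omegaGL ⇑Q ≤ G := by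
  classical
  have hn := S.big
  set t := sg Q a b with ht'
  have hti : ∀ v, Q ((t : Matrix ι ι F) *ᵥ v) = Q v := fun v => sg_isometry v
  obtain ⟨v, hvB, hvout⟩ : ∃ v ∈ B, (t : Matrix ι ι F) *ᵥ v ∉ B := by
    by_contra h; push Not at h
    exact htn (S.stab_of_B hti h)
  -- a singular vector of `B` fixed by `t`
  obtain ⟨x, hxB, hx0, hx, hxa, hxb, hxv⟩ : ∃ x ∈ B, x ≠ 0 ∧ Q x = 0 ∧ polar Q a x = 0 ∧
      polar Q b x = 0 ∧ polar Q v x = 0 := by
    have h3 : 3 ≤ Module.finrank F ↥(B ⊓ perpK Q ![a, b, v]) := by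
      have := S.dimB
      have h1 := finrank_perpK (Q := Q) ![a, b, v]
      have h2 := Submodule.finrank_sup_add_finrank_inf_eq B (perpK Q ![a, b, v])
      have h4 := Submodule.finrank_le (B ⊔ perpK Q ![a, b, v])
      omega
    obtain ⟨x, hx, hx0, hQx⟩ := exists_sing_in Q h3
    have := mem_perpK.1 hx.2
    exact ⟨x, hx.1, hx0, hQx, by simpa using this 0, by simpa using this 1, by simpa using this 2⟩
  have htx : (t : Matrix ι ι F) *ᵥ x = x := by
    rw [ht', L.mulVec, polar_comm Q x a, hxa, polar_comm Q x b, hxb]; simp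
  have hxA : ∀ w ∈ A, polar Q x w = 0 := fun w hw => by rw [polar_comm, S.orth w hw x hxB]
  obtain ⟨p, hpA, q, hqB, epq⟩ := Submodule.mem_sup.1
    (S.top ▸ Submodule.mem_top : (t : Matrix ι ι F) *ᵥ v ∈ A ⊔ B)
  have hp0 : p ≠ 0 := fun e => hvout (by rw [← epq, e, zero_add]; exact hqB)
  have hxq : polar Q x q = 0 := by
    have h1 : polar Q x ((t : Matrix ι ι F) *ᵥ v) = 0 := by
      conv_lhs => rw [← htx]
      rw [polar_of_isometry hti, polar_comm, hxv]
    rwa [← epq, polar_add_right, hxA p hpA, zero_add] at h1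
  let P : Submodule F (ι → F) :=
    { carrier := {w | w ∈ A ∧ ∀ c : F, sg Q x (c • w) ∈ G}
      zero_mem' := ⟨A.zero_mem, fun c => by rw [smul_zero, sg_zero hx]; exact G.one_mem⟩
      add_mem' := fun {w w'} h h' => ⟨A.add_mem h.1 h'.1, fun c => by
        rw [smul_add, sg_add hx (hxA _ (A.smul_mem _ h.1)) (hxA _ (A.smul_mem _ h'.1))]
        exact G.mul_mem (h.2 c) (h'.2 c)⟩
      smul_mem' := fun k w h => ⟨A.smul_mem _ h.1, fun c => by rw [smul_smul]; exact h.2 _⟩ }
  have hPA : ∀ w ∈ P, w ∈ A := fun w h => h.1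
  have hpP : p ∈ P := by
    refine ⟨hpA, fun c => ?_⟩
    have hxv' : polar Q x (c • v) = 0 := by rw [polar_smul_right, polar_comm, hxv, smul_zero]
    have h1 := G.mul_mem (G.mul_mem ht (S.sgB_mem hle hx hxv' hxB (B.smul_mem c hvB))) (G.inv_mem ht)
    rw [sg_conj hti hx hxv', htx, mulVec_smul, ← epq, smul_add,
      sg_add hx (hxA _ (A.smul_mem _ hpA)) (by rw [polar_smul_right, hxq, smul_zero])] at h1
    have h2 := G.mul_mem h1 (G.inv_mem (S.sgB_mem hle hx (u := c • q)
      (by rw [polar_smul_right, hxq, smul_zero]) hxB (B.smul_mem c hqB)))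
    rwa [mul_inv_cancel_right] at h2
  have hconj : ∀ h ∈ G, h ∈ Cfsg.Geo.subspaceStabilizer A → (h : Matrix ι ι F) *ᵥ x = x →
      ∀ w ∈ P, (h : Matrix ι ι F) *ᵥ w ∈ P := by
    intro h hh hs hfx w hw
    refine ⟨mem_subspaceStabilizer.1 hs w hw.1, fun c => ?_⟩
    have := G.mul_mem (G.mul_mem hh (hw.2 c)) (G.inv_mem hh)
    rwa [sg_conj (mem_isometryGroup_of_omega (hG hh)) hx (hxA _ (A.smul_mem _ hw.1)), hfx,
      mulVec_smul] at this
  -- the whole small member
  have hAP : ∀ w ∈ A, w ∈ P := by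
    rcases Nat.lt_or_ge (Module.finrank F A) 3 with hd | hd
    · rcases Nat.lt_or_ge (Module.finrank F A) 2 with hd1 | hd2
      · have hle' : Submodule.span F {p} ≤ A := (Submodule.span_singleton_le_iff_mem _ _).2 hpA
        have e : Submodule.span F {p} = A :=
          Submodule.eq_of_le_of_finrank_le hle' (by rw [finrank_span_singleton hp0]; omega)
        intro w hw
        rw [← e] at hw
        obtain ⟨c, rfl⟩ := Submodule.mem_span_singleton.1 hw
        exact P.smul_mem c hpP
      have hd2' : Module.finrank F A = 2 := by omega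
      obtain ⟨w, hwA, hwp, hwnp, hQw⟩ : ∃ w ∈ A, polar Q p w ≠ 0 ∧ w ∉ Submodule.span F {p} ∧
          Q w ≠ 0 := by
        obtain ⟨w₀, hw₀, hw₀'⟩ : ∃ w₀ ∈ A, w₀ ∉ Submodule.span F {p} := by
          refine SetLike.not_le_iff_exists.1 fun h => ?_
          have := Submodule.finrank_mono h
          rw [finrank_span_singleton hp0] at this
          omega
        obtain ⟨w₁, hw₁, hw₁p, hw₁'⟩ : ∃ w ∈ A, polar Q p w ≠ 0 ∧ w ∉ Submodule.span F {p} := by
          obtain ⟨y, hy, hyp⟩ : ∃ y ∈ A, polar Q p y ≠ 0 := by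
            by_contra h; push Not at h; exact hp0 (S.ndA hpA h)
          by_cases hyl : y ∈ Submodule.span F {p}
          · by_cases h0 : polar Q p w₀ = 0
            · refine ⟨y + w₀, A.add_mem hy hw₀, by rwa [polar_add_right, h0, add_zero], fun h => hw₀' ?_⟩
              simpa using Submodule.sub_mem _ h hyl
            · exact ⟨w₀, hw₀, h0, hw₀'⟩
          · exact ⟨y, hy, hyp, hyl⟩
        have hout : ∀ lam : F, w₁ + lam • p ∉ Submodule.span F {p} := fun lam h => hw₁' (by
          simpa using Submodule.sub_mem _ h (Submodule.smul_mem _ lam (Submodule.mem_span_singleton_self p)))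
        rcases Nat.lt_or_ge (Fintype.card F) 4 with hq | hq
        · exact ⟨w₁, hw₁, hw₁p, hw₁', S.small (by omega) hd2' w₁ hw₁
            fun e => hw₁' (by rw [e]; exact Submodule.zero_mem _)⟩
        by_contra hcon
        push Not at hcon
        have hval : ∀ lam : F, polar Q p (w₁ + lam • p) = polar Q p w₁ + lam * polar Q p p ∧
            Q (w₁ + lam • p) = Q w₁ + lam * lam * Q p + lam * polar Q p w₁ := fun lam => by
          constructor
          · rw [polar_add_right, polar_smul_right, smul_eq_mul]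
          · rw [QuadraticMap.map_add ⇑Q, QuadraticMap.map_smul, polar_smul_right, polar_comm Q w₁ p,
              smul_eq_mul, smul_eq_mul]
        let f₁ : Polynomial F := Polynomial.C (polar Q p w₁) + Polynomial.C (polar Q p p) * Polynomial.X
        let f₂ : Polynomial F := Polynomial.C (Q p) * Polynomial.X ^ 2 +
          Polynomial.C (polar Q p w₁) * Polynomial.X + Polynomial.C (Q w₁)
        have hf₁ : f₁ ≠ 0 := fun e => hw₁p (by
          simpa [f₁, Polynomial.coeff_X] using congrArg (fun r => r.coeff 0) e)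
        have hf₂ : f₂ ≠ 0 := fun e => hw₁p (by
          simpa [f₂, Polynomial.coeff_X, Polynomial.coeff_C] using congrArg (fun r => r.coeff 1) e)
        have hroots : ∀ lam : F, lam ∈ (f₁ * f₂).roots := fun lam => by
          rw [Polynomial.mem_roots (mul_ne_zero hf₁ hf₂), Polynomial.IsRoot, Polynomial.eval_mul,
            mul_eq_zero]
          by_cases h1 : polar Q p (w₁ + lam • p) = 0
          · left; rw [(hval lam).1] at h1; simp [f₁]
            have hpp := polar_self Q p
            rw [nsmul_eq_mul, Nat.cast_ofNat] at hpp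
            linear_combination h1 - lam * hpp
          · right
            have h2 := hcon _ (A.add_mem hw₁ (A.smul_mem lam hpA)) h1 (hout lam)
            rw [(hval lam).2] at h2
            simp [f₂]
            linear_combination h2
        have hcard : Fintype.card F ≤ (f₁ * f₂).natDegree := by
          refine le_trans ?_ (Polynomial.card_roots' _)
          refine le_trans (le_of_eq ?_) (Multiset.toFinset_card_le _)
          rw [← Finset.card_univ]
          congr 1
          ext l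
          simp only [Finset.mem_univ, Multiset.mem_toFinset, hroots l]
        have hdeg : (f₁ * f₂).natDegree ≤ 1 + 2 := by
          refine le_trans Polynomial.natDegree_mul_le (Nat.add_le_add ?_ ?_)
          · simp only [f₁]; compute_degree
          · simp only [f₂]; compute_degree
        omega
      obtain ⟨s, hs, t', ht'', hst, htp, hsp⟩ : ∃ s ∈ B, ∃ t' ∈ B, Q s = 0 ∧ (Q t' = 0 ∧
          polar Q s t' = 1) ∧ polar Q x s = 0 ∧ polar Q x t' = 0 := by
        obtain ⟨s, t', hs, ht', hst, hp⟩ := exists_hyp_perp S.ndB' ![(⟨x, hxB⟩ : B)]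
          (by have := S.dimB; omega)
        have p0 := hp 0
        simp [polar] at p0
        exact ⟨s, s.2, t', t'.2, by simpa using hs, ⟨by simpa using ht',
          by simpa [polar] using hst⟩, by simpa [polar] using p0.1, by simpa [polar] using p0.2⟩
      set w' := s + Q w • t' with hw'
      have hQw' : Q w' = Q w := by
        rw [hw', QuadraticMap.map_add ⇑Q, QuadraticMap.map_smul, hst, htp.1, polar_smul_right, htp.2]
        simp
      have hQw'0 : Q w' ≠ 0 := by rw [hQw']; exact hQw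
      have hw'B : w' ∈ B := B.add_mem hs (B.smul_mem _ ht'')
      have hreg : Reg F (ι → F) := Or.inr (by rw [Module.finrank_fintype_fun_eq_card]; omega)
      set h := isoMat Q (refl Q w * refl Q w') with hh
      have happ : ∀ u, (h : Matrix ι ι F) *ᵥ u =
          (refl Q w).1 (u - (polar Q u w' / Q w') • w') := fun u => by
        rw [hh, isoMat_mulVec, Subgroup.coe_mul, LinearEquiv.mul_apply, refl_apply hQw'0]
      have happA : ∀ u ∈ A, (h : Matrix ι ι F) *ᵥ u = u - (polar Q u w / Q w) • w := fun u hu => by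
        rw [happ, S.orth u hu w' hw'B, zero_div, zero_smul, sub_zero, refl_apply hQw]
      have hmem : h ∈ Cfsg.Geo.subspaceStabilizer A := mem_stab_of_le fun u hu => by
        rw [happA u hu]; exact A.sub_mem hu (A.smul_mem _ hwA)
      have hfx : (h : Matrix ι ι F) *ᵥ x = x := by
        have e : polar Q x w' = 0 := by
          rw [hw', polar_add_right, polar_smul_right, hsp.1, hsp.2, smul_zero, add_zero]
        rw [happ, e, zero_div, zero_smul, sub_zero, refl_apply hQw, hxA w hwA]
        simp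
      have hhG : h ∈ G := hle ⟨hmem, refl_pair_omega S.nd hreg hQw hQw'⟩
      have h1 := P.sub_mem hpP (hconj h hhG hmem hfx p hpP)
      rw [happA p hpA, sub_sub_cancel] at h1
      have hwP : w ∈ P := by
        have h2 := P.smul_mem (polar Q p w / Q w)⁻¹ h1
        rwa [smul_smul, inv_mul_cancel₀ (div_ne_zero hwp hQw), one_smul] at h2
      have hli : LinearIndependent F ![p, w] := by
        rw [LinearIndependent.pair_iff' hp0]
        exact fun c e => hwnp (e ▸ Submodule.smul_mem _ c (Submodule.mem_span_singleton_self p))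
      have hle' : Submodule.span F (Set.range ![p, w]) ≤ A := by
        rw [Submodule.span_le]
        rintro _ ⟨i, rfl⟩
        fin_cases i
        · exact hpA
        · exact hwA
      have e := Submodule.eq_of_le_of_finrank_le hle' (by
        rw [finrank_span_eq_card hli, Fintype.card_fin, hd2'])
      intro u hu
      rw [← e] at hu
      refine (Submodule.span_le.2 ?_ : Submodule.span F (Set.range ![p, w]) ≤ P) hu
      rintro _ ⟨i, rfl⟩
      fin_cases i
      · exact hpP
      · exact hwP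
    · obtain ⟨z, hzA, hQz, hzp⟩ : ∃ z ∈ A, Q z = 0 ∧ polar Q p z ≠ 0 := by
        by_contra hcon
        push Not at hcon
        obtain ⟨s, hsA, hs0, hs⟩ := exists_sing_in Q hd
        obtain ⟨y, hy, hsy⟩ : ∃ y ∈ A, polar Q s y ≠ 0 := by
          by_contra h; push Not at h; exact hs0 (S.ndA hsA h)
        set t₁ := (polar Q s y)⁻¹ • y with ht₁
        have e1 : polar Q s t₁ = 1 := by rw [ht₁, polar_smul_right, smul_eq_mul, inv_mul_cancel₀ hsy]
        have ht₁A : t₁ ∈ A := A.smul_mem _ hy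
        clear_value t₁
        set t₂ := t₁ + (-Q t₁) • s with ht₂
        have ht₂A : t₂ ∈ A := A.add_mem ht₁A (A.smul_mem _ hsA)
        have hQt : Q t₂ = 0 := by
          rw [ht₂, QuadraticMap.map_add ⇑Q, QuadraticMap.map_smul, hs, polar_smul_right,
            polar_comm Q t₁ s, e1]
          simp
        have hst : polar Q s t₂ = 1 := by
          rw [ht₂, polar_add_right, polar_smul_right, polar_self_sing hs, e1]; simp
        refine hp0 (S.ndA hpA fun u hu => ?_)
        set u' := u + (-polar Q t₂ u) • s + (-polar Q s u) • t₂ with hu'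
        have k1 : polar Q u' s = 0 := by
          rw [hu', polar_add_left, polar_add_left, polar_smul_left, polar_smul_left,
            polar_self_sing hs, polar_comm Q u s, polar_comm Q t₂ s, hst]
          simp
        have k2 : polar Q u' t₂ = 0 := by
          rw [hu', polar_add_left, polar_add_left, polar_smul_left, polar_smul_left,
            polar_self_sing hQt, polar_comm Q u t₂, hst]
          simp
        have hu'A : u' ∈ A := A.add_mem (A.add_mem hu (A.smul_mem _ hsA)) (A.smul_mem _ ht₂A)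
        have hsing : Q (u' + s + (-Q u') • t₂) = 0 := by
          rw [QuadraticMap.map_add ⇑Q (u' + s), QuadraticMap.map_add ⇑Q u', QuadraticMap.map_smul,
            hs, hQt, k1, polar_add_left, polar_smul_right, polar_smul_right, k2, hst]
          simp
        have h1 := hcon _ (A.add_mem (A.add_mem hu'A hsA) (A.smul_mem _ ht₂A)) hsing
        rw [hu'] at h1
        simpa [polar_add_right, polar_smul_right, hcon s hsA hs, hcon t₂ ht₂A hQt] using h1
      -- the differences
      have hψ : ∀ u ∈ A, polar Q z u = 0 →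
          polar Q p z • u - polar Q p u • z - (Q u * polar Q p z) • z ∈ P := by
        intro u hu hzu
        have hs : sg Q z u ∈ Cfsg.Geo.subspaceStabilizer A := S.sg_stab_A hQz hzu hzA hu
        have hfx : (sg Q z u : Matrix ι ι F) *ᵥ x = x := by
          rw [sg_mulVec hQz hzu, hxA z hzA, hxA u hu]; simp
        have h1 := P.sub_mem (hconj _ (hle ⟨hs, sg_mem_omegaGL S.good hQz hzu⟩) hs hfx p hpP) hpP
        rw [sg_mulVec hQz hzu] at h1
        convert h1 using 1
        abel
      obtain ⟨u, hu, u', hu', hzu, hzu', huu'⟩ : ∃ u ∈ A, ∃ u' ∈ A, polar Q z u = 0 ∧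
          polar Q z u' = 0 ∧ polar Q u u' ≠ 0 := by
        by_contra hcon
        push Not at hcon
        have hz0 : z ≠ 0 := fun e => hzp (by rw [e, polar_zero_right])
        let φ : A →ₗ[F] F := (polarBilin Q z).comp A.subtype
        let K := (LinearMap.ker φ).map A.subtype
        have hK2 : 2 ≤ Module.finrank F K := by
          rw [Submodule.finrank_map_subtype_eq]
          have h1 := φ.finrank_range_add_finrank_ker
          have h2 := Submodule.finrank_le (LinearMap.range φ)
          rw [Module.finrank_self] at h2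
          omega
        obtain ⟨v₁, hv₁, hv₁z⟩ : ∃ v₁ ∈ K, v₁ ∉ Submodule.span F {z} := by
          refine SetLike.not_le_iff_exists.1 fun h => ?_
          have := Submodule.finrank_mono h
          rw [finrank_span_singleton hz0] at this
          omega
        obtain ⟨⟨v₁, hv₁A⟩, hv₁K, rfl⟩ := hv₁
        have hzv₁ : polar Q z v₁ = 0 := by simpa [φ] using hv₁K
        set c := polar Q v₁ p / polar Q z p with hc
        have hzp' : polar Q z p ≠ 0 := by rwa [polar_comm]
        refine hv₁z (Submodule.mem_span_singleton.2 ⟨c, (sub_eq_zero.1 (S.ndA (A.sub_mem hv₁A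
          (A.smul_mem c hzA)) fun y hy => ?_)).symm⟩)
        set y' := y + (-(polar Q z y / polar Q z p)) • p with hy'
        have e1 : polar Q z y' = 0 := by
          rw [hy', polar_add_right, polar_smul_right, smul_eq_mul, neg_mul, div_mul_cancel₀ _ hzp',
            add_neg_cancel]
        have e2 := hcon v₁ hv₁A y' (A.add_mem hy (A.smul_mem _ hpA)) hzv₁ e1
        rw [hy', polar_add_right, polar_smul_right, smul_eq_mul] at e2
        rw [polar_sub_left, polar_smul_left, smul_eq_mul, hc]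
        linear_combination e2
      have hzP : z ∈ P := by
        have h1 := P.sub_mem (P.sub_mem (hψ (u + u') (A.add_mem hu hu')
          (by rw [polar_add_right, hzu, hzu', add_zero])) (hψ u hu hzu)) (hψ u' hu' hzu')
        have h2 := P.smul_mem (-(polar Q u u' * polar Q p z))⁻¹ h1
        convert h2 using 1
        rw [QuadraticMap.map_add ⇑Q, polar_add_right]
        match_scalars <;> field_simp <;> ring
      intro w hw
      set w₀ := w + (-(polar Q z w / polar Q p z)) • p with hw₀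
      have hzw₀ : polar Q z w₀ = 0 := by
        rw [hw₀, polar_add_right, polar_smul_right, polar_comm Q z p, smul_eq_mul, neg_mul,
          div_mul_cancel₀ _ hzp, add_neg_cancel]
      have hw₀A : w₀ ∈ A := A.add_mem hw (A.smul_mem _ hpA)
      have h1 := P.add_mem (P.smul_mem (polar Q p z)⁻¹ (P.add_mem (hψ w₀ hw₀A hzw₀)
        (P.smul_mem (polar Q p w₀ + Q w₀ * polar Q p z) hzP)))
        (P.smul_mem (polar Q z w / polar Q p z) hpP)
      convert h1 using 1
      rw [show polar Q p z • w₀ - polar Q p w₀ • z - (Q w₀ * polar Q p z) • z +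
        (polar Q p w₀ + Q w₀ * polar Q p z) • z = polar Q p z • w₀ by module,
        smul_smul, inv_mul_cancel₀ hzp, one_smul, hw₀]
      module
  have hfull : RootFull Q G x := by
    refine ⟨hx, fun u hu => ?_⟩
    obtain ⟨u₁, hu₁, u₂, hu₂, rfl⟩ := Submodule.mem_sup.1 (S.top ▸ Submodule.mem_top : u ∈ A ⊔ B)
    have h2 : polar Q x u₂ = 0 := by rwa [polar_add_right, hxA u₁ hu₁, zero_add] at hu
    rw [sg_add hx (hxA u₁ hu₁) h2]
    refine G.mul_mem ?_ (S.sgB_mem hle hx h2 hxB hu₂)
    simpa using (hAP u₁ hu₁).2 1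
  obtain ⟨y, hyB, hxy⟩ : ∃ y ∈ B, polar Q x y ≠ 0 := by
    by_contra h; push Not at h; exact hx0 (S.ndB hxB h)
  set z := y + (-(Q y / polar Q x y)) • x with hz
  have hzB : z ∈ B := B.add_mem hyB (B.smul_mem _ hxB)
  have hQz : Q z = 0 := by
    rw [hz, QuadraticMap.map_add ⇑Q, QuadraticMap.map_smul, hx, polar_smul_right, polar_comm Q y x,
      smul_eq_mul, smul_eq_mul]
    field_simp
    ring
  have hxz : polar Q x z ≠ 0 := by
    rwa [hz, polar_add_right, polar_smul_right, polar_self_sing hx, smul_zero, add_zero]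
  obtain ⟨u, huB, hzu, hQu⟩ : ∃ u ∈ B, polar Q z u = 0 ∧ Q u ≠ 0 := by
    obtain ⟨s, t', hs, ht', hst, hp⟩ := exists_hyp_perp S.ndB' ![(⟨z, hzB⟩ : B)]
      (by have := S.dimB; omega)
    have p0 := hp 0
    simp [polar] at p0
    refine ⟨(s : ι → F) + (t' : ι → F), B.add_mem s.2 t'.2, ?_, ?_⟩
    · rw [polar_add_right]; simp only [polar]; rw [p0.1, p0.2, add_zero]
    · rw [QuadraticMap.map_add ⇑Q, show Q (s : ι → F) = 0 by simpa using hs,
        show Q (t' : ι → F) = 0 by simpa using ht',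
        show polar Q (s : ι → F) (t' : ι → F) = 1 by simpa [polar] using hst]
      simp
  refine omega_le_of_pair S.nd (by omega) hG hfull
    (rootFull_conj hG hfull (S.sgB_mem hle hQz hzu hzB huB)) ?_
  rw [sg_mulVec hQz hzu]
  simp only [polar_sub_right, polar_add_right, polar_smul_right, polar_self_sing hx, smul_eq_mul]
  intro h
  refine mul_ne_zero hQu (mul_ne_zero hxz hxz) ?_
  linear_combination -h

omit hle hG in
/-- The stabiliser of a non-degenerate subspace is maximal in Ω. -/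
theorem isMaximalIn
    (hiso : Module.finrank F A = Module.finrank F B →
      ∀ φ : B →ₗ[F] (ι → F), (∀ b, φ b ∈ A) → ∃ b : B, Q (φ b) ≠ Q (b : ι → F)) :
    Cfsg.Geo.IsMaximalIn (Cfsg.Geo.omegaGL ⇑Q)
      (Cfsg.Geo.subspaceStabilizer A ⊓ Cfsg.Geo.omegaGL ⇑Q) := by
  refine isMaximalIn_of inf_le_right ?_ fun N hle hN g hg hgn => ?_
  · obtain ⟨a, ha, ha0⟩ := A.exists_mem_ne_zero_of_ne_bot S.ne
    obtain ⟨x, hxB, hx0, hx, -, -⟩ := S.exists_singB (Fin.elim0 : Fin 0 → (ι → F)) (by omega)
      (fun _ => 0)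
    have hxa : polar Q x a = 0 := by rw [polar_comm, S.orth a ha x hxB]
    obtain ⟨y, hyB, hxy⟩ : ∃ y ∈ B, polar Q x y ≠ 0 := by
      by_contra h; push Not at h; exact hx0 (S.ndB hxB h)
    refine ⟨sg Q x a, sg_mem_omegaGL S.good hx hxa, fun h => ha0 ?_⟩
    have h1 := S.B_of_stab (fun v => sg_isometry v) h.1 hyB
    rw [sg_mulVec hx hxa, polar_comm Q y a, S.orth a ha y hyB, zero_smul, sub_zero,
      polar_comm Q y x] at h1
    have h2 : polar Q x y • a ∈ A ⊓ B := ⟨A.smul_mem _ ha, by
      have := B.add_mem (B.sub_mem h1 hyB) (B.smul_mem (Q a * polar Q x y) hxB)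
      have e : polar Q x y • a = y + polar Q x y • a - (Q a * polar Q x y) • x - y +
          (Q a * polar Q x y) • x := by module
      rw [e]; exact this⟩
    rw [S.disjoint, Submodule.mem_bot, smul_eq_zero] at h2
    exact h2.resolve_left hxy
  · obtain ⟨a, b, L, ht, htn⟩ := S.exists_long_outside hle hN hiso hg fun h => hgn ⟨h, hN hg⟩
    exact S.omega_le_of_long hle hN L ht htn

end Split

omit [Fintype F] [DecidableEq ι] in
/-- The orthogonal complement of a non-degenerate subspace. -/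
lemma exists_nd_compl {W : Submodule F (ι → F)} (hW : Cfsg.Geo.IsNondegenerateOn (polar ⇑Q) W) :
    ∃ W' : Submodule F (ι → F), (∀ a ∈ W, ∀ b ∈ W', polar Q a b = 0) ∧
      (∀ v, (∀ a ∈ W, polar Q a v = 0) → v ∈ W') ∧ W ⊔ W' = ⊤ ∧
      Module.finrank F W + Module.finrank F W' = Fintype.card ι := by
  let f : (ι → F) →ₗ[F] Module.Dual F W := W.subtype.dualMap.comp (polarBilin Q)
  have hf : ∀ v (a : W), f v a = polar Q v a := fun v a => rfl
  refine ⟨LinearMap.ker f, fun a ha b hb => ?_, fun v hv => ?_, ?_⟩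
  · rw [polar_comm, ← hf b ⟨a, ha⟩, LinearMap.mem_ker.1 hb, LinearMap.zero_apply]
  · exact LinearMap.mem_ker.2 (LinearMap.ext fun a => by
      rw [hf, polar_comm, hv _ a.2, LinearMap.zero_apply])
  have hdisj : W ⊓ LinearMap.ker f = ⊥ := (Submodule.eq_bot_iff _).2 fun v hv => by
    by_contra h0
    obtain ⟨y, hy, hne⟩ := (hW v hv.1 h0).2
    exact hne (by rw [← hf v ⟨y, hy⟩, LinearMap.mem_ker.1 hv.2, LinearMap.zero_apply])
  have h1 := f.finrank_range_add_finrank_ker
  have h2 := Submodule.finrank_le (LinearMap.range f)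
  have h3 := Submodule.finrank_sup_add_finrank_inf_eq W (LinearMap.ker f)
  have h4 := Submodule.finrank_le (W ⊔ LinearMap.ker f)
  rw [Subspace.dual_finrank_eq] at h2
  rw [hdisj, finrank_bot, add_zero] at h3
  rw [Module.finrank_fintype_fun_eq_card] at h1 h4
  exact ⟨Submodule.eq_top_of_finrank_eq (by rw [Module.finrank_fintype_fun_eq_card]; omega),
    by omega⟩

omit [Fintype F] [DecidableEq ι] in
/-- A plane with a non-zero singular vector is of plus type. -/
lemma plus_of_plane {W : Submodule F (ι → F)} (hd : Module.finrank F W = 2) {a : ι → F}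
    (ha : a ∈ W) (ha0 : a ≠ 0) (hQa : Q a = 0) : Cfsg.Geo.IsPlusTypeOn ⇑Q W := by
  refine ⟨Submodule.span F {a}, (Submodule.span_singleton_le_iff_mem _ _).2 ha, fun x hx => ?_, by
    rw [finrank_span_singleton ha0, hd]⟩
  obtain ⟨c, rfl⟩ := Submodule.mem_span_singleton.1 hx
  rw [QuadraticMap.map_smul, hQa, smul_zero]

/-- The stabiliser of a non-degenerate subspace is maximal in Ω, in terms of the subspace alone. -/
theorem nondegStab_maximal (hQ : Nd Q) (hn : 13 ≤ Fintype.card ι) {W : Submodule F (ι → F)}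
    (hW0 : W ≠ ⊥) (hW1 : W ≠ ⊤) (hW : Cfsg.Geo.IsNondegenerateOn (polar ⇑Q) W)
    (hiso : ∀ W' : Submodule F (ι → F), (∀ a ∈ W, ∀ b ∈ W', polar Q a b = 0) → W ⊔ W' = ⊤ →
      W ⊓ W' = ⊥ → (∀ x ∈ W', (∀ y ∈ W', polar Q x y = 0) → x = 0) →
      Module.finrank F W + Module.finrank F W' = Fintype.card ι →
      Module.finrank F W = Module.finrank F W' →
      ∀ φ : W' →ₗ[F] (ι → F), (∀ b, φ b ∈ W) → ∃ b : W', Q (φ b) ≠ Q (b : ι → F))
    (hsmall : Fintype.card F ≤ 3 → ∀ U : Submodule F (ι → F), Module.finrank F U = 2 →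
      Cfsg.Geo.IsNondegenerateOn (polar ⇑Q) U →
      (U = W ∨ (Cfsg.Geo.AreOrthogonalFor (polar ⇑Q) U W ∧
        Module.finrank F U + Module.finrank F W = Fintype.card ι)) →
      ¬ Cfsg.Geo.IsPlusTypeOn ⇑Q U) :
    Cfsg.Geo.IsMaximalIn (Cfsg.Geo.omegaGL ⇑Q)
      (Cfsg.Geo.subspaceStabilizer W ⊓ Cfsg.Geo.omegaGL ⇑Q) := by
  obtain ⟨W', horth, -, htop, htot⟩ := exists_nd_compl hW
  have hW'0 : W' ≠ ⊥ := fun e => hW1 (by rwa [e, sup_bot_eq] at htop)
  rcases le_or_gt (Module.finrank F W) (Module.finrank F W') with h | h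
  · have S : Split Q W W' := ⟨hQ, hn, horth, htop, hW0, htot, h, fun hq hd a ha ha0 hQa =>
      hsmall hq W hd hW (Or.inl rfl) (plus_of_plane hd ha ha0 hQa)⟩
    exact S.isMaximalIn fun he φ hφ => hiso W' horth htop S.disjoint (fun x hx => S.ndB hx) htot he φ hφ
  · have horth' : ∀ a ∈ W', ∀ b ∈ W, polar Q a b = 0 := fun a ha b hb => by
      rw [polar_comm, horth b hb a ha]
    have hndW' : ∀ x ∈ W', (∀ y ∈ W', polar Q x y = 0) → x = 0 := fun x hx hxy => hQ x fun y => by
      obtain ⟨u, hu, v, hv, rfl⟩ := Submodule.mem_sup.1 (htop ▸ Submodule.mem_top : y ∈ W ⊔ W')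
      rw [polar_add_right, horth' x hx u hu, hxy v hv, add_zero]
    have S : Split Q W' W := ⟨hQ, hn, horth', by rw [sup_comm]; exact htop, hW'0, by omega, h.le,
      fun hq hd a ha ha0 hQa => hsmall hq W' hd
        (fun w hw hw0 => ⟨by_contra fun hc => hw0 (hndW' w hw fun y hy => by
            push Not at hc; rw [polar_comm]; exact hc y hy),
          by_contra fun hc => hw0 (hndW' w hw fun y hy => by push Not at hc; exact hc y hy)⟩)
        (Or.inr ⟨horth', by omega⟩) (plus_of_plane hd ha ha0 hQa)⟩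
    have e : Cfsg.Geo.subspaceStabilizer W ⊓ Cfsg.Geo.omegaGL ⇑Q =
        Cfsg.Geo.subspaceStabilizer W' ⊓ Cfsg.Geo.omegaGL ⇑Q := by
      ext g
      refine ⟨fun hg => ⟨S.stab_of_B (mem_isometryGroup_of_omega hg.2)
        (mem_subspaceStabilizer.1 hg.1), hg.2⟩, fun hg => ⟨mem_stab_of_le fun b hb =>
          S.B_of_stab (mem_isometryGroup_of_omega hg.2) hg.1 hb, hg.2⟩⟩
    rw [e]
    exact S.isMaximalIn fun he => absurd he (by omega)

end Cfsg.Agent.Lib.Forms
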