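import Cfsg.Agent.Lib.Forms.OrthSimilitude

/-!
The group of orthogonal similitudes is maximal in `SL` in dimension at least ten.
-/

set_option autoImplicit false
set_option linter.unusedSectionVars false
set_option linter.unusedVariables false

namespace Cfsg.Agent.Lib.Forms

open Matrix

variable {ι : Type} [Fintype ι] [DecidableEq ι] {F : Type*} [Field F]
  {B : LinearMap.BilinForm F (ι → F)}

/-- The radical of the span of `u`. -/
def radB (B : LinearMap.BilinForm F (ι → F)) {k : ℕ} (u : Fin k → (ι → F)) :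
    Submodule F (ι → F) :=
  Submodule.span F (Set.range u) ⊓ perpB B u

namespace OddForm

variable (O : OddForm B)
include O

omit O in
lemma finrank_rad_le {k : ℕ} (u : Fin k → (ι → F)) : Module.finrank F (radB B u) ≤ k := by
  refine (Submodule.finrank_mono (inf_le_left : radB B u ≤ _)).trans ?_
  have h := finrank_range_le_card (R := F) u
  rw [Fintype.card_fin] at h
  exact h

lemma exists_nonsingular_rad {k : ℕ} (u : Fin k → (ι → F))
    (hk : k + Module.finrank F (radB B u) < Fintype.card ι) :
    ∃ a, (∀ i, B (u i) a = 0) ∧ B a a ≠ 0 := by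
  by_contra hcon
  push Not at hcon
  have hle : perpB B u ≤ radB B u := by
    refine le_inf (fun x hx => O.mem_span_of_perp fun y hy => ?_) le_rfl
    have hxx := hcon x (mem_perpB.1 hx)
    have hyy := hcon y hy
    have hxy := hcon (y + x) (mem_perpB.1 (add_mem (mem_perpB.2 hy) hx))
    simp only [map_add, LinearMap.add_apply, hxx, hyy, O.symm y x, zero_add, add_zero] at hxy
    have : (2 : F) * B x y = 0 := by linear_combination hxy
    exact (mul_eq_zero.1 this).resolve_left O.two
  have h1 := Submodule.finrank_mono hle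
  have := O.finrank_perp u
  omega

lemma finrank_rad_cons {k : ℕ} (u : Fin k → (ι → F)) {a : ι → F} (ha : ∀ i, B (u i) a = 0)
    (haa : B a a ≠ 0) :
    Module.finrank F (radB B (Fin.cons a u)) ≤ Module.finrank F (radB B u) := by
  refine Submodule.finrank_mono ?_
  rintro x ⟨hx, hxp⟩
  rw [SetLike.mem_coe, Fin.range_cons, Submodule.mem_span_insert] at hx
  obtain ⟨c, s, hs, rfl⟩ := hx
  have hp := mem_perpB.1 hxp
  have hsa : B a s = 0 := by
    have : s ∈ LinearMap.ker (B a) := by
      refine Submodule.span_le.2 ?_ hs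
      rintro _ ⟨i, rfl⟩
      change B a (u i) = 0
      rw [O.symm]; exact ha i
    exact this
  have h0 := hp 0
  simp [hsa, haa] at h0
  subst h0
  simp only [zero_smul, zero_add] at hp ⊢
  exact ⟨hs, mem_perpB.2 fun i => by simpa using hp i.succ⟩

variable [Finite F]

/-- A singular vector orthogonal to given vectors with a partner there. -/
lemma exists_partner_rad {k : ℕ} (u : Fin k → (ι → F)) (hk : k + 2 + Module.finrank F (radB B u) < Fintype.card ι) :
    ∃ z y, IsSing B z ∧ (∀ i, B (u i) z = 0) ∧ (∀ i, B (u i) y = 0) ∧ B z y ≠ 0 := by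
  obtain ⟨a, ha, haa⟩ := O.exists_nonsingular_rad u (by omega)
  have r1 := O.finrank_rad_cons u ha haa
  obtain ⟨b, hb, hbb⟩ := O.exists_nonsingular_rad (Fin.cons a u) (by omega)
  have r2 := O.finrank_rad_cons (Fin.cons a u) hb hbb
  obtain ⟨c, hc, hcc⟩ := O.exists_nonsingular_rad (Fin.cons b (Fin.cons a u)) (by omega)
  have hab : B a b = 0 := by simpa using hb 0
  have hbc : B b c = 0 := by simpa using hc 0
  have hac : B a c = 0 := by simpa using hc 1
  have hb' : ∀ i, B (u i) b = 0 := fun i => by simpa using hb i.succ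
  have hc' : ∀ i, B (u i) c = 0 := fun i => by simpa using hc i.succ.succ
  have hne : ringChar F ≠ 2 := fun e => O.two (by
    have := ringChar.spec F 2
    simpa using this.2 (e ▸ dvd_rfl))
  obtain ⟨x, y, hxy⟩ : ∃ x y : F, B a a * x ^ 2 + B b b * y ^ 2 = -B c c := by
    haveI := Fintype.ofFinite F
    open Polynomial in
    obtain ⟨x, y, h⟩ := FiniteField.exists_root_sum_quadratic
      (f := C (B a a) * X ^ 2 - C (-B c c)) (g := C (B b b) * X ^ 2)
      (by
        rw [Polynomial.degree_sub_eq_left_of_degree_lt] <;>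
          rw [Polynomial.degree_C_mul_X_pow 2 haa]
        · rfl
        · exact lt_of_le_of_lt Polynomial.degree_C_le (by norm_num))
      (by rw [Polynomial.degree_C_mul_X_pow 2 hbb]; rfl)
      (FiniteField.odd_card_of_char_ne_two hne)
    simp at h
    exact ⟨x, y, by linear_combination h⟩
  refine ⟨x • a + y • b + c, c, ?_, fun i => ?_, hc', ?_⟩
  · simp only [IsSing, map_add, map_smul, LinearMap.add_apply, LinearMap.smul_apply, smul_eq_mul,
      hab, hac, hbc, O.symm b a, O.symm c a, O.symm c b]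
    linear_combination hxy
  · simp [ha i, hb' i, hc' i]
  · simpa [hac, hbc] using hcc

/-- Singular vectors span orthogonal complements of few vectors. -/
lemma mem_span_sing_rad {k : ℕ} (u : Fin k → (ι → F)) (hk : k + 2 + Module.finrank F (radB B u) < Fintype.card ι) {x : ι → F}
    (hx : ∀ i, B (u i) x = 0) :
    x ∈ Submodule.span F {z | IsSing B z ∧ ∀ i, B (u i) z = 0} := by
  obtain ⟨z, y, hz, hzu, hyu, hzy⟩ := O.exists_partner_rad u hk
  set S := Submodule.span F {z | IsSing B z ∧ ∀ i, B (u i) z = 0}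
  have key : ∀ w, (∀ i, B (u i) w = 0) → B z w ≠ 0 → w ∈ S := by
    intro w hw hne
    set d := -(B w w) / (2 * B z w) with hd
    have h1 : w + d • z ∈ S := by
      refine Submodule.subset_span ⟨?_, fun i => by simp [hw i, hzu i]⟩
      simp only [IsSing, map_add, map_smul, LinearMap.add_apply, LinearMap.smul_apply, smul_eq_mul,
        show B z z = 0 from hz, O.symm w z, hd]
      have := O.two
      field_simp
      ring
    have h2 : z ∈ S := Submodule.subset_span ⟨hz, hzu⟩
    simpa using S.sub_mem h1 (S.smul_mem d h2)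
  by_cases hne : B z x = 0
  · have h1 : x + y ∈ S := key _ (fun i => by simp [hx i, hyu i]) (by simp [hne, hzy])
    simpa using S.sub_mem h1 (key y hyu hzy)
  · exact key x hx hne

/-- A linear functional not vanishing on a complement is non-zero on a singular vector there. -/
lemma exists_sing_ne_rad {k : ℕ} (u : Fin k → (ι → F)) (hk : k + 2 + Module.finrank F (radB B u) < Fintype.card ι) {a : ι → F}
    (ha : a ∉ Submodule.span F (Set.range u)) :
    ∃ z, IsSing B z ∧ (∀ i, B (u i) z = 0) ∧ B a z ≠ 0 := by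
  obtain ⟨x, hx, hax⟩ := O.exists_functional_ne ha
  by_contra hcon
  push Not at hcon
  apply hax
  have hle : Submodule.span F {z | IsSing B z ∧ ∀ i, B (u i) z = 0} ≤ LinearMap.ker (B a) :=
    Submodule.span_le.2 fun z hz => hcon z hz.1 hz.2
  exact hle (O.mem_span_sing_rad u hk hx)

/-- A singular vector orthogonal to given vectors and outside their span. -/
lemma exists_sing_notMem_rad {k : ℕ} (u : Fin k → (ι → F)) (hk : k + 2 + Module.finrank F (radB B u) < Fintype.card ι) :
    ∃ z, IsSing B z ∧ (∀ i, B (u i) z = 0) ∧ z ∉ Submodule.span F (Set.range u) := by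
  obtain ⟨p, hp, hps⟩ : ∃ p ∈ perpB B u, p ∉ Submodule.span F (Set.range u) := by
    refine SetLike.not_le_iff_exists.1 fun hle => ?_
    have h1 := Submodule.finrank_mono hle
    have h2 := O.finrank_perp u
    have h3 := finrank_range_le_card (R := F) u
    rw [Fintype.card_fin] at h3
    have h4 : Module.finrank F (Submodule.span F (Set.range u)) ≤ k := h3
    have h5 : Module.finrank F (radB B u) = Module.finrank F ↥(Submodule.span F (Set.range u) ⊓ perpB B u) := rfl
    rw [inf_eq_right.2 hle] at h5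
    omega
  obtain ⟨z, hz, hzu, hpz⟩ := O.exists_sing_ne_rad u hk hps
  refine ⟨z, hz, hzu, fun hmem => hpz ?_⟩
  have : z ∈ LinearMap.ker (B p) := by
    refine Submodule.span_le.2 ?_ hmem
    rintro _ ⟨i, rfl⟩
    change B p (u i) = 0
    rw [O.symm]
    exact mem_perpB.1 hp i
  exact this


lemma mem_span_sing_low {k : ℕ} (u : Fin k → (ι → F)) (hk : 2 * k + 2 < Fintype.card ι)
    {x : ι → F} (hx : ∀ i, B (u i) x = 0) :
    x ∈ Submodule.span F {z | IsSing B z ∧ ∀ i, B (u i) z = 0} :=
  O.mem_span_sing_rad u (by have := finrank_rad_le (B := B) u; omega) hx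

lemma exists_sing_ne_low {k : ℕ} (u : Fin k → (ι → F)) (hk : 2 * k + 2 < Fintype.card ι) {a : ι → F}
    (ha : a ∉ Submodule.span F (Set.range u)) :
    ∃ z, IsSing B z ∧ (∀ i, B (u i) z = 0) ∧ B a z ≠ 0 :=
  O.exists_sing_ne_rad u (by have := finrank_rad_le (B := B) u; omega) ha

lemma exists_sing_notMem_low {k : ℕ} (u : Fin k → (ι → F)) (hk : 2 * k + 2 < Fintype.card ι) :
    ∃ z, IsSing B z ∧ (∀ i, B (u i) z = 0) ∧ z ∉ Submodule.span F (Set.range u) :=
  O.exists_sing_notMem_rad u (by have := finrank_rad_le (B := B) u; omega)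

section

variable {G : Subgroup (GL ι F)} (hG : HasSieg B G)
include hG
variable (hN : 10 ≤ Fintype.card ι)
include hN


/-- All multiples of a singular centre outside the span. -/
lemma centre_of_outside_low {u w z : ι → F} (huw : B u w = 0) (hm : tb B u w ∈ G) (hw : IsSing B w)
    (hz : IsSing B z) (hzw : B z w = 0) (hzu : B z u = 0)
    (hout : u ∉ Submodule.span F (Set.range ![w, z])) (k : F) : tb B (k • z) w ∈ G := by
  obtain ⟨x, hx, hxp, hux⟩ := O.exists_sing_ne_low ![w, z] (by omega) hout
  have hxw : B x w = 0 := by rw [O.symm]; simpa using hxp 0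
  have hxz : B x z = 0 := by rw [O.symm]; simpa using hxp 1
  have h := O.move_left hG huw hm ⟨hx, hz, hxz⟩ hxw hzw (k / B u x)
  rw [O.symm u z, hzu, mul_zero, zero_smul, sub_zero, div_mul_cancel₀ k hux] at h
  exact h

/-- The set of centres contains the common complement. -/
lemma centre_of_perp_low {u w p : ι → F} (huw : B u w = 0) (hm : tb B u w ∈ G) (hu : IsSing B u)
    (hw : IsSing B w) (hind : u ∉ Submodule.span F {w}) (hp : B p w = 0) (hpu : B p u = 0) :
    tb B p w ∈ G := by
  have hmem := O.mem_span_sing_low ![w, u] (by omega) (x := p)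
    (fun i => by fin_cases i <;> simp [O.symm w p, O.symm u p, hp, hpu])
  suffices H : ∀ c : F, B (c • p) w = 0 ∧ tb B (c • p) w ∈ G by simpa using (H 1).2
  clear hp hpu
  induction hmem using Submodule.span_induction with
  | zero => intro c; simp [tb_zero_left]
  | add a b _ _ ha hb =>
    intro c
    refine ⟨by rw [smul_add, map_add, LinearMap.add_apply, (ha c).1, (hb c).1, add_zero], ?_⟩
    rw [smul_add, ← tb_add_left (ha c).1 (hb c).1]
    exact G.mul_mem (ha c).2 (hb c).2
  | smul d a _ ha => intro c; rw [smul_smul]; exact ha _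
  | mem z hz =>
    intro c
    obtain ⟨hzs, hzp⟩ := hz
    have hzw : B z w = 0 := by rw [O.symm]; simpa using hzp 0
    have hzu : B z u = 0 := by rw [O.symm]; simpa using hzp 1
    refine ⟨by simp [hzw], ?_⟩
    by_cases hout : u ∈ Submodule.span F (Set.range ![w, z])
    swap
    · exact O.centre_of_outside_low hG hN huw hm hw hzs hzw hzu hout c
    have hspan : ∀ z', u ∈ Submodule.span F (Set.range ![w, z']) → z' ∈ Submodule.span F (Set.range ![w, u]) := by
      intro z' hu'
      rw [Matrix.range_cons, Matrix.range_cons, Matrix.range_empty, Set.union_empty,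
        Set.singleton_union, Submodule.mem_span_pair] at hu' ⊢
      obtain ⟨r, s, hrs⟩ := hu'
      have hs : s ≠ 0 := fun e => hind (by
        rw [Submodule.mem_span_singleton]; exact ⟨r, by simpa [e] using hrs⟩)
      refine ⟨-r / s, 1 / s, ?_⟩
      rw [← hrs]
      match_scalars <;> field_simp <;> ring
    obtain ⟨z', hz's, hz'p, hz'out⟩ := O.exists_sing_notMem_low ![w, u] (by omega)
    have hz'w : B z' w = 0 := by rw [O.symm]; simpa using hz'p 0
    have hz'u : B z' u = 0 := by rw [O.symm]; simpa using hz'p 1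
    have hzz' : B z z' = 0 := by
      have hzm := hspan z hout
      have hle : Submodule.span F (Set.range ![w, u]) ≤ LinearMap.ker (B.flip z') :=
        Submodule.span_le.2 (by rintro _ ⟨i, rfl⟩; exact hz'p i)
      exact hle hzm
    have hadd : u ∉ Submodule.span F (Set.range ![w, z + z']) := fun h => hz'out (by
      simpa using Submodule.sub_mem _ (hspan _ h) (hspan z hout))
    have hsum : IsSing B (z + z') := by
      simp [IsSing, show B z z = 0 from hzs, show B z' z' = 0 from hz's, hzz', O.symm z' z]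
    have h1 := O.centre_of_outside_low hG hN huw hm hw hsum (by simp [hzw, hz'w])
      (by simp [hzu, hz'u]) hadd c
    have h2 := O.centre_of_outside_low hG hN huw hm hw hz's hz'w hz'u (fun h => hz'out (hspan _ h)) c
    rw [smul_add, ← tb_add_left (by simp [hzw]) (by simp [hz'w])] at h1
    simpa using G.mul_mem h1 (G.inv_mem h2)

lemma allAt_low {u w : ι → F} (huw : B u w = 0) (hm : tb B u w ∈ G) (hu : IsSing B u)
    (hw : IsSing B w) (hind : u ∉ Submodule.span F {w}) : AllAt B G w := by
  intro z hz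
  obtain ⟨u', hu', hu'p, hu'out⟩ := O.exists_sing_notMem_low ![w, u] (by omega)
  have hu'w : B u' w = 0 := by rw [O.symm]; simpa using hu'p 0
  have hu'u : B u' u = 0 := by rw [O.symm]; simpa using hu'p 1
  have hm' := O.centre_of_perp_low hG hN huw hm hu hw hind hu'w hu'u
  have hind' : u' ∉ Submodule.span F {w} := fun h => hu'out
    (Submodule.span_mono (Set.singleton_subset_iff.2 (show w ∈ Set.range ![w, u] from ⟨0, rfl⟩)) h)
  have hnot : u ∉ Submodule.span F (Set.range ![w, u']) := fun h => by
    rw [Matrix.range_cons, Matrix.range_cons, Matrix.range_empty, Set.union_empty,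
      Set.singleton_union, Submodule.mem_span_pair] at h
    obtain ⟨r, s, hrs⟩ := h
    rcases eq_or_ne s 0 with rfl | hs
    · exact hind (Submodule.mem_span_singleton.2 ⟨r, by simpa using hrs⟩)
    · refine hu'out ?_
      rw [Matrix.range_cons, Matrix.range_cons, Matrix.range_empty, Set.union_empty,
        Set.singleton_union, Submodule.mem_span_pair]
      refine ⟨-r / s, 1 / s, ?_⟩
      rw [← hrs]
      match_scalars <;> field_simp <;> ring
  obtain ⟨p, hp, hup⟩ := O.exists_functional_ne hnot
  have hpw : B p w = 0 := by rw [O.symm]; simpa using hp 0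
  have hpu' : B p u' = 0 := by rw [O.symm]; simpa using hp 1
  set d := B u z / B u p with hd
  have h1 : B (z - d • p) w = 0 := by simp [hz, hpw]
  have h1' : B (z - d • p) u = 0 := by
    rw [O.symm, map_sub, map_smul, smul_eq_mul, hd, div_mul_cancel₀ _ hup, sub_self]
  have h2 : B (d • p) w = 0 := by simp [hpw]
  have h2' : B (d • p) u' = 0 := by simp [hpu']
  have e := G.mul_mem (O.centre_of_perp_low hG hN huw hm hu hw hind h1 h1')
    (O.centre_of_perp_low hG hN hu'w hm' hu' hw hind' h2 h2')
  rw [tb_add_left h1 h2, sub_add_cancel] at e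
  exact e

lemma allAt_step_low {w w' : ι → F} (hw : IsSing B w) (hw' : IsSing B w') (hww' : B w' w = 0)
    (hind : w ∉ Submodule.span F {w'}) (hA : AllAt B G w) : AllAt B G w' := by
  obtain ⟨a, ha, hap, haout⟩ := O.exists_sing_notMem_low ![w, w'] (by omega)
  have haw : B a w = 0 := by rw [O.symm]; simpa using hap 0
  have haw' : B a w' = 0 := by rw [O.symm]; simpa using hap 1
  have hnot : w ∉ Submodule.span F (Set.range ![a, w']) := fun h => by
    rw [Matrix.range_cons, Matrix.range_cons, Matrix.range_empty, Set.union_empty,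
      Set.singleton_union, Submodule.mem_span_pair] at h
    obtain ⟨r, s, hrs⟩ := h
    rcases eq_or_ne r 0 with rfl | hr
    · exact hind (Submodule.mem_span_singleton.2 ⟨s, by simpa using hrs⟩)
    · refine haout ?_
      rw [Matrix.range_cons, Matrix.range_cons, Matrix.range_empty, Set.union_empty,
        Set.singleton_union, Submodule.mem_span_pair]
      refine ⟨1 / r, -s / r, ?_⟩
      rw [← hrs]
      match_scalars <;> field_simp <;> ring
  obtain ⟨x, hx, hxp, hwx⟩ := O.exists_sing_ne_low ![a, w'] (by omega) hnot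
  have hxa : B a x = 0 := by simpa using hxp 0
  have hxw' : B x w' = 0 := by rw [O.symm]; simpa using hxp 1
  have h := O.move_right hG haw (hA a haw) ⟨hx, hw', hxw'⟩ hxa haw' (1 / B w x)
  rw [O.symm w w', hww', mul_zero, zero_smul, sub_zero, div_mul_cancel₀ (1 : F) hwx, one_smul] at h
  exact O.allAt_low hG hN haw' h ha hw' fun h' => haout
    (Submodule.span_mono (Set.singleton_subset_iff.2 (show w' ∈ Set.range ![w, w'] from ⟨1, rfl⟩)) h')

lemma allAt_all_low {w w' : ι → F} (hw : IsSing B w) (hw0 : w ≠ 0) (hw' : IsSing B w')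
    (hA : AllAt B G w) : AllAt B G w' := by
  obtain ⟨v, hv, hvp, hvout⟩ := O.exists_sing_notMem_low ![w, w'] (by omega)
  have hvw : B v w = 0 := by rw [O.symm]; simpa using hvp 0
  have hvw' : B v w' = 0 := by rw [O.symm]; simpa using hvp 1
  rcases eq_or_ne w' 0 with rfl | hw'0
  · intro z _; rw [tb_zero_right]; exact G.one_mem
  have h1 := O.allAt_step_low hG hN hw hv hvw (fun h => ?_) hA
  · refine O.allAt_step_low hG hN hv hw' (by rw [O.symm]; exact hvw') (fun h => hvout ?_) h1
    exact Submodule.span_mono (Set.singleton_subset_iff.2 (show w' ∈ Set.range ![w, w'] from ⟨1, rfl⟩)) h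
  · rw [Submodule.mem_span_singleton] at h
    obtain ⟨c, hc⟩ := h
    rcases eq_or_ne c 0 with rfl | hc0
    · exact hw0 (by simpa using hc.symm)
    refine hvout ?_
    rw [show v = c⁻¹ • w by rw [← hc, smul_smul, inv_mul_cancel₀ hc0, one_smul]]
    exact Submodule.smul_mem _ _ (Submodule.subset_span ⟨0, rfl⟩)

theorem specialLinear_le_of_allAt_low {w : ι → F} (hw : IsSing B w) (hw0 : w ≠ 0)
    (hA : AllAt B G w) : Cfsg.Geo.specialLinear ι F ≤ G := by
  refine specialLinear_le_of_tv G fun a φ hφ => ?_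
  obtain ⟨b, hb⟩ : ∃ b, bv B b = φ := by
    let f : (ι → F) →ₗ[F] F := dotProductEquiv F ι φ
    refine ⟨(B.toDual O.nd).symm f, funext fun j => ?_⟩
    rw [bv, O.symm, LinearMap.BilinForm.apply_toDual_symm_apply (hB := O.nd)]
    change φ ⬝ᵥ Pi.single j 1 = φ j
    simp
  subst hb
  rw [bv_dot] at hφ
  change tb B a b ∈ G
  have hmem := O.mem_span_sing_low ![a] (by omega) (x := b) (fun i => by fin_cases i; simpa using hφ)
  suffices H : ∀ c : F, B a (c • b) = 0 ∧ tb B a (c • b) ∈ G by simpa using (H 1).2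
  clear hφ
  induction hmem using Submodule.span_induction with
  | zero => intro c; simp [tb_zero_right]
  | add x y _ _ hx hy =>
    intro c
    refine ⟨by rw [smul_add, map_add, (hx c).1, (hy c).1, add_zero], ?_⟩
    rw [smul_add, ← tb_add_right (hx c).1 (hy c).1]
    exact G.mul_mem (hx c).2 (hy c).2
  | smul d x _ hx => intro c; rw [smul_smul]; exact hx _
  | mem z hz =>
    intro c
    have haz : B a z = 0 := by simpa using hz.2 0
    refine ⟨by simp [haz], ?_⟩
    exact O.allAt_all_low hG hN hw hw0 (show IsSing B (c • z) by simp [IsSing, show B z z = 0 from hz.1])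
      hA a (by simp [haz])

/-- One transvection gives all of `SL`. -/
theorem specialLinear_le_of_tb_low {a b : ι → F} (hab : B a b = 0) (ha : a ≠ 0) (hb : b ≠ 0)
    (hm : tb B a b ∈ G) : Cfsg.Geo.specialLinear ι F ≤ G := by
  -- a singular functional
  obtain ⟨w, hw, hw0, haw, hmw⟩ : ∃ w, IsSing B w ∧ w ≠ 0 ∧ B a w = 0 ∧ tb B a w ∈ G := by
    by_cases hba : b ∈ Submodule.span F (Set.range ![a])
    · refine ⟨b, ?_, hb, hab, hm⟩
      rw [Matrix.range_cons, Matrix.range_empty, Set.union_empty,
        Submodule.mem_span_singleton] at hba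
      obtain ⟨c, rfl⟩ := hba
      simp only [IsSing, map_smul, LinearMap.smul_apply, smul_eq_mul] at hab ⊢
      rw [hab, mul_zero]
    · obtain ⟨x, hx, hxp, hbx⟩ := O.exists_sing_ne_low ![a] (by omega) hba
      obtain ⟨y, hy, hyp, hyout⟩ := O.exists_sing_notMem_low ![a, x, b] (by omega)
      have hxy : B x y = 0 := by simpa using hyp 1
      have hby : B b y = 0 := by simpa using hyp 2
      refine ⟨y, hy, fun e => hyout (e ▸ Submodule.zero_mem _), by simpa using hyp 0, ?_⟩
      have h := O.move_right hG hab hm ⟨hx, hy, hxy⟩ (by simpa using hxp 0) (by simpa using hyp 0)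
        (1 / B b x)
      rw [hby, mul_zero, zero_smul, sub_zero, div_mul_cancel₀ (1 : F) hbx, one_smul] at h
      exact h
  -- a singular centre
  obtain ⟨u, hu, hu0, huw, hmu⟩ : ∃ u, IsSing B u ∧ u ≠ 0 ∧ B u w = 0 ∧ tb B u w ∈ G := by
    by_cases haw' : a ∈ Submodule.span F (Set.range ![w])
    · refine ⟨a, ?_, ha, haw, hmw⟩
      rw [Matrix.range_cons, Matrix.range_empty, Set.union_empty,
        Submodule.mem_span_singleton] at haw'
      obtain ⟨c, rfl⟩ := haw'
      simp [IsSing, show B w w = 0 from hw]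
    · obtain ⟨x, hx, hxp, hax⟩ := O.exists_sing_ne_low ![w] (by omega) haw'
      obtain ⟨y, hy, hyp, hyout⟩ := O.exists_sing_notMem_low ![w, x, a] (by omega)
      have hxy : B x y = 0 := by simpa using hyp 1
      have hay : B a y = 0 := by simpa using hyp 2
      have hyw : B y w = 0 := by rw [O.symm]; simpa using hyp 0
      refine ⟨y, hy, fun e => hyout (e ▸ Submodule.zero_mem _), hyw, ?_⟩
      have h := O.move_left hG haw hmw ⟨hx, hy, hxy⟩ (by rw [O.symm]; simpa using hxp 0) hyw
        (1 / B a x)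
      rw [hay, mul_zero, zero_smul, sub_zero, div_mul_cancel₀ (1 : F) hax, one_smul] at h
      exact h
  by_cases hind : u ∈ Submodule.span F {w}
  swap
  · exact O.specialLinear_le_of_allAt_low hG hN hw hw0 (O.allAt_low hG hN huw hmu hu hw hind)
  -- proportional centre and functional
  obtain ⟨γ, hγ, hmg⟩ : ∃ γ : F, γ ≠ 0 ∧ tb B u (γ • u) ∈ G := by
    rw [Submodule.mem_span_singleton] at hind
    obtain ⟨c, rfl⟩ := hind
    have hc : c ≠ 0 := fun e => hu0 (by simp [e])
    refine ⟨c⁻¹, inv_ne_zero hc, ?_⟩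
    rwa [smul_smul, inv_mul_cancel₀ hc, one_smul]
  have hu' : u ∉ Submodule.span F (Set.range (![] : Fin 0 → (ι → F))) := by simpa using hu0
  obtain ⟨x, hx, -, hux⟩ := O.exists_sing_ne_low (![] : Fin 0 → (ι → F)) (by omega) hu'
  obtain ⟨y, hy, hyp, hyout⟩ := O.exists_sing_notMem_low ![u, x] (by omega)
  have hyu : B y u = 0 := by rw [O.symm]; simpa using hyp 0
  have hxy : B x y = 0 := by simpa using hyp 1
  have huu : B u u = 0 := hu
  have hyy : B y y = 0 := hy
  have huy : B u y = 0 := by rw [O.symm]; exact hyu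
  have key : ∀ s : F, tb B (u + s • y) (γ • (u + s • y)) ∈ G := by
    intro s
    have P : SingPair B x y := ⟨hx, hy, hxy⟩
    have hs := hG x y P (s / B u x)
    have h1 := G.mul_mem (G.mul_mem hs hmg) (G.inv_mem hs)
    rw [tb_conj (O.sieg_isometry P _) (by simp [huu]), mulVec_smul, O.sieg_mulVec P, huy,
      mul_zero, zero_smul, sub_zero, div_mul_cancel₀ s hux] at h1
    exact h1
  have h1 := G.mul_mem (key 1) (G.inv_mem (key (-1)))
  have h2 := G.mul_mem h1 (hG y u ⟨hyy, huu, hyu⟩ (2 * γ))
  have heq : tb B (u + (1 : F) • y) (γ • (u + (1 : F) • y)) *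
      (tb B (u + (-1 : F) • y) (γ • (u + (-1 : F) • y)))⁻¹ * sieg B y u (2 * γ) =
      tb B u ((4 * γ) • y) := by
    apply gl_ext; intro z
    rw [tb_inv (by simp [huu, hyy, huy, hyu]), mul_mulVec', mul_mulVec',
      O.sieg_mulVec ⟨hyy, huu, hyu⟩, tb_mulVec (by simp [huu, hyy, huy, hyu]),
      tb_mulVec (by simp [huu, hyy, huy, hyu]), tb_mulVec (by simp [huy])]
    simp only [map_add, map_sub, map_neg, map_smul, LinearMap.add_apply, LinearMap.sub_apply,
      LinearMap.smul_apply, smul_eq_mul, huu, hyy, huy, hyu]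
    module
  rw [heq] at h2
  have h4 : (4 * γ) ≠ 0 := by
    refine mul_ne_zero ?_ hγ
    rw [show (4 : F) = 2 * 2 by norm_num]
    exact mul_ne_zero O.two O.two
  refine O.specialLinear_le_of_allAt_low hG hN (w := (4 * γ) • y) ?_ ?_
    (O.allAt_low hG hN (by simp [huy]) h2 hu ?_ fun h => ?_)
  · simp [IsSing, hyy]
  · exact smul_ne_zero h4 fun e => hyout (e ▸ Submodule.zero_mem _)
  · simp [IsSing, hyy]
  · rw [Submodule.mem_span_singleton] at h
    obtain ⟨c, hc⟩ := h
    rw [smul_smul] at hc
    rcases eq_or_ne (c * (4 * γ)) 0 with e | e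
    · exact hu0 (by rw [← hc, e, zero_smul])
    · refine hyout ?_
      rw [show y = (c * (4 * γ))⁻¹ • u by rw [← hc, smul_smul, inv_mul_cancel₀ e, one_smul]]
      exact Submodule.smul_mem _ _ (Submodule.subset_span ⟨0, rfl⟩)


end

section

variable (hN : 10 ≤ Fintype.card ι)
include hN

/-- A rank-two element with image off the common complement gives a transvection. -/
lemma tb_of_pair_low {G : Subgroup (GL ι F)} (hG : HasSieg B G) {t : GL ι F} (ht : t ∈ G)
    {m₁ m₂ a₁ a₂ : ι → F}
    (htx : ∀ x, (t : Matrix ι ι F) *ᵥ x = x + B a₁ x • m₁ + B a₂ x • m₂)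
    (hm : LinearIndependent F ![m₁, m₂])
    (hout : a₁ ∉ Submodule.span F (Set.range ![m₁, m₂])) :
    ∃ a b, B a b = 0 ∧ a ≠ 0 ∧ b ≠ 0 ∧ tb B a b ∈ G := by
  obtain ⟨u, hu, hum₁, hum₂, hua₁, hua₂, huout⟩ : ∃ u, IsSing B u ∧ B m₁ u = 0 ∧ B m₂ u = 0 ∧
      B a₁ u = 0 ∧ B a₂ u = 0 ∧ u ∉ Submodule.span F (Set.range ![m₁, m₂, a₁]) := by
    have hsub : Submodule.span F (Set.range ![m₁, m₂, a₁]) ≤
        Submodule.span F (Set.range ![m₁, m₂, a₁, a₂]) := by
      refine Submodule.span_mono ?_
      rintro _ ⟨i, rfl⟩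
      exact ⟨i.castSucc, by fin_cases i <;> rfl⟩
    by_cases hrad : Module.finrank F (radB B ![m₁, m₂, a₁, a₂]) ≤ 3
    · obtain ⟨u, hu, hup, huout⟩ := O.exists_sing_notMem_rad ![m₁, m₂, a₁, a₂] (by omega)
      exact ⟨u, hu, by simpa using hup 0, by simpa using hup 1, by simpa using hup 2,
        by simpa using hup 3, fun h => huout (hsub h)⟩
    · -- the span is totally singular of dimension four
      set S := Submodule.span F (Set.range ![m₁, m₂, a₁, a₂])
      have h4 : Module.finrank F S ≤ 4 := by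
        have h := finrank_range_le_card (R := F) ![m₁, m₂, a₁, a₂]
        rw [Fintype.card_fin] at h
        exact h
      have heq : radB B ![m₁, m₂, a₁, a₂] = S :=
        Submodule.eq_of_le_of_finrank_le inf_le_left (by omega)
      have ha : a₂ ∈ radB B ![m₁, m₂, a₁, a₂] := heq ▸ Submodule.subset_span ⟨3, rfl⟩
      have hp := mem_perpB.1 ha.2
      refine ⟨a₂, by simpa [IsSing] using hp 3, by simpa using hp 0, by simpa using hp 1,
        by simpa using hp 2, by simpa using hp 3, fun h => ?_⟩
      have hle : S ≤ Submodule.span F (Set.range ![m₁, m₂, a₁]) := by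
        refine Submodule.span_le.2 ?_
        rintro _ ⟨i, rfl⟩
        fin_cases i
        exacts [Submodule.subset_span ⟨0, rfl⟩, Submodule.subset_span ⟨1, rfl⟩,
          Submodule.subset_span ⟨2, rfl⟩, h]
      have h3 : Module.finrank F (Submodule.span F (Set.range ![m₁, m₂, a₁])) ≤ 3 := by
        have h := finrank_range_le_card (R := F) ![m₁, m₂, a₁]
        rw [Fintype.card_fin] at h
        exact h
      have := Submodule.finrank_mono hle
      rw [heq] at hrad
      omega
  have hu0 : u ≠ 0 := fun e => huout (e ▸ Submodule.zero_mem _)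
  have hout' : a₁ ∉ Submodule.span F (Set.range ![m₁, m₂, u]) := fun h => by
    rw [Submodule.mem_span_range_iff_exists_fun] at h
    obtain ⟨f, hf⟩ := h
    simp [Fin.sum_univ_three] at hf
    rcases eq_or_ne (f 2) 0 with e | e
    · refine hout ?_
      rw [Submodule.mem_span_range_iff_exists_fun]
      exact ⟨![f 0, f 1], by simpa [Fin.sum_univ_two, e] using hf⟩
    · refine huout ?_
      rw [Submodule.mem_span_range_iff_exists_fun]
      refine ⟨![-f 0 / f 2, -f 1 / f 2, 1 / f 2], ?_⟩
      simp [Fin.sum_univ_three, ← hf]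
      match_scalars <;> field_simp <;> ring
  obtain ⟨v, hv, hvp, hav⟩ := O.exists_sing_ne_low ![m₁, m₂, u] (by omega) hout'
  have hvm₁ : B m₁ v = 0 := by simpa using hvp 0
  have hvm₂ : B m₂ v = 0 := by simpa using hvp 1
  have huv : B u v = 0 := by simpa using hvp 2
  have P : SingPair B u v := ⟨hu, hv, huv⟩
  set A := B a₁ v • m₁ + B a₂ v • m₂ with hA
  have hA0 : A ≠ 0 := fun e => hav (LinearIndependent.pair_iff.1 hm _ _ e).1
  have hAu : B A u = 0 := by simp [hA, hum₁, hum₂]
  refine ⟨A, u, hAu, hA0, hu0, ?_⟩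
  set s := sieg B u v 1
  have hs : s ∈ G := hG u v P 1
  have key : tb B A u * (s * t) = t * s := by
    apply gl_ext; intro x
    rw [mul_mulVec', mul_mulVec', mul_mulVec', tb_mulVec hAu, htx, O.sieg_mulVec P,
      O.sieg_mulVec P, htx]
    simp only [map_add, map_sub, map_smul, LinearMap.add_apply, LinearMap.sub_apply,
      LinearMap.smul_apply, smul_eq_mul, hum₁, hum₂, hvm₁, hvm₂, hua₁, hua₂, huv, one_mul,
      show B u u = 0 from hu, O.symm v u, hA]
    module
  have := G.mul_mem (G.mul_mem ht hs) (G.inv_mem (G.mul_mem hs ht))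
  rwa [← key, mul_inv_cancel_right] at this

/-- The dichotomy: either a transvection appears or orthogonality at singular vectors is kept. -/
lemma pair_dichotomy_low {G : Subgroup (GL ι F)} (hG : HasSieg B G) {g : GL ι F} (hg : g ∈ G)
    {u v w : ι → F} (P : SingPair B u v) (hind : LinearIndependent F ![u, v]) (hwu : B u w = 0)
    (hwv : B v w = 0) :
    B ((g : Matrix ι ι F) *ᵥ u) ((g : Matrix ι ι F) *ᵥ w) = 0 ∨
      ∃ a b, B a b = 0 ∧ a ≠ 0 ∧ b ≠ 0 ∧ tb B a b ∈ G := by
  classical
  by_contra hcon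
  push Not at hcon
  obtain ⟨hgw, hno⟩ := hcon
  set M := (g : Matrix ι ι F)
  set M' := ((g⁻¹ : GL ι F) : Matrix ι ι F)
  have hadj : ∀ e : ι → F, ∃ a, ∀ x, B a x = B (M' *ᵥ x) e := fun e => by
    let f : (ι → F) →ₗ[F] F := (B.flip e).comp (Matrix.toLin' M')
    exact ⟨(B.toDual O.nd).symm f, fun x => by
      rw [LinearMap.BilinForm.apply_toDual_symm_apply (hB := O.nd)]; rfl⟩
  obtain ⟨au, hau⟩ := hadj u
  obtain ⟨av, hav⟩ := hadj v
  have ht := G.mul_mem (G.mul_mem hg (hG u v P 1)) (G.inv_mem hg)
  have htx : ∀ x, ((g * sieg B u v 1 * g⁻¹ : GL ι F) : Matrix ι ι F) *ᵥ x =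
      x + B au x • (M *ᵥ v) + B av x • (-(M *ᵥ u)) := fun x => by
    rw [mul_mulVec', mul_mulVec', O.sieg_mulVec P, mulVec_sub, mulVec_add, mulVec_inv_mulVec,
      mulVec_smul, mulVec_smul, hau, hav, one_mul, one_mul, smul_neg, sub_eq_add_neg]
  have hmi : LinearIndependent F ![M *ᵥ v, -(M *ᵥ u)] := by
    rw [LinearIndependent.pair_iff]
    intro r s hrs
    have h0 : (-s) • u + r • v = 0 := by
      apply gl_mulVec_injective g
      simp only [mulVec_add, mulVec_smul, mulVec_zero]
      rw [← hrs]; module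
    obtain ⟨h1, h2⟩ := LinearIndependent.pair_iff.1 hind _ _ h0
    exact ⟨h2, neg_eq_zero.1 h1⟩
  have hau' : au ∈ Submodule.span F (Set.range ![M *ᵥ v, -(M *ᵥ u)]) := by
    by_contra hout
    obtain ⟨a, b, h1, h2, h3, h4⟩ := O.tb_of_pair_low hN hG ht htx hmi hout
    exact hno a b h1 h2 h3 h4
  have hav' : av ∈ Submodule.span F (Set.range ![M *ᵥ v, -(M *ᵥ u)]) := by
    by_contra hout
    obtain ⟨a, b, h1, h2, h3, h4⟩ := O.tb_of_pair_low hN hG (t := g * sieg B u v 1 * g⁻¹) ht
      (m₁ := -(M *ᵥ u)) (m₂ := M *ᵥ v) (a₁ := av) (a₂ := au)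
      (fun x => by rw [htx]; abel)
      (by rw [LinearIndependent.pair_symm_iff]; exact hmi)
      (fun h => hout (by
        have e : Set.range ![M *ᵥ v, -(M *ᵥ u)] = Set.range ![-(M *ᵥ u), M *ᵥ v] := by
          simp [Matrix.range_cons, Matrix.range_empty, Set.pair_comm]
        rwa [e]))
    exact hno a b h1 h2 h3 h4
  have hai : LinearIndependent F ![au, av] := by
    rw [LinearIndependent.pair_iff]
    intro r s hrs
    have h0 : r • u + s • v = 0 := by
      by_contra hne
      apply hne
      refine O.nd.2 _ fun x => ?_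
      have h := LinearMap.congr_fun (congrArg B hrs) (M *ᵥ x)
      simp only [map_add, map_smul, map_zero, LinearMap.add_apply, LinearMap.smul_apply,
        LinearMap.zero_apply, hau, hav, smul_eq_mul] at h
      rw [inv_mulVec_mulVec] at h
      simpa using h
    exact LinearIndependent.pair_iff.1 hind r s h0
  have hspan : Submodule.span F (Set.range ![au, av]) =
      Submodule.span F (Set.range ![M *ᵥ v, -(M *ᵥ u)]) := by
    refine Submodule.eq_of_le_of_finrank_eq (Submodule.span_le.2 ?_) ?_
    · rintro _ ⟨i, rfl⟩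
      fin_cases i
      · exact hau'
      · exact hav'
    · rw [finrank_span_eq_card hai, finrank_span_eq_card hmi]
  have hker : Submodule.span F (Set.range ![au, av]) ≤ LinearMap.ker (B.flip (M *ᵥ w)) := by
    refine Submodule.span_le.2 ?_
    rintro _ ⟨i, rfl⟩
    fin_cases i
    · change B au (M *ᵥ w) = 0
      rw [hau, inv_mulVec_mulVec, O.symm]; exact hwu
    · change B av (M *ᵥ w) = 0
      rw [hav, inv_mulVec_mulVec, O.symm]; exact hwv
  have h1 : B (-(M *ᵥ u)) (M *ᵥ w) = 0 := by
    have hm : -(M *ᵥ u) ∈ Submodule.span F (Set.range ![au, av]) := by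
      rw [hspan]; exact Submodule.subset_span ⟨1, rfl⟩
    exact hker hm
  exact hgw (by simpa using h1)

/-- An element outside the similitudes gives a transvection. -/
theorem exists_tb_low {G : Subgroup (GL ι F)} (hG : HasSieg B G) {g : GL ι F} (hg : g ∈ G)
    (hgn : ¬ ∃ c : F, c ≠ 0 ∧ ∀ x y, B ((g : Matrix ι ι F) *ᵥ x) ((g : Matrix ι ι F) *ᵥ y) =
      c * B x y) :
    ∃ a b, B a b = 0 ∧ a ≠ 0 ∧ b ≠ 0 ∧ tb B a b ∈ G := by
  classical
  by_contra hno
  apply hgn
  set M := (g : Matrix ι ι F)
  -- orthogonality at singular vectors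
  have horth : ∀ u w, IsSing B u → B u w = 0 → B (M *ᵥ u) (M *ᵥ w) = 0 := by
    intro u w hu hw
    rcases eq_or_ne u 0 with rfl | hu0
    · simp
    obtain ⟨v, hv, hvp, hvout⟩ := O.exists_sing_notMem_low ![u, w] (by omega)
    have huv : B u v = 0 := by simpa using hvp 0
    have hind : LinearIndependent F ![u, v] := by
      rw [LinearIndependent.pair_iff' hu0]
      intro a ha
      exact hvout (ha ▸ Submodule.smul_mem _ _ (Submodule.subset_span ⟨0, rfl⟩))
    exact ((O.pair_dichotomy_low hN hG hg ⟨hu, hv, huv⟩ hind hw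
      (by rw [O.symm]; simpa using hvp 1)).resolve_right hno)
  let T : (ι → F) →ₗ[F] (ι → F) := (B.toDual O.nd).symm.toLinearMap.comp
    ((LinearMap.BilinForm.comp B (Matrix.toLin' M) (Matrix.toLin' M)))
  have hT : ∀ x y, B (T x) y = B (M *ᵥ x) (M *ᵥ y) := fun x y => by
    simp only [T, LinearMap.comp_apply, LinearEquiv.coe_coe]
    rw [LinearMap.BilinForm.apply_toDual_symm_apply (hB := O.nd)]
    simp
  have heig : ∀ u, IsSing B u → ∃ c : F, T u = c • u := by
    intro u hu
    have h : T u ∈ Submodule.span F (Set.range ![u]) := O.mem_span_of_perp fun x hx => by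
      rw [hT]; exact horth u x hu (by simpa using hx 0)
    rw [Matrix.range_cons, Matrix.range_empty, Set.union_empty,
      Submodule.mem_span_singleton] at h
    obtain ⟨c, hc⟩ := h
    exact ⟨c, hc.symm⟩
  choose C hC using heig
  have hsame : ∀ u v (hu : IsSing B u) (hv : IsSing B v), B u v = 0 →
      LinearIndependent F ![u, v] → C u hu = C v hv := by
    intro u v hu hv huv hind
    have hs : IsSing B (u + v) := by
      simp [IsSing, show B u u = 0 from hu, show B v v = 0 from hv, huv, O.symm v u]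
    have e := hC (u + v) hs
    rw [map_add, hC u hu, hC v hv] at e
    have e2 : (C u hu - C (u + v) hs) • u + (C v hv - C (u + v) hs) • v = 0 := by
      rw [sub_smul, sub_smul]
      rw [smul_add] at e
      linear_combination (norm := module) e
    obtain ⟨h1, h2⟩ := LinearIndependent.pair_iff.1 hind _ _ e2
    linear_combination h1 - h2
  have hconst : ∀ u v (hu : IsSing B u) (hv : IsSing B v), u ≠ 0 → v ≠ 0 → C u hu = C v hv := by
    intro u v hu hv hu0 hv0
    obtain ⟨z, hz, hzp, hzout⟩ := O.exists_sing_notMem_low ![u, v] (by omega)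
    have hind : ∀ (a : ι → F) (i : Fin 2), ![u, v] i = a → a ≠ 0 → LinearIndependent F ![a, z] := by
      intro a i hi ha
      rw [LinearIndependent.pair_iff' ha]
      intro r hr
      exact hzout (hr ▸ Submodule.smul_mem _ _ (Submodule.subset_span ⟨i, hi⟩))
    rw [hsame u z hu hz (by simpa using hzp 0) (hind u 0 rfl hu0),
      hsame v z hv hz (by simpa using hzp 1) (hind v 1 rfl hv0)]
  obtain ⟨z₀, hz₀, -, hz₀0⟩ := O.exists_sing_notMem_low (![] : Fin 0 → (ι → F)) (by omega)
  have hz0 : z₀ ≠ 0 := fun e => hz₀0 (e ▸ Submodule.zero_mem _)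
  set c := C z₀ hz₀
  have hTc : ∀ x, T x = c • x := by
    intro x
    have hmem := O.mem_span_sing_low (![] : Fin 0 → (ι → F)) (by omega) (x := x) (fun i => i.elim0)
    induction hmem using Submodule.span_induction with
    | mem z hz =>
      rcases eq_or_ne z 0 with rfl | hne
      · simp
      rw [hC z hz.1, hconst z z₀ hz.1 hz₀ hne hz0]
    | zero => simp
    | add a b _ _ ha hb => simp [ha, hb]
    | smul d a _ ha => simp [ha, smul_comm c d a]
  refine ⟨c, fun hc => ?_, fun x y => by rw [← hT, hTc]; simp⟩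
  have h0 : ∀ y, B (M *ᵥ z₀) y = 0 := fun y => by
    rw [← mulVec_inv_mulVec g y, ← hT, hTc, hc]; simp
  have := O.nd.1 _ h0
  exact hz0 (gl_mulVec_injective g (by simpa using this))

/-- Maximality. -/
theorem specialLinear_le_of_not_similitude_low {G : Subgroup (GL ι F)} (hG : HasSieg B G) {g : GL ι F}
    (hg : g ∈ G)
    (hgn : ¬ ∃ c : F, c ≠ 0 ∧ ∀ x y, B ((g : Matrix ι ι F) *ᵥ x) ((g : Matrix ι ι F) *ᵥ y) =
      c * B x y) :
    Cfsg.Geo.specialLinear ι F ≤ G := by
  obtain ⟨a, b, hab, ha, hb, hm⟩ := O.exists_tb_low hN hG hg hgn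
  exact O.specialLinear_le_of_tb_low hG hN hab ha hb hm


end

end OddForm

theorem quad_linear_isMaximalIn_small {F : Type*} [Field F] [Fintype F] (n : ℕ) (hn : 10 ≤ n) (hodd : Odd (Fintype.card F)) (Q : (Fin n → F) → F) (hQ : Cfsg.Geo.IsNondegenerateQuadraticForm Q) : Cfsg.Geo.IsMaximalIn (Cfsg.Geo.specialLinear (Fin n) F) (Cfsg.Geo.quadSimilarityGroup Q ⊓ Cfsg.Geo.specialLinear (Fin n) F) := by
  classical
  have hbl := hQ.polar_bilinear
  let B : LinearMap.BilinForm F (Fin n → F) := LinearMap.mk₂ F (QuadraticMap.polar Q)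
    (fun x y v => hbl.add_left x y v) (fun c x v => hbl.smul_left c x v)
    (fun v x y => hbl.add_right v x y) (fun c v x => hbl.smul_right c v x)
  have hBp : ∀ x y, B x y = QuadraticMap.polar Q x y := fun x y => rfl
  have h2 : (2 : F) ≠ 0 := Ring.two_ne_zero fun e => by
    have := FiniteField.even_card_of_char_two (F := F) e
    rw [Nat.odd_iff] at hodd
    omega
  have hBQ : ∀ x, B x x = 2 * Q x := fun x => by
    rw [hBp, QuadraticMap.polar, show x + x = (2 : F) • x by rw [two_smul], hQ.smul]; ring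
  have O : OddForm B :=
    { two := h2
      symm := fun x y => by rw [hBp, hBp, QuadraticMap.polar_comm]
      nd := ⟨fun x hx => by
          by_contra hne
          obtain ⟨y, hy⟩ := (hQ.nondegenerate x hne).2
          exact hy (hx y), fun y hy => by
          by_contra hne
          obtain ⟨x, hx⟩ := (hQ.nondegenerate y hne).1
          exact hx (hy x)⟩ }
  have hmem : ∀ g : GL (Fin n) F, g ∈ Cfsg.Geo.quadSimilarityGroup Q ↔
      ∃ c : F, c ≠ 0 ∧ ∀ x y, B ((g : Matrix (Fin n) (Fin n) F) *ᵥ x)
        ((g : Matrix (Fin n) (Fin n) F) *ᵥ y) = c * B x y := fun g => by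
    constructor
    · rintro ⟨c, hc⟩
      refine ⟨c, c.ne_zero, fun x y => ?_⟩
      simp only [hBp, QuadraticMap.polar, ← Matrix.mulVec_add, hc]
      ring
    · rintro ⟨c, hc0, hc⟩
      refine ⟨Units.mk0 c hc0, fun v => mul_left_cancel₀ h2 ?_⟩
      have := hc v v
      rw [hBQ, hBQ] at this
      rw [Units.val_mk0, this]; ring
  have hN : 10 ≤ Fintype.card (Fin n) := by simpa using hn
  refine isMaximalIn_of inf_le_right ?_ fun M hle hM g hg hgn => ?_
  · obtain ⟨u, hu, -, hu0⟩ := O.exists_sing_notMem_low (![] : Fin 0 → (Fin n → F)) (by omega)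
    obtain ⟨v, hv, hvp, hvout⟩ := O.exists_sing_notMem_low ![u] (by omega)
    have huv : B u v = 0 := by simpa using hvp 0
    have hune : u ≠ 0 := fun e => hu0 (e ▸ Submodule.zero_mem _)
    refine ⟨tb B v u, tv_mem_specialLinear _ _, fun hs => ?_⟩
    obtain ⟨c, hc0, hc⟩ := (hmem _).1 hs.1
    obtain ⟨z, hz, hzu⟩ := O.exists_functional_ne (u := (![] : Fin 0 → (Fin n → F))) (a := u) hu0
    obtain ⟨w, hw, hwv⟩ := O.exists_functional_ne (u := ![u]) (a := v) hvout
    have huw : B u w = 0 := by simpa using hw 0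
    have e1 := hc z w
    rw [tb_mulVec (by rw [O.symm]; exact huv), tb_mulVec (by rw [O.symm]; exact huv), O.symm w u,
      huw, zero_smul, add_zero] at e1
    simp only [map_add, map_smul, LinearMap.add_apply, LinearMap.smul_apply, smul_eq_mul] at e1
    have e2 := hc u v
    rw [tb_mulVec (by rw [O.symm]; exact huv), tb_mulVec (by rw [O.symm]; exact huv)] at e2
    simp only [O.symm v u, huv, show B u u = 0 from hu, zero_smul, add_zero] at e2
    -- the scalar is one
    obtain ⟨p, hp, hpu⟩ : ∃ p, (B v p = 0) ∧ B u p ≠ 0 := by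
      obtain ⟨p, hp, hup⟩ := O.exists_functional_ne (u := ![v]) (a := u) (fun h => hvout (by
        rw [Matrix.range_cons, Matrix.range_empty, Set.union_empty,
          Submodule.mem_span_singleton] at h ⊢
        obtain ⟨r, hr⟩ := h
        have hr0 : r ≠ 0 := fun e => hune (by rw [← hr, e, zero_smul])
        exact ⟨r⁻¹, by rw [← hr, smul_smul, inv_mul_cancel₀ hr0, one_smul]⟩))
      exact ⟨p, by simpa using hp 0, hup⟩
    have e3 := hc u p
    rw [tb_mulVec (by rw [O.symm]; exact huv), tb_mulVec (by rw [O.symm]; exact huv)] at e3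
    simp only [show B u u = 0 from hu, zero_smul, add_zero, map_add, map_smul, huv, smul_eq_mul,
      mul_zero] at e3
    have hc1 : c = 1 := mul_right_cancel₀ hpu (by linear_combination -e3)
    rw [hc1, one_mul] at e1
    have : B z u * B v w = 0 := by linear_combination e1
    rcases mul_eq_zero.1 this with e | e
    · exact hzu (by rw [O.symm]; exact e)
    · exact hwv e
  · refine O.specialLinear_le_of_not_similitude_low hN (fun u v P c => hle ⟨(hmem _).2
      ⟨1, one_ne_zero, fun x y => by rw [O.sieg_isometry P, one_mul]⟩,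
      O.sieg_mem_specialLinear u v c⟩) hg fun h => hgn ⟨(hmem g).2 h, hM hg⟩


end Cfsg.Agent.Lib.Forms
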