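import Cfsg.Agent.Lib.Forms.OrthSimLow

/-!
The group of orthogonal similitudes is maximal in `SL` from dimension six on: products of two
reflections replace Siegel transformations.
-/

set_option autoImplicit false
set_option linter.unusedSectionVars false

namespace Cfsg.Agent.Lib.Forms

open Matrix

variable {ι : Type} [Fintype ι] [DecidableEq ι] {F : Type*} [Field F]
  {B : LinearMap.BilinForm F (ι → F)}

/-- The group contains every isometry of determinant one. -/
def HasIso (B : LinearMap.BilinForm F (ι → F)) (G : Subgroup (GL ι F)) : Prop :=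
  ∀ h : GL ι F, (h : Matrix ι ι F).det = 1 →
    (∀ x y, B ((h : Matrix ι ι F) *ᵥ x) ((h : Matrix ι ι F) *ᵥ y) = B x y) → h ∈ G

namespace OddForm

variable (O : OddForm B)
include O

/-- The reflection along a nonsingular vector. -/
lemma exists_refl {n : ι → F} (hn : B n n ≠ 0) :
    ∃ R : GL ι F, (R : Matrix ι ι F).det = -1 ∧
      (∀ x y, B ((R : Matrix ι ι F) *ᵥ x) ((R : Matrix ι ι F) *ᵥ y) = B x y) ∧
      ∀ x, (R : Matrix ι ι F) *ᵥ x = x - (2 * B x n / B n n) • n := by
  set φ : ι → F := (-2 / B n n) • bv B n with hφ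
  have hx : ∀ x, tvMat n φ *ᵥ x = x - (2 * B x n / B n n) • n := fun x => by
    rw [tvMat_mulVec, hφ, smul_dotProduct, bv_dot, smul_eq_mul, sub_eq_add_neg, ← neg_smul]
    congr 2
    ring
  have hdet : (tvMat n φ).det = -1 := by
    rw [tvMat, vecMulVec_eq Unit, det_one_add_replicateCol_mul_replicateRow, hφ, smul_dotProduct,
      bv_dot, smul_eq_mul, div_mul_cancel₀ _ hn]
    ring
  refine ⟨Matrix.GeneralLinearGroup.mkOfDetNeZero (tvMat n φ) (by rw [hdet]; simp), hdet,
    fun x y => ?_, hx⟩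
  change B (tvMat n φ *ᵥ x) (tvMat n φ *ᵥ y) = B x y
  simp only [hx, map_sub, map_smul, LinearMap.sub_apply, LinearMap.smul_apply, smul_eq_mul,
    O.symm n y]
  field_simp
  ring

/-- A product of two reflections. -/
lemma exists_refl₂ {n n' : ι → F} (hn : B n n ≠ 0) (hn' : B n' n' ≠ 0) :
    ∃ h : GL ι F, (h : Matrix ι ι F).det = 1 ∧
      (∀ x y, B ((h : Matrix ι ι F) *ᵥ x) ((h : Matrix ι ι F) *ᵥ y) = B x y) ∧
      ∀ x, (h : Matrix ι ι F) *ᵥ x = x - (2 * B x n' / B n' n') • n' -
        (2 * B (x - (2 * B x n' / B n' n') • n') n / B n n) • n := by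
  obtain ⟨R, hR, hRi, hRx⟩ := O.exists_refl hn
  obtain ⟨R', hR', hR'i, hR'x⟩ := O.exists_refl hn'
  refine ⟨R * R', ?_, fun x y => ?_, fun x => ?_⟩
  · rw [Units.val_mul, det_mul, hR, hR']; ring
  · rw [mul_mulVec', mul_mulVec', hRi, hR'i]
  · rw [mul_mulVec', hR'x, hRx]

/-- Translating by a nonsingular vector keeps nonsingularity somewhere. -/
lemma exists_translate {n : ι → F} (hn : B n n ≠ 0) (x : ι → F) :
    ∃ t : F, B (x + t • n) (x + t • n) ≠ 0 := by
  by_contra hcon
  push Not at hcon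
  have h0 := hcon 0
  have h1 := hcon 1
  have h2 := hcon (-1)
  simp only [map_add, map_smul, LinearMap.add_apply, LinearMap.smul_apply, smul_eq_mul,
    O.symm n x] at h0 h1 h2
  exact hn ((mul_eq_zero.1 (by linear_combination h1 + h2 - 2 * h0 : (2 : F) * B n n = 0)).resolve_left
    O.two)

lemma finrank_rad_hyp {a b : ι → F} (haa : B a a = 0) (hab : B a b ≠ 0) :
    Module.finrank F (radB B ![a, b]) ≤ 1 := by
  have hle : radB B ![a, b] ≤ Submodule.span F {a} := by
    rintro x ⟨hx, hxp⟩
    rw [SetLike.mem_coe, Submodule.mem_span_range_iff_exists_fun] at hx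
    obtain ⟨f, rfl⟩ := hx
    have h0 := mem_perpB.1 hxp 0
    simp [Fin.sum_univ_two, haa, hab] at h0
    simp [Fin.sum_univ_two, h0, Submodule.mem_span_singleton]
  refine (Submodule.finrank_mono hle).trans ?_
  refine (finrank_span_le_card ({a} : Set (ι → F))).trans ?_
  simp

/-- An isometry of determinant one fixing three vectors and moving a fourth outside their span. -/
lemma exists_move (hN : 6 ≤ Fintype.card ι) {p q r a : ι → F}
    (hout : a ∉ Submodule.span F (Set.range ![p, q, r])) :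
    ∃ h : GL ι F, (h : Matrix ι ι F).det = 1 ∧
      (∀ x y, B ((h : Matrix ι ι F) *ᵥ x) ((h : Matrix ι ι F) *ᵥ y) = B x y) ∧
      (∀ i, (h : Matrix ι ι F) *ᵥ ![p, q, r] i = ![p, q, r] i) ∧
      (h : Matrix ι ι F) *ᵥ a ≠ a := by
  obtain ⟨x, hx, hax⟩ := O.exists_functional_ne hout
  have hx0 : x ≠ 0 := fun e => hax (by rw [e, map_zero])
  have hbig : ∀ v : ι → F, ∃ y ∈ perpB B ![p, q, r], y ∉ Submodule.span F {v} := by
    intro v
    refine SetLike.not_le_iff_exists.1 fun hle => ?_
    have h1 := Submodule.finrank_mono hle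
    have h2 := O.finrank_perp ![p, q, r]
    have h3 : Module.finrank F (Submodule.span F ({v} : Set (ι → F))) ≤ 1 := by
      refine (finrank_span_le_card ({v} : Set (ι → F))).trans ?_
      simp
    omega
  by_cases hns : ∃ n₀ ∈ perpB B ![p, q, r], B n₀ n₀ ≠ 0
  · obtain ⟨n₀, hn₀, hn₀n₀⟩ := hns
    obtain ⟨n, hn, hnn, han⟩ : ∃ n ∈ perpB B ![p, q, r], B n n ≠ 0 ∧ B a n ≠ 0 := by
      by_cases h0 : B a n₀ = 0
      · obtain ⟨t, ht⟩ := O.exists_translate hn₀n₀ x
        exact ⟨_, add_mem (mem_perpB.2 hx) (Submodule.smul_mem _ _ hn₀), ht, by simp [h0, hax]⟩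
      · exact ⟨n₀, hn₀, hn₀n₀, h0⟩
    obtain ⟨y, hy, hyn⟩ := hbig n
    obtain ⟨t, ht⟩ := O.exists_translate hnn y
    set n' := y + t • n with hn'
    have hn'p : n' ∈ perpB B ![p, q, r] := add_mem hy (Submodule.smul_mem _ _ hn)
    have hind : ∀ c : F, n' ≠ c • n := fun c e => hyn (Submodule.mem_span_singleton.2
      ⟨c - t, by rw [sub_smul, ← e, hn', add_sub_cancel_right]⟩)
    obtain ⟨h, hd, hi, hh⟩ := O.exists_refl₂ hnn ht
    refine ⟨h, hd, hi, fun i => ?_, fun e => ?_⟩
    · rw [hh, mem_perpB.1 hn'p i]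
      simp [mem_perpB.1 hn i]
    · rw [hh] at e
      set k := 2 * B a n' / B n' n' with hk
      set l := 2 * B (a - k • n') n / B n n with hl
      rcases eq_or_ne k 0 with hk0 | hk0
      · rw [hk0, zero_smul, sub_zero, sub_eq_self, smul_eq_zero] at e
        rw [hk0, zero_smul, sub_zero] at hl
        rcases e with e | e
        · rw [hl] at e
          simp [O.two, hnn, han] at e
        · exact hnn (by rw [e]; simp)
      · refine hind (-(k⁻¹ * l)) ?_
        have e' : k • n' = -(l • n) := by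
          rw [sub_sub, sub_eq_self] at e
          exact eq_neg_of_add_eq_zero_left e
        have := congrArg (fun z => k⁻¹ • z) e'
        simp only [smul_smul, inv_mul_cancel₀ hk0, one_smul, smul_neg] at this
        rw [this, neg_smul]
  · push Not at hns
    obtain ⟨y, hy, hyx⟩ := hbig x
    have hxx := hns x (mem_perpB.2 hx)
    have hyy := hns y hy
    have hxy : B x y = 0 := by
      have := hns (x + y) (add_mem (mem_perpB.2 hx) hy)
      simp only [map_add, LinearMap.add_apply, hxx, hyy, O.symm y x, zero_add, add_zero] at this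
      exact (mul_eq_zero.1 (by linear_combination this : (2 : F) * B x y = 0)).resolve_left O.two
    have P : SingPair B x y := ⟨hxx, hyy, hxy⟩
    refine ⟨sieg B x y 1, (mem_specialLinear _).1 (O.sieg_mem_specialLinear x y 1),
      O.sieg_isometry P 1, fun i => ?_, fun e => ?_⟩
    · rw [O.sieg_mulVec P, hx i, mem_perpB.1 hy i]
      simp
    · rw [O.sieg_mulVec P, one_mul, one_mul, add_sub_assoc, add_eq_left, sub_eq_zero] at e
      refine hyx (Submodule.mem_span_singleton.2 ⟨B a y / B a x, ?_⟩)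
      rw [div_eq_inv_mul, mul_smul, ← e, smul_smul, inv_mul_cancel₀ hax, one_smul]

variable [Finite F]

/-- A relation invariant under the isometries and additive spreads from one pair. -/
lemma rel_all (hN : 6 ≤ Fintype.card ι) {R : (ι → F) → (ι → F) → Prop}
    (hzero : ∀ b, R 0 b) (hadd : ∀ x y b, B x b = 0 → B y b = 0 → R x b → R y b → R (x + y) b)
    (hneg : ∀ x b, B x b = 0 → R x b → R (-x) b)
    (hinv : ∀ h : GL ι F, (h : Matrix ι ι F).det = 1 →
      (∀ x y, B ((h : Matrix ι ι F) *ᵥ x) ((h : Matrix ι ι F) *ᵥ y) = B x y) →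
      ∀ x y, B x y = 0 → R x y → R ((h : Matrix ι ι F) *ᵥ x) ((h : Matrix ι ι F) *ᵥ y))
    {a b : ι → F} (hab : B a b = 0) (hout : a ∉ Submodule.span F {b}) (hR : R a b) :
    ∀ z, B z b = 0 → R z b := by
  -- reflect a member at a nonsingular vector
  have move : ∀ a m : ι → F, B a b = 0 → R a b → B m b = 0 → B m m ≠ 0 →
      R ((-(2 * B a m / B m m)) • m) b := by
    intro a m ha hRa hm hmm
    obtain ⟨n', hn', hn'n'⟩ := O.exists_nonsingular ![a, b] (by omega)
    have han' : B a n' = 0 := by simpa using hn' 0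
    have hbn' : B b n' = 0 := by simpa using hn' 1
    obtain ⟨h, hd, hi, hh⟩ := O.exists_refl₂ hmm hn'n'
    have e1 : (h : Matrix ι ι F) *ᵥ b = b := by
      rw [hh, hbn']; simp [O.symm b m, hm]
    have e2 : (h : Matrix ι ι F) *ᵥ a = a + (-(2 * B a m / B m m)) • m := by
      rw [hh, han']; simp [sub_eq_add_neg]
    have h1 := hinv h hd hi a b ha hRa
    rw [e1, e2] at h1
    have hd' : B (a + (-(2 * B a m / B m m)) • m) b = 0 := by simp [ha, hm]
    have := hadd _ _ b hd' (by simp [ha]) h1 (hneg a b ha hRa)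
    simpa [add_comm a] using this
  have hb1 : Module.finrank F (radB B ![b]) ≤ 1 := finrank_rad_le _
  -- a nonsingular vector seeing the centre
  obtain ⟨n, hnb, hnn, han⟩ : ∃ n, B n b = 0 ∧ B n n ≠ 0 ∧ B a n ≠ 0 := by
    obtain ⟨x, hx, hax⟩ := O.exists_functional_ne (u := ![b]) (a := a) (by simpa using hout)
    obtain ⟨n₀, hn₀, hn₀n₀⟩ := O.exists_nonsingular ![b] (by omega)
    have hxb : B x b = 0 := by rw [O.symm]; simpa using hx 0
    have hnb : B n₀ b = 0 := by rw [O.symm]; simpa using hn₀ 0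
    by_cases h0 : B a n₀ = 0
    · obtain ⟨t, ht⟩ := O.exists_translate hn₀n₀ x
      exact ⟨_, by simp [hxb, hnb], ht, by simp [h0, hax]⟩
    · exact ⟨n₀, hnb, hn₀n₀, h0⟩
  have hc₀ := move a n hab hR hnb hnn
  set c := -(2 * B a n / B n n)
  have hc : c ≠ 0 := by simp [c, O.two, han, hnn]
  set w : Fin 2 → (ι → F) := Fin.cons n ![b]
  have hW : 2 + 2 + Module.finrank F (radB B w) < Fintype.card ι := by
    have := O.finrank_rad_cons ![b] (a := n) (fun i => by fin_cases i; simpa [O.symm b n] using hnb) hnn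
    have : Module.finrank F (radB B w) ≤ 1 := this.trans hb1
    omega
  obtain ⟨s, y, hs, hsw, hyw, hsy⟩ := O.exists_partner_rad w hW
  -- every multiple of the nonsingular vector
  have hline : ∀ l : F, R (l • n) b := by
    intro l
    rcases eq_or_ne l 0 with rfl | hl
    · rw [zero_smul]; exact hzero b
    set μ := -(4 * c * B n n) / l with hμ
    have h4 : (4 : F) ≠ 0 := by
      rw [show (4 : F) = 2 * 2 by norm_num]
      exact mul_ne_zero O.two O.two
    have hμ0 : μ ≠ 0 := div_ne_zero (neg_ne_zero.2 (mul_ne_zero (mul_ne_zero h4 hc) hnn)) hl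
    set k := y + ((μ - B n n - B y y) / (2 * B s y)) • s with hk
    have hnk : B n k = 0 := by
      have h1 : B n y = 0 := hyw 0
      have h2 : B n s = 0 := hsw 0
      simp [hk, h1, h2]
    have hkb : B k b = 0 := by
      have h1 : B b y = 0 := hyw 1
      have h2 : B b s = 0 := hsw 1
      simp [hk, O.symm y b, O.symm s b, h1, h2]
    have hkk : B k k = μ - B n n := by
      have := O.two
      simp only [hk, map_add, map_smul, LinearMap.add_apply, LinearMap.smul_apply, smul_eq_mul,
        show B s s = 0 from hs, O.symm y s]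
      field_simp
      ring
    have e1 : B (n + k) (n + k) = μ := by simp [hnk, O.symm k n, hkk]
    have e2 : B (n - k) (n - k) = μ := by simp [hnk, O.symm k n, hkk]
    have h1 := move _ (n + k) (by simp [hnb]) hc₀ (by simp [hnb, hkb]) (by rw [e1]; exact hμ0)
    have h2 := move _ (n - k) (by simp [hnb]) hc₀ (by simp [hnb, hkb]) (by rw [e2]; exact hμ0)
    rw [e1, show B (c • n) (n + k) = c * B n n by simp [hnk]] at h1
    rw [e2, show B (c • n) (n - k) = c * B n n by simp [hnk]] at h2
    have h3 := hadd _ _ b (by simp [hnb, hkb]) (by simp [hnb, hkb]) h1 h2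
    convert h3 using 1
    rw [show l = 2 * -(2 * (c * B n n) / μ) by
      have := O.two
      rw [hμ]; field_simp; ring_nf]
    module
  -- singular vectors orthogonal to it
  intro z hz
  set α := B n z / B n n with hα
  have hmem := O.mem_span_sing_rad w hW (x := z - α • n) (fun i => by
    fin_cases i
    · simp [w, hα, hnn]
    · simp [w, O.symm b z, hz, O.symm b n, hnb])
  suffices H : ∀ d : F, B (d • (z - α • n)) b = 0 ∧ R (d • (z - α • n)) b by
    have := hadd _ _ b (by simp [hnb]) (H 1).1 (hline α) (H 1).2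
    simpa using this
  generalize z - α • n = z' at hmem ⊢
  induction hmem using Submodule.span_induction with
  | zero => intro d; simp [hzero]
  | add x x' _ _ hx hx' =>
    intro d
    rw [smul_add]
    exact ⟨by rw [map_add, LinearMap.add_apply, (hx d).1, (hx' d).1, add_zero],
      hadd _ _ b (hx d).1 (hx' d).1 (hx d).2 (hx' d).2⟩
  | smul e x _ hx => intro d; rw [smul_smul]; exact hx _
  | mem x hx =>
    intro d
    obtain ⟨hxx, hxw⟩ := hx
    have hnx : B n x = 0 := hxw 0
    have hxb : B x b = 0 := by rw [O.symm]; exact hxw 1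
    refine ⟨by simp [hxb], ?_⟩
    have e1 : B (n + x) (n + x) = B n n := by
      simp [hnx, O.symm x n, show B x x = 0 from hxx]
    have h1 := move _ (n + x) (by simp [hnb]) (hline (-d / 2)) (by simp [hnb, hxb])
      (by rw [e1]; exact hnn)
    have hcoef : -(2 * B ((-d / 2) • n) (n + x) / B (n + x) (n + x)) = d := by
      rw [e1, show B ((-d / 2) • n) (n + x) = -d / 2 * B n n by simp [hnx]]
      have := O.two
      field_simp
    rw [hcoef] at h1
    have := hadd _ _ b (by simp [hnb, hxb]) (by simp [hnb]) h1 (hneg _ b (by simp [hnb]) (hline d))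
    simpa using this

variable {G : Subgroup (GL ι F)} (hG : HasIso B G) (hN : 6 ≤ Fintype.card ι)
include hG hN

/-- One transvection with independent centre and functional gives all of `SL`. -/
lemma specialLinear_le_of_tb_indep {a b : ι → F} (hab : B a b = 0) (hb : b ≠ 0)
    (hout : a ∉ Submodule.span F {b}) (hm : tb B a b ∈ G) :
    Cfsg.Geo.specialLinear ι F ≤ G := by
  have hinv : ∀ h : GL ι F, (h : Matrix ι ι F).det = 1 →
      (∀ x y, B ((h : Matrix ι ι F) *ᵥ x) ((h : Matrix ι ι F) *ᵥ y) = B x y) →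
      ∀ x y, B x y = 0 → tb B x y ∈ G →
        tb B ((h : Matrix ι ι F) *ᵥ x) ((h : Matrix ι ι F) *ᵥ y) ∈ G := fun h hd hi x y hxy hx => by
    rw [← tb_conj hi hxy]
    exact G.mul_mem (G.mul_mem (hG h hd hi) hx) (G.inv_mem (hG h hd hi))
  have byCentre : ∀ {a b : ι → F}, B a b = 0 → a ∉ Submodule.span F {b} → tb B a b ∈ G →
      ∀ z, B z b = 0 → tb B z b ∈ G := fun {a b} hab hout hm => O.rel_all hN
    (R := fun x y => tb B x y ∈ G) (fun b => by rw [tb_zero_left]; exact G.one_mem)
    (fun x y b hx hy p q => by rw [← tb_add_left hx hy]; exact G.mul_mem p q)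
    (fun x b hx p => by
      rw [show -x = (-1 : F) • x by simp, tb_smul hx, neg_one_smul, ← tb_inv hx]
      exact G.inv_mem p)
    hinv hab hout hm
  have byFun : ∀ {a b : ι → F}, B a b = 0 → b ∉ Submodule.span F {a} → tb B a b ∈ G →
      ∀ z, B z a = 0 → tb B a z ∈ G := fun {a b} hab hout hm => O.rel_all hN
    (R := fun x y => tb B y x ∈ G) (fun b => by rw [tb_zero_right]; exact G.one_mem)
    (fun x y b hx hy p q => by
      rw [← tb_add_right (by rw [O.symm]; exact hx) (by rw [O.symm]; exact hy)]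
      exact G.mul_mem p q)
    (fun x b hx p => by rw [← tb_inv (by rw [O.symm]; exact hx)]; exact G.inv_mem p)
    (fun h hd hi x y hxy hx => hinv h hd hi y x (by rw [O.symm]; exact hxy) hx)
    (by rw [O.symm]; exact hab) hout hm
  have key : ∀ z b' : ι → F, B z b' = 0 → tb B z b' ∈ G := by
    intro z b' hzb'
    rcases eq_or_ne b' 0 with rfl | hb'
    · rw [tb_zero_right]; exact G.one_mem
    obtain ⟨w, hwp, hwout⟩ : ∃ w ∈ perpB B ![b, b'],
        w ∉ Submodule.span F (Set.range ![b, b']) := by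
      refine SetLike.not_le_iff_exists.1 fun hle => ?_
      have h1 := Submodule.finrank_mono hle
      have h2 := O.finrank_perp ![b, b']
      have h3 : Module.finrank F (Submodule.span F (Set.range ![b, b'])) ≤ 2 := by
        have h := finrank_range_le_card (R := F) ![b, b']
        rw [Fintype.card_fin] at h
        exact h
      omega
    have hwb : B w b = 0 := by rw [O.symm]; simpa using mem_perpB.1 hwp 0
    have hwb' : B w b' = 0 := by rw [O.symm]; simpa using mem_perpB.1 hwp 1
    have hw0 : w ≠ 0 := fun e => hwout (e ▸ Submodule.zero_mem _)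
    have hwb1 : w ∉ Submodule.span F {b'} := fun h => hwout
      (Submodule.span_mono (Set.singleton_subset_iff.2 (show b' ∈ Set.range ![b, b'] from ⟨1, rfl⟩)) h)
    have hbw : b ∉ Submodule.span F {w} := fun h => by
      obtain ⟨r, hr⟩ := Submodule.mem_span_singleton.1 h
      have hr0 : r ≠ 0 := fun e => hb (by rw [← hr, e, zero_smul])
      refine hwout ?_
      rw [show w = r⁻¹ • b by rw [← hr, smul_smul, inv_mul_cancel₀ hr0, one_smul]]
      exact Submodule.smul_mem _ _ (Submodule.subset_span ⟨0, rfl⟩)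
    have hwm := byCentre hab hout hm w hwb
    have hwm' := byFun hwb hbw hwm b' (by rw [O.symm]; exact hwb')
    exact byCentre hwb' hwb1 hwm' z hzb'
  refine specialLinear_le_of_tv G fun a φ hφ => ?_
  obtain ⟨b, hb⟩ : ∃ b, bv B b = φ := by
    let f : (ι → F) →ₗ[F] F := dotProductEquiv F ι φ
    refine ⟨(B.toDual O.nd).symm f, funext fun j => ?_⟩
    rw [bv, O.symm, LinearMap.BilinForm.apply_toDual_symm_apply (hB := O.nd)]
    change φ ⬝ᵥ Pi.single j 1 = φ j
    simp
  subst hb
  rw [bv_dot] at hφ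
  exact key a b hφ

/-- One transvection gives all of `SL`. -/
theorem specialLinear_le_of_tb_six {a b : ι → F} (hab : B a b = 0) (ha : a ≠ 0) (hb : b ≠ 0)
    (hm : tb B a b ∈ G) : Cfsg.Geo.specialLinear ι F ≤ G := by
  by_cases hind : a ∈ Submodule.span F {b}
  swap
  · exact O.specialLinear_le_of_tb_indep hG hN hab hb hind hm
  obtain ⟨c, hca⟩ := Submodule.mem_span_singleton.1 hind
  have hc : c ≠ 0 := fun e => ha (by rw [← hca, e, zero_smul])
  obtain ⟨γ, hγ, hb'⟩ : ∃ γ : F, γ ≠ 0 ∧ b = γ • a :=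
    ⟨c⁻¹, inv_ne_zero hc, by rw [← hca, smul_smul, inv_mul_cancel₀ hc, one_smul]⟩
  subst hb'
  clear hca hind
  rename' a => u
  have huu : B u u = 0 := by simpa [hγ] using hab
  have hu' : u ∉ Submodule.span F (Set.range (![] : Fin 0 → (ι → F))) := by simpa using ha
  obtain ⟨x, hx, -, hux⟩ := O.exists_sing_ne_low (![] : Fin 0 → (ι → F)) (by omega) hu'
  obtain ⟨y, hy, hyp, hyout⟩ := O.exists_sing_notMem_rad ![u, x]
    (by have := O.finrank_rad_hyp huu hux; omega)
  have hyu : B y u = 0 := by rw [O.symm]; simpa using hyp 0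
  have hxy : B x y = 0 := by simpa using hyp 1
  have hyy : B y y = 0 := hy
  have huy : B u y = 0 := by rw [O.symm]; exact hyu
  have hsieg : ∀ p q, SingPair B p q → ∀ d, sieg B p q d ∈ G := fun p q P d =>
    hG _ ((mem_specialLinear _).1 (O.sieg_mem_specialLinear p q d)) (O.sieg_isometry P d)
  have key : ∀ s : F, tb B (u + s • y) (γ • (u + s • y)) ∈ G := by
    intro s
    have P : SingPair B x y := ⟨hx, hy, hxy⟩
    have hs := hsieg x y P (s / B u x)
    have h1 := G.mul_mem (G.mul_mem hs hm) (G.inv_mem hs)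
    rw [tb_conj (O.sieg_isometry P _) (by simp [huu]), mulVec_smul, O.sieg_mulVec P, huy,
      mul_zero, zero_smul, sub_zero, div_mul_cancel₀ s hux] at h1
    exact h1
  have h1 := G.mul_mem (key 1) (G.inv_mem (key (-1)))
  have h2 := G.mul_mem h1 (hsieg y u ⟨hyy, huu, hyu⟩ (2 * γ))
  have heq : tb B (u + (1 : F) • y) (γ • (u + (1 : F) • y)) *
      (tb B (u + (-1 : F) • y) (γ • (u + (-1 : F) • y)))⁻¹ * sieg B y u (2 * γ) =
      tb B u ((4 * γ) • y) := by
    apply gl_ext; intro z
    rw [tb_inv (by simp [huu, hyy, huy, hyu]), mul_mulVec', mul_mulVec',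
      O.sieg_mulVec ⟨hyy, huu, hyu⟩, tb_mulVec (by simp [huu, hyy, huy, hyu]),
      tb_mulVec (by simp [huu, hyy, huy, hyu]), tb_mulVec (by simp [huy])]
    simp only [map_add, map_sub, map_neg, map_smul, LinearMap.add_apply, LinearMap.sub_apply,
      LinearMap.smul_apply, smul_eq_mul, huu, hyy, huy, hyu]
    module
  rw [heq] at h2
  refine O.specialLinear_le_of_tb_indep hG hN (by simp [huy])
    (smul_ne_zero (mul_ne_zero ?_ hγ) fun e => hyout (by rw [e]; exact Submodule.zero_mem _)) (fun h => ?_) h2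
  · rw [show (4 : F) = 2 * 2 by norm_num]
    exact mul_ne_zero O.two O.two
  obtain ⟨d, hd⟩ := Submodule.mem_span_singleton.1 h
  rw [smul_smul] at hd
  rcases eq_or_ne (d * (4 * γ)) 0 with e | e
  · exact ha (by rw [← hd, e, zero_smul])
  · refine hyout ?_
    rw [show y = (d * (4 * γ))⁻¹ • u by rw [← hd, smul_smul, inv_mul_cancel₀ e, one_smul]]
    exact Submodule.smul_mem _ _ (Submodule.subset_span ⟨0, rfl⟩)

/-- A rank-two element gives a transvection. -/
lemma tb_of_pair_six {t : GL ι F} (ht : t ∈ G) {m₁ m₂ a₁ a₂ : ι → F}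
    (htx : ∀ x, (t : Matrix ι ι F) *ᵥ x = x + B a₁ x • m₁ + B a₂ x • m₂) (hm : m₁ ≠ 0)
    (hout : a₁ ∉ Submodule.span F (Set.range ![m₁, m₂, a₂])) :
    ∃ a b, B a b = 0 ∧ a ≠ 0 ∧ b ≠ 0 ∧ tb B a b ∈ G := by
  obtain ⟨h, hd, hi, hfix, hmove⟩ := O.exists_move hN hout
  have e1 : (h : Matrix ι ι F) *ᵥ m₁ = m₁ := hfix 0
  have e2 : (h : Matrix ι ι F) *ᵥ m₂ = m₂ := hfix 1
  have e3 : (h : Matrix ι ι F) *ᵥ a₂ = a₂ := hfix 2
  set δ := (h : Matrix ι ι F) *ᵥ a₁ - a₁ with hδ
  have hδ0 : δ ≠ 0 := sub_ne_zero.2 hmove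
  have d1 : B δ m₁ = 0 := by
    have := hi a₁ m₁
    rw [e1] at this
    simp [hδ, this]
  have d2 : B δ m₂ = 0 := by
    have := hi a₁ m₂
    rw [e2] at this
    simp [hδ, this]
  have hab : B m₁ δ = 0 := by rw [O.symm]; exact d1
  refine ⟨m₁, δ, hab, hm, hδ0, ?_⟩
  have key : h * t * h⁻¹ = tb B m₁ δ * t := by
    apply gl_ext; intro x
    rw [mul_mulVec', mul_mulVec', mul_mulVec', tb_mulVec hab, htx, htx, mulVec_add, mulVec_add,
      mulVec_smul, mulVec_smul, mulVec_inv_mulVec, e1, e2]
    have f1 := hi a₁ (((h⁻¹ : GL ι F) : Matrix ι ι F) *ᵥ x)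
    have f2 := hi a₂ (((h⁻¹ : GL ι F) : Matrix ι ι F) *ᵥ x)
    rw [mulVec_inv_mulVec] at f1 f2
    rw [e3] at f2
    rw [← f1, ← f2, show (h : Matrix ι ι F) *ᵥ a₁ = a₁ + δ by simp [hδ]]
    simp only [map_add, map_smul, LinearMap.add_apply, LinearMap.smul_apply, smul_eq_mul,
      O.symm x δ, O.symm m₁ δ, O.symm m₂ δ, d1, d2]
    module
  have := G.mul_mem (G.mul_mem (G.mul_mem (hG h hd hi) ht) (G.inv_mem (hG h hd hi))) (G.inv_mem ht)
  rwa [key, mul_inv_cancel_right] at this

/-- The dichotomy: either a transvection appears or orthogonality at singular vectors is kept. -/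
lemma pair_dichotomy_six {g : GL ι F} (hg : g ∈ G)
    {u v w : ι → F} (P : SingPair B u v) (hind : LinearIndependent F ![u, v]) (hwu : B u w = 0)
    (hwv : B v w = 0) :
    B ((g : Matrix ι ι F) *ᵥ u) ((g : Matrix ι ι F) *ᵥ w) = 0 ∨
      ∃ a b, B a b = 0 ∧ a ≠ 0 ∧ b ≠ 0 ∧ tb B a b ∈ G := by
  classical
  by_contra hcon
  push Not at hcon
  obtain ⟨hgw, hno⟩ := hcon
  set M := (g : Matrix ι ι F)
  set M' := ((g⁻¹ : GL ι F) : Matrix ι ι F)
  have hadj : ∀ e : ι → F, ∃ a, ∀ x, B a x = B (M' *ᵥ x) e := fun e => by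
    let f : (ι → F) →ₗ[F] F := (B.flip e).comp (Matrix.toLin' M')
    exact ⟨(B.toDual O.nd).symm f, fun x => by
      rw [LinearMap.BilinForm.apply_toDual_symm_apply (hB := O.nd)]; rfl⟩
  obtain ⟨au, hau⟩ := hadj u
  obtain ⟨av, hav⟩ := hadj v
  have ht := G.mul_mem (G.mul_mem hg (hG _ ((mem_specialLinear _).1 (O.sieg_mem_specialLinear u v 1)) (O.sieg_isometry P 1))) (G.inv_mem hg)
  have htx : ∀ x, ((g * sieg B u v 1 * g⁻¹ : GL ι F) : Matrix ι ι F) *ᵥ x =
      x + B au x • (M *ᵥ v) + B av x • (-(M *ᵥ u)) := fun x => by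
    rw [mul_mulVec', mul_mulVec', O.sieg_mulVec P, mulVec_sub, mulVec_add, mulVec_inv_mulVec,
      mulVec_smul, mulVec_smul, hau, hav, one_mul, one_mul, smul_neg, sub_eq_add_neg]
  have hmi : LinearIndependent F ![M *ᵥ v, -(M *ᵥ u)] := by
    rw [LinearIndependent.pair_iff]
    intro r s hrs
    have h0 : (-s) • u + r • v = 0 := by
      apply gl_mulVec_injective g
      simp only [mulVec_add, mulVec_smul, mulVec_zero]
      rw [← hrs]; module
    obtain ⟨h1, h2⟩ := LinearIndependent.pair_iff.1 hind _ _ h0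
    exact ⟨h2, neg_eq_zero.1 h1⟩
  have hmu : M *ᵥ u ≠ 0 := fun e => hmi.ne_zero 1 (by simp [e])
  have hmv : M *ᵥ v ≠ 0 := hmi.ne_zero 0
  set S := Submodule.span F (Set.range ![M *ᵥ v, -(M *ᵥ u)]) with hS
  have split : ∀ {p q : ι → F},
      p ∈ Submodule.span F (Set.range ![M *ᵥ v, -(M *ᵥ u), q]) → ∃ k : F, p - k • q ∈ S := by
    intro p q h
    rw [Submodule.mem_span_range_iff_exists_fun] at h
    obtain ⟨f, rfl⟩ := h
    refine ⟨f 2, ?_⟩
    rw [hS, Submodule.mem_span_range_iff_exists_fun]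
    refine ⟨![f 0, f 1], ?_⟩
    simp [Fin.sum_univ_two, Fin.sum_univ_three]
  have hfst : au ∈ Submodule.span F (Set.range ![M *ᵥ v, -(M *ᵥ u), av]) := by
    by_contra hout
    obtain ⟨a, b, h1, h2, h3, h4⟩ := O.tb_of_pair_six hG hN ht htx hmv hout
    exact hno a b h1 h2 h3 h4
  obtain ⟨k, hk⟩ := split hfst
  have hav' : av ∈ S := by
    by_contra hout
    -- with `au` replaced by its component along the moved vectors
    obtain ⟨a, b, h1, h2, h3, h4⟩ := O.tb_of_pair_six hG hN
      (t := g * sieg B u v 1 * g⁻¹) ht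
      (m₁ := k • (M *ᵥ v) + -(M *ᵥ u)) (m₂ := M *ᵥ v) (a₁ := av) (a₂ := au - k • av)
      (fun x => by
        rw [htx]
        simp only [map_sub, map_smul, LinearMap.sub_apply, LinearMap.smul_apply, smul_eq_mul]
        module)
      (fun e => one_ne_zero (LinearIndependent.pair_iff.1 hmi k 1 (by rw [one_smul]; exact e)).2)
      (fun h => hout (Submodule.span_le.2 (by
        rintro _ ⟨i, rfl⟩
        fin_cases i
        · exact S.add_mem (S.smul_mem _ (Submodule.subset_span ⟨0, rfl⟩))
            (Submodule.subset_span ⟨1, rfl⟩)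
        · exact Submodule.subset_span ⟨0, rfl⟩
        · exact hk) h))
    exact hno a b h1 h2 h3 h4
  have hau' : au ∈ S := by simpa using S.add_mem hk (S.smul_mem k hav')
  have hai : LinearIndependent F ![au, av] := by
    rw [LinearIndependent.pair_iff]
    intro r s hrs
    have h0 : r • u + s • v = 0 := by
      by_contra hne
      apply hne
      refine O.nd.2 _ fun x => ?_
      have h := LinearMap.congr_fun (congrArg B hrs) (M *ᵥ x)
      simp only [map_add, map_smul, map_zero, LinearMap.add_apply, LinearMap.smul_apply,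
        LinearMap.zero_apply, hau, hav, smul_eq_mul] at h
      rw [inv_mulVec_mulVec] at h
      simpa using h
    exact LinearIndependent.pair_iff.1 hind r s h0
  have hspan : Submodule.span F (Set.range ![au, av]) =
      Submodule.span F (Set.range ![M *ᵥ v, -(M *ᵥ u)]) := by
    refine Submodule.eq_of_le_of_finrank_eq (Submodule.span_le.2 ?_) ?_
    · rintro _ ⟨i, rfl⟩
      fin_cases i
      · exact hau'
      · exact hav'
    · rw [finrank_span_eq_card hai, finrank_span_eq_card hmi]
  have hker : Submodule.span F (Set.range ![au, av]) ≤ LinearMap.ker (B.flip (M *ᵥ w)) := by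
    refine Submodule.span_le.2 ?_
    rintro _ ⟨i, rfl⟩
    fin_cases i
    · change B au (M *ᵥ w) = 0
      rw [hau, inv_mulVec_mulVec, O.symm]; exact hwu
    · change B av (M *ᵥ w) = 0
      rw [hav, inv_mulVec_mulVec, O.symm]; exact hwv
  have h1 : B (-(M *ᵥ u)) (M *ᵥ w) = 0 := by
    have hm : -(M *ᵥ u) ∈ Submodule.span F (Set.range ![au, av]) := by
      rw [hspan]; exact Submodule.subset_span ⟨1, rfl⟩
    exact hker hm
  exact hgw (by simpa using h1)


/-- An element outside the similitudes gives a transvection. -/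
theorem exists_tb_six {g : GL ι F} (hg : g ∈ G)
    (hgn : ¬ ∃ c : F, c ≠ 0 ∧ ∀ x y, B ((g : Matrix ι ι F) *ᵥ x) ((g : Matrix ι ι F) *ᵥ y) =
      c * B x y) :
    ∃ a b, B a b = 0 ∧ a ≠ 0 ∧ b ≠ 0 ∧ tb B a b ∈ G := by
  classical
  by_contra hno
  apply hgn
  set M := (g : Matrix ι ι F)
  -- orthogonality at singular vectors
  have horth : ∀ u w, IsSing B u → B u w = 0 → B (M *ᵥ u) (M *ᵥ w) = 0 := by
    intro u w hu hw
    rcases eq_or_ne u 0 with rfl | hu0
    · simp
    obtain ⟨v, hv, huv, hvw, hind⟩ : ∃ v, IsSing B v ∧ B u v = 0 ∧ B v w = 0 ∧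
        LinearIndependent F ![u, v] := by
      have indep : ∀ {v : ι → F}, v ∉ Submodule.span F {u} → LinearIndependent F ![u, v] := by
        intro v hv
        rw [LinearIndependent.pair_iff' hu0]
        intro a ha
        exact hv (Submodule.mem_span_singleton.2 ⟨a, ha⟩)
      by_cases hww : B w w = 0
      · by_cases hwu : w ∈ Submodule.span F {u}
        · obtain ⟨v, hv, hvp, hvout⟩ := O.exists_sing_notMem_rad ![u]
            (by have := finrank_rad_le (B := B) ![u]; omega)
          obtain ⟨r, rfl⟩ := Submodule.mem_span_singleton.1 hwu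
          have huv : B u v = 0 := by simpa using hvp 0
          exact ⟨v, hv, huv, by simp [O.symm v u, huv], indep (by simpa using hvout)⟩
        · exact ⟨w, hww, hw, hww, indep hwu⟩
      · set p : Fin 2 → (ι → F) := Fin.cons w ![u] with hp
        have hr : Module.finrank F (radB B p) ≤ 1 := (O.finrank_rad_cons ![u] (a := w)
          (fun i => by fin_cases i; simpa using hw) hww).trans (finrank_rad_le _)
        obtain ⟨v, hv, hvp, hvout⟩ := O.exists_sing_notMem_rad p (by omega)
        have h0 : B w v = 0 := hvp 0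
        have h1 : B u v = 0 := hvp 1
        exact ⟨v, hv, h1, by rw [O.symm]; exact h0, indep fun h => hvout
          (Submodule.span_mono (Set.singleton_subset_iff.2
            (show u ∈ Set.range p from ⟨1, rfl⟩)) h)⟩
    exact ((O.pair_dichotomy_six hG hN hg ⟨hu, hv, huv⟩ hind hw hvw).resolve_right hno)
  let T : (ι → F) →ₗ[F] (ι → F) := (B.toDual O.nd).symm.toLinearMap.comp
    ((LinearMap.BilinForm.comp B (Matrix.toLin' M) (Matrix.toLin' M)))
  have hT : ∀ x y, B (T x) y = B (M *ᵥ x) (M *ᵥ y) := fun x y => by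
    simp only [T, LinearMap.comp_apply, LinearEquiv.coe_coe]
    rw [LinearMap.BilinForm.apply_toDual_symm_apply (hB := O.nd)]
    simp
  have heig : ∀ u, IsSing B u → ∃ c : F, T u = c • u := by
    intro u hu
    have h : T u ∈ Submodule.span F (Set.range ![u]) := O.mem_span_of_perp fun x hx => by
      rw [hT]; exact horth u x hu (by simpa using hx 0)
    rw [Matrix.range_cons, Matrix.range_empty, Set.union_empty,
      Submodule.mem_span_singleton] at h
    obtain ⟨c, hc⟩ := h
    exact ⟨c, hc.symm⟩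
  choose C hC using heig
  have hsame : ∀ u v (hu : IsSing B u) (hv : IsSing B v), B u v = 0 →
      LinearIndependent F ![u, v] → C u hu = C v hv := by
    intro u v hu hv huv hind
    have hs : IsSing B (u + v) := by
      simp [IsSing, show B u u = 0 from hu, show B v v = 0 from hv, huv, O.symm v u]
    have e := hC (u + v) hs
    rw [map_add, hC u hu, hC v hv] at e
    have e2 : (C u hu - C (u + v) hs) • u + (C v hv - C (u + v) hs) • v = 0 := by
      rw [sub_smul, sub_smul]
      rw [smul_add] at e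
      linear_combination (norm := module) e
    obtain ⟨h1, h2⟩ := LinearIndependent.pair_iff.1 hind _ _ e2
    linear_combination h1 - h2
  have hconst : ∀ u v (hu : IsSing B u) (hv : IsSing B v), u ≠ 0 → v ≠ 0 → C u hu = C v hv := by
    intro u v hu hv hu0 hv0
    by_cases huv : B u v = 0
    · by_cases hdep : ∃ r : F, r • u = v
      · obtain ⟨r, rfl⟩ := hdep
        have e := hC (r • u) hv
        rw [map_smul, hC u hu, smul_comm] at e
        exact smul_left_injective F hv0 e
      · push Not at hdep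
        exact hsame u v hu hv huv ((LinearIndependent.pair_iff' hu0).2 hdep)
    obtain ⟨z, hz, hzp, hzout⟩ := O.exists_sing_notMem_rad ![u, v]
      (by have := O.finrank_rad_hyp hu huv; omega)
    have hind : ∀ (a : ι → F) (i : Fin 2), ![u, v] i = a → a ≠ 0 → LinearIndependent F ![a, z] := by
      intro a i hi ha
      rw [LinearIndependent.pair_iff' ha]
      intro r hr
      exact hzout (hr ▸ Submodule.smul_mem _ _ (Submodule.subset_span ⟨i, hi⟩))
    rw [hsame u z hu hz (by simpa using hzp 0) (hind u 0 rfl hu0),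
      hsame v z hv hz (by simpa using hzp 1) (hind v 1 rfl hv0)]
  obtain ⟨z₀, hz₀, -, hz₀0⟩ := O.exists_sing_notMem_low (![] : Fin 0 → (ι → F)) (by omega)
  have hz0 : z₀ ≠ 0 := fun e => hz₀0 (e ▸ Submodule.zero_mem _)
  set c := C z₀ hz₀
  have hTc : ∀ x, T x = c • x := by
    intro x
    have hmem := O.mem_span_sing_low (![] : Fin 0 → (ι → F)) (by omega) (x := x) (fun i => i.elim0)
    induction hmem using Submodule.span_induction with
    | mem z hz =>
      rcases eq_or_ne z 0 with rfl | hne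
      · simp
      rw [hC z hz.1, hconst z z₀ hz.1 hz₀ hne hz0]
    | zero => simp
    | add a b _ _ ha hb => simp [ha, hb]
    | smul d a _ ha => simp [ha, smul_comm c d a]
  refine ⟨c, fun hc => ?_, fun x y => by rw [← hT, hTc]; simp⟩
  have h0 : ∀ y, B (M *ᵥ z₀) y = 0 := fun y => by
    rw [← mulVec_inv_mulVec g y, ← hT, hTc, hc]; simp
  have := O.nd.1 _ h0
  exact hz0 (gl_mulVec_injective g (by simpa using this))


/-- Maximality. -/
theorem specialLinear_le_of_not_similitude_six {g : GL ι F}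
    (hg : g ∈ G)
    (hgn : ¬ ∃ c : F, c ≠ 0 ∧ ∀ x y, B ((g : Matrix ι ι F) *ᵥ x) ((g : Matrix ι ι F) *ᵥ y) =
      c * B x y) :
    Cfsg.Geo.specialLinear ι F ≤ G := by
  obtain ⟨a, b, hab, ha, hb, hm⟩ := O.exists_tb_six hG hN hg hgn
  exact O.specialLinear_le_of_tb_six hG hN hab ha hb hm



end OddForm

theorem quad_linear_isMaximalIn_six {F : Type*} [Field F] [Fintype F] (n : ℕ) (hn : 6 ≤ n) (hodd : Odd (Fintype.card F)) (Q : (Fin n → F) → F) (hQ : Cfsg.Geo.IsNondegenerateQuadraticForm Q) : Cfsg.Geo.IsMaximalIn (Cfsg.Geo.specialLinear (Fin n) F) (Cfsg.Geo.quadSimilarityGroup Q ⊓ Cfsg.Geo.specialLinear (Fin n) F) := by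
  classical
  have hbl := hQ.polar_bilinear
  let B : LinearMap.BilinForm F (Fin n → F) := LinearMap.mk₂ F (QuadraticMap.polar Q)
    (fun x y v => hbl.add_left x y v) (fun c x v => hbl.smul_left c x v)
    (fun v x y => hbl.add_right v x y) (fun c v x => hbl.smul_right c v x)
  have hBp : ∀ x y, B x y = QuadraticMap.polar Q x y := fun x y => rfl
  have h2 : (2 : F) ≠ 0 := Ring.two_ne_zero fun e => by
    have := FiniteField.even_card_of_char_two (F := F) e
    rw [Nat.odd_iff] at hodd
    omega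
  have hBQ : ∀ x, B x x = 2 * Q x := fun x => by
    rw [hBp, QuadraticMap.polar, show x + x = (2 : F) • x by rw [two_smul], hQ.smul]; ring
  have O : OddForm B :=
    { two := h2
      symm := fun x y => by rw [hBp, hBp, QuadraticMap.polar_comm]
      nd := ⟨fun x hx => by
          by_contra hne
          obtain ⟨y, hy⟩ := (hQ.nondegenerate x hne).2
          exact hy (hx y), fun y hy => by
          by_contra hne
          obtain ⟨x, hx⟩ := (hQ.nondegenerate y hne).1
          exact hx (hy x)⟩ }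
  have hmem : ∀ g : GL (Fin n) F, g ∈ Cfsg.Geo.quadSimilarityGroup Q ↔
      ∃ c : F, c ≠ 0 ∧ ∀ x y, B ((g : Matrix (Fin n) (Fin n) F) *ᵥ x)
        ((g : Matrix (Fin n) (Fin n) F) *ᵥ y) = c * B x y := fun g => by
    constructor
    · rintro ⟨c, hc⟩
      refine ⟨c, c.ne_zero, fun x y => ?_⟩
      simp only [hBp, QuadraticMap.polar, ← Matrix.mulVec_add, hc]
      ring
    · rintro ⟨c, hc0, hc⟩
      refine ⟨Units.mk0 c hc0, fun v => mul_left_cancel₀ h2 ?_⟩
      have := hc v v
      rw [hBQ, hBQ] at this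
      rw [Units.val_mk0, this]; ring
  have hN : 6 ≤ Fintype.card (Fin n) := by simpa using hn
  refine isMaximalIn_of inf_le_right ?_ fun M hle hM g hg hgn => ?_
  · obtain ⟨u, hu, -, hu0⟩ := O.exists_sing_notMem_low (![] : Fin 0 → (Fin n → F)) (by omega)
    obtain ⟨v, hv, hvp, hvout⟩ := O.exists_sing_notMem_low ![u] (by omega)
    have huv : B u v = 0 := by simpa using hvp 0
    have hune : u ≠ 0 := fun e => hu0 (e ▸ Submodule.zero_mem _)
    refine ⟨tb B v u, tv_mem_specialLinear _ _, fun hs => ?_⟩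
    obtain ⟨c, hc0, hc⟩ := (hmem _).1 hs.1
    obtain ⟨z, hz, hzu⟩ := O.exists_functional_ne (u := (![] : Fin 0 → (Fin n → F))) (a := u) hu0
    obtain ⟨w, hw, hwv⟩ := O.exists_functional_ne (u := ![u]) (a := v) hvout
    have huw : B u w = 0 := by simpa using hw 0
    have e1 := hc z w
    rw [tb_mulVec (by rw [O.symm]; exact huv), tb_mulVec (by rw [O.symm]; exact huv), O.symm w u,
      huw, zero_smul, add_zero] at e1
    simp only [map_add, map_smul, LinearMap.add_apply, LinearMap.smul_apply, smul_eq_mul] at e1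
    have e2 := hc u v
    rw [tb_mulVec (by rw [O.symm]; exact huv), tb_mulVec (by rw [O.symm]; exact huv)] at e2
    simp only [O.symm v u, huv, show B u u = 0 from hu, zero_smul, add_zero] at e2
    -- the scalar is one
    obtain ⟨p, hp, hpu⟩ : ∃ p, (B v p = 0) ∧ B u p ≠ 0 := by
      obtain ⟨p, hp, hup⟩ := O.exists_functional_ne (u := ![v]) (a := u) (fun h => hvout (by
        rw [Matrix.range_cons, Matrix.range_empty, Set.union_empty,
          Submodule.mem_span_singleton] at h ⊢
        obtain ⟨r, hr⟩ := h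
        have hr0 : r ≠ 0 := fun e => hune (by rw [← hr, e, zero_smul])
        exact ⟨r⁻¹, by rw [← hr, smul_smul, inv_mul_cancel₀ hr0, one_smul]⟩))
      exact ⟨p, by simpa using hp 0, hup⟩
    have e3 := hc u p
    rw [tb_mulVec (by rw [O.symm]; exact huv), tb_mulVec (by rw [O.symm]; exact huv)] at e3
    simp only [show B u u = 0 from hu, zero_smul, add_zero, map_add, map_smul, huv, smul_eq_mul,
      mul_zero] at e3
    have hc1 : c = 1 := mul_right_cancel₀ hpu (by linear_combination -e3)
    rw [hc1, one_mul] at e1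
    have : B z u * B v w = 0 := by linear_combination e1
    rcases mul_eq_zero.1 this with e | e
    · exact hzu (by rw [O.symm]; exact e)
    · exact hwv e
  · refine O.specialLinear_le_of_not_similitude_six (fun h hd hi => hle ⟨(hmem _).2
      ⟨1, one_ne_zero, fun x y => by rw [hi, one_mul]⟩, (mem_specialLinear _).2 hd⟩) hN hg fun h => hgn ⟨(hmem g).2 h, hM hg⟩



end Cfsg.Agent.Lib.Forms
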