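import Cfsg.Agent.Lib.Forms.OrthTv

/-!
The group of orthogonal similitudes is maximal in `SL` in odd characteristic.
-/

set_option autoImplicit false

namespace Cfsg.Agent.Lib.Forms

open Matrix

variable {ι : Type} [Fintype ι] [DecidableEq ι] {F : Type*} [Field F]
  {B : LinearMap.BilinForm F (ι → F)}

namespace OddForm

variable (O : OddForm B) [Finite F] (hN : 13 ≤ Fintype.card ι)
include O hN

/-- A rank-two element with image off the common complement gives a transvection. -/
lemma tb_of_pair {G : Subgroup (GL ι F)} (hG : HasSieg B G) {t : GL ι F} (ht : t ∈ G)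
    {m₁ m₂ a₁ a₂ : ι → F}
    (htx : ∀ x, (t : Matrix ι ι F) *ᵥ x = x + B a₁ x • m₁ + B a₂ x • m₂)
    (hm : LinearIndependent F ![m₁, m₂])
    (hout : a₁ ∉ Submodule.span F (Set.range ![m₁, m₂])) :
    ∃ a b, B a b = 0 ∧ a ≠ 0 ∧ b ≠ 0 ∧ tb B a b ∈ G := by
  obtain ⟨u, hu, hup, huout⟩ := O.exists_sing_notMem ![m₁, m₂, a₁, a₂] (by omega)
  have hum₁ : B m₁ u = 0 := by simpa using hup 0
  have hum₂ : B m₂ u = 0 := by simpa using hup 1
  have hua₁ : B a₁ u = 0 := by simpa using hup 2
  have hua₂ : B a₂ u = 0 := by simpa using hup 3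
  have hu0 : u ≠ 0 := fun e => huout (e ▸ Submodule.zero_mem _)
  have hout' : a₁ ∉ Submodule.span F (Set.range ![m₁, m₂, u]) := fun h => by
    rw [Submodule.mem_span_range_iff_exists_fun] at h
    obtain ⟨f, hf⟩ := h
    simp [Fin.sum_univ_three] at hf
    rcases eq_or_ne (f 2) 0 with e | e
    · refine hout ?_
      rw [Submodule.mem_span_range_iff_exists_fun]
      exact ⟨![f 0, f 1], by simpa [Fin.sum_univ_two, e] using hf⟩
    · refine huout ?_
      rw [Submodule.mem_span_range_iff_exists_fun]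
      refine ⟨![-f 0 / f 2, -f 1 / f 2, 1 / f 2, 0], ?_⟩
      simp [Fin.sum_univ_four, ← hf]
      match_scalars <;> field_simp <;> ring
  obtain ⟨v, hv, hvp, hav⟩ := O.exists_sing_ne ![m₁, m₂, u] (by omega) hout'
  have hvm₁ : B m₁ v = 0 := by simpa using hvp 0
  have hvm₂ : B m₂ v = 0 := by simpa using hvp 1
  have huv : B u v = 0 := by simpa using hvp 2
  have P : SingPair B u v := ⟨hu, hv, huv⟩
  set A := B a₁ v • m₁ + B a₂ v • m₂ with hA
  have hA0 : A ≠ 0 := fun e => hav (LinearIndependent.pair_iff.1 hm _ _ e).1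
  have hAu : B A u = 0 := by simp [hA, hum₁, hum₂]
  refine ⟨A, u, hAu, hA0, hu0, ?_⟩
  set s := sieg B u v 1
  have hs : s ∈ G := hG u v P 1
  have key : tb B A u * (s * t) = t * s := by
    apply gl_ext; intro x
    rw [mul_mulVec', mul_mulVec', mul_mulVec', tb_mulVec hAu, htx, O.sieg_mulVec P,
      O.sieg_mulVec P, htx]
    simp only [map_add, map_sub, map_smul, LinearMap.add_apply, LinearMap.sub_apply,
      LinearMap.smul_apply, smul_eq_mul, hum₁, hum₂, hvm₁, hvm₂, hua₁, hua₂, huv, one_mul,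
      show B u u = 0 from hu, O.symm v u, hA]
    module
  have := G.mul_mem (G.mul_mem ht hs) (G.inv_mem (G.mul_mem hs ht))
  rwa [← key, mul_inv_cancel_right] at this

/-- The dichotomy: either a transvection appears or orthogonality at singular vectors is kept. -/
lemma pair_dichotomy {G : Subgroup (GL ι F)} (hG : HasSieg B G) {g : GL ι F} (hg : g ∈ G)
    {u v w : ι → F} (P : SingPair B u v) (hind : LinearIndependent F ![u, v]) (hwu : B u w = 0)
    (hwv : B v w = 0) :
    B ((g : Matrix ι ι F) *ᵥ u) ((g : Matrix ι ι F) *ᵥ w) = 0 ∨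
      ∃ a b, B a b = 0 ∧ a ≠ 0 ∧ b ≠ 0 ∧ tb B a b ∈ G := by
  classical
  by_contra hcon
  push Not at hcon
  obtain ⟨hgw, hno⟩ := hcon
  set M := (g : Matrix ι ι F)
  set M' := ((g⁻¹ : GL ι F) : Matrix ι ι F)
  have hadj : ∀ e : ι → F, ∃ a, ∀ x, B a x = B (M' *ᵥ x) e := fun e => by
    let f : (ι → F) →ₗ[F] F := (B.flip e).comp (Matrix.toLin' M')
    exact ⟨(B.toDual O.nd).symm f, fun x => by
      rw [LinearMap.BilinForm.apply_toDual_symm_apply (hB := O.nd)]; rfl⟩
  obtain ⟨au, hau⟩ := hadj u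
  obtain ⟨av, hav⟩ := hadj v
  have ht := G.mul_mem (G.mul_mem hg (hG u v P 1)) (G.inv_mem hg)
  have htx : ∀ x, ((g * sieg B u v 1 * g⁻¹ : GL ι F) : Matrix ι ι F) *ᵥ x =
      x + B au x • (M *ᵥ v) + B av x • (-(M *ᵥ u)) := fun x => by
    rw [mul_mulVec', mul_mulVec', O.sieg_mulVec P, mulVec_sub, mulVec_add, mulVec_inv_mulVec,
      mulVec_smul, mulVec_smul, hau, hav, one_mul, one_mul, smul_neg, sub_eq_add_neg]
  have hmi : LinearIndependent F ![M *ᵥ v, -(M *ᵥ u)] := by
    rw [LinearIndependent.pair_iff]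
    intro r s hrs
    have h0 : (-s) • u + r • v = 0 := by
      apply gl_mulVec_injective g
      simp only [mulVec_add, mulVec_smul, mulVec_zero]
      rw [← hrs]; module
    obtain ⟨h1, h2⟩ := LinearIndependent.pair_iff.1 hind _ _ h0
    exact ⟨h2, neg_eq_zero.1 h1⟩
  have hau' : au ∈ Submodule.span F (Set.range ![M *ᵥ v, -(M *ᵥ u)]) := by
    by_contra hout
    obtain ⟨a, b, h1, h2, h3, h4⟩ := O.tb_of_pair hN hG ht htx hmi hout
    exact hno a b h1 h2 h3 h4
  have hav' : av ∈ Submodule.span F (Set.range ![M *ᵥ v, -(M *ᵥ u)]) := by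
    by_contra hout
    obtain ⟨a, b, h1, h2, h3, h4⟩ := O.tb_of_pair hN hG (t := g * sieg B u v 1 * g⁻¹) ht
      (m₁ := -(M *ᵥ u)) (m₂ := M *ᵥ v) (a₁ := av) (a₂ := au)
      (fun x => by rw [htx]; abel)
      (by rw [LinearIndependent.pair_symm_iff]; exact hmi)
      (fun h => hout (by
        have e : Set.range ![M *ᵥ v, -(M *ᵥ u)] = Set.range ![-(M *ᵥ u), M *ᵥ v] := by
          simp [Matrix.range_cons, Matrix.range_empty, Set.pair_comm]
        rwa [e]))
    exact hno a b h1 h2 h3 h4
  have hai : LinearIndependent F ![au, av] := by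
    rw [LinearIndependent.pair_iff]
    intro r s hrs
    have h0 : r • u + s • v = 0 := by
      by_contra hne
      apply hne
      refine O.nd.2 _ fun x => ?_
      have h := LinearMap.congr_fun (congrArg B hrs) (M *ᵥ x)
      simp only [map_add, map_smul, map_zero, LinearMap.add_apply, LinearMap.smul_apply,
        LinearMap.zero_apply, hau, hav, smul_eq_mul] at h
      rw [inv_mulVec_mulVec] at h
      simpa using h
    exact LinearIndependent.pair_iff.1 hind r s h0
  have hspan : Submodule.span F (Set.range ![au, av]) =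
      Submodule.span F (Set.range ![M *ᵥ v, -(M *ᵥ u)]) := by
    refine Submodule.eq_of_le_of_finrank_eq (Submodule.span_le.2 ?_) ?_
    · rintro _ ⟨i, rfl⟩
      fin_cases i
      · exact hau'
      · exact hav'
    · rw [finrank_span_eq_card hai, finrank_span_eq_card hmi]
  have hker : Submodule.span F (Set.range ![au, av]) ≤ LinearMap.ker (B.flip (M *ᵥ w)) := by
    refine Submodule.span_le.2 ?_
    rintro _ ⟨i, rfl⟩
    fin_cases i
    · change B au (M *ᵥ w) = 0
      rw [hau, inv_mulVec_mulVec, O.symm]; exact hwu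
    · change B av (M *ᵥ w) = 0
      rw [hav, inv_mulVec_mulVec, O.symm]; exact hwv
  have h1 : B (-(M *ᵥ u)) (M *ᵥ w) = 0 := by
    have hm : -(M *ᵥ u) ∈ Submodule.span F (Set.range ![au, av]) := by
      rw [hspan]; exact Submodule.subset_span ⟨1, rfl⟩
    exact hker hm
  exact hgw (by simpa using h1)

/-- An element outside the similitudes gives a transvection. -/
theorem exists_tb {G : Subgroup (GL ι F)} (hG : HasSieg B G) {g : GL ι F} (hg : g ∈ G)
    (hgn : ¬ ∃ c : F, c ≠ 0 ∧ ∀ x y, B ((g : Matrix ι ι F) *ᵥ x) ((g : Matrix ι ι F) *ᵥ y) =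
      c * B x y) :
    ∃ a b, B a b = 0 ∧ a ≠ 0 ∧ b ≠ 0 ∧ tb B a b ∈ G := by
  classical
  by_contra hno
  apply hgn
  set M := (g : Matrix ι ι F)
  -- orthogonality at singular vectors
  have horth : ∀ u w, IsSing B u → B u w = 0 → B (M *ᵥ u) (M *ᵥ w) = 0 := by
    intro u w hu hw
    rcases eq_or_ne u 0 with rfl | hu0
    · simp
    obtain ⟨v, hv, hvp, hvout⟩ := O.exists_sing_notMem ![u, w] (by omega)
    have huv : B u v = 0 := by simpa using hvp 0
    have hind : LinearIndependent F ![u, v] := by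
      rw [LinearIndependent.pair_iff' hu0]
      intro a ha
      exact hvout (ha ▸ Submodule.smul_mem _ _ (Submodule.subset_span ⟨0, rfl⟩))
    exact ((O.pair_dichotomy hN hG hg ⟨hu, hv, huv⟩ hind hw
      (by rw [O.symm]; simpa using hvp 1)).resolve_right hno)
  let T : (ι → F) →ₗ[F] (ι → F) := (B.toDual O.nd).symm.toLinearMap.comp
    ((LinearMap.BilinForm.comp B (Matrix.toLin' M) (Matrix.toLin' M)))
  have hT : ∀ x y, B (T x) y = B (M *ᵥ x) (M *ᵥ y) := fun x y => by
    simp only [T, LinearMap.comp_apply, LinearEquiv.coe_coe]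
    rw [LinearMap.BilinForm.apply_toDual_symm_apply (hB := O.nd)]
    simp
  have heig : ∀ u, IsSing B u → ∃ c : F, T u = c • u := by
    intro u hu
    have h : T u ∈ Submodule.span F (Set.range ![u]) := O.mem_span_of_perp fun x hx => by
      rw [hT]; exact horth u x hu (by simpa using hx 0)
    rw [Matrix.range_cons, Matrix.range_empty, Set.union_empty,
      Submodule.mem_span_singleton] at h
    obtain ⟨c, hc⟩ := h
    exact ⟨c, hc.symm⟩
  choose C hC using heig
  have hsame : ∀ u v (hu : IsSing B u) (hv : IsSing B v), B u v = 0 →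
      LinearIndependent F ![u, v] → C u hu = C v hv := by
    intro u v hu hv huv hind
    have hs : IsSing B (u + v) := by
      simp [IsSing, show B u u = 0 from hu, show B v v = 0 from hv, huv, O.symm v u]
    have e := hC (u + v) hs
    rw [map_add, hC u hu, hC v hv] at e
    have e2 : (C u hu - C (u + v) hs) • u + (C v hv - C (u + v) hs) • v = 0 := by
      rw [sub_smul, sub_smul]
      rw [smul_add] at e
      linear_combination (norm := module) e
    obtain ⟨h1, h2⟩ := LinearIndependent.pair_iff.1 hind _ _ e2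
    linear_combination h1 - h2
  have hconst : ∀ u v (hu : IsSing B u) (hv : IsSing B v), u ≠ 0 → v ≠ 0 → C u hu = C v hv := by
    intro u v hu hv hu0 hv0
    obtain ⟨z, hz, hzp, hzout⟩ := O.exists_sing_notMem ![u, v] (by omega)
    have hind : ∀ (a : ι → F) (i : Fin 2), ![u, v] i = a → a ≠ 0 → LinearIndependent F ![a, z] := by
      intro a i hi ha
      rw [LinearIndependent.pair_iff' ha]
      intro r hr
      exact hzout (hr ▸ Submodule.smul_mem _ _ (Submodule.subset_span ⟨i, hi⟩))
    rw [hsame u z hu hz (by simpa using hzp 0) (hind u 0 rfl hu0),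
      hsame v z hv hz (by simpa using hzp 1) (hind v 1 rfl hv0)]
  obtain ⟨z₀, hz₀, -, hz₀0⟩ := O.exists_sing_notMem (![] : Fin 0 → (ι → F)) (by omega)
  have hz0 : z₀ ≠ 0 := fun e => hz₀0 (e ▸ Submodule.zero_mem _)
  set c := C z₀ hz₀
  have hTc : ∀ x, T x = c • x := by
    intro x
    have hmem := O.mem_span_sing (![] : Fin 0 → (ι → F)) (by omega) (x := x) (fun i => i.elim0)
    induction hmem using Submodule.span_induction with
    | mem z hz =>
      rcases eq_or_ne z 0 with rfl | hne
      · simp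
      rw [hC z hz.1, hconst z z₀ hz.1 hz₀ hne hz0]
    | zero => simp
    | add a b _ _ ha hb => simp [ha, hb]
    | smul d a _ ha => simp [ha, smul_comm c d a]
  refine ⟨c, fun hc => ?_, fun x y => by rw [← hT, hTc]; simp⟩
  have h0 : ∀ y, B (M *ᵥ z₀) y = 0 := fun y => by
    rw [← mulVec_inv_mulVec g y, ← hT, hTc, hc]; simp
  have := O.nd.1 _ h0
  exact hz0 (gl_mulVec_injective g (by simpa using this))

/-- Maximality. -/
theorem specialLinear_le_of_not_similitude {G : Subgroup (GL ι F)} (hG : HasSieg B G) {g : GL ι F}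
    (hg : g ∈ G)
    (hgn : ¬ ∃ c : F, c ≠ 0 ∧ ∀ x y, B ((g : Matrix ι ι F) *ᵥ x) ((g : Matrix ι ι F) *ᵥ y) =
      c * B x y) :
    Cfsg.Geo.specialLinear ι F ≤ G := by
  obtain ⟨a, b, hab, ha, hb, hm⟩ := O.exists_tb hN hG hg hgn
  exact O.specialLinear_le_of_tb hG hN hab ha hb hm

end OddForm

end Cfsg.Agent.Lib.Forms
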