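import Cfsg.Agent.Lib.Forms.Symplectic

/-!
Singular vectors of a symmetric bilinear form over a finite field of odd characteristic.
-/

set_option autoImplicit false

namespace Cfsg.Agent.Lib.Forms

open Matrix

variable {ι : Type} [Fintype ι] [DecidableEq ι] {F : Type*} [Field F]

/-- A non-degenerate symmetric bilinear form in odd characteristic. -/
structure OddForm (B : LinearMap.BilinForm F (ι → F)) : Prop where
  two : (2 : F) ≠ 0
  symm : ∀ x y, B x y = B y x
  nd : B.Nondegenerate

/-- A singular vector. -/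
def IsSing (B : LinearMap.BilinForm F (ι → F)) (x : ι → F) : Prop := B x x = 0

variable {B : LinearMap.BilinForm F (ι → F)}

/-- The vectors orthogonal to each `u i`. -/
def perpB (B : LinearMap.BilinForm F (ι → F)) {k : ℕ} (u : Fin k → (ι → F)) :
    Submodule F (ι → F) :=
  B.orthogonal (Submodule.span F (Set.range u))

lemma mem_perpB {k : ℕ} {u : Fin k → (ι → F)} {x : ι → F} :
    x ∈ perpB B u ↔ ∀ i, B (u i) x = 0 := by
  rw [perpB, LinearMap.BilinForm.mem_orthogonal_iff]
  refine ⟨fun h i => h _ (Submodule.subset_span ⟨i, rfl⟩), fun h n hn => ?_⟩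
  induction hn using Submodule.span_induction with
  | mem y hy => obtain ⟨i, rfl⟩ := hy; exact h i
  | zero => simp
  | add a b _ _ ha hb => simp [ha, hb]
  | smul c a _ ha => simp [ha]

namespace OddForm

variable (O : OddForm B)
include O

lemma isRefl : B.IsRefl := fun x y h => by rw [O.symm]; exact h

lemma finrank_perp {k : ℕ} (u : Fin k → (ι → F)) :
    Fintype.card ι ≤ Module.finrank F (perpB B u) + k := by
  have h := LinearMap.BilinForm.finrank_orthogonal O.nd (Submodule.span F (Set.range u))
  have h2 := finrank_range_le_card (R := F) u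
  rw [Fintype.card_fin] at h2
  change Module.finrank F (perpB B u) = _ at h
  rw [Module.finrank_fintype_fun_eq_card] at h
  have h3 : Module.finrank F (Submodule.span F (Set.range u)) ≤ k := h2
  omega

lemma mem_span_of_perp {k : ℕ} {u : Fin k → (ι → F)} {a : ι → F}
    (h : ∀ x, (∀ i, B (u i) x = 0) → B a x = 0) : a ∈ Submodule.span F (Set.range u) := by
  rw [← LinearMap.BilinForm.orthogonal_orthogonal O.nd O.isRefl (Submodule.span F (Set.range u)),
    LinearMap.BilinForm.mem_orthogonal_iff]
  intro x hx
  rw [O.symm]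
  exact h x (mem_perpB.1 hx)

lemma exists_functional_ne {k : ℕ} {u : Fin k → (ι → F)} {a : ι → F}
    (h : a ∉ Submodule.span F (Set.range u)) : ∃ x, (∀ i, B (u i) x = 0) ∧ B a x ≠ 0 := by
  by_contra hcon
  push Not at hcon
  exact h (O.mem_span_of_perp hcon)

lemma exists_nonsingular {k : ℕ} (u : Fin k → (ι → F)) (hk : 2 * k < Fintype.card ι) :
    ∃ a, (∀ i, B (u i) a = 0) ∧ B a a ≠ 0 := by
  by_contra hcon
  push Not at hcon
  have hle : perpB B u ≤ B.orthogonal (perpB B u) := by
    intro x hx y hy
    have hxx := hcon x (mem_perpB.1 hx)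
    have hyy := hcon y (mem_perpB.1 hy)
    have hxy := hcon (y + x) (mem_perpB.1 (add_mem hy hx))
    simp only [map_add, LinearMap.add_apply, hxx, hyy, O.symm x y, zero_add, add_zero] at hxy
    have : (2 : F) * B y x = 0 := by linear_combination hxy
    exact (mul_eq_zero.1 this).resolve_left O.two
  have h1 := Submodule.finrank_mono hle
  rw [LinearMap.BilinForm.finrank_orthogonal O.nd, Module.finrank_fintype_fun_eq_card] at h1
  have := O.finrank_perp u
  omega

variable [Finite F]

/-- A singular vector orthogonal to given vectors with a partner there. -/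
lemma exists_partner {k : ℕ} (u : Fin k → (ι → F)) (hk : 2 * k + 4 < Fintype.card ι) :
    ∃ z y, IsSing B z ∧ (∀ i, B (u i) z = 0) ∧ (∀ i, B (u i) y = 0) ∧ B z y ≠ 0 := by
  obtain ⟨a, ha, haa⟩ := O.exists_nonsingular u (by omega)
  obtain ⟨b, hb, hbb⟩ := O.exists_nonsingular (Fin.cons a u) (by omega)
  obtain ⟨c, hc, hcc⟩ := O.exists_nonsingular (Fin.cons b (Fin.cons a u)) (by omega)
  have hab : B a b = 0 := by simpa using hb 0
  have hbc : B b c = 0 := by simpa using hc 0
  have hac : B a c = 0 := by simpa using hc 1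
  have hb' : ∀ i, B (u i) b = 0 := fun i => by simpa using hb i.succ
  have hc' : ∀ i, B (u i) c = 0 := fun i => by simpa using hc i.succ.succ
  have hne : ringChar F ≠ 2 := fun e => O.two (by
    have := ringChar.spec F 2
    simpa using this.2 (e ▸ dvd_rfl))
  obtain ⟨x, y, hxy⟩ : ∃ x y : F, B a a * x ^ 2 + B b b * y ^ 2 = -B c c := by
    haveI := Fintype.ofFinite F
    open Polynomial in
    obtain ⟨x, y, h⟩ := FiniteField.exists_root_sum_quadratic
      (f := C (B a a) * X ^ 2 - C (-B c c)) (g := C (B b b) * X ^ 2)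
      (by
        rw [Polynomial.degree_sub_eq_left_of_degree_lt] <;>
          rw [Polynomial.degree_C_mul_X_pow 2 haa]
        · rfl
        · exact lt_of_le_of_lt Polynomial.degree_C_le (by norm_num))
      (by rw [Polynomial.degree_C_mul_X_pow 2 hbb]; rfl)
      (FiniteField.odd_card_of_char_ne_two hne)
    simp at h
    exact ⟨x, y, by linear_combination h⟩
  refine ⟨x • a + y • b + c, c, ?_, fun i => ?_, hc', ?_⟩
  · simp only [IsSing, map_add, map_smul, LinearMap.add_apply, LinearMap.smul_apply, smul_eq_mul,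
      hab, hac, hbc, O.symm b a, O.symm c a, O.symm c b]
    linear_combination hxy
  · simp [ha i, hb' i, hc' i]
  · simpa [hac, hbc] using hcc

/-- Singular vectors span orthogonal complements of few vectors. -/
lemma mem_span_sing {k : ℕ} (u : Fin k → (ι → F)) (hk : 2 * k + 4 < Fintype.card ι) {x : ι → F}
    (hx : ∀ i, B (u i) x = 0) :
    x ∈ Submodule.span F {z | IsSing B z ∧ ∀ i, B (u i) z = 0} := by
  obtain ⟨z, y, hz, hzu, hyu, hzy⟩ := O.exists_partner u hk
  set S := Submodule.span F {z | IsSing B z ∧ ∀ i, B (u i) z = 0}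
  have key : ∀ w, (∀ i, B (u i) w = 0) → B z w ≠ 0 → w ∈ S := by
    intro w hw hne
    set d := -(B w w) / (2 * B z w) with hd
    have h1 : w + d • z ∈ S := by
      refine Submodule.subset_span ⟨?_, fun i => by simp [hw i, hzu i]⟩
      simp only [IsSing, map_add, map_smul, LinearMap.add_apply, LinearMap.smul_apply, smul_eq_mul,
        show B z z = 0 from hz, O.symm w z, hd]
      have := O.two
      field_simp
      ring
    have h2 : z ∈ S := Submodule.subset_span ⟨hz, hzu⟩
    simpa using S.sub_mem h1 (S.smul_mem d h2)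
  by_cases hne : B z x = 0
  · have h1 : x + y ∈ S := key _ (fun i => by simp [hx i, hyu i]) (by simp [hne, hzy])
    simpa using S.sub_mem h1 (key y hyu hzy)
  · exact key x hx hne

/-- A linear functional not vanishing on a complement is non-zero on a singular vector there. -/
lemma exists_sing_ne {k : ℕ} (u : Fin k → (ι → F)) (hk : 2 * k + 4 < Fintype.card ι) {a : ι → F}
    (ha : a ∉ Submodule.span F (Set.range u)) :
    ∃ z, IsSing B z ∧ (∀ i, B (u i) z = 0) ∧ B a z ≠ 0 := by
  obtain ⟨x, hx, hax⟩ := O.exists_functional_ne ha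
  by_contra hcon
  push Not at hcon
  apply hax
  have hle : Submodule.span F {z | IsSing B z ∧ ∀ i, B (u i) z = 0} ≤ LinearMap.ker (B a) :=
    Submodule.span_le.2 fun z hz => hcon z hz.1 hz.2
  exact hle (O.mem_span_sing u hk hx)

/-- A singular vector orthogonal to given vectors and outside their span. -/
lemma exists_sing_notMem {k : ℕ} (u : Fin k → (ι → F)) (hk : 2 * k + 4 < Fintype.card ι) :
    ∃ z, IsSing B z ∧ (∀ i, B (u i) z = 0) ∧ z ∉ Submodule.span F (Set.range u) := by
  obtain ⟨p, hp, hps⟩ : ∃ p ∈ perpB B u, p ∉ Submodule.span F (Set.range u) := by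
    refine SetLike.not_le_iff_exists.1 fun hle => ?_
    have h1 := Submodule.finrank_mono hle
    have h2 := O.finrank_perp u
    have h3 := finrank_range_le_card (R := F) u
    rw [Fintype.card_fin] at h3
    have h4 : Module.finrank F (Submodule.span F (Set.range u)) ≤ k := h3
    omega
  obtain ⟨z, hz, hzu, hpz⟩ := O.exists_sing_ne u hk hps
  refine ⟨z, hz, hzu, fun hmem => hpz ?_⟩
  have : z ∈ LinearMap.ker (B p) := by
    refine Submodule.span_le.2 ?_ hmem
    rintro _ ⟨i, rfl⟩
    change B p (u i) = 0
    rw [O.symm]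
    exact mem_perpB.1 hp i
  exact this

end OddForm

end Cfsg.Agent.Lib.Forms
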