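import Cfsg.Agent.Lib.Forms.SympSubfield

/-!
Two root families and a common fixed vector: diagonal elements.
-/

set_option autoImplicit false

namespace Cfsg.Agent.Lib.Forms

open Matrix
open scoped MatrixGroups
open Cfsg.Agent.Lib.PStab (ux uy coe_ux coe_uy mul_apply_two coe_inv_two det_eq)

variable {ι : Type} [Fintype ι] [DecidableEq ι] {F : Type*} [Field F] [Finite F]
  {F₀ : Subfield F}

local notation "M₂" => Matrix (Fin 2) (Fin 2) F

/-- A root family with two parameters and an opposite root element scale the second block, modulo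
the fixed vector. -/
theorem exists_scaling {r : ℕ} (hr : r.Prime) (hcard : Nat.card F = Nat.card F₀ ^ r)
    {M : Subgroup (GL ι F)} {J : Type} (R : ι → F) (e z : J → ι → F) {κ b : F}
    (hκ : κ ∉ F₀) (hb : b ≠ 0)
    (hA : ∀ c₁ c₂ : F₀, ∃ k ∈ M, (k : Matrix ι ι F) *ᵥ R = R ∧ ∀ i,
      (∃ p : F, (k : Matrix ι ι F) *ᵥ e i = e i + p • R) ∧
      ∃ p : F, (k : Matrix ι ι F) *ᵥ z i = ((c₁ : F) + (c₂ : F) * κ) • e i + z i + p • R)
    (hy : ∃ k ∈ M, (k : Matrix ι ι F) *ᵥ R = R ∧ ∀ i,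
      (∃ p : F, (k : Matrix ι ι F) *ᵥ e i = e i + b • z i + p • R) ∧
      ∃ p : F, (k : Matrix ι ι F) *ᵥ z i = z i + p • R) :
    ∃ c : J → F, ∀ t : F, t ≠ 0 → ∃ k ∈ M, ∀ i,
      (k : Matrix ι ι F) *ᵥ z i = t • z i + ((t - 1) * c i) • R := by
  classical
  let K : Subgroup SL(2, F) :=
    { carrier := {σ | ∃ k ∈ M, (k : Matrix ι ι F) *ᵥ R = R ∧ ∀ i,
        (∃ p : F, (k : Matrix ι ι F) *ᵥ e i =
          (σ : M₂) 0 0 • e i + (σ : M₂) 1 0 • z i + p • R) ∧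
        ∃ p : F, (k : Matrix ι ι F) *ᵥ z i =
          (σ : M₂) 0 1 • e i + (σ : M₂) 1 1 • z i + p • R}
      one_mem' := ⟨1, M.one_mem, by simp, fun i => ⟨⟨0, by simp⟩, 0, by simp⟩⟩
      mul_mem' := by
        rintro σ σ' ⟨k₁, hk₁, r₁, h₁⟩ ⟨k₂, hk₂, r₂, h₂⟩
        refine ⟨k₁ * k₂, mul_mem hk₁ hk₂, by rw [mul_mulVec', r₂, r₁], fun i => ?_⟩
        obtain ⟨⟨p₁, e₁⟩, q₁, z₁⟩ := h₁ i
        obtain ⟨⟨p₂, e₂⟩, q₂, z₂⟩ := h₂ i
        refine ⟨⟨(σ' : M₂) 0 0 * p₁ + (σ' : M₂) 1 0 * q₁ + p₂, ?_⟩,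
          (σ' : M₂) 0 1 * p₁ + (σ' : M₂) 1 1 * q₁ + q₂, ?_⟩
        · rw [mul_mulVec', e₂, mulVec_add, mulVec_add, mulVec_smul, mulVec_smul, mulVec_smul, e₁,
            z₁, r₁, mul_apply_two, mul_apply_two]
          module
        · rw [mul_mulVec', z₂, mulVec_add, mulVec_add, mulVec_smul, mulVec_smul, mulVec_smul, e₁,
            z₁, r₁, mul_apply_two, mul_apply_two]
          module
      inv_mem' := by
        rintro σ ⟨k, hk, r₁, h₁⟩
        have hd := det_eq σ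
        refine ⟨k⁻¹, inv_mem hk, gl_mulVec_injective k (by simp only [mulVec_inv_mulVec]; exact r₁.symm),
          fun i => ?_⟩
        obtain ⟨⟨p₁, e₁⟩, q₁, z₁⟩ := h₁ i
        refine ⟨⟨-((σ : M₂) 1 1 * p₁ - (σ : M₂) 1 0 * q₁), gl_mulVec_injective k ?_⟩,
          -((σ : M₂) 0 0 * q₁ - (σ : M₂) 0 1 * p₁), gl_mulVec_injective k ?_⟩ <;>
        · simp only [mulVec_inv_mulVec, mulVec_add, mulVec_smul, e₁, z₁, r₁, coe_inv_two,
            Matrix.of_apply, Matrix.cons_val', Matrix.cons_val_zero, Matrix.cons_val_one,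
            Matrix.cons_val_fin_one]
          match_scalars <;> first | (ring; done) | linear_combination hd | linear_combination -hd }
  have hyb : uy b ∈ K := by
    obtain ⟨k, hk, r₁, h₁⟩ := hy
    refine ⟨k, hk, r₁, fun i => ?_⟩
    obtain ⟨⟨p, hp⟩, q, hq⟩ := h₁ i
    exact ⟨⟨p, by rw [hp]; simp [coe_uy]⟩, q, by rw [hq]; simp [coe_uy]⟩
  let A : Set F := {x | ∃ c₁ c₂ : F₀, x = (c₁ : F) + (c₂ : F) * κ}
  have hAmem : ∀ x ∈ A, ux x ∈ K := by
    rintro x ⟨c₁, c₂, rfl⟩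
    obtain ⟨k, hk, r₁, h₁⟩ := hA c₁ c₂
    refine ⟨k, hk, r₁, fun i => ?_⟩
    obtain ⟨⟨p, hp⟩, q, hq⟩ := h₁ i
    exact ⟨⟨p, by rw [hp]; simp [coe_ux]⟩, q, by rw [hq]; simp [coe_ux]⟩
  have hsmul : ∀ t ∈ F₀, ∀ x ∈ A, t * x ∈ A := by
    rintro t ht x ⟨c₁, c₂, rfl⟩
    exact ⟨⟨t, ht⟩ * c₁, ⟨t, ht⟩ * c₂, by push_cast; ring⟩
  haveI : Fintype F₀ := Fintype.ofFinite F₀
  have hAcard : Nat.card F₀ * Nat.card F₀ ≤ A.ncard := by
    rw [← Nat.card_prod]
    let f : F₀ × F₀ → A := fun p => ⟨(p.1 : F) + (p.2 : F) * κ, p.1, p.2, rfl⟩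
    refine le_trans (Nat.card_le_card_of_injective f ?_) (le_of_eq (Nat.card_coe_set_eq A))
    rintro ⟨s, t⟩ ⟨s', t'⟩ h
    have h' : (s : F) + (t : F) * κ = (s' : F) + (t' : F) * κ := congrArg Subtype.val h
    rcases eq_or_ne t t' with rfl | ht
    · exact Prod.ext (Subtype.ext (add_right_cancel h')) rfl
    · exfalso
      have ht' : (t : F) - t' ≠ 0 := sub_ne_zero.2 fun e' => ht (Subtype.ext e')
      apply hκ
      rw [show κ = ((s' : F) - s) / ((t : F) - t') by field_simp; linear_combination h']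
      exact div_mem (sub_mem s'.2 s.2) (sub_mem t.2 t'.2)
  have hq : 2 ≤ Nat.card F₀ := Finite.one_lt_card
  have hfull : ∀ w, ux w ∈ K := by
    refine ux_mem_of_large hr hcard (A := A) hAmem hsmul ?_ (by nlinarith) hb hyb
    by_cases h2 : (2 : F) = 0
    · exact Or.inr ⟨h2, by nlinarith⟩
    · left
      have h3 : 3 ≤ Nat.card F₀ := by
        by_contra h3
        have hc : Fintype.card F₀ = 2 := by rw [← Nat.card_eq_fintype_card]; omega
        refine h2 ?_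
        have h4 := FiniteField.cast_card_eq_zero F₀
        rw [hc] at h4
        exact congrArg Subtype.val (show (2 : F₀) = 0 by exact_mod_cast h4)
      nlinarith
  -- a generator of the multiplicative group
  haveI : Fintype F := Fintype.ofFinite F
  obtain ⟨s, hs⟩ := IsCyclic.exists_monoid_generator (α := Fˣ)
  have hs1 : (s : F) ≠ 1 := by
    intro e'
    have hall : ∀ u : Fˣ, u = 1 := fun u => by
      obtain ⟨j, hj⟩ := hs u
      rw [← hj]; simp [Units.ext_iff.2 (e'.trans Units.val_one.symm)]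
    obtain ⟨k₀, hk₀⟩ : ∃ k₀ : F, k₀ ∉ F₀ := ⟨κ, hκ⟩
    have h0 : k₀ ≠ 0 := fun e0 => hk₀ (e0 ▸ F₀.zero_mem)
    have := congrArg Units.val (hall (Units.mk0 k₀ h0))
    simp only [Units.val_mk0, Units.val_one] at this
    exact hk₀ (this ▸ F₀.one_mem)
  obtain ⟨σ, hσ, eσ⟩ := diag_mem_of_full hfull (uy_and_diag_of_full hfull hb hyb)
    (s := ((s : F))⁻¹) (inv_ne_zero s.ne_zero)
  obtain ⟨k, hk, kR, hk'⟩ := hσ
  have hz : ∀ i, ∃ p : F, (k : Matrix ι ι F) *ᵥ z i = (s : F) • z i + p • R := fun i => by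
    obtain ⟨-, p, hp⟩ := hk' i
    exact ⟨p, by rw [hp, eσ]; simp⟩
  choose p hp using hz
  refine ⟨fun i => p i / ((s : F) - 1), fun t ht => ?_⟩
  obtain ⟨j, hj⟩ := hs (Units.mk0 t ht)
  refine ⟨k ^ j, pow_mem hk j, fun i => ?_⟩
  have hne : (s : F) - 1 ≠ 0 := sub_ne_zero.2 hs1
  have step : ∀ j : ℕ, ((k ^ j : GL ι F) : Matrix ι ι F) *ᵥ z i =
      ((s : F) ^ j) • z i + (((s : F) ^ j - 1) * (p i / ((s : F) - 1))) • R := by
    intro j
    induction j with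
    | zero => simp
    | succ j ih =>
      rw [pow_succ', mul_mulVec', ih, mulVec_add, mulVec_smul, mulVec_smul, hp, kR]
      match_scalars <;> field_simp <;> ring
  have ht' : (s : F) ^ j = t := by
    have := congrArg Units.val hj
    simpa using this
  rw [step j, ht']

end Cfsg.Agent.Lib.Forms
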