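import Cfsg.Agent.Lib.Forms.QuadHyp
import Cfsg.Agent.Lib.Forms.OrthRoot
import Cfsg.Agent.Lib.Forms.RootSLCore
import Cfsg.Agent.Lib.Forms.SubfieldBasic

/-!
A rational structure for a quadratic form: one irrational long root element gives all of Ω.
-/

set_option autoImplicit false

namespace Cfsg.Agent.Lib.Forms

open Matrix QuadraticMap Cfsg.Agent.Lib.Classical.Quad Cfsg.Agent.Lib.Classical.QuadOmega

variable {ι : Type} [Fintype ι] [DecidableEq ι] {F : Type*} [Field F] {F₀ : Subfield F}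
  {P : GL ι F} {Q : QuadraticForm F (ι → F)}

omit [Fintype ι] [DecidableEq ι] in
lemma polarB_sum_right {K : Type*} [Field K] (R : QuadraticForm K (ι → K)) {J : Type*} (x : ι → K)
    (s : Finset J) (f : J → ι → K) : polar R x (∑ j ∈ s, f j) = ∑ j ∈ s, polar R x (f j) :=
  map_sum (polarBilin R x) f s

omit [Fintype ι] [DecidableEq ι] in
lemma polarB_sum_left {K : Type*} [Field K] (R : QuadraticForm K (ι → K)) {J : Type*} (x : ι → K)
    (s : Finset J) (f : J → ι → K) : polar R (∑ j ∈ s, f j) x = ∑ j ∈ s, polar R (f j) x := by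
  rw [polar_comm, polarB_sum_right]
  exact Finset.sum_congr rfl fun j _ => polar_comm _ _ _

/-- A rational structure for a quadratic form. -/
structure QRat (Q : QuadraticForm F (ι → F)) (F₀ : Subfield F) (P : GL ι F) : Prop where
  nd : Nd Q
  rat : ∀ u : ι → F₀, Q (ratVec P u) ∈ F₀
  dim : 13 ≤ Fintype.card ι

namespace QRat

variable (S : QRat Q F₀ P)
include S

/-- The form on the rational vectors. -/
noncomputable def form : QuadraticForm F₀ (ι → F₀) :=
  QuadraticMap.ofPolar (fun u => (⟨Q (ratVec P u), S.rat u⟩ : F₀))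
    (fun c u => Subtype.ext (by simp [ratVec_smul, QuadraticMap.map_smul]))
    (fun u u' v => Subtype.ext (by
      simp only [polar, Subfield.coe_sub, Subfield.coe_add, ratVec_add]
      have := polar_add_left (Q := Q) (ratVec P u) (ratVec P u') (ratVec P v)
      simp only [polar] at this
      linear_combination this))
    (fun c u v => Subtype.ext (by
      simp only [polar, Subfield.coe_sub, smul_eq_mul, Subfield.coe_mul, ratVec_add, ratVec_smul]
      have := polar_smul_left (Q := Q) (c : F) (ratVec P u) (ratVec P v)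
      simp only [polar, smul_eq_mul] at this
      linear_combination this))

lemma form_coe (u : ι → F₀) : ((S.form u : F₀) : F) = Q (ratVec P u) := rfl

lemma polar_coe (u v : ι → F₀) :
    ((polar S.form u v : F₀) : F) = polar Q (ratVec P u) (ratVec P v) := by
  simp only [polar, Subfield.coe_sub, S.form_coe, ratVec_add]

lemma exists_ne {x : ι → F} (hx : x ≠ 0) : ∃ u : ι → F₀, polar Q x (ratVec P u) ≠ 0 := by
  by_contra hcon
  push Not at hcon
  refine hx (S.nd x fun y => ?_)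
  rw [← mulVec_inv_mulVec P y, pi_eq_sum_univ' (((P⁻¹ : GL ι F) : Matrix ι ι F) *ᵥ y), mulVec_sum,
    ← polarBilin_apply_apply, map_sum]
  refine Finset.sum_eq_zero fun i _ => ?_
  have h := hcon (Pi.single i 1)
  rw [ratVec, show (fun j => ((Pi.single i 1 : ι → F₀) j : F)) = Pi.single i 1 by
    funext j; rcases eq_or_ne j i with rfl | h' <;> simp [*]] at h
  rw [polarBilin_apply_apply, mulVec_smul, polar_smul_right, h, smul_zero]

lemma form_nd : Nd S.form := by
  intro u hu
  by_contra h0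
  obtain ⟨v, hv⟩ := S.exists_ne (ratVec_ne_zero (P := P) h0)
  refine hv ?_
  rw [← S.polar_coe, hu v]
  rfl

lemma finrank₀ : Module.finrank F₀ (ι → F₀) = Fintype.card ι := Module.finrank_fintype_fun_eq_card _

variable [Finite F]

lemma good₀ : Good S.form := good_of_finrank S.form_nd (by rw [S.finrank₀]; have := S.dim; omega)

lemma good : Good Q :=
  good_of_finrank S.nd (by rw [Module.finrank_fintype_fun_eq_card]; have := S.dim; omega)

omit [Finite F] in
lemma sing {x : ι → F₀} (hx : S.form x = 0) : Q (ratVec P x) = 0 := by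
  rw [← S.form_coe, hx]; rfl

omit [Finite F] in
lemma orth {x u : ι → F₀} (h : polar S.form x u = 0) : polar Q (ratVec P x) (ratVec P u) = 0 := by
  rw [← S.polar_coe, h]; rfl

omit [Finite F] in
lemma long {x u : ι → F₀} (hx : S.form x = 0) (hu : S.form u = 0) (h : polar S.form x u = 0) :
    LongPair Q (ratVec P x) (ratVec P u) := ⟨S.sing hx, S.sing hu, S.orth h⟩

omit [Finite F] in
/-- Rational data give a rational element. -/
lemma sg_rat {x u : ι → F₀} (hx : S.form x = 0) (hu : polar S.form x u = 0) (v : ι → F₀) :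
    (sg Q (ratVec P x) (ratVec P u) : Matrix ι ι F) *ᵥ ratVec P v =
      ratVec P ((sie S.form x u).1 v) := by
  rw [sg_mulVec (S.sing hx) (S.orth hu), sie_apply hx hu, ← S.polar_coe, ← S.polar_coe,
    ← S.form_coe]
  simp only [sub_eq_add_neg, ratVec_add, ← neg_smul, ← Subfield.coe_mul, smul_eq_mul]
  rw [ratVec_smul, ratVec_smul, ratVec_smul]
  push_cast
  module

omit [Finite F] in
/-- A vector killed by a rational common kernel lies in the span. -/
lemma mem_span_rat {k : ℕ} (u : Fin k → (ι → F₀)) {x : ι → F}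
    (hdual : ∀ i, ∃ d, ∀ j, polar S.form (u j) d = if i = j then 1 else 0)
    (h : ∀ q : ι → F₀, q ∈ perpK S.form u → polar Q x (ratVec P q) = 0) :
    x = ∑ i, polar Q x (ratVec P (hdual i).choose) • ratVec P (u i) := by
  refine sub_eq_zero.1 ?_
  by_contra hne
  obtain ⟨v, hv⟩ := S.exists_ne hne
  refine hv ?_
  set v' := v + -∑ i, polar S.form (u i) v • (hdual i).choose with hv'
  have hq : v' ∈ perpK S.form u := mem_perpK.2 fun j => by
    rw [hv', polar_add_right, polar_neg_right, polarB_sum_right]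
    simp only [polar_smul_right, smul_eq_mul]
    rw [Finset.sum_eq_single j]
    · rw [(hdual j).choose_spec j, if_pos rfl]
      simp
    · intro i _ hij
      rw [(hdual i).choose_spec j, if_neg hij, mul_zero]
    · intro hj; exact absurd (Finset.mem_univ j) hj
  have h' := h v' hq
  have e : ratVec P v' = ratVec P v -
      ∑ i, ((polar S.form (u i) v : F₀) : F) • ratVec P (hdual i).choose := by
    rw [hv', ratVec_add, sub_eq_add_neg]
    congr 1
    simp only [ratVec, ← mulVec_smul, ← mulVec_sum, ← mulVec_neg]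
    congr 1
    funext j
    simp [Finset.sum_apply]
  rw [e, polar_sub_right, polarB_sum_right] at h'
  rw [polar_sub_left, polarB_sum_left]
  simp only [polar_smul_right, polar_smul_left, smul_eq_mul,
    S.polar_coe] at h' ⊢
  rw [← h']
  congr 1
  exact Finset.sum_congr rfl fun i _ => mul_comm _ _

/-- Opposite singular vectors for a totally singular pair. -/
lemma exists_opposite {y₁ y₂ : ι → F₀} (h1 : S.form y₁ = 0) (h2 : S.form y₂ = 0)
    (h12 : polar S.form y₁ y₂ = 0) (hy1 : y₁ ≠ 0) (hy2 : ∀ c : F₀, y₂ ≠ c • y₁) :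
    ∃ w₁ w₂ : ι → F₀, S.form w₁ = 0 ∧ S.form w₂ = 0 ∧ polar S.form w₁ w₂ = 0 ∧
      polar S.form y₁ w₁ = 1 ∧ polar S.form y₂ w₁ = 0 ∧ polar S.form y₁ w₂ = 0 ∧
      polar S.form y₂ w₂ = 1 := by
  have hn := S.dim
  have hy20 : y₂ ≠ 0 := fun e => hy2 0 (by rw [e, zero_smul])
  have hy1' : ∀ c : F₀, y₁ ≠ c • y₂ := fun c h => by
    rcases eq_or_ne c 0 with rfl | hc
    · exact hy1 (by rw [h, zero_smul])
    · exact hy2 c⁻¹ (by rw [h, smul_smul, inv_mul_cancel₀ hc, one_smul])
  obtain ⟨d₁, hd₁2, hd₁1⟩ := S.good₀.exists_one_perp hy1'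
  obtain ⟨d₂, hd₂1, hd₂2⟩ := S.good₀.exists_one_perp hy2
  obtain ⟨s, t, hs, ht, hst, hp⟩ :=
    exists_hyp_perp S.form_nd ![y₁, y₂, d₁] (by rw [S.finrank₀]; omega)
  have p1 := hp 0; have p2 := hp 1; have p3 := hp 2
  simp at p1 p2 p3
  set w₁ := d₁ + s + (-S.form d₁) • t with hw₁
  have hw₁0 : S.form w₁ = 0 := by
    rw [hw₁, QuadraticMap.map_add ⇑S.form (d₁ + s), QuadraticMap.map_add ⇑S.form d₁,
      QuadraticMap.map_smul, hs, ht, polar_add_left, polar_smul_right, polar_smul_right, p3.1, p3.2,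
      hst]
    simp
  have a1 : polar S.form y₁ w₁ = 1 := by
    rw [hw₁, polar_add_right, polar_add_right, polar_smul_right, p1.1, p1.2, hd₁1]; simp
  have a2 : polar S.form y₂ w₁ = 0 := by
    rw [hw₁, polar_add_right, polar_add_right, polar_smul_right, p2.1, p2.2, hd₁2]; simp
  set d := d₂ + (-polar S.form d₂ w₁) • y₁ with hd
  have e1 : polar S.form y₁ d = 0 := by
    rw [hd, polar_add_right, polar_smul_right, hd₂1, polar_self_sing h1]; simp
  have e2 : polar S.form y₂ d = 1 := by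
    rw [hd, polar_add_right, polar_smul_right, hd₂2, polar_comm _ y₂, h12]; simp
  have e3 : polar S.form d w₁ = 0 := by
    rw [hd, polar_add_left, polar_smul_left, a1]; simp
  obtain ⟨s', t', hs', ht', hst', hp'⟩ :=
    exists_hyp_perp S.form_nd ![y₁, y₂, w₁, d] (by rw [S.finrank₀]; omega)
  have r1 := hp' 0; have r2 := hp' 1; have r3 := hp' 2; have r4 := hp' 3
  simp at r1 r2 r3 r4
  refine ⟨w₁, d + s' + (-S.form d) • t', hw₁0, ?_, ?_, a1, a2, ?_, ?_⟩
  · rw [QuadraticMap.map_add ⇑S.form (d + s'), QuadraticMap.map_add ⇑S.form d,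
      QuadraticMap.map_smul, polar_smul_right, polar_add_left (Q := S.form) d s' t', hs', ht', r4.1,
      r4.2, hst']
    simp
  · rw [polar_add_right, polar_add_right, polar_smul_right, polar_comm _ w₁ d, e3, r3.1, r3.2]
    simp
  · rw [polar_add_right, polar_add_right, polar_smul_right, e1, r1.1, r1.2]; simp
  · rw [polar_add_right, polar_add_right, polar_smul_right, e2, r2.1, r2.2]; simp

variable {M : Subgroup (GL ι F)}
  (hrat : ∀ x u : ι → F₀, S.form x = 0 → polar S.form x u = 0 →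
    sg Q (ratVec P x) (ratVec P u) ∈ M)
include hrat

omit S hrat in
/-- The whole root group of a singular vector is available. -/
def AllRoot (Q : QuadraticForm F (ι → F)) (M : Subgroup (GL ι F)) (x : ι → F) : Prop :=
  Q x = 0 ∧ ∀ u, polar Q x u = 0 → sg Q x u ∈ M

omit [Finite F] in
/-- Scaling a pair gives the square multiples. -/
lemma full_of_scaling [Finite F] {w₁ w₂ : ι → F₀} (h1 : S.form w₁ = 0) (h2 : S.form w₂ = 0)
    (h12 : polar S.form w₁ w₂ = 0) (hM : M ≤ Cfsg.Geo.omegaGL ⇑Q)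
    (hk : ∀ t : F, t ≠ 0 → ∃ k ∈ M, (k : Matrix ι ι F) *ᵥ ratVec P w₁ = t • ratVec P w₁ ∧
      (k : Matrix ι ι F) *ᵥ ratVec P w₂ = t • ratVec P w₂) (lam : F) :
    sg Q (ratVec P w₁) (lam • ratVec P w₂) ∈ M := by
  have L := S.long h1 h2 h12
  have hsq : ∀ t : F, sg Q (ratVec P w₁) ((t * t) • ratVec P w₂) ∈ M := by
    intro t
    rcases eq_or_ne t 0 with rfl | ht
    · rw [zero_mul, zero_smul, sg_zero L.x0]; exact M.one_mem
    obtain ⟨k, hk, k1, k2⟩ := hk t ht
    have := mul_mem (mul_mem hk (hrat w₁ w₂ h1 h12)) (inv_mem hk)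
    rw [sg_conj (mem_isometryGroup_of_omega (hM hk)) L.x0 L.xu, k1, k2,
      sg_smul L.x0 (L.smul_right t).xu, smul_smul] at this
    exact this
  haveI : Fintype F := Fintype.ofFinite F
  obtain ⟨a, b, rfl⟩ := exists_sum_two_squares lam
  rw [add_smul, sg_add L.x0 (L.smul_right _).xu (L.smul_right _).xu]
  exact mul_mem (hsq a) (hsq b)

/-- An irrational multiple gives a full pair. -/
lemma exists_full_pair {r : ℕ} (hr : r.Prime) (hcard : Nat.card F = Nat.card F₀ ^ r)
    (hM : M ≤ Cfsg.Geo.omegaGL ⇑Q) {y₁ y₂ : ι → F₀} (h1 : S.form y₁ = 0) (h2 : S.form y₂ = 0)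
    (h12 : polar S.form y₁ y₂ = 0) (hy1 : y₁ ≠ 0) (hy2 : ∀ c : F₀, y₂ ≠ c • y₁) {lam : F}
    (hlam : lam ∉ F₀)
    (h : ∀ c : F₀, sg Q (ratVec P y₁) (((c : F) * lam) • ratVec P y₂) ∈ M) :
    ∃ w₁ w₂ : ι → F₀, S.form w₁ = 0 ∧ S.form w₂ = 0 ∧ polar S.form w₁ w₂ = 0 ∧ w₁ ≠ 0 ∧
      (∀ c : F₀, w₂ ≠ c • w₁) ∧ ∀ μ : F, sg Q (ratVec P w₁) (μ • ratVec P w₂) ∈ M := by
  obtain ⟨w₁, w₂, q1, q2, q12, a11, a21, a12, a22⟩ := S.exists_opposite h1 h2 h12 hy1 hy2
  have L := S.long h1 h2 h12
  have L' := S.long q1 q2 q12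
  set Y₁ := ratVec P y₁
  set Y₂ := ratVec P y₂
  set W₁ := ratVec P w₁
  set W₂ := ratVec P w₂
  have b11 : polar Q Y₁ W₁ = 1 := by rw [← S.polar_coe, a11]; rfl
  have b21 : polar Q Y₂ W₁ = 0 := S.orth a21
  have b12 : polar Q Y₁ W₂ = 0 := S.orth a12
  have b22 : polar Q Y₂ W₂ = 1 := by rw [← S.polar_coe, a22]; rfl
  have c11 : polar Q Y₁ Y₁ = 0 := polar_self_sing L.x0
  have c22 : polar Q Y₂ Y₂ = 0 := polar_self_sing L.u0
  have c12 : polar Q Y₁ Y₂ = 0 := L.xu
  have c21 : polar Q Y₂ Y₁ = 0 := L.symm.xu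
  have d11 : polar Q W₁ W₁ = 0 := polar_self_sing L'.x0
  have d22 : polar Q W₂ W₂ = 0 := polar_self_sing L'.u0
  have d12 : polar Q W₁ W₂ = 0 := L'.xu
  have d21 : polar Q W₂ W₁ = 0 := L'.symm.xu
  obtain ⟨c, hc⟩ := exists_scaling hr hcard (M := M) (J := Fin 2) 0 ![Y₂, -Y₁] ![W₁, W₂]
    hlam (neg_ne_zero.2 one_ne_zero)
    (fun c₁ c₂ => by
      have hm : sg Q Y₁ (((c₁ : F) + (c₂ : F) * lam) • Y₂) ∈ M := by
        rw [add_smul, sg_add L.x0 (L.smul_right _).xu (L.smul_right _).xu, ← ratVec_smul]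
        exact mul_mem (hrat y₁ _ h1 (by rw [polar_smul_right, h12, smul_zero])) (h c₂)
      refine ⟨_, hm, mulVec_zero _, fun i => ⟨⟨0, ?_⟩, 0, ?_⟩⟩ <;>
      · rw [(L.smul_right _).mulVec]
        fin_cases i <;>
          simp [polar_smul_right, polar_neg_left, c11, c22, c12, c21, polar_comm Q W₁, polar_comm Q W₂,
            b11, b21, b12, b22, add_comm, sub_eq_add_neg])
    ⟨_, hrat w₁ w₂ q1 q12, mulVec_zero _, fun i => ⟨⟨0, by
      rw [L'.mulVec]
      fin_cases i <;> simp [polar_neg_left, b11, b21, b12, b22, sub_eq_add_neg]⟩, 0, by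
      rw [L'.mulVec]
      fin_cases i <;> simp [d11, d12, d21, d22]⟩⟩
  refine ⟨w₁, w₂, q1, q2, q12, fun e => ?_, fun c' e => ?_, fun μ =>
    S.full_of_scaling hrat q1 q2 q12 hM (fun t ht => ?_) μ⟩
  · rw [e, polar_zero_right] at a11; exact zero_ne_one a11
  · rw [e, polar_smul_right, a21, smul_zero] at a22; exact zero_ne_one a22
  · obtain ⟨k, hk, hk'⟩ := hc t ht
    exact ⟨k, hk, by simpa using hk' 0, by simpa using hk' 1⟩

/-- A full pair gives a whole root group. -/
lemma allRoot_of_full (hM : M ≤ Cfsg.Geo.omegaGL ⇑Q) {y₁ y₂ : ι → F₀} (h1 : S.form y₁ = 0)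
    (h2 : S.form y₂ = 0) (h12 : polar S.form y₁ y₂ = 0) (hy1 : y₁ ≠ 0)
    (hy2 : ∀ c : F₀, y₂ ≠ c • y₁)
    (hfull : ∀ μ : F, sg Q (ratVec P y₁) (μ • ratVec P y₂) ∈ M) : AllRoot Q M (ratVec P y₁) := by
  classical
  have hn := S.dim
  set Y := ratVec P y₁ with hY
  have hY0 : Q Y = 0 := S.sing h1
  let p : (ι → F₀) → Prop := fun u =>
    polar S.form y₁ u = 0 ∧ ∀ μ : F, sg Q Y (μ • ratVec P u) ∈ M
  have hp : ∀ {u : ι → F₀}, polar S.form y₁ u = 0 → ∀ μ : F, polar Q Y (μ • ratVec P u) = 0 :=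
    fun {u} hu μ => by rw [polar_smul_right, S.orth hu, smul_zero]
  have padd : ∀ u v, p u → p v → p (u + v) := fun u v hu hv =>
    ⟨by rw [polar_add_right, hu.1, hv.1, add_zero], fun μ => by
      rw [ratVec_add, smul_add, sg_add hY0 (hp hu.1 μ) (hp hv.1 μ)]
      exact mul_mem (hu.2 μ) (hv.2 μ)⟩
  have psmul : ∀ (c : F₀) u, p u → p (c • u) := fun c u hu =>
    ⟨by rw [polar_smul_right, hu.1, smul_zero], fun μ => by
      rw [ratVec_smul, smul_smul]; exact hu.2 _⟩
  have py2 : p y₂ := ⟨h12, hfull⟩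
  have py1 : p y₁ := ⟨polar_self_sing h1, fun μ => by
    have e : sg Q Y (μ • Y) = 1 := by
      refine gl_ext fun v => ?_
      rw [sg_mulVec hY0 (by rw [polar_smul_right, polar_self_sing hY0, smul_zero]),
        QuadraticMap.map_smul, hY0, polar_smul_right]
      simp
      module
    rw [← hY, e]; exact M.one_mem⟩
  obtain ⟨w₁, w, q1, qw, q12, a11, a21, a12, a22⟩ := S.exists_opposite h1 h2 h12 hy1 hy2
  have pb : ∀ b, polar S.form y₁ b = 0 → polar S.form w b = 0 → polar S.form y₂ b = 0 →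
      p (b + (-S.form b) • w) := by
    intro b b1 bw b2
    refine ⟨by rw [polar_add_right, polar_smul_right, b1, a12, smul_zero, add_zero], fun μ => ?_⟩
    have hk := hrat w b qw bw
    have e1 : ((sg Q (ratVec P w) (ratVec P b)) : Matrix ι ι F) *ᵥ Y = Y := by
      rw [hY, S.sg_rat qw bw, sie_apply qw bw, polar_comm _ y₁ w, polar_comm _ w y₁, a12, b1]
      simp
    have e2 : ((sg Q (ratVec P w) (ratVec P b)) : Matrix ι ι F) *ᵥ ratVec P y₂ =
        ratVec P (y₂ + (b + (-S.form b) • w)) := by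
      rw [S.sg_rat qw bw, sie_apply qw bw, a22, b2]
      congr 1
      module
    have := mul_mem (mul_mem hk (hfull μ)) (inv_mem hk)
    rw [sg_conj (mem_isometryGroup_of_omega (hM hk)) hY0 (hp h12 μ), mulVec_smul, e1, e2,
      ratVec_add, smul_add, sg_add hY0 (hp h12 μ) (hp (by
        rw [polar_add_right, polar_smul_right, b1, a12, smul_zero, add_zero]) μ)] at this
    simpa using mul_mem (inv_mem (hfull μ)) this
  have pw : p w := by
    obtain ⟨s, t, hs, ht, hst, hperp⟩ :=
      exists_hyp_perp S.form_nd ![y₁, y₂, w] (by rw [S.finrank₀]; omega)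
    have r1 := hperp 0; have r2 := hperp 1; have r3 := hperp 2
    simp at r1 r2 r3
    have e := padd _ _ (padd _ _ (pb s r1.1 r3.1 r2.1) (pb t r1.2 r3.2 r2.2))
      (psmul (-1) _ (pb (s + t) (by rw [polar_add_right, r1.1, r1.2, add_zero])
        (by rw [polar_add_right, r3.1, r3.2, add_zero])
        (by rw [polar_add_right, r2.1, r2.2, add_zero])))
    convert e using 1
    rw [QuadraticMap.map_add ⇑S.form s t, hs, ht, hst]
    simp
    module
  have pperp : ∀ u, polar S.form y₁ u = 0 → p u := by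
    intro u hu
    set a := polar S.form y₂ u
    set b := polar S.form w u
    set u' := u + (-b) • y₂ + (-a) • w with hu'
    have k1 : polar S.form y₁ u' = 0 := by simp [hu', polar_add_right, polar_smul_right, hu, h12, a12]
    have k2 : polar S.form y₂ u' = 0 := by
      simp [hu', polar_add_right, polar_smul_right, polar_self_sing h2, a22, a]
    have k3 : polar S.form w u' = 0 := by
      simp [hu', polar_add_right, polar_smul_right, polar_self_sing qw, polar_comm _ w y₂, a22, b]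
    have e : u = (u' + (-S.form u') • w) + (b • y₂ + (a + S.form u') • w) := by rw [hu']; module
    rw [e]
    exact padd _ _ (pb u' k1 k3 k2) (padd _ _ (psmul _ _ py2) (psmul _ _ pw))
  obtain ⟨d, hd⟩ := S.good₀.exists_one hy1
  refine ⟨hY0, fun u hu => ?_⟩
  set c := ((P⁻¹ : GL ι F) : Matrix ι ι F) *ᵥ u
  have hsingle : ∀ i : ι, ratVec P (Pi.single i (1 : F₀)) =
      (P : Matrix ι ι F) *ᵥ Pi.single i 1 := fun i => by
    rw [ratVec, show (fun j => ((Pi.single i 1 : ι → F₀) j : F)) = Pi.single i 1 by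
      funext j; rcases eq_or_ne j i with rfl | h' <;> simp [*]]
  have hsum : u = ∑ i, c i • ratVec P (Pi.single i (1 : F₀)) := by
    simp only [hsingle, ← mulVec_smul, ← mulVec_sum]
    rw [← pi_eq_sum_univ' c, mulVec_inv_mulVec]
  let e' : ι → (ι → F₀) := fun i => Pi.single i 1 + (-polar S.form y₁ (Pi.single i 1)) • d
  have he' : ∀ i, polar S.form y₁ (e' i) = 0 := fun i => by
    simp [e', polar_add_right, polar_smul_right, hd]
  have hzero : ∑ i, c i * ((polar S.form y₁ (Pi.single i 1) : F₀) : F) = 0 := by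
    rw [← hu]
    conv_rhs => rw [hsum, ← polarBilin_apply_apply Q, map_sum]
    exact Finset.sum_congr rfl fun i _ => by
      rw [polarBilin_apply_apply, polar_smul_right, S.polar_coe, smul_eq_mul]
  have hdec : u = ∑ i, c i • ratVec P (e' i) := by
    simp only [e', ratVec_add, ratVec_smul, smul_add, Finset.sum_add_distrib, smul_smul,
      ← Finset.sum_smul, ← hsum, Subfield.coe_neg, mul_neg, Finset.sum_neg_distrib, hzero]
    simp
  have key : ∀ s : Finset ι, polar Q Y (∑ i ∈ s, c i • ratVec P (e' i)) = 0 ∧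
      sg Q Y (∑ i ∈ s, c i • ratVec P (e' i)) ∈ M := by
    intro s
    induction s using Finset.induction with
    | empty => exact ⟨by simp, by rw [Finset.sum_empty, sg_zero hY0]; exact M.one_mem⟩
    | insert i s hi ih =>
      rw [Finset.sum_insert hi]
      refine ⟨by rw [polar_add_right, hp (he' i), ih.1, add_zero], ?_⟩
      rw [sg_add hY0 (hp (he' i) _) ih.1]
      exact mul_mem ((pperp _ (he' i)).2 _) ih.2
  rw [hdec]
  exact (key Finset.univ).2

omit [Finite F] in
/-- Elements of the group permute the full root groups. -/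
lemma allRoot_conj (hM : M ≤ Cfsg.Geo.omegaGL ⇑Q) {x : ι → F} (hx : AllRoot Q M x) {k : GL ι F}
    (hk : k ∈ M) : AllRoot Q M ((k : Matrix ι ι F) *ᵥ x) := by
  have hi := mem_isometryGroup_of_omega (hM hk)
  refine ⟨by rw [hi, hx.1], fun u hu => ?_⟩
  have hu' : polar Q x (((k⁻¹ : GL ι F) : Matrix ι ι F) *ᵥ u) = 0 := by
    rw [← polar_of_isometry hi, mulVec_inv_mulVec, hu]
  have := mul_mem (mul_mem hk (hx.2 _ hu')) (inv_mem hk)
  rwa [sg_conj hi hx.1 hu', mulVec_inv_mulVec] at this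

/-- One full rational root group gives all of Ω. -/
theorem omega_le_of_allRoot (hM : M ≤ Cfsg.Geo.omegaGL ⇑Q) {y₁ : ι → F₀} (h1 : S.form y₁ = 0)
    (hy1 : y₁ ≠ 0) (hall : AllRoot Q M (ratVec P y₁)) : Cfsg.Geo.omegaGL ⇑Q ≤ M := by
  classical
  have hn := S.dim
  haveI : Fintype F := Fintype.ofFinite F
  -- the rational points
  let L : Subgroup (isoG S.form) :=
    { carrier := {k | ∃ k' ∈ M, ∀ v, (k' : Matrix ι ι F) *ᵥ ratVec P v = ratVec P (k.1 v)}
      one_mem' := ⟨1, M.one_mem, fun v => by simp⟩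
      mul_mem' := by
        rintro a b ⟨a', ha', ea⟩ ⟨b', hb', eb⟩
        exact ⟨a' * b', mul_mem ha' hb', fun v => by rw [mul_mulVec', eb, ea]; rfl⟩
      inv_mem' := by
        rintro a ⟨a', ha', ea⟩
        refine ⟨a'⁻¹, inv_mem ha', fun v => gl_mulVec_injective a' ?_⟩
        simp only [mulVec_inv_mulVec, ea]
        congr 1
        exact (a.1.apply_symm_apply v).symm }
  have hL : siegelGroup S.form ≤ L := by
    rw [siegelGroup]
    refine (Subgroup.closure_le _).2 ?_
    rintro _ ⟨x, u, hx, hu, rfl⟩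
    exact ⟨_, hrat x u hx hu, fun v => S.sg_rat hx hu v⟩
  have hrat_all : ∀ y : ι → F₀, S.form y = 0 → y ≠ 0 → AllRoot Q M (ratVec P y) := by
    intro y hy hy0
    obtain ⟨k, hk, rfl⟩ := S.good₀.exists_map_sing hy1 hy0 h1 hy
    obtain ⟨k', hk', e⟩ := hL hk
    rw [← e]
    exact S.allRoot_conj hrat hM hall hk'
  refine omegaGL_le_of_sg S.good fun x u hx hu => ?_
  rcases eq_or_ne x 0 with rfl | hx0
  · have : sg Q 0 u = 1 := gl_ext fun v => by simp [sg_mulVec (map_zero Q) hu, polar_zero_right]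
    rw [this]; exact M.one_mem
  obtain ⟨y, hy, hxy⟩ : ∃ y, S.form y = 0 ∧ polar Q x (ratVec P y) ≠ 0 := by
    by_contra h
    push Not at h
    obtain ⟨v, hv⟩ := S.exists_ne hx0
    refine hv (perpK_induction S.form_nd (Fin.elim0 : Fin 0 → (ι → F₀))
      (by rw [S.finrank₀]; omega) (p := fun v => polar Q x (ratVec P v) = 0) (fun z _ hz => h z hz)
      (fun a b ha hb => by rw [ratVec_add, polar_add_right, ha, hb, add_zero])
      (mem_perpK.2 fun i => Fin.elim0 i))
  have hy0 : y ≠ 0 := fun e => hxy (by rw [e, ratVec_zero, polar_zero_right])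
  obtain ⟨x₀, hx₀, hyx₀⟩ := S.good₀.exists_partner hy0 hy
  set Y := ratVec P y
  set X₀ := ratVec P x₀
  have hY := hrat_all y hy hy0
  have hX₀ : AllRoot Q M X₀ := hrat_all x₀ hx₀ fun e => by
    rw [e, polar_zero_right] at hyx₀; exact zero_ne_one hyx₀
  have hYX : polar Q Y X₀ = 1 := by rw [← S.polar_coe, hyx₀]; rfl
  set β := polar Q x Y
  set w := x - β • X₀ - polar Q x X₀ • Y with hw
  have hwY : polar Q Y (-(β⁻¹ • w)) = 0 := by
    rw [polar_neg_right, polar_smul_right, hw, polar_sub_right, polar_sub_right, polar_smul_right,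
      polar_smul_right, hYX, polar_self_sing hY.1, polar_comm Q Y x]
    simp [β]
  have hk := hY.2 _ hwY
  set k := sg Q Y (-(β⁻¹ • w)) with hk'
  have hkx : (k : Matrix ι ι F) *ᵥ x = β • X₀ := by
    set γ := polar Q x X₀ - polar Q x (-(β⁻¹ • w)) - Q (-(β⁻¹ • w)) * β with hγ
    have e : (k : Matrix ι ι F) *ᵥ x = β • X₀ + γ • Y := by
      rw [hγ, hk', sg_mulVec hY.1 hwY, smul_neg, smul_smul, mul_inv_cancel₀ hxy, one_smul, hw]
      module
    have hQ0 : Q ((k : Matrix ι ι F) *ᵥ x) = 0 := by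
      rw [hk', sg_isometry, hx]
    rw [e] at hQ0 ⊢
    rw [QuadraticMap.map_add ⇑Q, QuadraticMap.map_smul, QuadraticMap.map_smul, hY.1,
      (S.sing hx₀ : Q X₀ = 0), polar_smul_left, polar_smul_right, polar_comm Q X₀ Y, hYX] at hQ0
    simp only [smul_eq_mul, mul_zero, zero_add, add_zero, mul_one] at hQ0
    rw [(mul_eq_zero.1 hQ0).resolve_left hxy, zero_smul, add_zero]
  have hkX : AllRoot Q M ((k : Matrix ι ι F) *ᵥ x) := by
    rw [hkx]
    refine ⟨by rw [QuadraticMap.map_smul, hX₀.1, smul_zero], fun v hv => ?_⟩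
    have hv' : polar Q X₀ v = 0 := by
      rw [polar_smul_left, smul_eq_mul] at hv
      exact (mul_eq_zero.1 hv).resolve_left hxy
    rw [sg_smul hX₀.1 hv']
    exact hX₀.2 _ (by rw [polar_smul_right, hv', smul_zero])
  have := (S.allRoot_conj hrat hM hkX (inv_mem hk)).2 u
  rw [inv_mulVec_mulVec] at this
  exact this hu

end QRat

end Cfsg.Agent.Lib.Forms
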