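import Cfsg.Agent.Lib.Forms.OrthSubfield

/-!
An element outside the subfield group moves a totally singular triple irrationally against a
rational totally singular pair.
-/

set_option autoImplicit false

namespace Cfsg.Agent.Lib.Forms

open Matrix QuadraticMap Cfsg.Agent.Lib.Classical.Quad Cfsg.Agent.Lib.Classical.QuadOmega

variable {ι : Type} [Fintype ι] [DecidableEq ι] {F : Type*} [Field F] [Finite F]
  {F₀ : Subfield F} {P : GL ι F} {Q : QuadraticForm F (ι → F)}

/-- The Plücker pairing of the image plane with the rational pair. -/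
noncomputable def detP (Q : QuadraticForm F (ι → F)) (P : GL ι F) (g : GL ι F)
    (z₁ z₂ x b : ι → F₀) : F :=
  polar Q ((g : Matrix ι ι F) *ᵥ ratVec P x) (ratVec P z₁) *
      polar Q ((g : Matrix ι ι F) *ᵥ ratVec P b) (ratVec P z₂) -
    polar Q ((g : Matrix ι ι F) *ᵥ ratVec P x) (ratVec P z₂) *
      polar Q ((g : Matrix ι ι F) *ᵥ ratVec P b) (ratVec P z₁)

namespace QRat

variable (S : QRat Q F₀ P)
include S

/-- Two totally singular triples data. -/
structure Cfg (S : QRat Q F₀ P) (g : GL ι F) (z₁ z₂ x b b' : ι → F₀) : Prop where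
  z₁0 : S.form z₁ = 0
  z₂0 : S.form z₂ = 0
  zz : polar S.form z₁ z₂ = 0
  x0 : S.form x = 0
  b0 : S.form b = 0
  b'0 : S.form b' = 0
  xb : polar S.form x b = 0
  xb' : polar S.form x b' = 0
  bb' : polar S.form b b' = 0
  D0 : detP Q P g z₁ z₂ x b ≠ 0
  irr : detP Q P g z₁ z₂ x b' / detP Q P g z₁ z₂ x b ∉ F₀

omit [Finite F] in
lemma rat_indep_two {r₀ r₁ : ι → F₀} (h0 : r₀ ≠ 0) (h : ∀ c : F₀, r₁ ≠ c • r₀) {a b : F}
    (e : a • ratVec P r₀ + b • ratVec P r₁ = 0) : a = 0 ∧ b = 0 := by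
  classical
  obtain ⟨i, hi⟩ : ∃ i, r₀ i ≠ 0 := by
    by_contra hc; push Not at hc; exact h0 (funext hc)
  obtain ⟨j, hj⟩ : ∃ j, r₁ j ≠ (r₁ i / r₀ i) * r₀ j := by
    by_contra hc; push Not at hc; exact h _ (funext hc)
  simp only [ratVec, ← mulVec_smul, ← mulVec_add] at e
  have e' := gl_mulVec_injective P (e.trans (mulVec_zero _).symm)
  have ei := congrFun e' i
  have ej := congrFun e' j
  simp only [Pi.add_apply, Pi.smul_apply, smul_eq_mul, Pi.zero_apply] at ei ej
  have hb : b = 0 := by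
    by_contra hb
    refine hj (Subtype.ext ?_)
    have hi' : (r₀ i : F) ≠ 0 := fun z => hi (Subtype.ext z)
    push_cast
    field_simp
    refine mul_left_cancel₀ hb ?_
    linear_combination (r₀ i : F) * ej - (r₀ j : F) * ei
  subst hb
  simp only [zero_mul, add_zero, mul_eq_zero] at ei
  exact ⟨ei.resolve_right fun z => hi (Subtype.ext z), rfl⟩

lemma dual_pair {r₀ r₁ : ι → F₀} (h0 : r₀ ≠ 0) (h : ∀ c : F₀, r₁ ≠ c • r₀) :
    ∀ i : Fin 2, ∃ d, ∀ j : Fin 2, polar S.form (![r₀, r₁] j) d = if i = j then 1 else 0 := by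
  have h' : ∀ c : F₀, r₀ ≠ c • r₁ := fun c e => by
    rcases eq_or_ne c 0 with rfl | hc
    · exact h0 (by rw [e, zero_smul])
    · exact h c⁻¹ (by rw [e, smul_smul, inv_mul_cancel₀ hc, one_smul])
  obtain ⟨d₀, a, b⟩ := S.good₀.exists_one_perp h'
  obtain ⟨d₁, a', b'⟩ := S.good₀.exists_one_perp h
  intro i
  fin_cases i
  · exact ⟨d₀, fun j => by fin_cases j <;> simp [a, b]⟩
  · exact ⟨d₁, fun j => by fin_cases j <;> simp [a', b']⟩

lemma mem_span_pair {r₀ r₁ : ι → F₀} (h0 : r₀ ≠ 0) (h : ∀ c : F₀, r₁ ≠ c • r₀) {x : ι → F}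
    (hx : ∀ q : ι → F₀, polar S.form r₀ q = 0 → polar S.form r₁ q = 0 →
      polar Q x (ratVec P q) = 0) :
    ∃ a b : F, x = a • ratVec P r₀ + b • ratVec P r₁ := by
  have e := S.mem_span_rat ![r₀, r₁] (S.dual_pair h0 h) fun q hq =>
    hx q (by simpa using mem_perpK.1 hq 0) (by simpa using mem_perpK.1 hq 1)
  rw [Fin.sum_univ_two] at e
  exact ⟨_, _, e⟩

omit S in
/-- The plane spanned by two vectors is rational. -/
def RatPlane (P : GL ι F) (F₀ : Subfield F) (w₀ w₁ : ι → F) : Prop :=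
  ∃ (r₀ r₁ : ι → F₀) (a b c d : F), r₀ ≠ 0 ∧ (∀ t : F₀, r₁ ≠ t • r₀) ∧
    w₀ = a • ratVec P r₀ + b • ratVec P r₁ ∧ w₁ = c • ratVec P r₀ + d • ratVec P r₁

omit [Finite F] in
lemma ratPlane_of_points {w₀ w₁ : ι → F} {r₀ r₁ : ι → F₀} (h0 : r₀ ≠ 0)
    (h : ∀ t : F₀, r₁ ≠ t • r₀) {p₀ q₀ p₁ q₁ : F}
    (e₀ : ratVec P r₀ = p₀ • w₀ + q₀ • w₁) (e₁ : ratVec P r₁ = p₁ • w₀ + q₁ • w₁) :
    RatPlane P F₀ w₀ w₁ := by
  have hdet : p₀ * q₁ - p₁ * q₀ ≠ 0 := by
    intro hz
    have k1 : q₁ • ratVec P r₀ + (-q₀) • ratVec P r₁ = 0 := by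
      rw [e₀, e₁]; match_scalars <;> first | (ring; done) | linear_combination hz | linear_combination -hz
    have k2 : p₁ • ratVec P r₀ + (-p₀) • ratVec P r₁ = 0 := by
      rw [e₀, e₁]; match_scalars <;> first | (ring; done) | linear_combination hz | linear_combination -hz
    obtain ⟨-, hq⟩ := S.rat_indep_two h0 h k1
    obtain ⟨-, hp⟩ := S.rat_indep_two h0 h k2
    rw [neg_eq_zero] at hq hp
    exact ratVec_ne_zero (P := P) h0 (by rw [e₀, hp, hq]; simp)
  refine ⟨r₀, r₁, q₁ / (p₀ * q₁ - p₁ * q₀), -q₀ / (p₀ * q₁ - p₁ * q₀),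
    -p₁ / (p₀ * q₁ - p₁ * q₀), p₀ / (p₀ * q₁ - p₁ * q₀), h0, h, ?_, ?_⟩ <;>
  · have hi := mul_inv_cancel₀ hdet
    rw [e₀, e₁]
    simp only [div_eq_mul_inv]
    match_scalars <;> first | (ring; done) | linear_combination hi | linear_combination -hi

/-- Some rational pair is moved to an irrational plane. -/
lemma exists_irrational_plane {g : GL ι F} (hgi : ∀ v, Q ((g : Matrix ι ι F) *ᵥ v) = Q v)
    (hgn : g ∉ Cfsg.Geo.subfieldSubgroup F₀ P) :
    ∃ z₁ z₂ : ι → F₀, S.form z₁ = 0 ∧ S.form z₂ = 0 ∧ polar S.form z₁ z₂ = 0 ∧ z₁ ≠ 0 ∧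
      (∀ c : F₀, z₂ ≠ c • z₁) ∧ ¬ RatPlane P F₀ (((g⁻¹ : GL ι F) : Matrix ι ι F) *ᵥ ratVec P z₁)
        (((g⁻¹ : GL ι F) : Matrix ι ι F) *ᵥ ratVec P z₂) := by
  classical
  by_contra hcon
  push Not at hcon
  have hn := S.dim
  set h : GL ι F := g⁻¹ with hh
  have hhi : ∀ v, Q ((h : Matrix ι ι F) *ᵥ v) = Q v := fun v => by
    conv_rhs => rw [← mulVec_inv_mulVec g v, hgi]
  have hline : ∀ z : ι → F₀, S.form z = 0 → z ≠ 0 →
      ∃ (c : F) (r : ι → F₀), (h : Matrix ι ι F) *ᵥ ratVec P z = c • ratVec P r := by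
    intro z hz hz0
    obtain ⟨s, t, hs, ht, hst, hp⟩ := exists_hyp_perp S.form_nd ![z] (by rw [S.finrank₀]; omega)
    have p0 := hp 0
    simp at p0
    obtain ⟨s', t', hs', -, hst', hp'⟩ :=
      exists_hyp_perp S.form_nd ![z, s, t] (by rw [S.finrank₀]; omega)
    have q0 := hp' 0; have q1 := hp' 1; have q2 := hp' 2
    simp at q0 q1 q2
    obtain ⟨r₀, r₁, a, b, c, d, h0, h1, ez, es⟩ := hcon z s hz hs p0.1 hz0 fun k e => by
      have := congrArg (fun v => polar S.form v t) e
      simp [polar_smul_left, hst, p0.2] at this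
    obtain ⟨r₂, r₃, a', b', c', d', h2, h3, ez', es'⟩ := hcon z s' hz hs' q0.1 hz0 fun k e => by
      have := congrArg (fun v => polar S.form v t') e
      simp [polar_smul_left, hst', q0.2] at this
    by_contra hno
    push Not at hno
    have ha : a ≠ 0 := fun e => hno b r₁ (by rw [ez, e, zero_smul, zero_add])
    have hba : b / a ∉ F₀ := fun hmem => hno a (r₀ + (⟨b / a, hmem⟩ : F₀) • r₁) (by
      rw [ez, ratVec_add, ratVec_smul, smul_add, smul_smul, mul_div_cancel₀ _ ha])
    have hkill : ∀ q, polar S.form r₂ q = 0 → polar S.form r₃ q = 0 →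
        polar S.form r₀ q = 0 ∧ polar S.form r₁ q = 0 := by
      intro q k2 k3
      have e := congrArg (fun v => polar Q v (ratVec P q)) (ez.symm.trans ez')
      simp only [polar_add_left, polar_smul_left, smul_eq_mul, ← S.polar_coe, k2, k3] at e
      simp only [Subfield.coe_zero, mul_zero, add_zero] at e
      by_cases k1 : polar S.form r₁ q = 0
      · refine ⟨Subtype.ext ((mul_eq_zero.1 (?_ : a * _ = 0)).resolve_left ha), k1⟩
        simpa [k1] using e
      · exfalso
        refine hba ?_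
        have k1' : ((polar S.form r₁ q : F₀) : F) ≠ 0 := fun z => k1 (Subtype.ext z)
        rw [show b / a = -((polar S.form r₀ q : F₀) : F) / (polar S.form r₁ q : F₀) by
          field_simp; linear_combination e]
        exact div_mem (neg_mem (SetLike.coe_mem _)) (SetLike.coe_mem _)
    obtain ⟨a0, b0, e0⟩ := S.mem_span_pair h2 h3 (x := ratVec P r₀) fun q k2 k3 =>
      S.orth (hkill q k2 k3).1
    obtain ⟨a1, b1, e1⟩ := S.mem_span_pair h2 h3 (x := ratVec P r₁) fun q k2 k3 =>
      S.orth (hkill q k2 k3).2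
    set A := c * a0 + d * a1
    set B := c * b0 + d * b1
    have hdet : a' * d' - b' * c' ≠ 0 := by
      intro hz'
      have k : ∀ u v : F, (h : Matrix ι ι F) *ᵥ (u • ratVec P z + v • ratVec P s') = 0 →
          u = 0 ∧ v = 0 := fun u v e => by
        have e2 := gl_mulVec_injective h (e.trans (mulVec_zero _).symm)
        refine S.rat_indep_two hz0 (fun k e => ?_) e2
        have := congrArg (fun w => polar S.form w t') e
        simp [polar_smul_left, hst', q0.2] at this
      obtain ⟨u1, v1⟩ := k d' (-b') (by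
        rw [mulVec_add, mulVec_smul, mulVec_smul, ez', es']
        match_scalars <;> first | (ring; done) | linear_combination hz' | linear_combination -hz')
      obtain ⟨u2, v2⟩ := k c' (-a') (by
        rw [mulVec_add, mulVec_smul, mulVec_smul, ez', es']
        match_scalars <;> first | (ring; done) | linear_combination hz' | linear_combination -hz')
      rw [neg_eq_zero] at v1 v2
      exact hno 0 0 (by rw [ez', v1, v2]; simp [ratVec_zero])
    have es2 : (h : Matrix ι ι F) *ᵥ ratVec P s =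
        (h : Matrix ι ι F) *ᵥ (((A * d' - B * c') / (a' * d' - b' * c')) • ratVec P z +
          ((B * a' - A * b') / (a' * d' - b' * c')) • ratVec P s') := by
      have hi := mul_inv_cancel₀ hdet
      rw [mulVec_add, mulVec_smul, mulVec_smul, ez', es', es, e0, e1]
      simp only [div_eq_mul_inv, A, B]
      match_scalars <;> first | linear_combination (c * a0 + d * a1) * hi |
        linear_combination -(c * a0 + d * a1) * hi | linear_combination (c * b0 + d * b1) * hi |
        linear_combination -(c * b0 + d * b1) * hi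
    have e := congrArg (fun v => polar Q v (ratVec P t)) (gl_mulVec_injective h es2)
    simp only [polar_add_left, polar_smul_left, smul_eq_mul, ← S.polar_coe, hst, p0.2] at e
    rw [polar_comm _ s' t, q2.1] at e
    simp at e
  -- the scalars agree
  obtain ⟨s₀, t₀, hs₀, -, hst₀, -⟩ :=
    exists_hyp_perp S.form_nd (Fin.elim0 : Fin 0 → (ι → F₀)) (by rw [S.finrank₀]; omega)
  have hs₀0 : s₀ ≠ 0 := fun e => by rw [e, polar_zero_left] at hst₀; exact zero_ne_one hst₀
  obtain ⟨c₀, r₀, e₀⟩ := hline s₀ hs₀ hs₀0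
  have hc : ∀ z : ι → F₀, S.form z = 0 → ∃ r : ι → F₀,
      (h : Matrix ι ι F) *ᵥ ratVec P z = c₀ • ratVec P r := by
    intro z hz
    rcases eq_or_ne z 0 with rfl | hz0
    · exact ⟨0, by simp [ratVec_zero]⟩
    obtain ⟨c, r, e⟩ := hline z hz hz0
    obtain ⟨y, hy, hzy, hs₀y⟩ :=
      exists_sing_polar₂ S.form_nd (by rw [S.finrank₀]; omega) hz0 hs₀0
    obtain ⟨cy, ry, ey⟩ := hline y hy fun e => hzy (by rw [e, polar_zero_right])
    have key : ∀ {u v : ι → F₀} {cu cv : F} {ru rv : ι → F₀},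
        (h : Matrix ι ι F) *ᵥ ratVec P u = cu • ratVec P ru →
        (h : Matrix ι ι F) *ᵥ ratVec P v = cv • ratVec P rv → polar S.form u v ≠ 0 →
        cu * cv ∈ F₀ ∧ cu * cv ≠ 0 := by
      intro u v cu cv ru rv eu ev huv
      have huv' : ((polar S.form u v : F₀) : F) ≠ 0 := fun e => huv (Subtype.ext e)
      have h1 := polar_of_isometry hhi (ratVec P u) (ratVec P v)
      rw [eu, ev, polar_smul_left, polar_smul_right, smul_eq_mul, smul_eq_mul, ← mul_assoc,
        ← S.polar_coe, ← S.polar_coe] at h1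
      have hne : ((polar S.form ru rv : F₀) : F) ≠ 0 := fun e => huv' (by rw [← h1, e, mul_zero])
      refine ⟨?_, fun e => huv' (by rw [← h1, e, zero_mul])⟩
      rw [eq_div_iff hne |>.2 h1]
      exact div_mem (SetLike.coe_mem _) (SetLike.coe_mem _)
    obtain ⟨m1, n1⟩ := key e ey hzy
    obtain ⟨m2, n2⟩ := key e₀ ey hs₀y
    have hmem : c / c₀ ∈ F₀ := by
      rw [show c / c₀ = c * cy / (c₀ * cy) by
        rw [mul_div_mul_right _ _ (mul_ne_zero_iff.1 n1).2]]
      exact div_mem m1 m2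
    exact ⟨(⟨c / c₀, hmem⟩ : F₀) • r, by
      rw [e, ratVec_smul, smul_smul, mul_div_cancel₀ _ (mul_ne_zero_iff.1 n2).1]⟩
  refine hgn ((Subgroup.inv_mem_iff _).1 (mem_subfieldSubgroup_of_lines fun u _ => ⟨c₀, ?_⟩))
  exact perpK_induction S.form_nd (Fin.elim0 : Fin 0 → (ι → F₀)) (by rw [S.finrank₀]; omega)
    (p := fun u => ∃ r : ι → F₀, (h : Matrix ι ι F) *ᵥ ratVec P u = c₀ • ratVec P r)
    (fun v _ hv => hc v hv)
    (fun a b ⟨ra, ea⟩ ⟨rb, eb⟩ => ⟨ra + rb, by rw [ratVec_add, mulVec_add, ea, eb, ratVec_add,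
      smul_add]⟩) (mem_perpK.2 fun i => Fin.elim0 i)

/-- A rational functional comes from a rational vector. -/
lemma exists_riesz (f : (ι → F₀) →ₗ[F₀] F₀) : ∃ r : ι → F₀, ∀ v, polar S.form r v = f v := by
  have hinj : Function.Injective (polarBilin S.form : (ι → F₀) →ₗ[F₀] (ι → F₀) →ₗ[F₀] F₀) := by
    intro a b e
    refine sub_eq_zero.1 (S.form_nd _ fun z => ?_)
    rw [polar_sub_left, ← polarBilin_apply_apply, e, polarBilin_apply_apply, sub_self]
  obtain ⟨r, rfl⟩ := (LinearMap.injective_iff_surjective_of_finrank_eq_finrank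
    (Subspace.dual_finrank_eq (K := F₀) (V := ι → F₀)).symm).1 hinj f
  exact ⟨r, fun v => rfl⟩

/-- An element outside the subfield group admits the data. -/
theorem exists_cfg {g : GL ι F} (hgi : ∀ v, Q ((g : Matrix ι ι F) *ᵥ v) = Q v)
    (hgn : g ∉ Cfsg.Geo.subfieldSubgroup F₀ P) :
    ∃ z₁ z₂ x b b', Cfg S g z₁ z₂ x b b' := by
  classical
  have hn := S.dim
  obtain ⟨z₁, z₂, hz1, hz2, hz12, hz10, hzi, hW⟩ := S.exists_irrational_plane hgi hgn
  by_contra hcon
  push Not at hcon
  set w₁ := ((g⁻¹ : GL ι F) : Matrix ι ι F) *ᵥ ratVec P z₁ with hw₁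
  set w₂ := ((g⁻¹ : GL ι F) : Matrix ι ι F) *ᵥ ratVec P z₂ with hw₂
  have hpair : ∀ (u : ι → F) (z : ι → F), polar Q u (((g⁻¹ : GL ι F) : Matrix ι ι F) *ᵥ z) =
      polar Q ((g : Matrix ι ι F) *ᵥ u) z := fun u z => by
    rw [← polar_of_isometry hgi, mulVec_inv_mulVec]
  let α₁ := fun x : ι → F₀ => polar Q (ratVec P x) w₁
  let α₂ := fun x : ι → F₀ => polar Q (ratVec P x) w₂
  let pv := fun x : ι → F₀ => α₁ x • w₂ - α₂ x • w₁
  have hD : ∀ x b, detP Q P g z₁ z₂ x b = polar Q (ratVec P b) (pv x) := fun x b => by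
    simp only [detP, pv, α₁, α₂, hw₁, hw₂, hpair, polar_sub_right, polar_smul_right, smul_eq_mul]
  have hwind : ∀ u v : F, u • w₁ + v • w₂ = 0 → u = 0 ∧ v = 0 := fun u v e => by
    rw [hw₁, hw₂, ← mulVec_smul, ← mulVec_smul, ← mulVec_add] at e
    exact S.rat_indep_two hz10 hzi (gl_mulVec_injective _ (e.trans (mulVec_zero _).symm))
  -- the pairing of one point is rational up to a scalar
  have hform : ∀ x, S.form x = 0 → x ≠ 0 →
      ∃ (r : ι → F₀) (c e : F), pv x = c • ratVec P r + e • ratVec P x := by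
    intro x hx hx0
    obtain ⟨w, hw, hxw⟩ := S.good₀.exists_partner hx0 hx
    set φ := fun v : ι → F₀ => polar Q (ratVec P v) (pv x) with hφ
    have φadd : ∀ a b, φ (a + b) = φ a + φ b := fun a b => by
      simp [hφ, ratVec_add, polar_add_left]
    have φsmul : ∀ (k : F₀) a, φ (k • a) = (k : F) * φ a := fun k a => by
      simp [hφ, ratVec_smul, polar_smul_left]
    suffices hrat : ∃ c : F, ∀ v, polar S.form x v = 0 → ∃ k : F₀, φ v = c * k by
      obtain ⟨c, hc⟩ := hrat
      have hproj : ∀ v, polar S.form x (v + (-polar S.form x v) • w) = 0 := fun v => by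
        rw [polar_add_right, polar_smul_right, hxw]; simp
      choose k hk using fun v => hc _ (hproj v)
      rcases eq_or_ne c 0 with rfl | hc0
      · refine ⟨0, 0, polar Q (ratVec P w) (pv x), sub_eq_zero.1 ?_⟩
        by_contra hne
        obtain ⟨v, hv⟩ := S.exists_ne hne
        refine hv ?_
        have := hk v
        rw [φadd, φsmul, zero_mul] at this
        rw [polar_comm, zero_smul, zero_add, polar_sub_right, polar_smul_right, ← S.polar_coe,
          smul_eq_mul, polar_comm _ v x]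
        simp only [hφ, Subfield.coe_neg] at this
        linear_combination this
      have kadd : ∀ a b, k (a + b) = k a + k b := fun a b => Subtype.ext (mul_left_cancel₀ hc0 (by
        rw [Subfield.coe_add, mul_add, ← hk, ← hk, ← hk, ← φadd]
        congr 1
        rw [polar_add_right]
        module))
      have ksmul : ∀ (t : F₀) a, k (t • a) = t * k a := fun t a =>
        Subtype.ext (mul_left_cancel₀ hc0 (by
          rw [Subfield.coe_mul, mul_left_comm, ← hk, ← hk, ← φsmul]
          congr 1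
          rw [polar_smul_right, smul_eq_mul]
          module))
      obtain ⟨r, hr⟩ := S.exists_riesz
        { toFun := k, map_add' := kadd, map_smul' := fun t a => by simpa using ksmul t a }
      refine ⟨r, c, polar Q (ratVec P w) (pv x - c • ratVec P r), sub_eq_zero.1 ?_⟩
      by_contra hne
      obtain ⟨v, hv⟩ := S.exists_ne hne
      refine hv ?_
      have h1 := hk v
      have hkw : k w = 0 := by
        refine Subtype.ext (mul_left_cancel₀ hc0 ?_)
        rw [← hk, hxw]
        simp [hφ, ratVec_zero]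
      rw [φadd, φsmul] at h1
      simp only [hφ, Subfield.coe_neg] at h1
      generalize pv x = p at *
      rw [polar_comm, polar_sub_right, polar_add_right, polar_smul_right, polar_smul_right,
        polar_sub_right, polar_smul_right, ← S.polar_coe, ← S.polar_coe, ← S.polar_coe,
        polar_comm _ v r, polar_comm _ w r, hr, hr, polar_comm _ v x]
      simp only [LinearMap.coe_mk, AddHom.coe_mk, hkw, Subfield.coe_zero, smul_eq_mul]
      linear_combination h1
    by_cases hex : ∃ b, S.form b = 0 ∧ polar S.form x b = 0 ∧ φ b ≠ 0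
    swap
    · push Not at hex
      refine ⟨0, fun v hv => ⟨0, ?_⟩⟩
      rw [zero_mul]
      exact perpK_induction S.form_nd ![x] (by rw [S.finrank₀]; omega) (p := fun v => φ v = 0)
        (fun z hz hz' => hex z hz' (by simpa using mem_perpK.1 hz 0))
        (fun a b ha hb => by rw [φadd, ha, hb, add_zero])
        (mem_perpK.2 fun i => by fin_cases i; simpa using hv)
    obtain ⟨b, hb, hxb, hφb⟩ := hex
    have pair : ∀ u v, S.form u = 0 → S.form v = 0 → polar S.form x u = 0 →
        polar S.form x v = 0 → polar S.form u v = 0 → φ u ≠ 0 → φ v / φ u ∈ F₀ := by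
      intro u v hu hv hxu hxv huv hne
      have := hcon z₁ z₂ x u v
      by_contra hirr
      exact this ⟨hz1, hz2, hz12, hx, hu, hv, hxu, hxv, huv, by rwa [hD], by rwa [hD, hD]⟩
    have sing : ∀ v, S.form v = 0 → polar S.form x v = 0 → φ v / φ b ∈ F₀ := by
      intro v hv hxv
      obtain ⟨s, t, hs, ht, hst, hp⟩ :=
        exists_hyp_perp S.form_nd ![x, b, v] (by rw [S.finrank₀]; omega)
      have p0 := hp 0; have p1 := hp 1; have p2 := hp 2
      simp at p0 p1 p2
      have via : ∀ d, S.form d = 0 → polar S.form x d = 0 → polar S.form b d = 0 →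
          polar S.form d v = 0 → φ d ≠ 0 → φ v / φ b ∈ F₀ := fun d h1 h2 h3 h4 h5 => by
        rw [show φ v / φ b = φ v / φ d * (φ d / φ b) by field_simp]
        exact mul_mem (pair d v h1 hv h2 hxv h4 h5) (pair b d hb h1 hxb h2 h3 hφb)
      by_cases hs0 : φ s = 0
      swap
      · exact via s hs p0.1 p1.1 (by rw [polar_comm, p2.1]) hs0
      by_cases ht0 : φ t = 0
      swap
      · exact via t ht p0.2 p1.2 (by rw [polar_comm, p2.2]) ht0
      have := pair (b + s) (v + (-polar S.form b v) • t) ?_ ?_ ?_ ?_ ?_ ?_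
      · rwa [φadd, φadd, φsmul, hs0, ht0, mul_zero, add_zero, add_zero] at this
      · rw [QuadraticMap.map_add ⇑S.form, hb, hs, p1.1]; simp
      · rw [QuadraticMap.map_add ⇑S.form, QuadraticMap.map_smul, hv, ht, polar_smul_right, p2.2]; simp
      · rw [polar_add_right, hxb, p0.1, add_zero]
      · rw [polar_add_right, polar_smul_right, hxv, p0.2]; simp
      · rw [polar_add_left, polar_add_right, polar_add_right, polar_smul_right, polar_smul_right,
          p1.2, hst, polar_comm _ s v, p2.1]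
        simp
      · rwa [φadd, hs0, add_zero]
    refine ⟨φ b, fun v hv => ?_⟩
    exact perpK_induction S.form_nd ![x] (by rw [S.finrank₀]; omega)
      (p := fun v => ∃ k : F₀, φ v = φ b * k)
      (fun z hz hz' => ⟨⟨_, sing z hz' (by simpa using mem_perpK.1 hz 0)⟩,
        by field_simp⟩)
      (fun a a' ⟨k, ha⟩ ⟨k', ha'⟩ => ⟨k + k', by rw [φadd, ha, ha', Subfield.coe_add, mul_add]⟩)
      (mem_perpK.2 fun i => by fin_cases i; simpa using hv)
  -- the exceptional subspace
  obtain ⟨N, hN, hN0, hNpt⟩ : ∃ N : Submodule F₀ (ι → F₀), N ≠ ⊤ ∧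
      (∀ x, α₁ x = 0 → α₂ x = 0 → x ∈ N) ∧
      ∀ x, x ∉ N → ∀ (π : ι → F₀) (c : F), pv x ≠ c • ratVec P π := by
    have hnz : ∀ x, ¬(α₁ x = 0 ∧ α₂ x = 0) → pv x ≠ 0 := fun x hx e => hx (by
      have := hwind (-α₂ x) (α₁ x) (by rw [← e]; simp only [pv]; module)
      exact ⟨this.2, neg_eq_zero.1 this.1⟩)
    by_cases hpt : ∃ (π : ι → F₀) (u v : F), π ≠ 0 ∧ ratVec P π = u • w₁ + v • w₂
    · obtain ⟨π, u, v, hπ, eπ⟩ := hpt
      refine ⟨LinearMap.ker (polarBilin S.form π), fun e => hπ (S.form_nd π fun y => ?_),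
        fun x h1 h2 => ?_, fun x hx π' c e => hx ?_⟩
      · have : y ∈ LinearMap.ker (polarBilin S.form π) := by rw [e]; trivial
        simpa using this
      · rw [LinearMap.mem_ker, polarBilin_apply_apply]
        refine Subtype.ext ?_
        rw [S.polar_coe, polar_comm, eπ, polar_add_right, polar_smul_right, polar_smul_right]
        simp only [α₁, α₂] at h1 h2
        simp [h1, h2]
      · rw [LinearMap.mem_ker, polarBilin_apply_apply]
        refine Subtype.ext ?_
        rw [S.polar_coe, polar_comm]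
        by_cases h0 : α₁ x = 0 ∧ α₂ x = 0
        · rw [eπ, polar_add_right, polar_smul_right, polar_smul_right]
          simp only [α₁, α₂] at h0
          simp [h0.1, h0.2]
        have hp0 := hnz x h0
        have hc : c ≠ 0 := fun z => hp0 (by rw [e, z, zero_smul])
        have hπ'0 : π' ≠ 0 := fun z => hp0 (by rw [e, z, ratVec_zero, smul_zero])
        have hdep : ∃ k : F₀, π = k • π' := by
          by_contra hk
          push Not at hk
          refine hW (S.ratPlane_of_points hπ'0 hk (p₀ := -α₂ x / c) (q₀ := α₁ x / c) ?_ eπ)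
          rw [show ratVec P π' = c⁻¹ • pv x by rw [e, smul_smul, inv_mul_cancel₀ hc, one_smul]]
          simp only [pv]
          module
        obtain ⟨k, rfl⟩ := hdep
        have hperp : polar Q (ratVec P x) (pv x) = 0 := by
          simp only [pv, polar_sub_right, polar_smul_right, smul_eq_mul, α₁, α₂]; ring
        rw [e, polar_smul_right, smul_eq_mul] at hperp
        rw [ratVec_smul, polar_smul_right, (mul_eq_zero.1 hperp).resolve_left hc, smul_zero]
        rfl
    · push Not at hpt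
      let L : Submodule F₀ (ι → F₀) :=
        { carrier := {x | α₁ x = 0 ∧ α₂ x = 0}
          add_mem' := fun {a b} ha hb => by
            simp only [Set.mem_setOf_eq, α₁, α₂, ratVec_add, polar_add_left] at ha hb ⊢
            simp [ha.1, ha.2, hb.1, hb.2]
          zero_mem' := by simp [α₁, α₂, ratVec_zero, polar_zero_left]
          smul_mem' := fun k a ha => by
            simp only [Set.mem_setOf_eq, α₁, α₂, ratVec_smul, polar_smul_left] at ha ⊢
            simp [ha.1, ha.2] }
      refine ⟨L, fun e => ?_, fun x h1 h2 => ⟨h1, h2⟩, fun x hx π c e => ?_⟩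
      · have hw0 : w₁ ≠ 0 := fun z => one_ne_zero (hwind 1 0 (by rw [z]; simp)).1
        obtain ⟨y, hy⟩ := S.exists_ne hw0
        have : y ∈ L := by rw [e]; trivial
        exact hy (by rw [polar_comm]; exact this.1)
      · have hp0 := hnz x hx
        have hc : c ≠ 0 := fun z => hp0 (by rw [e, z, zero_smul])
        have hπ0 : π ≠ 0 := fun z => hp0 (by rw [e, z, ratVec_zero, smul_zero])
        refine hpt π (-α₂ x / c) (α₁ x / c) hπ0 ?_
        rw [show ratVec P π = c⁻¹ • pv x by rw [e, smul_smul, inv_mul_cancel₀ hc, one_smul]]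
        simp only [pv]
        module
  -- general points lie in one proper subspace
  have hgen : ∀ x, S.form x = 0 → x ∉ N → ∃ (r : ι → F₀),
      (∀ v, polar S.form x v = 0 → polar S.form r v = 0 → polar Q (ratVec P v) (pv x) = 0) ∧
      (∀ v, polar Q (ratVec P v) (pv x) = 0 → polar S.form x v = 0) := by
    intro x hx hxN
    have hx0 : x ≠ 0 := fun e => hxN (e ▸ N.zero_mem)
    obtain ⟨r, c, e, he⟩ := hform x hx hx0
    have hc : c ≠ 0 := fun z => hNpt x hxN x e (by rw [he, z, zero_smul, zero_add])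
    have hec : e / c ∉ F₀ := fun hm => hNpt x hxN (r + (⟨_, hm⟩ : F₀) • x) c (by
      rw [he, ratVec_add, ratVec_smul, smul_add, smul_smul, mul_div_cancel₀ _ hc])
    refine ⟨r, fun v h1 h2 => ?_, fun v hv => ?_⟩
    · rw [he, polar_comm, polar_add_left, polar_smul_left, polar_smul_left, S.orth h1, S.orth h2]
      simp
    · rw [he, polar_comm, polar_add_left, polar_smul_left, polar_smul_left, ← S.polar_coe,
        ← S.polar_coe, smul_eq_mul, smul_eq_mul] at hv
      by_contra hne
      have hne' : ((polar S.form x v : F₀) : F) ≠ 0 := fun z => hne (Subtype.ext z)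
      refine hec ?_
      rw [show e / c = -((polar S.form r v : F₀) : F) / (polar S.form x v : F₀) by
        field_simp; linear_combination hv]
      exact div_mem (neg_mem (SetLike.coe_mem _)) (SetLike.coe_mem _)
  obtain ⟨x₀, hx₀, hx₀N, -⟩ :=
    exists_sing_notMem₂ S.form_nd (by rw [S.finrank₀]; omega) hN hN
  obtain ⟨y₀, hy₀, hy₀N, hspan⟩ : ∃ y, S.form y = 0 ∧ y ∉ N ∧ ∀ x, S.form x = 0 → x ∉ N →
      ∃ a b : F, pv x = a • pv x₀ + b • pv y := by
    by_cases hdet : ∃ y, S.form y = 0 ∧ y ∉ N ∧ α₁ x₀ * α₂ y - α₂ x₀ * α₁ y ≠ 0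
    · obtain ⟨y, hy, hyN, hd⟩ := hdet
      refine ⟨y, hy, hyN, fun x _ _ => ⟨(α₁ x * α₂ y - α₂ x * α₁ y) /
        (α₁ x₀ * α₂ y - α₂ x₀ * α₁ y), (α₁ x₀ * α₂ x - α₂ x₀ * α₁ x) /
        (α₁ x₀ * α₂ y - α₂ x₀ * α₁ y), ?_⟩⟩
      have hi := mul_inv_cancel₀ hd
      simp only [pv, div_eq_mul_inv]
      match_scalars <;> first | linear_combination α₁ x * hi | linear_combination -(α₁ x) * hi |
        linear_combination α₂ x * hi | linear_combination -(α₂ x) * hi
    · push Not at hdet
      refine ⟨x₀, hx₀, hx₀N, fun x hx hxN => ?_⟩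
      have hd := hdet x hx hxN
      by_cases h1 : α₁ x₀ = 0
      · have h2 : α₂ x₀ ≠ 0 := fun z => hx₀N (hN0 x₀ h1 z)
        refine ⟨α₂ x / α₂ x₀, 0, ?_⟩
        simp only [pv]
        match_scalars <;> field_simp <;> first | (ring; done) | linear_combination hd | linear_combination -hd
      · refine ⟨α₁ x / α₁ x₀, 0, ?_⟩
        simp only [pv]
        match_scalars <;> field_simp <;> first | (ring; done) | linear_combination hd | linear_combination -hd
  obtain ⟨r, hr, -⟩ := hgen x₀ hx₀ hx₀N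
  obtain ⟨r', hr', -⟩ := hgen y₀ hy₀ hy₀N
  have hU := finrank_perpK (Q := S.form) ![x₀, r, y₀, r']
  rw [S.finrank₀] at hU
  obtain ⟨u, hu, hu0⟩ := (perpK S.form ![x₀, r, y₀, r']).exists_mem_ne_zero_of_ne_bot
    (fun e => by rw [e, finrank_bot] at hU; omega)
  rw [mem_perpK] at hu
  have u0 := hu 0; have u1 := hu 1; have u2 := hu 2; have u3 := hu 3
  simp at u0 u1 u2 u3
  obtain ⟨x, hx, hxu, hxN⟩ := exists_sing_notMem₂ S.form_nd (by rw [S.finrank₀]; omega)
    (N₁ := LinearMap.ker (polarBilin S.form u))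
    (fun e => hu0 (S.form_nd u fun y => by
      have : y ∈ LinearMap.ker (polarBilin S.form u) := by rw [e]; trivial
      simpa using this)) hN
  obtain ⟨a, b, hab⟩ := hspan x hx hxN
  obtain ⟨-, -, hrx⟩ := hgen x hx hxN
  refine hxu ?_
  rw [LinearMap.mem_ker, polarBilin_apply_apply, polar_comm]
  refine hrx u ?_
  rw [hab, polar_add_right, polar_smul_right, polar_smul_right, hr u u0 u1, hr' u u2 u3]
  simp

end QRat

end Cfsg.Agent.Lib.Forms
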