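import Cfsg.Agent.Lib.Forms.OrthSubfieldConfig

/-!
The subfield group is maximal in Ω.
-/

set_option autoImplicit false

namespace Cfsg.Agent.Lib.Forms

open Matrix QuadraticMap Cfsg.Agent.Lib.Classical.Quad Cfsg.Agent.Lib.Classical.QuadOmega

variable {ι : Type} [Fintype ι] [DecidableEq ι] {F : Type*} [Field F] [Finite F]
  {F₀ : Subfield F} {P : GL ι F} {Q : QuadraticForm F (ι → F)}

omit [Finite F] in
lemma exists_sq_notMem {F₀ : Subfield F} [Finite F₀] {m : F} (hm : m ∉ F₀) :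
    ∃ μ : F, μ ≠ 0 ∧ μ * μ ∉ F₀ := by
  by_cases hmm : m * m ∈ F₀
  swap
  · exact ⟨m, fun e => hm (e ▸ F₀.zero_mem), hmm⟩
  by_cases h2 : (2 : F) = 0
  · exfalso
    have hch : ringChar F₀ = 2 := by
      by_contra hne
      exact Ring.two_ne_zero hne (Subtype.ext h2)
    obtain ⟨s, hs⟩ := FiniteField.isSquare_of_char_two hch ⟨m * m, hmm⟩
    have e : m * m = (s : F) * s := congrArg Subtype.val hs
    have : (m - s) ^ 2 = 0 := by linear_combination e + ((s : F) * s - m * s) * h2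
    exact hm (sub_eq_zero.1 (eq_zero_of_pow_eq_zero this) ▸ s.2)
  · refine ⟨m + 1, fun e => hm ?_, fun h => hm ?_⟩
    · rw [show m = -1 by linear_combination e]; exact neg_mem F₀.one_mem
    · rw [show m = ((m + 1) * (m + 1) - m * m - 1) / 2 by field_simp; ring]
      exact div_mem (sub_mem (sub_mem h hmm) F₀.one_mem)
        (by rw [← one_add_one_eq_two]; exact add_mem F₀.one_mem F₀.one_mem)

/-- Long root elements on three pairwise orthogonal singular vectors multiply. -/
lemma sg_shift {Z₁ Z₂ R : ι → F} (LZ : LongPair Q Z₁ Z₂) (hR : Q R = 0)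
    (hRZ₁ : polar Q R Z₁ = 0) (hRZ₂ : polar Q R Z₂ = 0) (t d₁ d₂ B : F) :
    sg Q (t • Z₁ + d₁ • (R - B • Z₁)) (t • Z₂ + d₂ • (R - B • Z₁)) =
      sg Q Z₁ ((-(t * d₁) * B) • Z₂) * sg Q (t • Z₁ + d₁ • R) (t • Z₂ + d₂ • R) := by
  have h11 : polar Q Z₁ Z₁ = 0 := polar_self_sing LZ.x0
  have h22 : polar Q Z₂ Z₂ = 0 := polar_self_sing LZ.u0
  have hRR : polar Q R R = 0 := polar_self_sing hR
  have h12 := LZ.xu
  have h21 := LZ.symm.xu
  have h1R : polar Q Z₁ R = 0 := by rw [polar_comm, hRZ₁]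
  have h2R : polar Q Z₂ R = 0 := by rw [polar_comm, hRZ₂]
  have L1 : LongPair Q (t • Z₁ + d₁ • (R - B • Z₁)) (t • Z₂ + d₂ • (R - B • Z₁)) := by
    refine ⟨?_, ?_, ?_⟩ <;>
    simp [sub_eq_add_neg, ← neg_smul, QuadraticMap.map_add ⇑Q, QuadraticMap.map_smul, LZ.x0, LZ.u0,
      hR, polar_add_left, polar_add_right, polar_smul_left, polar_smul_right, h11, h22, hRR, h12,
      h21, h1R, h2R, hRZ₁, hRZ₂]
  have L2 : LongPair Q (t • Z₁ + d₁ • R) (t • Z₂ + d₂ • R) := by
    refine ⟨?_, ?_, ?_⟩ <;>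
    simp [QuadraticMap.map_add ⇑Q, QuadraticMap.map_smul, LZ.x0, LZ.u0,
      hR, polar_add_left, polar_add_right, polar_smul_left, polar_smul_right, h11, h22, hRR, h12,
      h21, h1R, h2R, hRZ₁, hRZ₂]
  refine gl_ext fun v => ?_
  rw [mul_mulVec', L1.mulVec, L2.mulVec, (LZ.smul_right _).mulVec]
  simp only [sub_eq_add_neg, ← neg_smul, polar_add_left, polar_add_right, polar_smul_left,
    polar_smul_right, smul_eq_mul, h11, h22, h12, h21, hRR, h1R, h2R, hRZ₁, hRZ₂]
  match_scalars <;> ring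

namespace QRat

variable (S : QRat Q F₀ P) {M : Subgroup (GL ι F)}
  (hrat : ∀ x u : ι → F₀, S.form x = 0 → polar S.form x u = 0 →
    sg Q (ratVec P x) (ratVec P u) ∈ M) (hM : M ≤ Cfsg.Geo.omegaGL ⇑Q)
include S hrat hM

/-- A moved pair gives multiples on the pair. -/
lemma param_mem {z₁ z₂ : ι → F₀} (h1 : S.form z₁ = 0) (h2 : S.form z₂ = 0)
    (h12 : polar S.form z₁ z₂ = 0) {R : ι → F} (hR : Q R = 0)
    (hR1 : polar Q R (ratVec P z₁) = 0) (hR2 : polar Q R (ratVec P z₂) = 0) {c₁ c₂ t : F}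
    (hk : ∃ k ∈ M, (k : Matrix ι ι F) *ᵥ ratVec P z₁ = t • ratVec P z₁ + ((t - 1) * c₁) • R ∧
      (k : Matrix ι ι F) *ᵥ ratVec P z₂ = t • ratVec P z₂ + ((t - 1) * c₂) • R)
    {q : ι → F₀} (hq1 : polar S.form z₁ q = 0) (hq2 : polar S.form z₂ q = 0) :
    sg Q (ratVec P z₁) ((-(t * ((t - 1) * c₁)) * polar Q R (ratVec P q)) • ratVec P z₂) ∈ M := by
  obtain ⟨k, hk, k1, k2⟩ := hk
  have L := S.long h1 h2 h12
  have hki := mem_isometryGroup_of_omega (hM hk)
  have hA : sg Q (t • ratVec P z₁ + ((t - 1) * c₁) • R) (t • ratVec P z₂ + ((t - 1) * c₂) • R) ∈ M := by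
    have := mul_mem (mul_mem hk (hrat z₁ z₂ h1 h12)) (inv_mem hk)
    rwa [sg_conj hki L.x0 L.xu, k1, k2] at this
  set h := sg Q (ratVec P z₁) (ratVec P q) with hh
  have hhM : h ∈ M := hrat z₁ q h1 hq1
  have hhi : ∀ v, Q ((h : Matrix ι ι F) *ᵥ v) = Q v := fun v => sg_isometry v
  have e1 : (h : Matrix ι ι F) *ᵥ ratVec P z₁ = ratVec P z₁ := by
    rw [hh, sg_mulVec (S.sing h1) (S.orth hq1), polar_self_sing (S.sing h1), S.orth hq1]
    simp
  have e2 : (h : Matrix ι ι F) *ᵥ ratVec P z₂ = ratVec P z₂ := by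
    rw [hh, sg_mulVec (S.sing h1) (S.orth hq1), L.symm.xu, S.orth hq2]
    simp
  have eR : (h : Matrix ι ι F) *ᵥ R = R - polar Q R (ratVec P q) • ratVec P z₁ := by
    rw [hh, sg_mulVec (S.sing h1) (S.orth hq1), hR1]
    simp
  have hLA : Q (t • ratVec P z₁ + ((t - 1) * c₁) • R) = 0 := by rw [← k1, hki, L.x0]
  have hLA' : polar Q (t • ratVec P z₁ + ((t - 1) * c₁) • R)
      (t • ratVec P z₂ + ((t - 1) * c₂) • R) = 0 := by
    rw [← k1, ← k2, polar_of_isometry hki, L.xu]
  have := mul_mem (mul_mem hhM hA) (inv_mem hhM)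
  rw [sg_conj hhi hLA hLA', mulVec_add, mulVec_add, mulVec_smul, mulVec_smul, mulVec_smul,
    mulVec_smul, e1, e2, eR, sg_shift L hR hR1 hR2] at this
  have h' := mul_mem this (inv_mem hA)
  rwa [mul_inv_cancel_right] at h'

/-- Scaling modulo a suitable vector gives an irrational multiple. -/
lemma exists_irrational {z₁ z₂ : ι → F₀} (h1 : S.form z₁ = 0) (h2 : S.form z₂ = 0)
    (h12 : polar S.form z₁ z₂ = 0) (hz1 : z₁ ≠ 0) (hz2 : ∀ c : F₀, z₂ ≠ c • z₁) {r : ℕ}
    (hr : r.Prime) (hcard : Nat.card F = Nat.card F₀ ^ r) {R : ι → F} (hR : Q R = 0)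
    (hR1 : polar Q R (ratVec P z₁) = 0) (hR2 : polar Q R (ratVec P z₂) = 0)
    (hne : ∃ q, polar S.form z₁ q = 0 ∧ polar S.form z₂ q = 0 ∧ polar Q R (ratVec P q) ≠ 0)
    (hgood : Nat.card F = 4 → ∃ q q', polar S.form z₁ q = 0 ∧ polar S.form z₂ q = 0 ∧
      polar S.form z₁ q' = 0 ∧ polar S.form z₂ q' = 0 ∧ polar Q R (ratVec P q) ≠ 0 ∧
      polar Q R (ratVec P q') / polar Q R (ratVec P q) ∉ F₀)
    (c : Fin 2 → F)
    (hk : ∀ t : F, t ≠ 0 → ∃ k ∈ M,
      (k : Matrix ι ι F) *ᵥ ratVec P z₁ = t • ratVec P z₁ + ((t - 1) * c 0) • R ∧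
      (k : Matrix ι ι F) *ᵥ ratVec P z₂ = t • ratVec P z₂ + ((t - 1) * c 1) • R) :
    ∃ y₁ y₂ : ι → F₀, S.form y₁ = 0 ∧ S.form y₂ = 0 ∧ polar S.form y₁ y₂ = 0 ∧ y₁ ≠ 0 ∧
      (∀ k : F₀, y₂ ≠ k • y₁) ∧ ∃ lam : F, lam ∉ F₀ ∧
        ∀ k : F₀, sg Q (ratVec P y₁) (((k : F) * lam) • ratVec P y₂) ∈ M := by
  classical
  obtain ⟨m, hm⟩ : ∃ m : F, m ∉ F₀ := by
    by_contra h; push Not at h
    have : F₀ = ⊤ := eq_top_iff.2 fun z _ => h z
    have hc : Nat.card F₀ = Nat.card F := by rw [this]; exact Nat.card_congr Subfield.topEquiv.toEquiv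
    rw [hc] at hcard
    exact hr.ne_one (Nat.pow_right_injective (a := Nat.card F) Finite.one_lt_card
      (show _ ^ 1 = _ ^ r by rwa [pow_one])).symm
  have main : ∀ {u v : ι → F₀}, S.form u = 0 → S.form v = 0 → polar S.form u v = 0 →
      polar Q R (ratVec P u) = 0 → polar Q R (ratVec P v) = 0 →
      (∀ q, polar S.form z₁ q = 0 → polar S.form z₂ q = 0 →
        polar S.form u q = 0 ∧ polar S.form v q = 0) →
      ∀ e₁ e₂ : F, e₁ ≠ 0 → (∀ t : F, t ≠ 0 → ∃ k ∈ M,
        (k : Matrix ι ι F) *ᵥ ratVec P u = t • ratVec P u + ((t - 1) * e₁) • R ∧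
        (k : Matrix ι ι F) *ᵥ ratVec P v = t • ratVec P v + ((t - 1) * e₂) • R) →
      ∃ lam : F, lam ∉ F₀ ∧ ∀ k : F₀, sg Q (ratVec P u) (((k : F) * lam) • ratVec P v) ∈ M := by
    intro u v hu hv huv hRu hRv htr e₁ e₂ he₁ hk'
    by_contra hall
    push Not at hall
    have hin : ∀ t : F, t ≠ 0 → ∀ q, polar S.form z₁ q = 0 → polar S.form z₂ q = 0 →
        -(t * ((t - 1) * e₁)) * polar Q R (ratVec P q) ∈ F₀ := by
      intro t ht q hq1 hq2
      by_contra hlam
      obtain ⟨k, hk⟩ := hall _ hlam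
      refine hk ?_
      obtain ⟨a, b⟩ := htr (k • q) (by rw [polar_smul_right, hq1, smul_zero])
        (by rw [polar_smul_right, hq2, smul_zero])
      have := S.param_mem hrat hM hu hv huv hR hRu hRv (hk' t ht) (q := k • q) a b
      rw [ratVec_smul, polar_smul_right, smul_eq_mul] at this
      rwa [mul_left_comm]
    obtain ⟨q₀, hq01, hq02, hB⟩ := hne
    by_cases h4 : Nat.card F = 4
    · obtain ⟨q, q', a1, a2, b1, b2, hq, hirr⟩ := hgood h4
      have ht0 : m ≠ 0 := fun e => hm (e ▸ F₀.zero_mem)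
      have ht1 : m - 1 ≠ 0 := fun e => hm (sub_eq_zero.1 e ▸ F₀.one_mem)
      refine hirr ?_
      have := div_mem (hin m ht0 q' b1 b2) (hin m ht0 q a1 a2)
      rwa [mul_div_mul_left _ _ (neg_ne_zero.2 (mul_ne_zero ht0 (mul_ne_zero ht1 he₁)))] at this
    · haveI : Fintype F := Fintype.ofFinite F
      haveI : Fintype F₀ := Fintype.ofFinite F₀
      let f : F → F₀ := fun t => if ht : t = 0 then 0 else ⟨_, hin t ht q₀ hq01 hq02⟩
      have hf : ∀ t, ((f t : F₀) : F) = -(t * ((t - 1) * e₁)) * polar Q R (ratVec P q₀) := fun t => by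
        by_cases ht : t = 0
        · simp [f, ht]
        · simp [f, ht]
      have hfib : ∀ a ∈ Finset.univ.image f, (Finset.univ.filter fun t => f t = a).card ≤ 2 := by
        intro a ha
        obtain ⟨t₀, -, rfl⟩ := Finset.mem_image.1 ha
        refine (Finset.card_le_card (t := {t₀, 1 - t₀}) fun t ht => ?_).trans Finset.card_le_two
        have e := congrArg Subtype.val (Finset.mem_filter.1 ht).2
        rw [hf, hf] at e
        have e' : (t - t₀) * (t + t₀ - 1) = 0 := by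
          refine (mul_eq_zero.1 (?_ : (e₁ * polar Q R (ratVec P q₀)) * _ = 0)).resolve_left
            (mul_ne_zero he₁ hB)
          linear_combination -e
        rcases mul_eq_zero.1 e' with h | h
        · simp [sub_eq_zero.1 h]
        · simp [show t = 1 - t₀ by linear_combination h]
      have hle : Nat.card F ≤ 2 * Nat.card F₀ := by
        rw [Nat.card_eq_fintype_card, Nat.card_eq_fintype_card]
        refine le_trans (Finset.card_le_mul_card_image _ 2 hfib) ?_
        exact Nat.mul_le_mul_left _ (Finset.card_le_univ _)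
      have hq : 2 ≤ Nat.card F₀ := Finite.one_lt_card
      have hpow : Nat.card F₀ ^ 2 ≤ Nat.card F₀ ^ r := Nat.pow_le_pow_right (by omega) hr.two_le
      rw [← hcard, pow_two] at hpow
      have hq2 : Nat.card F₀ = 2 := by
        have := hpow.trans hle
        nlinarith
      rw [hq2] at hpow hle
      omega
  rcases ne_or_eq (c 0) 0 with h0 | h0
  · obtain ⟨lam, hlam, hl⟩ := main h1 h2 h12 hR1 hR2 (fun q a b => ⟨a, b⟩) (c 0) (c 1) h0 hk
    exact ⟨z₁, z₂, h1, h2, h12, hz1, hz2, lam, hlam, hl⟩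
  rcases ne_or_eq (c 1) 0 with h1' | h1'
  · have hz20 : z₂ ≠ 0 := fun e => hz2 0 (by rw [e, zero_smul])
    obtain ⟨lam, hlam, hl⟩ := main h2 h1 (by rw [polar_comm, h12]) hR2 hR1
      (fun q a b => ⟨b, a⟩) (c 1) (c 0) h1' fun t ht => by
        obtain ⟨k, hk', a, b⟩ := hk t ht
        exact ⟨k, hk', b, a⟩
    refine ⟨z₂, z₁, h2, h1, by rw [polar_comm, h12], hz20, fun k e => ?_, lam, hlam, hl⟩
    rcases eq_or_ne k 0 with rfl | hk0
    · exact hz1 (by rw [e, zero_smul])
    · exact hz2 k⁻¹ (by rw [e, smul_smul, inv_mul_cancel₀ hk0, one_smul])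
  · refine ⟨z₁, z₂, h1, h2, h12, hz1, hz2, m, hm, fun k => S.full_of_scaling hrat h1 h2 h12 hM
      (fun t ht => ?_) _⟩
    obtain ⟨k, hk', a, b⟩ := hk t ht
    exact ⟨k, hk', by simpa [h0] using a, by simpa [h1'] using b⟩

omit S hrat hM in
/-- The first coefficient of the moved triple. -/
noncomputable def kap (Q : QuadraticForm F (ι → F)) (P : GL ι F) (g : GL ι F)
    (z₁ z₂ x b b' : ι → F₀) : F := detP Q P g z₁ z₂ x b' / detP Q P g z₁ z₂ x b

omit S hrat hM in
/-- The second coefficient of the moved triple. -/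
noncomputable def muc (Q : QuadraticForm F (ι → F)) (P : GL ι F) (g : GL ι F)
    (z₁ z₂ x b b' : ι → F₀) : F :=
  (polar Q ((g : Matrix ι ι F) *ᵥ ratVec P b') (ratVec P z₁) *
      polar Q ((g : Matrix ι ι F) *ᵥ ratVec P b) (ratVec P z₂) -
    polar Q ((g : Matrix ι ι F) *ᵥ ratVec P b') (ratVec P z₂) *
      polar Q ((g : Matrix ι ι F) *ᵥ ratVec P b) (ratVec P z₁)) / detP Q P g z₁ z₂ x b

omit S hrat hM in
/-- The vector of the moved triple orthogonal to the rational pair. -/
noncomputable def cfgR (Q : QuadraticForm F (ι → F)) (P : GL ι F) (g : GL ι F)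
    (z₁ z₂ x b b' : ι → F₀) : ι → F :=
  (g : Matrix ι ι F) *ᵥ ratVec P b' - kap Q P g z₁ z₂ x b b' • (g : Matrix ι ι F) *ᵥ ratVec P b -
    muc Q P g z₁ z₂ x b b' • (g : Matrix ι ι F) *ᵥ ratVec P x

omit hrat hM in
lemma cfgR_facts {g : GL ι F} (hgi : ∀ v, Q ((g : Matrix ι ι F) *ᵥ v) = Q v)
    {z₁ z₂ x b b' : ι → F₀} (C : Cfg S g z₁ z₂ x b b') :
    z₁ ≠ 0 ∧ (∀ c : F₀, z₂ ≠ c • z₁) ∧ Q (cfgR Q P g z₁ z₂ x b b') = 0 ∧
      polar Q (cfgR Q P g z₁ z₂ x b b') (ratVec P z₁) = 0 ∧
      polar Q (cfgR Q P g z₁ z₂ x b b') (ratVec P z₂) = 0 ∧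
      ∃ q, polar S.form z₁ q = 0 ∧ polar S.form z₂ q = 0 ∧
        polar Q (cfgR Q P g z₁ z₂ x b b') (ratVec P q) ≠ 0 := by
  classical
  set Z₁ := ratVec P z₁
  set Z₂ := ratVec P z₂
  set A := (g : Matrix ι ι F) *ᵥ ratVec P x
  set B := (g : Matrix ι ι F) *ᵥ ratVec P b
  set B' := (g : Matrix ι ι F) *ᵥ ratVec P b'
  have hD : polar Q A Z₁ * polar Q B Z₂ - polar Q A Z₂ * polar Q B Z₁ ≠ 0 := C.D0
  have hz10 : z₁ ≠ 0 := fun e => C.D0 (by simp [detP, e, ratVec_zero, polar_zero_right])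
  have hz2 : ∀ c : F₀, z₂ ≠ c • z₁ := fun c e => C.D0 (by
    simp [detP, e, ratVec_smul, polar_smul_right]; ring)
  set κ := kap Q P g z₁ z₂ x b b' with hκ
  set μ := muc Q P g z₁ z₂ x b b' with hμ
  have hR : cfgR Q P g z₁ z₂ x b b' = B' - κ • B - μ • A := rfl
  have hκD : κ * (polar Q A Z₁ * polar Q B Z₂ - polar Q A Z₂ * polar Q B Z₁) =
      polar Q A Z₁ * polar Q B' Z₂ - polar Q A Z₂ * polar Q B' Z₁ := div_mul_cancel₀ _ hD
  have hμD : μ * (polar Q A Z₁ * polar Q B Z₂ - polar Q A Z₂ * polar Q B Z₁) =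
      polar Q B' Z₁ * polar Q B Z₂ - polar Q B' Z₂ * polar Q B Z₁ := div_mul_cancel₀ _ hD
  have hp := polar_of_isometry hgi
  have hAA : Q A = 0 := by rw [hgi, S.sing C.x0]
  have hBB : Q B = 0 := by rw [hgi, S.sing C.b0]
  have hBB' : Q B' = 0 := by rw [hgi, S.sing C.b'0]
  have hAB : polar Q A B = 0 := by rw [hp, S.orth C.xb]
  have hAB' : polar Q A B' = 0 := by rw [hp, S.orth C.xb']
  have hBB'' : polar Q B B' = 0 := by rw [hp, S.orth C.bb']
  have r1 : polar Q (cfgR Q P g z₁ z₂ x b b') Z₁ = 0 := by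
    rw [hR, polar_sub_left, polar_sub_left, polar_smul_left, polar_smul_left, smul_eq_mul,
      smul_eq_mul]
    refine (mul_eq_zero.1 (?_ : _ * (polar Q A Z₁ * polar Q B Z₂ - polar Q A Z₂ * polar Q B Z₁) = 0)
      ).resolve_right hD
    linear_combination -(polar Q B Z₁) * hκD - polar Q A Z₁ * hμD
  have r2 : polar Q (cfgR Q P g z₁ z₂ x b b') Z₂ = 0 := by
    rw [hR, polar_sub_left, polar_sub_left, polar_smul_left, polar_smul_left, smul_eq_mul,
      smul_eq_mul]
    refine (mul_eq_zero.1 (?_ : _ * (polar Q A Z₁ * polar Q B Z₂ - polar Q A Z₂ * polar Q B Z₁) = 0)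
      ).resolve_right hD
    linear_combination -(polar Q B Z₂) * hκD - polar Q A Z₂ * hμD
  have hQR : Q (cfgR Q P g z₁ z₂ x b b') = 0 := by
    rw [hR, show B' - κ • B - μ • A = B' + (-κ) • B + (-μ) • A by module]
    simp [QuadraticMap.map_add ⇑Q, QuadraticMap.map_smul, polar_add_left, polar_smul_left,
      polar_smul_right, polar_comm Q B' B, hBB'', polar_comm Q B' A, hAB', polar_comm Q B A, hAB,
      hAA, hBB, hBB']
  refine ⟨hz10, hz2, hQR, r1, r2, ?_⟩
  by_contra hcon
  push Not at hcon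
  obtain ⟨a, c, e⟩ := S.mem_span_pair hz10 hz2 hcon
  have ea : a * polar Q A Z₁ + c * polar Q A Z₂ = 0 := by
    have h' := congrArg (polar Q A) e
    rw [hR, polar_sub_right, polar_sub_right, polar_smul_right, polar_smul_right, hAB', hAB,
      polar_self_sing hAA, polar_add_right, polar_smul_right, polar_smul_right] at h'
    simp only [smul_eq_mul, mul_zero, sub_zero] at h'
    exact h'.symm
  have eb : a * polar Q B Z₁ + c * polar Q B Z₂ = 0 := by
    have h' := congrArg (polar Q B) e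
    rw [hR, polar_sub_right, polar_sub_right, polar_smul_right, polar_smul_right, hBB'',
      polar_self_sing hBB, polar_comm Q B A, hAB, polar_add_right, polar_smul_right,
      polar_smul_right] at h'
    simp only [smul_eq_mul, mul_zero, sub_zero] at h'
    exact h'.symm
  have ha : a = 0 := (mul_eq_zero.1 (?_ : a * (polar Q A Z₁ * polar Q B Z₂ -
    polar Q A Z₂ * polar Q B Z₁) = 0)).resolve_right hD
  have hc : c = 0 := (mul_eq_zero.1 (?_ : c * (polar Q A Z₁ * polar Q B Z₂ -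
    polar Q A Z₂ * polar Q B Z₁) = 0)).resolve_right hD
  rotate_left
  · linear_combination polar Q A Z₁ * eb - polar Q B Z₁ * ea
  · linear_combination polar Q B Z₂ * ea - polar Q A Z₂ * eb
  rw [ha, hc, zero_smul, zero_smul, add_zero, hR] at e
  -- the triple is rationally independent
  have e' : ratVec P b' - κ • ratVec P b - μ • ratVec P x = 0 := gl_mulVec_injective g (by
    simp only [mulVec_sub, mulVec_smul, mulVec_zero]; exact e)
  obtain ⟨v, hv1, hv2⟩ := S.good₀.exists_one_perp (x := x) (y := b) fun k ek => C.D0 (by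
    simp [detP, ek, ratVec_smul, mulVec_smul, polar_smul_left]; ring)
  have h' := congrArg (fun w => polar Q w (ratVec P v)) e'
  simp only [polar_sub_left, polar_smul_left, ← S.polar_coe, hv1, hv2, polar_zero_left,
    smul_eq_mul, Subfield.coe_zero, Subfield.coe_one, mul_zero, sub_zero, mul_one] at h'
  exact C.irr (by
    rw [show detP Q P g z₁ z₂ x b' / detP Q P g z₁ z₂ x b = (polar S.form b' v : F₀) from
      (sub_eq_zero.1 h').symm]
    exact SetLike.coe_mem _)

/-- The scaling elements of a configuration. -/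
lemma cfg_scaling {r : ℕ} (hr : r.Prime) (hcard : Nat.card F = Nat.card F₀ ^ r) {g : GL ι F}
    (hg : g ∈ M) {z₁ z₂ x b b' : ι → F₀} (C : Cfg S g z₁ z₂ x b b') :
    ∃ c : Fin 2 → F, ∀ t : F, t ≠ 0 → ∃ k ∈ M,
      (k : Matrix ι ι F) *ᵥ ratVec P z₁ =
          t • ratVec P z₁ + ((t - 1) * c 0) • cfgR Q P g z₁ z₂ x b b' ∧
        (k : Matrix ι ι F) *ᵥ ratVec P z₂ =
          t • ratVec P z₂ + ((t - 1) * c 1) • cfgR Q P g z₁ z₂ x b b' := by
  have hgi := mem_isometryGroup_of_omega (hM hg)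
  obtain ⟨-, -, hQR, hR1, hR2, -⟩ := S.cfgR_facts hgi C
  set R := cfgR Q P g z₁ z₂ x b b' with hRdef
  set Z₁ := ratVec P z₁ with hZ₁
  set Z₂ := ratVec P z₂ with hZ₂
  set A := (g : Matrix ι ι F) *ᵥ ratVec P x with hA
  set B := (g : Matrix ι ι F) *ᵥ ratVec P b with hB
  set B' := (g : Matrix ι ι F) *ᵥ ratVec P b' with hB'
  have hp := polar_of_isometry hgi
  have hAA : polar Q A A = 0 := polar_self_sing (by rw [hgi, S.sing C.x0])
  have hBB : polar Q B B = 0 := polar_self_sing (by rw [hgi, S.sing C.b0])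
  have hBB' : polar Q B' B' = 0 := polar_self_sing (by rw [hgi, S.sing C.b'0])
  have hAB : polar Q A B = 0 := by rw [hp, S.orth C.xb]
  have hAB' : polar Q A B' = 0 := by rw [hp, S.orth C.xb']
  have hBB'' : polar Q B B' = 0 := by rw [hp, S.orth C.bb']
  set κ := kap Q P g z₁ z₂ x b b' with hκ
  set μ := muc Q P g z₁ z₂ x b b' with hμ
  have hB'e : B' = κ • B + μ • A + R := by
    rw [hRdef]; simp only [cfgR, ← hκ, ← hμ, ← hA, ← hB, ← hB']; module
  have hD : polar Q A Z₁ * polar Q B Z₂ - polar Q A Z₂ * polar Q B Z₁ ≠ 0 := C.D0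
  have hRA : polar Q R A = 0 := by
    rw [show R = B' - κ • B - μ • A from rfl, polar_sub_left, polar_sub_left, polar_smul_left,
      polar_smul_left, polar_comm Q B' A, hAB', polar_comm Q B A, hAB, hAA]
    simp
  have hRB : polar Q R B = 0 := by
    rw [show R = B' - κ • B - μ • A from rfl, polar_sub_left, polar_sub_left, polar_smul_left,
      polar_smul_left, polar_comm Q B' B, hBB'', hBB, hAB]
    simp
  have hRR : polar Q R R = 0 := polar_self_sing hQR
  have h11 : polar Q Z₁ Z₁ = 0 := polar_self_sing (S.sing C.z₁0)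
  have h22 : polar Q Z₂ Z₂ = 0 := polar_self_sing (S.sing C.z₂0)
  have h12 : polar Q Z₁ Z₂ = 0 := S.orth C.zz
  have h21 : polar Q Z₂ Z₁ = 0 := by rw [polar_comm, h12]
  obtain ⟨c, hc⟩ := exists_scaling hr hcard (M := M) (J := Fin 2) R
    ![polar Q A Z₁ • B - polar Q B Z₁ • A, polar Q A Z₂ • B - polar Q B Z₂ • A] ![Z₁, Z₂]
    (κ := κ) (b := -(polar Q A Z₁ * polar Q B Z₂ - polar Q A Z₂ * polar Q B Z₁))
    (fun h => C.irr h) (neg_ne_zero.2 hD)
    (fun c₁ c₂ => by
      have hu : polar S.form x (c₁ • b + c₂ • b') = 0 := by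
        rw [polar_add_right, polar_smul_right, polar_smul_right, C.xb, C.xb']; simp
      have hm := mul_mem (mul_mem hg (hrat x _ C.x0 hu)) (inv_mem hg)
      have hQu : S.form (c₁ • b + c₂ • b') = 0 := by
        rw [QuadraticMap.map_add ⇑S.form, QuadraticMap.map_smul, QuadraticMap.map_smul,
          polar_smul_left, polar_smul_right, C.b0, C.b'0, C.bb']
        simp
      have L := (S.long C.x0 hQu hu).map hgi
      rw [sg_conj hgi (S.sing C.x0) (S.orth hu)] at hm
      have ev : (g : Matrix ι ι F) *ᵥ ratVec P (c₁ • b + c₂ • b') =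
          (c₁ : F) • B + (c₂ : F) • B' := by
        rw [ratVec_add, ratVec_smul, ratVec_smul, mulVec_add, mulVec_smul, mulVec_smul]
      rw [ev] at hm L
      refine ⟨_, hm, ?_, fun i => ⟨⟨0, ?_⟩, ![(c₂ : F) * polar Q A Z₁, (c₂ : F) * polar Q A Z₂] i, ?_⟩⟩
      · rw [L.mulVec, hB'e]
        simp [polar_add_right, polar_smul_right, hRA, hRB, hRR]
        rw [← hA, hRA]
        simp
      · rw [L.mulVec, ← hA]
        fin_cases i <;>
          simp [polar_sub_left, polar_smul_left, polar_add_right, polar_smul_right, hAA, hBB, hAB,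
            hAB', hBB'', polar_comm Q B A]
      · rw [L.mulVec, ← hA, hB'e]
        fin_cases i <;>
          simp [polar_add_right, polar_smul_right, polar_comm Q Z₁ A, polar_comm Q Z₁ B,
            polar_comm Q Z₁ R, polar_comm Q Z₂ A, polar_comm Q Z₂ B, polar_comm Q Z₂ R, hR1, hR2] <;>
          module)
    ⟨_, hrat z₁ z₂ C.z₁0 C.zz, by
      rw [(S.long C.z₁0 C.z₂0 C.zz).mulVec, ← hZ₁, ← hZ₂, hR1, hR2]; simp, fun i => by
      refine ⟨⟨0, ?_⟩, 0, ?_⟩ <;>
      · rw [(S.long C.z₁0 C.z₂0 C.zz).mulVec, ← hZ₁, ← hZ₂]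
        fin_cases i <;>
          simp [polar_sub_left, polar_smul_left, h11, h22, h12, h21, sub_eq_add_neg,
            polar_add_left] <;>
          match_scalars <;> ring⟩
  refine ⟨c, fun t ht => ?_⟩
  obtain ⟨k, hk, hk'⟩ := hc t ht
  exact ⟨k, hk, by simpa using hk' 0, by simpa using hk' 1⟩

omit hrat hM in
/-- Over the field with four elements one may take the moved vector irrational modulo the pair. -/
lemma exists_cfg_good {g : GL ι F} (hgi : ∀ v, Q ((g : Matrix ι ι F) *ᵥ v) = Q v)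
    (hgn : g ∉ Cfsg.Geo.subfieldSubgroup F₀ P) {r : ℕ} (hr : r.Prime)
    (hcard : Nat.card F = Nat.card F₀ ^ r) :
    ∃ z₁ z₂ x b b', Cfg S g z₁ z₂ x b b' ∧ (Nat.card F = 4 → ∃ q q',
      polar S.form z₁ q = 0 ∧ polar S.form z₂ q = 0 ∧
      polar S.form z₁ q' = 0 ∧ polar S.form z₂ q' = 0 ∧
      polar Q (cfgR Q P g z₁ z₂ x b b') (ratVec P q) ≠ 0 ∧
      polar Q (cfgR Q P g z₁ z₂ x b b') (ratVec P q') /
        polar Q (cfgR Q P g z₁ z₂ x b b') (ratVec P q) ∉ F₀) := by
  classical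
  obtain ⟨z₁, z₂, x, b, b', C⟩ := S.exists_cfg hgi hgn
  by_contra hcon
  push Not at hcon
  obtain ⟨h4, hR⟩ := hcon z₁ z₂ x b b' C
  have hn := S.dim
  have hq2 : Nat.card F₀ = 2 := by
    have hq : 2 ≤ Nat.card F₀ := Finite.one_lt_card
    have hpow : Nat.card F₀ ^ 2 ≤ Nat.card F₀ ^ r := Nat.pow_le_pow_right (by omega) hr.two_le
    rw [← hcard, h4] at hpow
    nlinarith
  have hbit : ∀ a : F, a ∈ F₀ → a = 0 ∨ a = 1 := fun a ha => by
    obtain ⟨u, v, huv, huniv⟩ := Nat.card_eq_two_iff.1 hq2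
    have hh : ∀ w : F₀, w = u ∨ w = v := fun w => by
      have : w ∈ ({u, v} : Set F₀) := by rw [huniv]; trivial
      simpa using this
    rcases hh ⟨a, ha⟩ with h1 | h1 <;> rcases hh 0 with h2 | h2 <;> rcases hh 1 with h3 | h3
    all_goals first
      | exact Or.inl (congrArg Subtype.val (h1.trans h2.symm))
      | exact Or.inr (congrArg Subtype.val (h1.trans h3.symm))
      | exact absurd (h2.trans h3.symm) zero_ne_one
  obtain ⟨hz10, hz2, hQR, hR1, hR2, q₀, hq01, hq02, hlam⟩ := S.cfgR_facts hgi C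
  set R := cfgR Q P g z₁ z₂ x b b' with hRdef
  set κ := kap Q P g z₁ z₂ x b b' with hκdef
  have hκ : κ ∉ F₀ := C.irr
  -- adjusted triples
  have shift : ∀ f : ι → F₀, S.form f = 0 → polar S.form x f = 0 → polar S.form b f = 0 →
      polar S.form b' f = 0 →
      polar Q ((g : Matrix ι ι F) *ᵥ ratVec P f) (ratVec P z₁) = 0 →
      polar Q ((g : Matrix ι ι F) *ᵥ ratVec P f) (ratVec P z₂) = 0 →
      ∀ e e' : F₀, Cfg S g z₁ z₂ x (b + e • f) (b' + e' • f) ∧
        cfgR Q P g z₁ z₂ x (b + e • f) (b' + e' • f) =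
          R + ((e' : F) - κ * (e : F)) • (g : Matrix ι ι F) *ᵥ ratVec P f := by
    intro f hf hxf hbf hb'f hg1 hg2 e e'
    have hdet : ∀ (u : ι → F₀) (k : F₀),
        detP Q P g z₁ z₂ x (u + k • f) = detP Q P g z₁ z₂ x u := fun u k => by
      simp [detP, ratVec_add, ratVec_smul, mulVec_add, mulVec_smul, polar_add_left, polar_smul_left,
        hg1, hg2]
    have hk : kap Q P g z₁ z₂ x (b + e • f) (b' + e' • f) = κ := by
      rw [hκdef]; simp only [kap, hdet]
    have hm : muc Q P g z₁ z₂ x (b + e • f) (b' + e' • f) = muc Q P g z₁ z₂ x b b' := by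
      simp only [muc, hdet]
      simp [ratVec_add, ratVec_smul, mulVec_add, mulVec_smul, polar_add_left, polar_smul_left,
        hg1, hg2]
    refine ⟨⟨C.z₁0, C.z₂0, C.zz, C.x0, ?_, ?_, ?_, ?_, ?_, by rw [hdet]; exact C.D0,
      by rw [hdet, hdet]; exact C.irr⟩, ?_⟩
    · rw [QuadraticMap.map_add ⇑S.form, QuadraticMap.map_smul, polar_smul_right, C.b0, hf, hbf]; simp
    · rw [QuadraticMap.map_add ⇑S.form, QuadraticMap.map_smul, polar_smul_right, C.b'0, hf, hb'f]; simp
    · rw [polar_add_right, polar_smul_right, C.xb, hxf]; simp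
    · rw [polar_add_right, polar_smul_right, C.xb', hxf]; simp
    · rw [polar_add_left, polar_add_right, polar_add_right, polar_smul_left, polar_smul_left,
        polar_smul_right, polar_smul_right, C.bb', polar_self_sing hf, hbf, polar_comm _ f b', hb'f]
      simp
    · rw [hRdef]
      simp only [cfgR, hk, hm, ← hκdef]
      simp [ratVec_add, ratVec_smul, mulVec_add, mulVec_smul]
      module
  -- the image of such a vector is in a three-dimensional space
  have hsub : ∀ f : ι → F₀, S.form f = 0 → polar S.form x f = 0 → polar S.form b f = 0 →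
      polar S.form b' f = 0 →
      polar Q ((g : Matrix ι ι F) *ᵥ ratVec P f) (ratVec P z₁) = 0 →
      polar Q ((g : Matrix ι ι F) *ᵥ ratVec P f) (ratVec P z₂) = 0 →
      ∃ a c d : F, (g : Matrix ι ι F) *ᵥ ratVec P f = a • ratVec P z₁ + c • ratVec P z₂ + d • R := by
    intro f hf hxf hbf hb'f hg1 hg2
    set G := (g : Matrix ι ι F) *ᵥ ratVec P f with hG
    set lam := polar Q R (ratVec P q₀) with hlamdef
    set mu := polar Q G (ratVec P q₀) with hmudef
    obtain ⟨a, c, e⟩ := S.mem_span_pair hz10 hz2 (x := G - (mu / lam) • R) fun q hq1 hq2 => by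
      rw [polar_sub_left, polar_smul_left, smul_eq_mul]
      set γ := polar Q G (ratVec P q) - mu / lam * polar Q R (ratVec P q) with hγ
      by_contra hγ0
      have hsol : ∀ cc : F, (∃ e e' : F₀, cc = (e' : F) - κ * (e : F)) → cc ≠ 0 →
          lam + cc * mu ≠ 0 → cc * (γ - mu) = lam := by
        rintro cc ⟨ee, ee', rfl⟩ hcc hne
        obtain ⟨C', hR'⟩ := shift f hf hxf hbf hb'f hg1 hg2 ee ee'
        have h' := (hcon _ _ _ _ _ C').2 q₀ q hq01 hq02 hq1 hq2
        rw [hR', ← hG, polar_add_left, polar_add_left, polar_smul_left, polar_smul_left, smul_eq_mul,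
          smul_eq_mul] at h'
        have h'' := h' hne
        rw [← hlamdef, ← hmudef] at h''
        have hr0 := hR q₀ q hq01 hq02 hq1 hq2 hlam
        rw [← hlamdef] at hr0
        have hmem : ((ee' : F) - κ * (ee : F)) * γ / (lam + ((ee' : F) - κ * (ee : F)) * mu) ∈ F₀ := by
          have := sub_mem h'' hr0
          convert this using 1
          rw [hγ]
          field_simp
          ring
        rcases hbit _ hmem with h0 | h0
        · rcases (div_eq_zero_iff.1 h0) with h1 | h1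
          · rcases mul_eq_zero.1 h1 with h2 | h2
            · exact absurd h2 hcc
            · exact absurd h2 hγ0
          · exact absurd h1 hne
        · rw [div_eq_one_iff_eq hne] at h0
          linear_combination h0
      have k1 : ∃ e e' : F₀, (1 : F) = (e' : F) - κ * (e : F) := ⟨0, 1, by simp⟩
      have k2 : ∃ e e' : F₀, -κ = (e' : F) - κ * (e : F) := ⟨1, 0, by simp⟩
      have k3 : ∃ e e' : F₀, 1 - κ = (e' : F) - κ * (e : F) := ⟨1, 1, by simp⟩
      have d12 : (1 : F) ≠ -κ := fun e => hκ (by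
        rw [show κ = -1 by linear_combination e]; exact neg_mem F₀.one_mem)
      have d13 : (1 : F) ≠ 1 - κ := fun e => hκ (by
        rw [show κ = 0 by linear_combination e]; exact F₀.zero_mem)
      have d23 : -κ ≠ 1 - κ := fun e => zero_ne_one (by linear_combination e : (0 : F) = 1)
      have two : ∀ u v : F, u ≠ v → u ≠ 0 → v ≠ 0 → (∃ e e' : F₀, u = (e' : F) - κ * (e : F)) →
          (∃ e e' : F₀, v = (e' : F) - κ * (e : F)) → lam + u * mu = 0 ∨ lam + v * mu = 0 := by
        intro u v huv hu0 hv0 hu hv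
        by_contra h
        push Not at h
        have e1 := hsol u hu hu0 h.1
        have e2 := hsol v hv hv0 h.2
        have : (u - v) * (γ - mu) = 0 := by linear_combination e1 - e2
        rw [(mul_eq_zero.1 this).resolve_left (sub_ne_zero.2 huv), mul_zero] at e1
        exact hlam e1.symm
      have one' : ∀ u v : F, u ≠ v → lam + u * mu = 0 → lam + v * mu = 0 → False := by
        intro u v huv hu hv
        have : (u - v) * mu = 0 := by linear_combination hu - hv
        rw [(mul_eq_zero.1 this).resolve_left (sub_ne_zero.2 huv), mul_zero, add_zero] at hu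
        exact hlam hu
      have n2 : -κ ≠ 0 := fun e => hκ (by rw [neg_eq_zero.1 e]; exact F₀.zero_mem)
      have n3 : 1 - κ ≠ 0 := fun e => hκ (by rw [← sub_eq_zero.1 e]; exact F₀.one_mem)
      rcases two 1 (-κ) d12 one_ne_zero n2 k1 k2 with h | h
      · rcases two (-κ) (1 - κ) d23 n2 n3 k2 k3 with h' | h'
        · exact one' _ _ d12 h h'
        · exact one' _ _ d13 h h'
      · rcases two 1 (1 - κ) d13 one_ne_zero n3 k1 k3 with h' | h'
        · exact one' _ _ d12 h' h
        · exact one' _ _ d23 h h'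
    exact ⟨a, c, mu / lam, by rw [← e]; module⟩
  -- dimension count
  haveI : Fintype F := Fintype.ofFinite F
  haveI : Fintype F₀ := Fintype.ofFinite F₀
  have hdim2 : Module.finrank F₀ F = 2 := by
    have h := Module.card_eq_pow_finrank (K := F₀) (V := F)
    rw [← Nat.card_eq_fintype_card, ← Nat.card_eq_fintype_card, h4, hq2,
      show (4 : ℕ) = 2 ^ 2 by norm_num] at h
    exact (Nat.pow_right_injective le_rfl h).symm
  let gr : (ι → F₀) →ₗ[F₀] (ι → F) :=
    { toFun := fun f => (g : Matrix ι ι F) *ᵥ ratVec P f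
      map_add' := fun u v => by simp [ratVec_add, mulVec_add]
      map_smul' := fun k u => by
        simp only [RingHom.id_apply, ratVec_smul, mulVec_smul]
        rfl }
  let pz : (ι → F₀) → (ι → F₀) →ₗ[F₀] F := fun z =>
    { toFun := fun f => polar Q ((g : Matrix ι ι F) *ᵥ ratVec P f) (ratVec P z)
      map_add' := fun u v => by simp [ratVec_add, mulVec_add, polar_add_left]
      map_smul' := fun k u => by
        simp only [RingHom.id_apply, ratVec_smul, mulVec_smul, polar_smul_left]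
        rfl }
  set U := perpK S.form ![x, b, b'] ⊓ LinearMap.ker ((pz z₁).prod (pz z₂)) with hU
  have hUdim : Fintype.card ι ≤ Module.finrank F₀ U + 7 := by
    have h1 := finrank_perpK (Q := S.form) ![x, b, b']
    rw [S.finrank₀] at h1
    have h2 := Submodule.finrank_sup_add_finrank_inf_eq (perpK S.form ![x, b, b'])
      (LinearMap.ker ((pz z₁).prod (pz z₂)))
    have h3 := Submodule.finrank_le (perpK S.form ![x, b, b'] ⊔ LinearMap.ker ((pz z₁).prod (pz z₂)))
    have h4' := ((pz z₁).prod (pz z₂)).finrank_range_add_finrank_ker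
    have h5 := Submodule.finrank_le (LinearMap.range ((pz z₁).prod (pz z₂)))
    rw [Module.finrank_prod, hdim2] at h5
    rw [S.finrank₀] at h3 h4'
    rw [← hU] at h2
    omega
  let Sp := (Submodule.span F ({ratVec P z₁, ratVec P z₂, R} : Set (ι → F))).restrictScalars F₀
  set Ssub := Sp.comap gr with hSsub
  have hS3 : Module.finrank F₀ Ssub ≤ 3 := by
    by_contra h
    push Not at h
    let v : Fin 4 → Ssub := fun i => Module.finBasis F₀ Ssub ⟨i, by omega⟩
    have hv : LinearIndependent F₀ fun i => (v i : ι → F₀) := by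
      refine ((Module.finBasis F₀ Ssub).linearIndependent.comp _ ?_).map' Ssub.subtype
        (Submodule.ker_subtype _)
      intro i j h'
      exact Fin.ext (congrArg Fin.val h' : _)
    have hF : LinearIndependent F fun i => (g : Matrix ι ι F) *ᵥ ratVec P (v i : ι → F₀) := by
      rw [Fintype.linearIndependent_iff]
      intro cc hcc j
      have hcc' : ∑ i, cc i • ratVec P (v i : ι → F₀) = 0 := gl_mulVec_injective g (by
        simp only [mulVec_sum, mulVec_smul, mulVec_zero]; exact hcc)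
      obtain ⟨d, hd, hdj⟩ : ∃ d, (∀ i, i ≠ j → polar S.form (v i : ι → F₀) d = 0) ∧
          polar S.form (v j : ι → F₀) d ≠ 0 := by
        by_contra h'
        push Not at h'
        have hmem := mem_span_of_perpK S.form_nd (u := fun i => (v (j.succAbove i) : ι → F₀))
          (x := (v j : ι → F₀)) fun d hd => h' d fun i hi => by
            obtain ⟨i', rfl⟩ := Fin.exists_succAbove_eq hi
            exact mem_perpK.1 hd i'
        refine hv.notMem_span_image (s := {i | i ≠ j}) (x := j) (by simp) ?_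
        refine Submodule.span_mono ?_ hmem
        rintro _ ⟨i, rfl⟩
        exact ⟨_, Fin.succAbove_ne j i, rfl⟩
      have h' := congrArg (fun w => polar Q w (ratVec P d)) hcc'
      simp only [polarB_sum_left, polar_smul_left, ← S.polar_coe, polar_zero_left, smul_eq_mul] at h'
      rw [Finset.sum_eq_single j (fun i _ hi => by rw [hd i hi]; simp) (by simp)] at h'
      exact (mul_eq_zero.1 h').resolve_right fun z => hdj (Subtype.ext z)
    have hle : Submodule.span F (Set.range fun i => (g : Matrix ι ι F) *ᵥ ratVec P (v i : ι → F₀)) ≤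
        Submodule.span F ({ratVec P z₁, ratVec P z₂, R} : Set (ι → F)) := by
      rw [Submodule.span_le]
      rintro _ ⟨i, rfl⟩
      exact (v i).2
    have h5 := Submodule.finrank_mono hle
    rw [finrank_span_eq_card hF, Fintype.card_fin] at h5
    have h6 : Module.finrank F (Submodule.span F ({ratVec P z₁, ratVec P z₂, R} : Set (ι → F))) ≤ 3 := by
      rw [show ({ratVec P z₁, ratVec P z₂, R} : Set (ι → F)) =
        Set.range ![ratVec P z₁, ratVec P z₂, R] by
          ext w; simp [Matrix.range_cons, Matrix.range_empty]; tauto]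
      exact (finrank_range_le_card _).trans (by simp)
    omega
  obtain ⟨W, hW⟩ := exists_isCompl Ssub
  have hUW : 3 ≤ Module.finrank F₀ ↥(U ⊓ W) := by
    have h1 := Submodule.finrank_sup_add_finrank_inf_eq U W
    have h2 := Submodule.finrank_le (U ⊔ W)
    have h3 := Submodule.finrank_add_eq_of_isCompl hW
    rw [S.finrank₀] at h2 h3
    omega
  obtain ⟨f, hf, hf0, hQf⟩ := exists_sing_in S.form hUW
  obtain ⟨hfU, hfW⟩ := Submodule.mem_inf.1 hf
  obtain ⟨hfp, hfk⟩ := Submodule.mem_inf.1 hfU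
  rw [LinearMap.mem_ker, LinearMap.prod_apply, Function.prod_apply, Prod.mk_eq_zero] at hfk
  obtain ⟨a, c, d, e⟩ := hsub f hQf (by simpa using mem_perpK.1 hfp 0)
    (by simpa using mem_perpK.1 hfp 1) (by simpa using mem_perpK.1 hfp 2) hfk.1 hfk.2
  refine hf0 (Submodule.disjoint_def.1 hW.disjoint f ?_ hfW)
  show gr f ∈ Sp
  rw [show gr f = (g : Matrix ι ι F) *ᵥ ratVec P f from rfl, e]
  show _ ∈ Submodule.span F _
  refine Submodule.add_mem _ (Submodule.add_mem _ ?_ ?_) ?_ <;>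
    exact Submodule.smul_mem _ _ (Submodule.subset_span (by simp))

omit hrat hM in
/-- The subfield group is maximal in Ω. -/
theorem isMaximalIn {r : ℕ} (hr : r.Prime) (hcard : Nat.card F = Nat.card F₀ ^ r) :
    Cfsg.Geo.IsMaximalIn (Cfsg.Geo.omegaGL ⇑Q)
      (Cfsg.Geo.subfieldSubgroup F₀ P ⊓ Cfsg.Geo.omegaGL ⇑Q) := by
  classical
  have hn := S.dim
  haveI : Fintype F := Fintype.ofFinite F
  refine isMaximalIn_of inf_le_right ?_ fun N hle hN g hg hgn => ?_
  · obtain ⟨m, hm⟩ : ∃ m : F, m ∉ F₀ := by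
      by_contra h; push Not at h
      have : F₀ = ⊤ := eq_top_iff.2 fun z _ => h z
      have hc : Nat.card F₀ = Nat.card F := by rw [this]; exact Nat.card_congr Subfield.topEquiv.toEquiv
      rw [hc] at hcard
      exact hr.ne_one (Nat.pow_right_injective (a := Nat.card F) Finite.one_lt_card
        (show _ ^ 1 = _ ^ r by rwa [pow_one])).symm
    obtain ⟨s, t, hs, ht, hst, -⟩ :=
      exists_hyp_perp S.form_nd (Fin.elim0 : Fin 0 → (ι → F₀)) (by rw [S.finrank₀]; omega)
    obtain ⟨a, a', ha, ha', haa', hp⟩ :=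
      exists_hyp_perp S.form_nd ![s, t] (by rw [S.finrank₀]; omega)
    have p0 := hp 0; have p1 := hp 1
    simp at p0 p1
    have L := S.long hs ha p0.1
    refine ⟨sg Q (ratVec P s) (m • ratVec P a), sg_mem_omegaGL S.good L.x0 (L.smul_right m).xu,
      fun h => hm ?_⟩
    obtain ⟨g₀, cc, hgc⟩ := mem_subfieldSubgroup_iff.1 h.1
    have e1 := congrArg (fun v => polar Q v (ratVec P t)) (hgc s)
    have e2 := congrArg (fun v => polar Q v (ratVec P a')) (hgc t)
    simp only [(L.smul_right m).mulVec, polar_smul_right, polar_add_left, polar_sub_left,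
      polar_smul_left, smul_eq_mul, ← S.polar_coe, polar_self_sing hs, hst, p0.1, p0.2, p1.1, p1.2,
      polar_comm _ t s, polar_comm _ a t, haa'] at e1 e2
    simp at e1 e2
    have hc : (cc : F) ∈ F₀ := by
      rw [eq_inv_of_mul_eq_one_left e1.symm]
      exact inv_mem (SetLike.coe_mem _)
    rw [e2]
    exact mul_mem hc (SetLike.coe_mem _)
  · have hrat' : ∀ x u : ι → F₀, S.form x = 0 → polar S.form x u = 0 →
        sg Q (ratVec P x) (ratVec P u) ∈ N := fun x u hx hu => by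
      refine hle ⟨mem_subfieldSubgroup_iff.2 ⟨isoMat S.form (sie S.form x u), 1, fun v => ?_⟩,
        sg_mem_omegaGL S.good (S.sing hx) (S.orth hu)⟩
      rw [Units.val_one, one_smul, S.sg_rat hx hu, isoMat_mulVec]
    have hgn' : g ∉ Cfsg.Geo.subfieldSubgroup F₀ P := fun h => hgn ⟨h, hN hg⟩
    have hgi := mem_isometryGroup_of_omega (hN hg)
    obtain ⟨z₁, z₂, x, b, b', C, hgood⟩ := S.exists_cfg_good hgi hgn' hr hcard
    obtain ⟨hz1, hz2, hQR, hR1, hR2, hne⟩ := S.cfgR_facts hgi C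
    obtain ⟨c, hk⟩ := S.cfg_scaling hrat' hN hr hcard hg C
    obtain ⟨y₁, y₂, a1, a2, a12, ha0, ha2, lam, hlam, hl⟩ := S.exists_irrational hrat' hN C.z₁0
      C.z₂0 C.zz hz1 hz2 hr hcard hQR hR1 hR2 hne hgood c hk
    obtain ⟨w₁, w₂, b1, b2, b12, hb0, hb2, hfull⟩ :=
      S.exists_full_pair hrat' hr hcard hN a1 a2 a12 ha0 ha2 hlam hl
    exact S.omega_le_of_allRoot hrat' hN b1 hb0
      (S.allRoot_of_full hrat' hN b1 b2 b12 hb0 hb2 hfull)

end QRat

end Cfsg.Agent.Lib.Forms
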