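import Cfsg.Agent.Lib.Forms.OrthSubfieldMax

/-!
The subfield group in Ω of a quadratic form given as a function.
-/

set_option autoImplicit false

namespace Cfsg.Agent.Lib.Forms

open Matrix QuadraticMap Cfsg.Agent.Lib.Classical.QuadOmega

variable {ι : Type} [Fintype ι] [DecidableEq ι] {F : Type*} [Field F] [Fintype F]

/-- The maximality for a function form. -/
theorem subfield_maximal_of_qrat (f : (ι → F) → F) (F₀ : Subfield F) (P : GL ι F) (ζ : F)
    (hζ : ζ ≠ 0) (smul : ∀ (c : F) (v : ι → F), f (c • v) = c ^ 2 * f v)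
    (bil : Cfsg.Geo.IsBilinearForm (QuadraticMap.polar f))
    (nd : ∀ v : ι → F, (∀ y, QuadraticMap.polar f v y = 0) → v = 0) (hn : 13 ≤ Fintype.card ι)
    {r : ℕ} (hr : r.Prime) (hcard : Fintype.card F = Nat.card F₀ ^ r)
    (hP : Cfsg.Geo.IsQuadFormRationalStructure (fun v => ζ * f v) F₀ P) :
    Cfsg.Geo.IsMaximalIn (Cfsg.Geo.omegaGL f)
      (Cfsg.Geo.subfieldSubgroup F₀ P ⊓ Cfsg.Geo.omegaGL f) := by
  let Q : QuadraticForm F (ι → F) := QuadraticMap.ofPolar (fun v => ζ * f v)
    (fun c v => by simp [smul]; ring)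
    (fun x y v => by
      have := bil.add_left x y v
      simp only [QuadraticMap.polar] at this ⊢
      linear_combination ζ * this)
    (fun c x v => by
      have := bil.smul_left c x v
      simp only [QuadraticMap.polar, smul_eq_mul] at this ⊢
      linear_combination ζ * this)
  have hQ : (⇑Q) = fun v => ζ * f v := rfl
  have S : QRat Q F₀ P :=
    { nd := fun v hv => nd v fun y => by
        have h := hv y
        simp only [QuadraticMap.polar, hQ] at h ⊢
        exact (mul_eq_zero.1 (by linear_combination h : ζ * _ = 0)).resolve_left hζ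
      rat := fun u => hP _ fun i => (u i).2
      dim := hn }
  have h := S.isMaximalIn hr (by rw [Nat.card_eq_fintype_card (α := F)]; exact hcard)
  rwa [hQ, omegaGL_scale f hζ] at h

end Cfsg.Agent.Lib.Forms
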