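import Cfsg.Agent.Lib.Forms.OrthSingular

/-!
Siegel transformations, and the consequences of one transvection in an overgroup of the
orthogonal similitudes.
-/

set_option autoImplicit false

namespace Cfsg.Agent.Lib.Forms

open Matrix

variable {ι : Type} [Fintype ι] [DecidableEq ι] {F : Type*} [Field F]
  {B : LinearMap.BilinForm F (ι → F)}

/-- The transvection `x ↦ x + B(x, b) a`. -/
noncomputable def tb (B : LinearMap.BilinForm F (ι → F)) (a b : ι → F) : GL ι F := tv a (bv B b)

lemma bv_add' (u v : ι → F) : bv B (u + v) = bv B u + bv B v := by ext j; simp [bv]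

lemma bv_smul' (c : F) (v : ι → F) : bv B (c • v) = c • bv B v := by ext j; simp [bv]

lemma tb_mulVec {a b : ι → F} (h : B a b = 0) (x : ι → F) :
    (tb B a b : Matrix ι ι F) *ᵥ x = x + B x b • a := by
  rw [tb, tv_mulVec (by rw [bv_dot]; exact h), bv_dot]

lemma tb_add_right {a b b' : ι → F} (h : B a b = 0) (h' : B a b' = 0) :
    tb B a b * tb B a b' = tb B a (b + b') := by
  rw [tb, tb, tb, tv_add (by rw [bv_dot]; exact h) (by rw [bv_dot]; exact h'), bv_add']

lemma tb_add_left {a a' b : ι → F} (h : B a b = 0) (h' : B a' b = 0) :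
    tb B a b * tb B a' b = tb B (a + a') b := by
  rw [tb, tb, tb, tv_add_center (by rw [bv_dot]; exact h) (by rw [bv_dot]; exact h')]

lemma tb_smul {a b : ι → F} (h : B a b = 0) (c : F) : tb B (c • a) b = tb B a (c • b) := by
  rw [tb, tb, tv_smul_center c (by rw [bv_dot]; exact h), bv_smul']

lemma tb_inv {a b : ι → F} (h : B a b = 0) : (tb B a b)⁻¹ = tb B a (-b) := by
  rw [tb, tb, tv_inv (by rw [bv_dot]; exact h), ← neg_one_smul F b, bv_smul', neg_one_smul]

lemma tb_zero_left (b : ι → F) : tb B 0 b = 1 := tv_zero_left _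

lemma tb_zero_right (a : ι → F) : tb B a 0 = 1 := by
  rw [tb, show bv B (0 : ι → F) = 0 by ext j; simp [bv], tv_zero_right]

lemma tb_conj {T : GL ι F}
    (hT : ∀ x y, B ((T : Matrix ι ι F) *ᵥ x) ((T : Matrix ι ι F) *ᵥ y) = B x y) {a b : ι → F}
    (h : B a b = 0) :
    T * tb B a b * T⁻¹ = tb B ((T : Matrix ι ι F) *ᵥ a) ((T : Matrix ι ι F) *ᵥ b) := by
  apply gl_ext; intro x
  rw [mul_mulVec', mul_mulVec', tb_mulVec h, tb_mulVec (by rw [hT]; exact h), mulVec_add,
    mulVec_smul, mulVec_inv_mulVec]
  have e := hT (((T⁻¹ : GL ι F) : Matrix ι ι F) *ᵥ x) b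
  rw [mulVec_inv_mulVec] at e
  rw [e]

/-- The Siegel transformation `x ↦ x + c B(x, u) v - c B(x, v) u`. -/
noncomputable def sieg (B : LinearMap.BilinForm F (ι → F)) (u v : ι → F) (c : F) : GL ι F :=
  tb B v (c • u) * tb B u ((-c) • v)

/-- An orthogonal pair of singular vectors. -/
structure SingPair (B : LinearMap.BilinForm F (ι → F)) (u v : ι → F) : Prop where
  left : B u u = 0
  right : B v v = 0
  orth : B u v = 0

namespace OddForm

variable (O : OddForm B)
include O

lemma sieg_mulVec {u v : ι → F} (P : SingPair B u v) (c : F) (x : ι → F) :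
    (sieg B u v c : Matrix ι ι F) *ᵥ x = x + (c * B x u) • v - (c * B x v) • u := by
  have h1 : B v u = 0 := by rw [O.symm]; exact P.orth
  rw [sieg, mul_mulVec', tb_mulVec (by simp [P.orth, h1]), tb_mulVec (by simp [P.orth, h1])]
  simp only [map_add, map_smul, LinearMap.add_apply, LinearMap.smul_apply, P.left, smul_eq_mul,
    mul_zero, add_zero]
  module

lemma sieg_isometry {u v : ι → F} (P : SingPair B u v) (c : F) (x y : ι → F) :
    B ((sieg B u v c : Matrix ι ι F) *ᵥ x) ((sieg B u v c : Matrix ι ι F) *ᵥ y) = B x y := by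
  simp only [O.sieg_mulVec P, map_add, map_sub, map_smul, LinearMap.add_apply, LinearMap.sub_apply,
    LinearMap.smul_apply, smul_eq_mul, P.left, P.right, P.orth, O.symm v u, O.symm v y, O.symm u y]
  ring

lemma sieg_mem_specialLinear (u v : ι → F) (c : F) :
    sieg B u v c ∈ Cfsg.Geo.specialLinear ι F :=
  mul_mem (tv_mem_specialLinear _ _) (tv_mem_specialLinear _ _)

end OddForm

/-- The group contains every Siegel transformation. -/
def HasSieg (B : LinearMap.BilinForm F (ι → F)) (G : Subgroup (GL ι F)) : Prop :=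
  ∀ u v, SingPair B u v → ∀ c, sieg B u v c ∈ G

/-- The group contains every transvection with functional at `w`. -/
def AllAt (B : LinearMap.BilinForm F (ι → F)) (G : Subgroup (GL ι F)) (w : ι → F) : Prop :=
  ∀ z, B z w = 0 → tb B z w ∈ G

namespace OddForm

variable (O : OddForm B) {G : Subgroup (GL ι F)} (hG : HasSieg B G)
include O hG

/-- Move the centre of a transvection by a Siegel transformation fixing the functional. -/
lemma move_left {a b x y : ι → F} (hab : B a b = 0) (hm : tb B a b ∈ G) (P : SingPair B x y)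
    (hxb : B x b = 0) (hyb : B y b = 0) (c : F) :
    tb B ((c * B a x) • y - (c * B a y) • x) b ∈ G := by
  have hs := hG x y P c
  have h1 := G.mul_mem (G.mul_mem hs hm) (G.inv_mem hs)
  rw [tb_conj (O.sieg_isometry P c) hab, O.sieg_mulVec P c, O.sieg_mulVec P c] at h1
  simp only [O.symm b x, O.symm b y, hxb, hyb, mul_zero, zero_smul, add_zero, sub_zero] at h1
  have h2 := G.mul_mem h1 (G.inv_mem hm)
  have hz : B ((c * B a x) • y - (c * B a y) • x) b = 0 := by simp [hxb, hyb]
  rw [add_sub_assoc, add_comm a, ← tb_add_left hz hab, mul_inv_cancel_right] at h2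
  exact h2

/-- Move the functional of a transvection by a Siegel transformation fixing the centre. -/
lemma move_right {a b x y : ι → F} (hab : B a b = 0) (hm : tb B a b ∈ G) (P : SingPair B x y)
    (hxa : B a x = 0) (hya : B a y = 0) (c : F) :
    tb B a ((c * B b x) • y - (c * B b y) • x) ∈ G := by
  have hs := hG x y P c
  have h1 := G.mul_mem (G.mul_mem hs hm) (G.inv_mem hs)
  rw [tb_conj (O.sieg_isometry P c) hab, O.sieg_mulVec P c, O.sieg_mulVec P c] at h1
  simp only [hxa, hya, mul_zero, zero_smul, add_zero, sub_zero] at h1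
  have h2 := G.mul_mem h1 (G.inv_mem hm)
  have hz : B a ((c * B b x) • y - (c * B b y) • x) = 0 := by simp [hxa, hya]
  rw [add_sub_assoc, add_comm b, ← tb_add_right hz hab, mul_inv_cancel_right] at h2
  exact h2

variable [Finite F] (hN : 13 ≤ Fintype.card ι)
include hN

/-- All multiples of a singular centre outside the span. -/
lemma centre_of_outside {u w z : ι → F} (huw : B u w = 0) (hm : tb B u w ∈ G) (hw : IsSing B w)
    (hz : IsSing B z) (hzw : B z w = 0) (hzu : B z u = 0)
    (hout : u ∉ Submodule.span F (Set.range ![w, z])) (k : F) : tb B (k • z) w ∈ G := by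
  obtain ⟨x, hx, hxp, hux⟩ := O.exists_sing_ne ![w, z] (by omega) hout
  have hxw : B x w = 0 := by rw [O.symm]; simpa using hxp 0
  have hxz : B x z = 0 := by rw [O.symm]; simpa using hxp 1
  have h := O.move_left hG huw hm ⟨hx, hz, hxz⟩ hxw hzw (k / B u x)
  rw [O.symm u z, hzu, mul_zero, zero_smul, sub_zero, div_mul_cancel₀ k hux] at h
  exact h

/-- The set of centres contains the common complement. -/
lemma centre_of_perp {u w p : ι → F} (huw : B u w = 0) (hm : tb B u w ∈ G) (hu : IsSing B u)
    (hw : IsSing B w) (hind : u ∉ Submodule.span F {w}) (hp : B p w = 0) (hpu : B p u = 0) :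
    tb B p w ∈ G := by
  have hmem := O.mem_span_sing ![w, u] (by omega) (x := p)
    (fun i => by fin_cases i <;> simp [O.symm w p, O.symm u p, hp, hpu])
  suffices H : ∀ c : F, B (c • p) w = 0 ∧ tb B (c • p) w ∈ G by simpa using (H 1).2
  clear hp hpu
  induction hmem using Submodule.span_induction with
  | zero => intro c; simp [tb_zero_left]
  | add a b _ _ ha hb =>
    intro c
    refine ⟨by rw [smul_add, map_add, LinearMap.add_apply, (ha c).1, (hb c).1, add_zero], ?_⟩
    rw [smul_add, ← tb_add_left (ha c).1 (hb c).1]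
    exact G.mul_mem (ha c).2 (hb c).2
  | smul d a _ ha => intro c; rw [smul_smul]; exact ha _
  | mem z hz =>
    intro c
    obtain ⟨hzs, hzp⟩ := hz
    have hzw : B z w = 0 := by rw [O.symm]; simpa using hzp 0
    have hzu : B z u = 0 := by rw [O.symm]; simpa using hzp 1
    refine ⟨by simp [hzw], ?_⟩
    by_cases hout : u ∈ Submodule.span F (Set.range ![w, z])
    swap
    · exact O.centre_of_outside hG hN huw hm hw hzs hzw hzu hout c
    have hspan : ∀ z', u ∈ Submodule.span F (Set.range ![w, z']) → z' ∈ Submodule.span F (Set.range ![w, u]) := by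
      intro z' hu'
      rw [Matrix.range_cons, Matrix.range_cons, Matrix.range_empty, Set.union_empty,
        Set.singleton_union, Submodule.mem_span_pair] at hu' ⊢
      obtain ⟨r, s, hrs⟩ := hu'
      have hs : s ≠ 0 := fun e => hind (by
        rw [Submodule.mem_span_singleton]; exact ⟨r, by simpa [e] using hrs⟩)
      refine ⟨-r / s, 1 / s, ?_⟩
      rw [← hrs]
      match_scalars <;> field_simp <;> ring
    obtain ⟨z', hz's, hz'p, hz'out⟩ := O.exists_sing_notMem ![w, u] (by omega)
    have hz'w : B z' w = 0 := by rw [O.symm]; simpa using hz'p 0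
    have hz'u : B z' u = 0 := by rw [O.symm]; simpa using hz'p 1
    have hzz' : B z z' = 0 := by
      have hzm := hspan z hout
      have hle : Submodule.span F (Set.range ![w, u]) ≤ LinearMap.ker (B.flip z') :=
        Submodule.span_le.2 (by rintro _ ⟨i, rfl⟩; exact hz'p i)
      exact hle hzm
    have hadd : u ∉ Submodule.span F (Set.range ![w, z + z']) := fun h => hz'out (by
      simpa using Submodule.sub_mem _ (hspan _ h) (hspan z hout))
    have hsum : IsSing B (z + z') := by
      simp [IsSing, show B z z = 0 from hzs, show B z' z' = 0 from hz's, hzz', O.symm z' z]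
    have h1 := O.centre_of_outside hG hN huw hm hw hsum (by simp [hzw, hz'w])
      (by simp [hzu, hz'u]) hadd c
    have h2 := O.centre_of_outside hG hN huw hm hw hz's hz'w hz'u (fun h => hz'out (hspan _ h)) c
    rw [smul_add, ← tb_add_left (by simp [hzw]) (by simp [hz'w])] at h1
    simpa using G.mul_mem h1 (G.inv_mem h2)

lemma allAt {u w : ι → F} (huw : B u w = 0) (hm : tb B u w ∈ G) (hu : IsSing B u)
    (hw : IsSing B w) (hind : u ∉ Submodule.span F {w}) : AllAt B G w := by
  intro z hz
  obtain ⟨u', hu', hu'p, hu'out⟩ := O.exists_sing_notMem ![w, u] (by omega)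
  have hu'w : B u' w = 0 := by rw [O.symm]; simpa using hu'p 0
  have hu'u : B u' u = 0 := by rw [O.symm]; simpa using hu'p 1
  have hm' := O.centre_of_perp hG hN huw hm hu hw hind hu'w hu'u
  have hind' : u' ∉ Submodule.span F {w} := fun h => hu'out
    (Submodule.span_mono (Set.singleton_subset_iff.2 (show w ∈ Set.range ![w, u] from ⟨0, rfl⟩)) h)
  have hnot : u ∉ Submodule.span F (Set.range ![w, u']) := fun h => by
    rw [Matrix.range_cons, Matrix.range_cons, Matrix.range_empty, Set.union_empty,
      Set.singleton_union, Submodule.mem_span_pair] at h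
    obtain ⟨r, s, hrs⟩ := h
    rcases eq_or_ne s 0 with rfl | hs
    · exact hind (Submodule.mem_span_singleton.2 ⟨r, by simpa using hrs⟩)
    · refine hu'out ?_
      rw [Matrix.range_cons, Matrix.range_cons, Matrix.range_empty, Set.union_empty,
        Set.singleton_union, Submodule.mem_span_pair]
      refine ⟨-r / s, 1 / s, ?_⟩
      rw [← hrs]
      match_scalars <;> field_simp <;> ring
  obtain ⟨p, hp, hup⟩ := O.exists_functional_ne hnot
  have hpw : B p w = 0 := by rw [O.symm]; simpa using hp 0
  have hpu' : B p u' = 0 := by rw [O.symm]; simpa using hp 1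
  set d := B u z / B u p with hd
  have h1 : B (z - d • p) w = 0 := by simp [hz, hpw]
  have h1' : B (z - d • p) u = 0 := by
    rw [O.symm, map_sub, map_smul, smul_eq_mul, hd, div_mul_cancel₀ _ hup, sub_self]
  have h2 : B (d • p) w = 0 := by simp [hpw]
  have h2' : B (d • p) u' = 0 := by simp [hpu']
  have e := G.mul_mem (O.centre_of_perp hG hN huw hm hu hw hind h1 h1')
    (O.centre_of_perp hG hN hu'w hm' hu' hw hind' h2 h2')
  rw [tb_add_left h1 h2, sub_add_cancel] at e
  exact e

lemma allAt_step {w w' : ι → F} (hw : IsSing B w) (hw' : IsSing B w') (hww' : B w' w = 0)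
    (hind : w ∉ Submodule.span F {w'}) (hA : AllAt B G w) : AllAt B G w' := by
  obtain ⟨a, ha, hap, haout⟩ := O.exists_sing_notMem ![w, w'] (by omega)
  have haw : B a w = 0 := by rw [O.symm]; simpa using hap 0
  have haw' : B a w' = 0 := by rw [O.symm]; simpa using hap 1
  have hnot : w ∉ Submodule.span F (Set.range ![a, w']) := fun h => by
    rw [Matrix.range_cons, Matrix.range_cons, Matrix.range_empty, Set.union_empty,
      Set.singleton_union, Submodule.mem_span_pair] at h
    obtain ⟨r, s, hrs⟩ := h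
    rcases eq_or_ne r 0 with rfl | hr
    · exact hind (Submodule.mem_span_singleton.2 ⟨s, by simpa using hrs⟩)
    · refine haout ?_
      rw [Matrix.range_cons, Matrix.range_cons, Matrix.range_empty, Set.union_empty,
        Set.singleton_union, Submodule.mem_span_pair]
      refine ⟨1 / r, -s / r, ?_⟩
      rw [← hrs]
      match_scalars <;> field_simp <;> ring
  obtain ⟨x, hx, hxp, hwx⟩ := O.exists_sing_ne ![a, w'] (by omega) hnot
  have hxa : B a x = 0 := by simpa using hxp 0
  have hxw' : B x w' = 0 := by rw [O.symm]; simpa using hxp 1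
  have h := O.move_right hG haw (hA a haw) ⟨hx, hw', hxw'⟩ hxa haw' (1 / B w x)
  rw [O.symm w w', hww', mul_zero, zero_smul, sub_zero, div_mul_cancel₀ (1 : F) hwx, one_smul] at h
  exact O.allAt hG hN haw' h ha hw' fun h' => haout
    (Submodule.span_mono (Set.singleton_subset_iff.2 (show w' ∈ Set.range ![w, w'] from ⟨1, rfl⟩)) h')

lemma allAt_all {w w' : ι → F} (hw : IsSing B w) (hw0 : w ≠ 0) (hw' : IsSing B w')
    (hA : AllAt B G w) : AllAt B G w' := by
  obtain ⟨v, hv, hvp, hvout⟩ := O.exists_sing_notMem ![w, w'] (by omega)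
  have hvw : B v w = 0 := by rw [O.symm]; simpa using hvp 0
  have hvw' : B v w' = 0 := by rw [O.symm]; simpa using hvp 1
  rcases eq_or_ne w' 0 with rfl | hw'0
  · intro z _; rw [tb_zero_right]; exact G.one_mem
  have h1 := O.allAt_step hG hN hw hv hvw (fun h => ?_) hA
  · refine O.allAt_step hG hN hv hw' (by rw [O.symm]; exact hvw') (fun h => hvout ?_) h1
    exact Submodule.span_mono (Set.singleton_subset_iff.2 (show w' ∈ Set.range ![w, w'] from ⟨1, rfl⟩)) h
  · rw [Submodule.mem_span_singleton] at h
    obtain ⟨c, hc⟩ := h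
    rcases eq_or_ne c 0 with rfl | hc0
    · exact hw0 (by simpa using hc.symm)
    refine hvout ?_
    rw [show v = c⁻¹ • w by rw [← hc, smul_smul, inv_mul_cancel₀ hc0, one_smul]]
    exact Submodule.smul_mem _ _ (Submodule.subset_span ⟨0, rfl⟩)

theorem specialLinear_le_of_allAt {w : ι → F} (hw : IsSing B w) (hw0 : w ≠ 0)
    (hA : AllAt B G w) : Cfsg.Geo.specialLinear ι F ≤ G := by
  refine specialLinear_le_of_tv G fun a φ hφ => ?_
  obtain ⟨b, hb⟩ : ∃ b, bv B b = φ := by
    let f : (ι → F) →ₗ[F] F := dotProductEquiv F ι φ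
    refine ⟨(B.toDual O.nd).symm f, funext fun j => ?_⟩
    rw [bv, O.symm, LinearMap.BilinForm.apply_toDual_symm_apply (hB := O.nd)]
    change φ ⬝ᵥ Pi.single j 1 = φ j
    simp
  subst hb
  rw [bv_dot] at hφ
  change tb B a b ∈ G
  have hmem := O.mem_span_sing ![a] (by omega) (x := b) (fun i => by fin_cases i; simpa using hφ)
  suffices H : ∀ c : F, B a (c • b) = 0 ∧ tb B a (c • b) ∈ G by simpa using (H 1).2
  clear hφ
  induction hmem using Submodule.span_induction with
  | zero => intro c; simp [tb_zero_right]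
  | add x y _ _ hx hy =>
    intro c
    refine ⟨by rw [smul_add, map_add, (hx c).1, (hy c).1, add_zero], ?_⟩
    rw [smul_add, ← tb_add_right (hx c).1 (hy c).1]
    exact G.mul_mem (hx c).2 (hy c).2
  | smul d x _ hx => intro c; rw [smul_smul]; exact hx _
  | mem z hz =>
    intro c
    have haz : B a z = 0 := by simpa using hz.2 0
    refine ⟨by simp [haz], ?_⟩
    exact O.allAt_all hG hN hw hw0 (show IsSing B (c • z) by simp [IsSing, show B z z = 0 from hz.1])
      hA a (by simp [haz])

/-- One transvection gives all of `SL`. -/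
theorem specialLinear_le_of_tb {a b : ι → F} (hab : B a b = 0) (ha : a ≠ 0) (hb : b ≠ 0)
    (hm : tb B a b ∈ G) : Cfsg.Geo.specialLinear ι F ≤ G := by
  -- a singular functional
  obtain ⟨w, hw, hw0, haw, hmw⟩ : ∃ w, IsSing B w ∧ w ≠ 0 ∧ B a w = 0 ∧ tb B a w ∈ G := by
    by_cases hba : b ∈ Submodule.span F (Set.range ![a])
    · refine ⟨b, ?_, hb, hab, hm⟩
      rw [Matrix.range_cons, Matrix.range_empty, Set.union_empty,
        Submodule.mem_span_singleton] at hba
      obtain ⟨c, rfl⟩ := hba
      simp only [IsSing, map_smul, LinearMap.smul_apply, smul_eq_mul] at hab ⊢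
      rw [hab, mul_zero]
    · obtain ⟨x, hx, hxp, hbx⟩ := O.exists_sing_ne ![a] (by omega) hba
      obtain ⟨y, hy, hyp, hyout⟩ := O.exists_sing_notMem ![a, x, b] (by omega)
      have hxy : B x y = 0 := by simpa using hyp 1
      have hby : B b y = 0 := by simpa using hyp 2
      refine ⟨y, hy, fun e => hyout (e ▸ Submodule.zero_mem _), by simpa using hyp 0, ?_⟩
      have h := O.move_right hG hab hm ⟨hx, hy, hxy⟩ (by simpa using hxp 0) (by simpa using hyp 0)
        (1 / B b x)
      rw [hby, mul_zero, zero_smul, sub_zero, div_mul_cancel₀ (1 : F) hbx, one_smul] at h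
      exact h
  -- a singular centre
  obtain ⟨u, hu, hu0, huw, hmu⟩ : ∃ u, IsSing B u ∧ u ≠ 0 ∧ B u w = 0 ∧ tb B u w ∈ G := by
    by_cases haw' : a ∈ Submodule.span F (Set.range ![w])
    · refine ⟨a, ?_, ha, haw, hmw⟩
      rw [Matrix.range_cons, Matrix.range_empty, Set.union_empty,
        Submodule.mem_span_singleton] at haw'
      obtain ⟨c, rfl⟩ := haw'
      simp [IsSing, show B w w = 0 from hw]
    · obtain ⟨x, hx, hxp, hax⟩ := O.exists_sing_ne ![w] (by omega) haw'
      obtain ⟨y, hy, hyp, hyout⟩ := O.exists_sing_notMem ![w, x, a] (by omega)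
      have hxy : B x y = 0 := by simpa using hyp 1
      have hay : B a y = 0 := by simpa using hyp 2
      have hyw : B y w = 0 := by rw [O.symm]; simpa using hyp 0
      refine ⟨y, hy, fun e => hyout (e ▸ Submodule.zero_mem _), hyw, ?_⟩
      have h := O.move_left hG haw hmw ⟨hx, hy, hxy⟩ (by rw [O.symm]; simpa using hxp 0) hyw
        (1 / B a x)
      rw [hay, mul_zero, zero_smul, sub_zero, div_mul_cancel₀ (1 : F) hax, one_smul] at h
      exact h
  by_cases hind : u ∈ Submodule.span F {w}
  swap
  · exact O.specialLinear_le_of_allAt hG hN hw hw0 (O.allAt hG hN huw hmu hu hw hind)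
  -- proportional centre and functional
  obtain ⟨γ, hγ, hmg⟩ : ∃ γ : F, γ ≠ 0 ∧ tb B u (γ • u) ∈ G := by
    rw [Submodule.mem_span_singleton] at hind
    obtain ⟨c, rfl⟩ := hind
    have hc : c ≠ 0 := fun e => hu0 (by simp [e])
    refine ⟨c⁻¹, inv_ne_zero hc, ?_⟩
    rwa [smul_smul, inv_mul_cancel₀ hc, one_smul]
  have hu' : u ∉ Submodule.span F (Set.range (![] : Fin 0 → (ι → F))) := by simpa using hu0
  obtain ⟨x, hx, -, hux⟩ := O.exists_sing_ne (![] : Fin 0 → (ι → F)) (by omega) hu'
  obtain ⟨y, hy, hyp, hyout⟩ := O.exists_sing_notMem ![u, x] (by omega)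
  have hyu : B y u = 0 := by rw [O.symm]; simpa using hyp 0
  have hxy : B x y = 0 := by simpa using hyp 1
  have huu : B u u = 0 := hu
  have hyy : B y y = 0 := hy
  have huy : B u y = 0 := by rw [O.symm]; exact hyu
  have key : ∀ s : F, tb B (u + s • y) (γ • (u + s • y)) ∈ G := by
    intro s
    have P : SingPair B x y := ⟨hx, hy, hxy⟩
    have hs := hG x y P (s / B u x)
    have h1 := G.mul_mem (G.mul_mem hs hmg) (G.inv_mem hs)
    rw [tb_conj (O.sieg_isometry P _) (by simp [huu]), mulVec_smul, O.sieg_mulVec P, huy,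
      mul_zero, zero_smul, sub_zero, div_mul_cancel₀ s hux] at h1
    exact h1
  have h1 := G.mul_mem (key 1) (G.inv_mem (key (-1)))
  have h2 := G.mul_mem h1 (hG y u ⟨hyy, huu, hyu⟩ (2 * γ))
  have heq : tb B (u + (1 : F) • y) (γ • (u + (1 : F) • y)) *
      (tb B (u + (-1 : F) • y) (γ • (u + (-1 : F) • y)))⁻¹ * sieg B y u (2 * γ) =
      tb B u ((4 * γ) • y) := by
    apply gl_ext; intro z
    rw [tb_inv (by simp [huu, hyy, huy, hyu]), mul_mulVec', mul_mulVec',
      O.sieg_mulVec ⟨hyy, huu, hyu⟩, tb_mulVec (by simp [huu, hyy, huy, hyu]),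
      tb_mulVec (by simp [huu, hyy, huy, hyu]), tb_mulVec (by simp [huy])]
    simp only [map_add, map_sub, map_neg, map_smul, LinearMap.add_apply, LinearMap.sub_apply,
      LinearMap.smul_apply, smul_eq_mul, huu, hyy, huy, hyu]
    module
  rw [heq] at h2
  have h4 : (4 * γ) ≠ 0 := by
    refine mul_ne_zero ?_ hγ
    rw [show (4 : F) = 2 * 2 by norm_num]
    exact mul_ne_zero O.two O.two
  refine O.specialLinear_le_of_allAt hG hN (w := (4 * γ) • y) ?_ ?_
    (O.allAt hG hN (by simp [huy]) h2 hu ?_ fun h => ?_)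
  · simp [IsSing, hyy]
  · exact smul_ne_zero h4 fun e => hyout (e ▸ Submodule.zero_mem _)
  · simp [IsSing, hyy]
  · rw [Submodule.mem_span_singleton] at h
    obtain ⟨c, hc⟩ := h
    rw [smul_smul] at hc
    rcases eq_or_ne (c * (4 * γ)) 0 with e | e
    · exact hu0 (by rw [← hc, e, zero_smul])
    · refine hyout ?_
      rw [show y = (c * (4 * γ))⁻¹ • u by rw [← hc, smul_smul, inv_mul_cancel₀ e, one_smul]]
      exact Submodule.smul_mem _ _ (Submodule.subset_span ⟨0, rfl⟩)

end OddForm

end Cfsg.Agent.Lib.Forms
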