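import Cfsg.Agent.Lib.Forms.Transvection

/-!
Generators of two-dimensional field subalgebras of matrices and their normalisers.
-/

set_option autoImplicit false

namespace Cfsg.Agent.Lib.Forms

open Matrix

variable {ι : Type} [Fintype ι] [DecidableEq ι] {F : Type*} [Field F]
  {K : Subalgebra F (Matrix ι ι F)}

/-- A generator of a quadratic field subalgebra with its minimal polynomial. -/
lemma quadField_gen [Nonempty ι] (hK : Cfsg.Geo.IsFieldSubalgebra 2 K) :
    ∃ J ∈ K, (∀ a b : F, a • (1 : Matrix ι ι F) + b • J = 0 → a = 0 ∧ b = 0) ∧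
      (∀ k ∈ K, ∃ a b : F, k = a • (1 : Matrix ι ι F) + b • J) ∧
      ∃ t N : F, J * J = t • J - N • (1 : Matrix ι ι F) ∧
        ∀ a b : F, a * a + t * a * b + N * b * b = 0 → a = 0 ∧ b = 0 := by
  classical
  obtain ⟨J, hJK, hJ⟩ : ∃ J ∈ K, ∀ a b : F, a • (1 : Matrix ι ι F) + b • J = 0 →
      a = 0 ∧ b = 0 := by
    by_contra hcon
    push Not at hcon
    have h1 : Subalgebra.toSubmodule K ≤ Submodule.span F {(1 : Matrix ι ι F)} := by
      intro k hk
      obtain ⟨a, b, e, hne⟩ := hcon k hk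
      have hb : b ≠ 0 := by
        intro hb
        rw [hb, zero_smul, add_zero] at e
        refine hne ?_ hb
        exact (smul_eq_zero.1 e).resolve_right one_ne_zero
      refine Submodule.mem_span_singleton.2 ⟨-a / b, ?_⟩
      calc (-a / b) • (1 : Matrix ι ι F) = b⁻¹ • ((-a) • 1) := by
            rw [smul_smul, div_eq_inv_mul]
        _ = b⁻¹ • (b • k) := by rw [eq_neg_of_add_eq_zero_right e, neg_smul]
        _ = k := by rw [smul_smul, inv_mul_cancel₀ hb, one_smul]
    have h2 := Submodule.finrank_mono h1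
    have h3 := finrank_range_le_card (R := F) (fun _ : Fin 1 => (1 : Matrix ι ι F))
    rw [Subalgebra.finrank_toSubmodule, hK.finrank_eq] at h2
    rw [Set.range_const, Set.finrank, Fintype.card_fin] at h3
    omega
  have hspan : ∀ k ∈ K, ∃ a b : F, k = a • (1 : Matrix ι ι F) + b • J := by
    intro k hk
    set P := Submodule.span F (Set.range ![(1 : Matrix ι ι F), J]) with hP
    have hli : LinearIndependent F ![(1 : Matrix ι ι F), J] := LinearIndependent.pair_iff.2 hJ
    have hle : P ≤ Subalgebra.toSubmodule K := Submodule.span_le.2 (by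
      rintro _ ⟨i, rfl⟩; fin_cases i <;> simp [hJK, K.one_mem])
    have e : P = Subalgebra.toSubmodule K := Submodule.eq_of_le_of_finrank_le hle (by
      rw [Subalgebra.finrank_toSubmodule, hK.finrank_eq, hP, finrank_span_eq_card hli,
        Fintype.card_fin])
    have hk' : k ∈ P := by rw [e]; exact hk
    obtain ⟨c, hc⟩ := (Submodule.mem_span_range_iff_exists_fun F).1 hk'
    exact ⟨c 0, c 1, by rw [← hc, Fin.sum_univ_two]; simp⟩
  obtain ⟨m, t, hJJ⟩ := hspan _ (K.mul_mem hJK hJK)
  refine ⟨J, hJK, hJ, hspan, t, -m, by rw [hJJ]; module, fun a b hab => ?_⟩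
  set x := a • (1 : Matrix ι ι F) + b • J with hx
  set y := (a + b * t) • (1 : Matrix ι ι F) + (-b) • J with hy
  have hxy : x * y = 0 := by
    rw [hx, hy]
    simp only [add_mul, mul_add, Matrix.smul_mul, Matrix.mul_smul, one_mul, mul_one, hJJ]
    linear_combination (norm := module) (congrArg (fun z : F => z • (1 : Matrix ι ι F)) hab)
  by_cases hx0 : x = 0
  · exact hJ a b hx0
  · obtain ⟨w, -, hw⟩ := hK.inv x (K.add_mem (K.smul_mem K.one_mem a) (K.smul_mem hJK b)) hx0
    have hwx : w * x = 1 := mul_eq_one_comm.1 hw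
    have hy0 : y = 0 := by rw [← one_mul y, ← hwx, mul_assoc, hxy, mul_zero]
    obtain ⟨h1, h2⟩ := hJ _ _ hy0
    rw [neg_eq_zero] at h2
    rw [h2, zero_mul, add_zero] at h1
    exact ⟨h1, h2⟩

/-- Normalising a quadratic field in terms of a generator. -/
lemma quadField_normalizer {J : Matrix ι ι F} (hJK : J ∈ K)
    (hspan : ∀ k ∈ K, ∃ a b : F, k = a • (1 : Matrix ι ι F) + b • J) (g : GL ι F) :
    g ∈ Cfsg.Geo.subalgebraNormalizer K ↔ ∃ a b : F, ∀ v, (g : Matrix ι ι F) *ᵥ (J *ᵥ v) =
      a • ((g : Matrix ι ι F) *ᵥ v) + b • (J *ᵥ ((g : Matrix ι ι F) *ᵥ v)) := by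
  have conj : ∀ a b : F, (∀ v : ι → F, (g : Matrix ι ι F) *ᵥ (J *ᵥ v) =
      a • ((g : Matrix ι ι F) *ᵥ v) + b • (J *ᵥ ((g : Matrix ι ι F) *ᵥ v))) ↔
      (g : Matrix ι ι F) * J * ((g⁻¹ : GL ι F) : Matrix ι ι F) = a • 1 + b • J := by
    intro a b
    constructor
    · intro h
      refine Matrix.ext_of_mulVec_single fun i => ?_
      rw [← Matrix.mulVec_mulVec, ← Matrix.mulVec_mulVec, h, Matrix.mulVec_mulVec,
        Units.mul_inv, Matrix.one_mulVec, Matrix.add_mulVec, Matrix.smul_mulVec,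
        Matrix.smul_mulVec, Matrix.one_mulVec]
    · intro h v
      have := congrArg (fun A => A *ᵥ ((g : Matrix ι ι F) *ᵥ v)) h
      simpa [Matrix.mulVec_mulVec, mul_assoc, Matrix.add_mulVec, Matrix.smul_mulVec, add_mul]
        using this
  simp only [conj]
  constructor
  · intro h
    exact hspan _ ((h J).1 hJK)
  · rintro ⟨a, b, h⟩ k
    have into : ∀ k ∈ K, (g : Matrix ι ι F) * k * ((g⁻¹ : GL ι F) : Matrix ι ι F) ∈ K := by
      intro k hk
      obtain ⟨x, y, rfl⟩ := hspan k hk
      rw [mul_add, Matrix.mul_smul, Matrix.mul_smul, add_mul, Matrix.smul_mul, Matrix.smul_mul,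
        h, mul_one, Units.mul_inv]
      exact K.add_mem (K.smul_mem K.one_mem _)
        (K.smul_mem (K.add_mem (K.smul_mem K.one_mem _) (K.smul_mem hJK _)) _)
    refine ⟨into k, fun hk => ?_⟩
    let f : Subalgebra.toSubmodule K →ₗ[F] Subalgebra.toSubmodule K :=
      { toFun := fun z => ⟨_, into z.1 z.2⟩
        map_add' := fun z z' => Subtype.ext (by simp [mul_add, add_mul])
        map_smul' := fun c z => Subtype.ext (by simp) }
    obtain ⟨⟨z, hz⟩, e⟩ := (f.injective_iff_surjective.1 fun z z' e => Subtype.ext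
      ((Units.mul_right_inj g).1 ((Units.mul_left_inj g⁻¹).1 (congrArg Subtype.val e)))) ⟨_, hk⟩
    have e' : z = k :=
      (Units.mul_right_inj g).1 ((Units.mul_left_inj g⁻¹).1 (congrArg Subtype.val e))
    exact e' ▸ hz

/-- The adjoint of a generator is its conjugate when the field is not self-adjoint. -/
lemma quadField_adjoint (hK : Cfsg.Geo.IsFieldSubalgebra 2 K)
    (B : LinearMap.BilinForm F (ι → F)) (hB : B.SeparatingRight) {J : Matrix ι ι F} (hJK : J ∈ K)
    (hspan : ∀ k ∈ K, ∃ a b : F, k = a • (1 : Matrix ι ι F) + b • J) {t N : F}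
    (hJJ : J * J = t • J - N • (1 : Matrix ι ι F))
    (hac : Cfsg.Geo.IsAdjointClosedFor (fun u v => B u v) K)
    (hnsa : ¬ Cfsg.Geo.IsSelfAdjointFor (fun u v => B u v) K) (u v : ι → F) :
    B (J *ᵥ u) v = t * B u v - B u (J *ᵥ v) := by
  obtain ⟨J', hJ'K, hJ'⟩ := hac J hJK
  simp only at hJ'
  have ext' : ∀ {A C : Matrix ι ι F}, (∀ u v, B u (A *ᵥ v) = B u (C *ᵥ v)) → A = C := by
    intro A C h
    refine Matrix.ext_of_mulVec_single fun i => sub_eq_zero.1 (hB _ fun u => ?_)
    rw [map_sub, h, sub_self]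
  have hsq' : J' * J' = t • J' - N • (1 : Matrix ι ι F) := ext' fun u v => by
    rw [← Matrix.mulVec_mulVec, ← hJ', ← hJ', Matrix.mulVec_mulVec, hJJ]
    simp only [Matrix.sub_mulVec, Matrix.smul_mulVec, Matrix.one_mulVec, map_sub, map_smul,
      LinearMap.sub_apply, LinearMap.smul_apply, hJ']
  have hJ't : J' = t • (1 : Matrix ι ι F) - J := by
    by_cases hx0 : J' - J = 0
    · refine absurd (fun k hk => ?_) hnsa
      obtain ⟨a, b, rfl⟩ := hspan k hk
      intro u v
      simp only [Matrix.add_mulVec, Matrix.smul_mulVec, Matrix.one_mulVec, map_add, map_smul,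
        LinearMap.add_apply, LinearMap.smul_apply, hJ', sub_eq_zero.1 hx0]
    · obtain ⟨w, -, hw⟩ := hK.inv _ (K.sub_mem hJ'K hJK) hx0
      have hwx : w * (J' - J) = 1 := mul_eq_one_comm.1 hw
      have h0 : (J' - J) * (J' + J - t • 1) = 0 := by
        simp only [sub_mul, mul_sub, mul_add, hsq', hJJ, hK.comm J hJK J' hJ'K, Matrix.mul_smul,
          mul_one]
        module
      have : J' + J - t • (1 : Matrix ι ι F) = 0 := by
        have e := congrArg (w * ·) h0
        simpa [← mul_assoc, hwx] using e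
      linear_combination (norm := module) this
  rw [hJ', hJ't, Matrix.sub_mulVec, Matrix.smul_mulVec, Matrix.one_mulVec, map_sub, map_smul,
    smul_eq_mul]

end Cfsg.Agent.Lib.Forms
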