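import Cfsg.Agent.Lib.Forms.Symplectic
import Cfsg.Agent.Lib.Forms.FieldLineBasic

/-!
The normaliser in a symplectic group of a field of prime degree with self-adjoint elements.

Among the images of lines over the field take one meeting another line in the largest possible
proper subspace. Conjugate root groups show this subspace to be a hyperplane, and then a
transvection appears.
-/

set_option autoImplicit false

namespace Cfsg.Agent.Lib.Forms

open Matrix

variable {ι : Type} [Fintype ι] [DecidableEq ι] {F : Type*} [Field F]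
  {B : LinearMap.BilinForm F (ι → F)}
  {L : Type*} [Field L] [Algebra F L] [Module L (ι → F)] [IsScalarTower F L (ι → F)]

/-- An alternating form which is the trace of an alternating form over a larger field. -/
structure SpExt (B : LinearMap.BilinForm F (ι → F)) (L : Type*) [Field L] [Algebra F L]
    [Module L (ι → F)] [IsScalarTower F L (ι → F)] where
  alt : B.IsAlt
  nd : B.Nondegenerate
  h : (ι → F) →ₗ[L] (ι → F) →ₗ[L] L
  h_alt : ∀ v, h v v = 0
  μ : L →ₗ[F] F
  hB : ∀ u v, B u v = μ (h u v)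
  μ_ne : μ ≠ 0
  prime : (Module.finrank F L).Prime

namespace SpExt

variable (S : SpExt B L)
include S

lemma comm (u v : ι → F) : S.h u v = - S.h v u := by
  have := S.h_alt (u + v)
  simp [S.h_alt] at this
  linear_combination this

lemma hB_smul (u v : ι → F) (k : L) : B u (k • v) = S.μ (k * S.h u v) := by
  rw [S.hB, map_smul, smul_eq_mul]

lemma exists_μ (t : F) : ∃ v, S.μ v = t := LinearMap.surjective S.μ_ne t

lemma μ_nd {x : L} (h : ∀ k, S.μ (k * x) = 0) : x = 0 := by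
  by_contra hx
  refine S.μ_ne (LinearMap.ext fun l => ?_)
  simpa [hx] using h (l / x)

lemma ext_μ {x y : L} (h : ∀ k, S.μ (k * x) = S.μ (k * y)) : x = y :=
  sub_eq_zero.1 (S.μ_nd fun k => by rw [mul_sub, map_sub, h, sub_self])

lemma h_nd {v : ι → F} (h : ∀ u, S.h u v = 0) : v = 0 :=
  S.nd.2 v fun u => by rw [S.hB, h, map_zero]

lemma exists_one {v : ι → F} (hv : v ≠ 0) : ∃ u, S.h u v = 1 := by
  by_contra hcon
  push Not at hcon
  refine hv (S.h_nd fun u => ?_)
  by_contra hu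
  exact hcon ((S.h u v)⁻¹ • u) (by rw [map_smul, LinearMap.smul_apply, smul_eq_mul, inv_mul_cancel₀ hu])

/-- A vector orthogonal to `e` and not to `u`. -/
lemma exists_sep {e u : ι → F} (he : e ≠ 0) (hu : ∀ k : L, u ≠ k • e) :
    ∃ d, S.h e d = 0 ∧ S.h u d = 1 := by
  obtain ⟨d₀, hd₀⟩ : ∃ d₀, S.h e d₀ = 1 := by
    obtain ⟨d, hd⟩ := S.exists_one he
    exact ⟨-d, by rw [map_neg, S.comm, hd, neg_neg]⟩
  by_contra hcon
  push Not at hcon
  refine hu (S.h u d₀) (sub_eq_zero.1 (S.h_nd fun x => ?_))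
  have h0 : S.h u (x - S.h e x • d₀) = 0 := by
    by_contra hne
    refine hcon ((S.h u (x - S.h e x • d₀))⁻¹ • (x - S.h e x • d₀)) ?_ ?_
    · simp [hd₀]
    · rw [map_smul, smul_eq_mul, inv_mul_cancel₀ hne]
  rw [map_sub, map_smul, smul_eq_mul] at h0
  rw [map_sub, map_smul, smul_eq_mul, S.comm x u, S.comm x e]
  linear_combination -h0

/-- A vector orthogonal to neither of two non-zero vectors. -/
lemma exists_both {u v : ι → F} (hu : u ≠ 0) (hv : v ≠ 0) :
    ∃ y, S.h u y ≠ 0 ∧ S.h v y ≠ 0 := by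
  obtain ⟨y₁, h1⟩ := S.exists_one hu
  obtain ⟨y₂, h2⟩ := S.exists_one hv
  have h1' : S.h u y₁ ≠ 0 := by rw [S.comm, h1]; simp
  have h2' : S.h v y₂ ≠ 0 := by rw [S.comm, h2]; simp
  by_cases c1 : S.h v y₁ = 0
  · by_cases c2 : S.h u y₂ = 0
    · exact ⟨y₁ + y₂, by rw [map_add, c2, add_zero]; exact h1',
        by rw [map_add, c1, zero_add]; exact h2'⟩
    · exact ⟨y₂, c2, h2'⟩
  · exact ⟨y₁, h1', c1⟩

/-- The root map with a given endomorphism of the field. -/
noncomputable def rootN (e : ι → F) (A : L →ₗ[F] L) : (ι → F) →ₗ[F] (ι → F) :=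
  lineMap e ∘ₗ A ∘ₗ (S.h.flip e).restrictScalars F

lemma rootN_apply (e : ι → F) (A : L →ₗ[F] L) (z : ι → F) :
    S.rootN e A z = A (S.h z e) • e := rfl

/-- The root element with a given endomorphism of the field. -/
noncomputable def eT (e : ι → F) (A : L →ₗ[F] L) : GL ι F := uni (S.rootN e A)

lemma eT_mulVec (e : ι → F) (A : L →ₗ[F] L) (z : ι → F) :
    (S.eT e A : Matrix ι ι F) *ᵥ z = z + A (S.h z e) • e :=
  uni_mulVec (fun v => by simp [rootN_apply, map_smul, S.h_alt]) z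

lemma eT_add (e : ι → F) (A A' : L →ₗ[F] L) : S.eT e (A + A') = S.eT e A * S.eT e A' := by
  refine gl_ext fun z => ?_
  rw [mul_mulVec', S.eT_mulVec, S.eT_mulVec, S.eT_mulVec]
  simp only [map_add, map_smul, LinearMap.add_apply, LinearMap.smul_apply, S.h_alt, smul_zero,
    add_zero, add_smul]
  abel

lemma eT_zero (e : ι → F) : S.eT e 0 = 1 :=
  gl_ext fun z => by simp [S.eT_mulVec]

/-- An isometry commuting with the field. -/
def Good (g : GL ι F) : Prop :=
  (∀ (k : L) (z : ι → F), (g : Matrix ι ι F) *ᵥ (k • z) = k • ((g : Matrix ι ι F) *ᵥ z)) ∧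
    ∀ x y, S.h ((g : Matrix ι ι F) *ᵥ x) ((g : Matrix ι ι F) *ᵥ y) = S.h x y

lemma good_mul {g g' : GL ι F} (hg : S.Good g) (hg' : S.Good g') : S.Good (g * g') :=
  ⟨fun k z => by rw [mul_mulVec', hg'.1, hg.1, mul_mulVec'],
    fun x y => by rw [mul_mulVec', mul_mulVec', hg.2, hg'.2]⟩

lemma good_iso {g : GL ι F} (hg : S.Good g) : g ∈ isoGroup B :=
  mem_isoGroup.2 fun u v => by rw [S.hB, S.hB, hg.2]

lemma good_T (e : ι → F) (c : L) : S.Good (S.eT e (LinearMap.mulLeft F c)) := by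
  refine ⟨fun k z => ?_, fun x y => ?_⟩
  · rw [S.eT_mulVec, S.eT_mulVec, map_smul, LinearMap.smul_apply, smul_eq_mul,
      LinearMap.mulLeft_apply, LinearMap.mulLeft_apply, smul_add, smul_smul]
    congr 2
    ring
  · rw [S.eT_mulVec, S.eT_mulVec]
    simp only [map_add, map_smul, LinearMap.add_apply, LinearMap.smul_apply, smul_eq_mul,
      LinearMap.mulLeft_apply, S.h_alt, S.comm e y]
    ring

lemma eT_conj {g : GL ι F} (hg : S.Good g) (e : ι → F) (A : L →ₗ[F] L) :
    g * S.eT e A * g⁻¹ = S.eT ((g : Matrix ι ι F) *ᵥ e) A := by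
  refine gl_ext fun z => ?_
  have e1 : S.h (((g⁻¹ : GL ι F) : Matrix ι ι F) *ᵥ z) e = S.h z ((g : Matrix ι ι F) *ᵥ e) := by
    rw [← hg.2, mulVec_inv_mulVec]
  rw [mul_mulVec', mul_mulVec', S.eT_mulVec, S.eT_mulVec, mulVec_add, hg.1, mulVec_inv_mulVec, e1]

/-- Root elements over the field are transitive on non-zero vectors. -/
lemma exists_move {M : Subgroup (GL ι F)}
    (hT : ∀ e c, S.eT e (LinearMap.mulLeft F c) ∈ M) {e e' : ι → F} (he : e ≠ 0) (he' : e' ≠ 0) :
    ∃ g ∈ M, S.Good g ∧ (g : Matrix ι ι F) *ᵥ e = e' := by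
  have step : ∀ x y : ι → F, S.h x y ≠ 0 →
      (S.eT (y - x) (LinearMap.mulLeft F (S.h x y)⁻¹) : Matrix ι ι F) *ᵥ x = y := by
    intro x y hxy
    rw [S.eT_mulVec, LinearMap.mulLeft_apply, map_sub, S.h_alt, sub_zero, inv_mul_cancel₀ hxy,
      one_smul]
    abel
  obtain ⟨y, h1, h2⟩ := S.exists_both he he'
  exact ⟨_, mul_mem (hT _ _) (hT _ _), S.good_mul (S.good_T (e' - y) (S.h y e')⁻¹)
    (S.good_T (y - e) (S.h e y)⁻¹), by
      rw [mul_mulVec', step e y h1, step y e' (by rw [S.comm]; simpa using h2)]⟩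

lemma root_move {M : Subgroup (GL ι F)} (hT : ∀ e c, S.eT e (LinearMap.mulLeft F c) ∈ M)
    {e e' : ι → F} (he : e ≠ 0) (he' : e' ≠ 0) {A : L →ₗ[F] L} (h : S.eT e A ∈ M) :
    S.eT e' A ∈ M := by
  obtain ⟨g, hg, hgood, rfl⟩ := S.exists_move hT he he'
  rw [← S.eT_conj hgood]
  exact mul_mem (mul_mem hg h) (inv_mem hg)

lemma eT_smul (e : ι → F) (u : L) (A : L →ₗ[F] L) :
    S.eT (u • e) A = S.eT e (LinearMap.mulLeft F u ∘ₗ A ∘ₗ LinearMap.mulLeft F u) :=
  gl_ext fun z => by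
    rw [S.eT_mulVec, S.eT_mulVec, map_smul, smul_smul, smul_eq_mul]
    simp [mul_comm]

section

variable [FiniteDimensional F L] {M : Subgroup (GL ι F)}
  (hT : ∀ e c, S.eT e (LinearMap.mulLeft F c) ∈ M)
include hT

omit [FiniteDimensional F L] in
lemma root_sub {e : ι → F} {A A' : L →ₗ[F] L} (h : S.eT e A ∈ M) (h' : S.eT e A' ∈ M) :
    S.eT e (A - A') ∈ M := by
  have := mul_mem h (inv_mem h')
  rwa [← eq_mul_inv_of_mul_eq (show S.eT e (A - A') * S.eT e A' = S.eT e A by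
    rw [← S.eT_add, sub_add_cancel])] at this

/-- Every linear functional on the field comes from the given one. -/
lemma exists_rep (π : L →ₗ[F] F) : ∃ p, ∀ k, π k = S.μ (p * k) := by
  have hT' := hT
  let Φ : L →ₗ[F] (L →ₗ[F] F) := LinearMap.compRight F S.μ ∘ₗ LinearMap.mul F L
  have hinj : Function.Injective Φ := fun x y e => S.ext_μ fun k => by
    have := congrArg (fun f => f k) e
    simpa [Φ, mul_comm] using this
  obtain ⟨p, hp⟩ := (LinearMap.injective_iff_surjective_of_finrank_eq_finrank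
    (Subspace.dual_finrank_eq (K := F) (V := L)).symm).1 hinj π
  exact ⟨p, fun k => by rw [← hp]; rfl⟩

/-- The configuration where a conjugate line meets a line in a hyperplane. -/
lemma exists_hyperplane {g₀ : GL ι F} (hg₀ : g₀ ∈ M) (hMiso : M ≤ isoGroup B) {a₀ : ι → F}
    {k₀ : L} (hbad : ∀ l : L, (g₀ : Matrix ι ι F) *ᵥ (k₀ • a₀) ≠ l • ((g₀ : Matrix ι ι F) *ᵥ a₀)) :
    ∃ g ∈ M, ∃ (a : ι → F) (σ : L) (p : L), a ≠ 0 ∧ σ ≠ 0 ∧ p ≠ 0 ∧
      (∀ k, S.h (((g⁻¹ : GL ι F) : Matrix ι ι F) *ᵥ (k • a)) a = algebraMap F L (S.μ (p * k)) * σ) ∧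
      ∀ ω : L, S.μ (p * ω) = 0 → ∃ w : L, (g : Matrix ι ι F) *ᵥ (w • a) = ω • a := by
  classical
  let P : ℕ → Prop := fun s => ∃ g ∈ M, ∃ a e : ι → F, a ≠ 0 ∧ e ≠ 0 ∧
    lineCap (L := L) g a e ≠ ⊥ ∧ lineCap (L := L) g a e ≠ ⊤ ∧
    Module.finrank F (lineCap (L := L) g a e) = s
  set r := Module.finrank F L with hr
  have ha₀ : a₀ ≠ 0 := fun e => hbad 0 (by rw [e]; simp)
  have hP : ∃ s ≤ r, P s := by
    refine ⟨_, Submodule.finrank_le _, g₀, hg₀, a₀, (g₀ : Matrix ι ι F) *ᵥ a₀, ha₀,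
      fun e => ha₀ (gl_mulVec_injective g₀ (by simp [e])), ?_, ?_, rfl⟩
    · intro e
      have : (1 : L) ∈ lineCap g₀ a₀ ((g₀ : Matrix ι ι F) *ᵥ a₀) :=
        mem_lineCap.2 ⟨1, by rw [one_smul, one_smul]⟩
      rw [e] at this
      simp at this
    · intro e
      have : k₀ ∈ lineCap g₀ a₀ ((g₀ : Matrix ι ι F) *ᵥ a₀) := e ▸ Submodule.mem_top
      obtain ⟨l, hl⟩ := mem_lineCap.1 this
      exact hbad l hl.symm
  obtain ⟨s₀, hs₀, hPs₀⟩ := hP
  set s := Nat.findGreatest P r with hs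
  obtain ⟨g₁, hg₁, a, e, ha, he, hbot, htop, hdim⟩ : P s := Nat.findGreatest_spec hs₀ hPs₀
  have hmax : ∀ g ∈ M, ∀ a e : ι → F, a ≠ 0 → e ≠ 0 → lineCap (L := L) g a e ≠ ⊥ →
      lineCap (L := L) g a e ≠ ⊤ → Module.finrank F (lineCap (L := L) g a e) ≤ s :=
    fun g hg a e ha he h1 h2 => Nat.le_findGreatest (Submodule.finrank_le _)
      ⟨g, hg, a, e, ha, he, h1, h2, rfl⟩
  -- move the line by a root element fixing the intersection
  obtain ⟨k₁, hk₁⟩ : ∃ k₁, k₁ ∉ lineCap (L := L) g₁ a e := by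
    by_contra hcon
    push Not at hcon
    exact htop (eq_top_iff.2 fun k _ => hcon k)
  obtain ⟨d, hed, hud⟩ := S.exists_sep he (u := (g₁ : Matrix ι ι F) *ᵥ (k₁ • a))
    fun l hl => hk₁ (mem_lineCap.2 ⟨l, hl.symm⟩)
  obtain ⟨c₁, hc₁⟩ := S.exists_μ 1
  set T := S.eT d (LinearMap.mulLeft F c₁) with hTdef
  set g := g₁⁻¹ * T * g₁ with hgdef
  have hg : g ∈ M := mul_mem (mul_mem (inv_mem hg₁) (hT _ _)) hg₁
  have hgi := mem_isoGroup.1 (hMiso hg)
  have hgc : ∀ k : L, (g : Matrix ι ι F) *ᵥ (k • a) = ((g₁⁻¹ : GL ι F) : Matrix ι ι F) *ᵥ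
      ((g₁ : Matrix ι ι F) *ᵥ (k • a) + (c₁ * S.h ((g₁ : Matrix ι ι F) *ᵥ (k • a)) d) • d) := by
    intro k
    rw [hgdef, mul_mulVec', mul_mulVec', hTdef, S.eT_mulVec, LinearMap.mulLeft_apply]
  have hpair : B ((g : Matrix ι ι F) *ᵥ (k₁ • a)) (k₁ • a) = -1 := by
    rw [← mem_isoGroup.1 (hMiso hg₁), hgc, mulVec_inv_mulVec, S.hB, map_add, LinearMap.add_apply,
      S.h_alt, zero_add, map_smul, LinearMap.smul_apply, hud, mul_one, smul_eq_mul, S.comm d,
      hud, mul_neg, mul_one, map_neg, hc₁]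
  set W0 := lineCap (L := L) g a a with hW0def
  have hle : lineCap g₁ a e ≤ W0 := fun k hk => by
    obtain ⟨l, hl⟩ := mem_lineCap.1 hk
    refine mem_lineCap.2 ⟨k, ?_⟩
    rw [hgc, ← hl, map_smul, LinearMap.smul_apply, hed, smul_zero, mul_zero, zero_smul, add_zero,
      hl, inv_mulVec_mulVec]
  have htop0 : W0 ≠ ⊤ := fun h => by
    obtain ⟨l, hl⟩ := mem_lineCap.1 (show k₁ ∈ W0 from h ▸ Submodule.mem_top)
    rw [← hl, S.hB_smul, map_smul, LinearMap.smul_apply, S.h_alt, smul_zero, mul_zero, map_zero]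
      at hpair
    simp at hpair
  have hbot0 : W0 ≠ ⊥ := fun h => hbot (eq_bot_iff.2 (h ▸ hle))
  have hs0 : Module.finrank F W0 = s := le_antisymm (hmax g hg a a ha ha hbot0 htop0)
    (hdim ▸ Submodule.finrank_mono hle)
  -- the pairing with the conjugate line
  let Z : L →ₗ[F] L := (S.h.flip a).restrictScalars F ∘ₗ
    Matrix.toLin' ((g⁻¹ : GL ι F) : Matrix ι ι F) ∘ₗ lineMap a
  have hZ : ∀ k, Z k = S.h (((g⁻¹ : GL ι F) : Matrix ι ι F) *ᵥ (k • a)) a := fun k => rfl
  have hZ1 : Z k₁ ≠ 0 := by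
    intro h
    rw [← mulVec_inv_mulVec g (k₁ • a), hgi, mulVec_inv_mulVec, S.hB, map_smul,
      LinearMap.smul_apply, S.comm a, ← hZ, h] at hpair
    simp at hpair
  have hker : Submodule.map (Matrix.toLin' (g : Matrix ι ι F) ∘ₗ lineMap a) W0 ≤
      Submodule.map (lineMap a) (LinearMap.ker Z) := by
    rintro _ ⟨k, hk, rfl⟩
    obtain ⟨l, hl⟩ := mem_lineCap.1 hk
    refine ⟨l, ?_, by simpa [lineMap_apply] using hl⟩
    rw [SetLike.mem_coe, LinearMap.mem_ker, hZ, hl, inv_mulVec_mulVec, map_smul,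
      LinearMap.smul_apply, S.h_alt, smul_zero]
  have hmap1 : Module.finrank F
      (Submodule.map (Matrix.toLin' (g : Matrix ι ι F) ∘ₗ lineMap a) W0) = s := by
    rw [← hs0]
    refine LinearEquiv.finrank_eq (Submodule.equivMapOfInjective _ ?_ _).symm
    exact (gl_mulVec_injective g).comp (lineMap_injective ha)
  have hmap2 : ∀ U : Submodule F L,
      Module.finrank F (Submodule.map (lineMap a) U) = Module.finrank F U := fun U =>
    LinearEquiv.finrank_eq (Submodule.equivMapOfInjective _ (lineMap_injective ha) _).symm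
  have hsker : s ≤ Module.finrank F (LinearMap.ker Z) := by
    have := Submodule.finrank_mono hker
    rwa [hmap1, hmap2] at this
  -- conjugates of root elements
  have cap : ∀ c, lineCap (g * S.eT a (LinearMap.mulLeft F c) * g⁻¹) a a =
      Submodule.comap (LinearMap.mulLeft F c ∘ₗ Z) W0 := by
    intro c
    ext k
    rw [mem_lineCap, Submodule.mem_comap, mem_lineCap, mul_mulVec', mul_mulVec', S.eT_mulVec,
      mulVec_add, mulVec_inv_mulVec]
    constructor
    · rintro ⟨l, hl⟩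
      exact ⟨l - k, by rw [sub_smul, hl]; simp [hZ]⟩
    · rintro ⟨l, hl⟩
      exact ⟨k + l, by rw [add_smul, hl]; simp [hZ]⟩
  have hbotC : ∀ c, LinearMap.ker Z ≤ Submodule.comap (LinearMap.mulLeft F c ∘ₗ Z) W0 :=
    fun c k hk => by
      rw [Submodule.mem_comap, LinearMap.comp_apply, LinearMap.mem_ker.1 hk, map_zero]
      exact W0.zero_mem
  have hkne : LinearMap.ker Z ≠ ⊥ := fun h => by
    rw [h, finrank_bot] at hsker
    rw [Nat.le_zero.1 hsker] at hdim
    exact hbot (Submodule.finrank_eq_zero.1 hdim)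
  have whole : ∀ c k, Z k ≠ 0 → c * Z k ∈ W0 → ∀ k', c * Z k' ∈ W0 := by
    intro c k hk hck k'
    by_contra hk'
    have h1 := hmax _ (mul_mem (mul_mem hg (hT a c)) (inv_mem hg)) a a ha ha
      (fun h => hkne (eq_bot_iff.2 ((hbotC c).trans (by rw [← cap, h]))))
      (fun h => hk' (by
        have : k' ∈ Submodule.comap (LinearMap.mulLeft F c ∘ₗ Z) W0 := by
          rw [← cap, h]; trivial
        simpa using this))
    rw [cap] at h1
    have h2 := Submodule.finrank_lt_finrank_of_lt (lt_of_le_of_ne (hbotC c) fun h => hk (by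
      have : k ∈ LinearMap.ker Z := by rw [h]; simpa using hck
      simpa using this))
    omega
  set σ := Z k₁ with hσdef
  have hline : ∀ k, ∃ t : F, Z k = algebraMap F L t * σ := by
    intro k
    obtain ⟨t, ht⟩ := scalar_of_stab F S.prime hbot0 htop0 (l := Z k / σ) fun w hw => by
      have := whole (w / σ) k₁ hZ1 (by rw [← hσdef, div_mul_cancel₀ _ hZ1]; exact hw) k
      rwa [show Z k / σ * w = w / σ * Z k by ring]
    exact ⟨t, by rw [ht, div_mul_cancel₀ _ hZ1]⟩
  obtain ⟨ξ, hξ⟩ : ∃ ξ : L →ₗ[F] F, ∀ k, Z k = algebraMap F L (ξ k) * σ := by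
    obtain ⟨φ, hφ⟩ := LinearMap.exists_leftInverse_of_injective
      (LinearMap.toSpanSingleton F L σ) (LinearMap.ker_eq_bot.2 (smul_left_injective F hZ1))
    refine ⟨φ ∘ₗ Z, fun k => ?_⟩
    obtain ⟨t, ht⟩ := hline k
    have e := LinearMap.congr_fun hφ t
    simp only [LinearMap.comp_apply, LinearMap.toSpanSingleton_apply, LinearMap.id_apply] at e
    show Z k = algebraMap F L (φ (Z k)) * σ
    rw [ht, ← Algebra.smul_def, e]
    exact Algebra.smul_def t σ
  obtain ⟨p, hp⟩ := S.exists_rep hT ξ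
  have hp0 : p ≠ 0 := fun h => hZ1 (by rw [hσdef, hξ, hp, h]; simp)
  have heq : Submodule.map (Matrix.toLin' (g : Matrix ι ι F) ∘ₗ lineMap a) W0 =
      Submodule.map (lineMap a) (LinearMap.ker Z) := by
    refine Submodule.eq_of_le_of_finrank_le hker ?_
    rw [hmap1, hmap2]
    obtain ⟨c, hc⟩ : ∃ c, c ∉ W0 := by
      by_contra hcon
      push Not at hcon
      exact htop0 (eq_top_iff.2 fun k _ => hcon k)
    have hck : ∀ k, c / σ * Z k ∈ W0 → k ∈ LinearMap.ker Z := by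
      intro k hk
      by_contra hk'
      have := whole (c / σ) k (by simpa using hk') hk k₁
      rw [← hσdef, div_mul_cancel₀ _ hZ1] at this
      exact hc this
    have h1 := hmax _ (mul_mem (mul_mem hg (hT a (c / σ))) (inv_mem hg)) a a ha ha
      (fun h => hkne (eq_bot_iff.2 ((hbotC _).trans (by rw [← cap, h]))))
      (fun h => hc (by
        have : k₁ ∈ Submodule.comap (LinearMap.mulLeft F (c / σ) ∘ₗ Z) W0 := by
          rw [← cap, h]; trivial
        rw [Submodule.mem_comap, LinearMap.comp_apply, LinearMap.mulLeft_apply, ← hσdef,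
          div_mul_cancel₀ _ hZ1] at this
        exact this))
    rw [cap] at h1
    exact (Submodule.finrank_mono (hbotC (c / σ))).trans h1
  refine ⟨g, hg, a, σ, p, ha, hZ1, hp0, fun k => by rw [← hZ, hξ, hp], fun ω hω => ?_⟩
  have : lineMap a ω ∈ Submodule.map (lineMap (L := L) a) (LinearMap.ker Z) :=
    ⟨ω, by simp [hξ, hp, hω], rfl⟩
  rw [← heq] at this
  obtain ⟨w, -, hw⟩ := this
  exact ⟨w, by simpa [lineMap_apply] using hw⟩

omit [FiniteDimensional F L] in
/-- The root elements obtained at a hyperplane configuration. -/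
lemma config_root {g : GL ι F} (hg : g ∈ M) (hMiso : M ≤ isoGroup B) {a : ι → F} {σ p : L}
    (ha : a ≠ 0) (hσ : σ ≠ 0) (hp : p ≠ 0)
    (hZ : ∀ k, S.h (((g⁻¹ : GL ι F) : Matrix ι ι F) *ᵥ (k • a)) a =
      algebraMap F L (S.μ (p * k)) * σ)
    (hW : ∀ ω : L, S.μ (p * ω) = 0 → ∃ w : L, (g : Matrix ι ι F) *ᵥ (w • a) = ω • a) {ω : L}
    (hω : S.μ (p * ω) = 0) (v : L) (A : L →ₗ[F] L)
    (hA : ∀ X, A X = S.μ (ω * X) • v + (S.μ (v * X) + S.μ (p * v) * S.μ (ω * X)) • ω) :
    S.eT a A ∈ M := by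
  obtain ⟨w, hw⟩ := hW ω hω
  set y := g * S.eT a (LinearMap.mulLeft F (w / σ)) * g⁻¹ with hy
  have hyM : y ∈ M := mul_mem (mul_mem hg (hT _ _)) (inv_mem hg)
  have hya : ∀ k : L, (y : Matrix ι ι F) *ᵥ (k • a) =
      (k + algebraMap F L (S.μ (p * k)) * ω) • a := by
    intro k
    rw [hy, mul_mulVec', mul_mulVec', S.eT_mulVec, mulVec_add, mulVec_inv_mulVec, hZ,
      LinearMap.mulLeft_apply, show w / σ * (algebraMap F L (S.μ (p * k)) * σ) =
        algebraMap F L (S.μ (p * k)) * w by field_simp, mul_smul, algebraMap_smul, mulVec_smul, hw,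
      add_smul, mul_smul, algebraMap_smul]
  set l := v / p with hl
  have key : y * S.eT a (LinearMap.mulLeft F l) * y⁻¹ =
      S.eT a (A + LinearMap.mulLeft F l) := by
    refine gl_ext fun z => ?_
    set X := S.h z a with hX
    have hY : S.h (((y⁻¹ : GL ι F) : Matrix ι ι F) *ᵥ z) a =
        X + algebraMap F L (S.μ (ω * X)) * p := by
      refine S.ext_μ fun k => ?_
      rw [← S.hB_smul, ← mem_isoGroup.1 (hMiso hyM), mulVec_inv_mulVec, hya, S.hB_smul, ← hX]
      simp only [← Algebra.smul_def, add_mul, mul_add, smul_mul_assoc, mul_smul_comm, map_add,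
        map_smul, smul_eq_mul, mul_comm p k]
      ring
    rw [mul_mulVec', mul_mulVec', S.eT_mulVec, S.eT_mulVec, mulVec_add, mulVec_inv_mulVec, hY,
      LinearMap.mulLeft_apply, hya, LinearMap.add_apply, LinearMap.mulLeft_apply, hA]
    congr 2
    simp only [← Algebra.smul_def, mul_add, mul_smul_comm, map_add, map_smul, smul_eq_mul,
      ← hX]
    rw [show p * (l * X) = v * X by rw [hl]; field_simp,
      show p * (l * p) = p * v by rw [hl]; field_simp, show l * p = v by rw [hl]; field_simp]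
    simp only [Algebra.smul_def, map_add, map_mul]
    ring
  have h := mul_mem (mul_mem hyM (hT a l)) (inv_mem hyM)
  rw [key] at h
  simpa using S.root_sub hT h (hT a l)

omit [FiniteDimensional F L] in
/-- A root element of rank one is a transvection. -/
lemma centre_of_root {a : ι → F} {ω : L}
    (h : ∀ t : F, ∃ A : L →ₗ[F] L, (∀ X, A X = (t * S.μ (ω * X)) • ω) ∧ S.eT a A ∈ M) :
    ω • a ∈ centres B M := by
  intro t
  obtain ⟨A, hA, hAM⟩ := h t
  convert hAM using 1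
  refine gl_ext fun z => ?_
  rw [sympT_mulVec S.alt, S.eT_mulVec, hA, S.hB_smul, smul_assoc]

/-- One centre gives all of the symplectic group. -/
lemma iso_le_of_centre (hn : B.Nondegenerate) {w : ι → F} (hw : w ≠ 0)
    (hwc : w ∈ centres B M) : isoGroup B ≤ M := by
  refine isoGroup_le_of_centres S.alt hn fun v => ?_
  rcases eq_or_ne v 0 with rfl | hv
  · simpa using smul_mem_centres S.alt 0 hwc
  obtain ⟨g, hg, hgood, rfl⟩ := S.exists_move hT hw hv
  exact mulVec_mem_centres S.alt hg (S.good_iso hgood) hwc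

end

end SpExt

end Cfsg.Agent.Lib.Forms
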