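import Cfsg.Agent.Lib.Forms.SympExtField

/-!
Transvections from a hyperplane configuration, and maximality of the field normaliser in the
symplectic group.
-/

set_option autoImplicit false

namespace Cfsg.Agent.Lib.Forms

open Matrix

variable {ι : Type} [Fintype ι] [DecidableEq ι] {F : Type*} [Field F]
  {B : LinearMap.BilinForm F (ι → F)}
  {L : Type*} [Field L] [Algebra F L] [Module L (ι → F)] [IsScalarTower F L (ι → F)]

namespace SpExt

variable (S : SpExt B L)
include S

/-- The symmetrised rank two map of two field elements. -/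
noncomputable def shMap (x y : L) : L →ₗ[F] L :=
  (S.μ ∘ₗ LinearMap.mulLeft F x).smulRight y + (S.μ ∘ₗ LinearMap.mulLeft F y).smulRight x

lemma shMap_apply (x y X : L) :
    S.shMap x y X = S.μ (x * X) • y + S.μ (y * X) • x := rfl

/-- The map of a hyperplane configuration. -/
noncomputable def dMap (p ω v : L) : L →ₗ[F] L :=
  S.shMap ω v + S.μ (p * v) • (S.μ ∘ₗ LinearMap.mulLeft F ω).smulRight ω

lemma dMap_apply (p ω v X : L) :
    S.dMap p ω v X = S.μ (ω * X) • v + (S.μ (v * X) + S.μ (p * v) * S.μ (ω * X)) • ω := by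
  rw [dMap, LinearMap.add_apply, shMap_apply, LinearMap.smul_apply, LinearMap.smulRight_apply,
    LinearMap.comp_apply, LinearMap.mulLeft_apply, add_smul, mul_smul]
  abel

/-- A short element twisted by a square. -/
noncomputable def shortT (a v : ι → F) (k : F) : GL ι F :=
  uni ((k • B.flip a + B.flip v).smulRight a + (B.flip a).smulRight v)

lemma shortT_mulVec {a v : ι → F} (hav : B a v = 0) (k : F) (z : ι → F) :
    (shortT (B := B) a v k : Matrix ι ι F) *ᵥ z = z + (k * B z a + B z v) • a + B z a • v := by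
  have hva : B v a = 0 := by rw [← S.alt.neg_eq a v, hav, neg_zero]
  rw [shortT, uni_mulVec fun w => by
    simp [hav, hva, S.alt.self_eq_zero]]
  simp [add_assoc]

lemma shortT_mul {a v v' : ι → F} (hv : B a v = 0) (hv' : B a v' = 0) (k k' : F) :
    shortT (B := B) a v k * shortT (B := B) a v' k' = shortT (B := B) a (v + v') (k + k' + B v' v) := by
  refine gl_ext fun z => ?_
  have hva : B v' a = 0 := by rw [← S.alt.neg_eq a v', hv', neg_zero]
  rw [mul_mulVec', S.shortT_mulVec hv', S.shortT_mulVec hv,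
    S.shortT_mulVec (by rw [map_add, hv, hv', add_zero])]
  simp only [map_add, map_smul, LinearMap.add_apply, LinearMap.smul_apply, smul_eq_mul,
    S.alt.self_eq_zero, hv, hva]
  module

lemma shortT_conj {a v : ι → F} (hav : B a v = 0) (k : F) {g : GL ι F} (hg : g ∈ isoGroup B) :
    g * shortT (B := B) a v k * g⁻¹ =
      shortT (B := B) ((g : Matrix ι ι F) *ᵥ a) ((g : Matrix ι ι F) *ᵥ v) k := by
  refine gl_ext fun z => ?_
  have e : ∀ w, B (((g⁻¹ : GL ι F) : Matrix ι ι F) *ᵥ z) w = B z ((g : Matrix ι ι F) *ᵥ w) :=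
    fun w => by rw [← mem_isoGroup.1 hg, mulVec_inv_mulVec]
  rw [mul_mulVec', mul_mulVec', S.shortT_mulVec hav,
    S.shortT_mulVec (by rw [mem_isoGroup.1 hg, hav])]
  simp only [mulVec_add, mulVec_smul, mulVec_inv_mulVec, e]

section

variable [FiniteDimensional F L] {M : Subgroup (GL ι F)}
  (hT : ∀ e c, S.eT e (LinearMap.mulLeft F c) ∈ M) (hMiso : M ≤ isoGroup B)
  {g : GL ι F} (hg : g ∈ M) {a : ι → F} {σ p : L} (ha : a ≠ 0) (hσ : σ ≠ 0) (hp : p ≠ 0)
  (hZ : ∀ k, S.h (((g⁻¹ : GL ι F) : Matrix ι ι F) *ᵥ (k • a)) a =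
    algebraMap F L (S.μ (p * k)) * σ)
  (hW : ∀ ω : L, S.μ (p * ω) = 0 → ∃ w : L, (g : Matrix ι ι F) *ᵥ (w • a) = ω • a)
include hT hMiso hg ha hσ hp hZ hW

omit [FiniteDimensional F L] in
lemma dMap_mem {ω : L} (hω : S.μ (p * ω) = 0) (v : L) : S.eT a (S.dMap p ω v) ∈ M :=
  S.config_root hT hg hMiso ha hσ hp hZ hW hω v _ (S.dMap_apply p ω v)

omit [FiniteDimensional F L] in
/-- Degree at least three. -/
lemma centre_three {ω : L} (hω : S.μ (p * ω) = 0) (hω0 : ω ≠ 0)
    (h3 : 3 ≤ Module.finrank F L) [FiniteDimensional F L] : ω • a ∈ centres B M := by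
  refine S.centre_of_root hT fun t => ?_
  obtain ⟨v, hv⟩ : ∃ v, S.μ (p * v) = t := by
    obtain ⟨v, hv⟩ := S.exists_μ t
    exact ⟨v / p, by rw [mul_div_cancel₀ _ hp, hv]⟩
  obtain ⟨v₁, hv₁⟩ : ∃ v, S.μ (p * v) = 1 := by
    obtain ⟨v, hv⟩ := S.exists_μ 1
    exact ⟨v / p, by rw [mul_div_cancel₀ _ hp, hv]⟩
  obtain ⟨s, hs, hs0⟩ : ∃ s : L, (S.μ (p * (ω * s)) = 0 ∧ S.μ (p * (v * s)) = 0) ∧ s ≠ 0 := by
    let f : L →ₗ[F] (F × F) := (S.μ ∘ₗ LinearMap.mulLeft F (p * ω)).prod
      (S.μ ∘ₗ LinearMap.mulLeft F (p * v))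
    have h1 := f.finrank_range_add_finrank_ker
    have h2 := Submodule.finrank_le (LinearMap.range f)
    rw [Module.finrank_prod, Module.finrank_self] at h2
    obtain ⟨s, hs, hs0⟩ := (LinearMap.ker f).exists_mem_ne_zero_of_ne_bot fun e => by
      rw [e, finrank_bot] at h1
      omega
    exact ⟨s, by simpa [f, mul_assoc] using hs, hs0⟩
  set ω₁ := ω * s
  set ω₂ := v * s
  have h12 : S.μ (p * (ω₁ + ω₂)) = 0 := by rw [mul_add, map_add, hs.1, hs.2, add_zero]
  have hsh : S.eT a (S.shMap ω₁ ω₂) ∈ M := by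
    have := S.root_sub hT (S.root_sub hT (S.dMap_mem hT hMiso hg ha hσ hp hZ hW h12 v₁)
      (S.dMap_mem hT hMiso hg ha hσ hp hZ hW hs.1 v₁))
      (S.dMap_mem hT hMiso hg ha hσ hp hZ hW hs.2 v₁)
    convert this using 2
    refine LinearMap.ext fun X => ?_
    simp only [LinearMap.sub_apply, dMap_apply, shMap_apply, hv₁, add_mul, map_add]
    module
  have hsh' : S.eT a (S.shMap ω v) ∈ M := by
    have := S.root_move hT ha (e' := s⁻¹ • a) (smul_ne_zero (inv_ne_zero hs0) ha) hsh
    rw [S.eT_smul] at this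
    convert this using 2
    refine LinearMap.ext fun X => ?_
    simp only [LinearMap.comp_apply, LinearMap.mulLeft_apply, shMap_apply, mul_add,
      mul_smul_comm, ω₁, ω₂]
    rw [show ω * s * (s⁻¹ * X) = ω * X by field_simp, show v * s * (s⁻¹ * X) = v * X by field_simp,
      show s⁻¹ * (v * s) = v by field_simp, show s⁻¹ * (ω * s) = ω by field_simp]
  refine ⟨S.dMap p ω v - S.shMap ω v, fun X => ?_,
    S.root_sub hT (S.dMap_mem hT hMiso hg ha hσ hp hZ hW hω v) hsh'⟩
  rw [LinearMap.sub_apply, dMap_apply, shMap_apply, hv]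
  module

omit [FiniteDimensional F L] in
/-- At least three scalars. -/
lemma centre_big {ω : L} (hω : S.μ (p * ω) = 0) {s : F} (hs0 : s ≠ 0) (hs1 : s ≠ 1) :
    ω • a ∈ centres B M := by
  refine S.centre_of_root hT fun t => ?_
  obtain ⟨v, hv⟩ : ∃ v, S.μ (p * v) = t / (s * s - s) := by
    obtain ⟨v, hv⟩ := S.exists_μ (t / (s * s - s))
    exact ⟨v / p, by rw [mul_div_cancel₀ _ hp, hv]⟩
  have hne : s * s - s ≠ 0 := by
    rw [show s * s - s = s * (s - 1) by ring]
    exact mul_ne_zero hs0 (sub_ne_zero.2 hs1)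
  refine ⟨S.dMap p (s • ω) v - S.dMap p ω (s • v), fun X => ?_, S.root_sub hT
    (S.dMap_mem hT hMiso hg ha hσ hp hZ hW (by rw [mul_smul_comm, map_smul, hω, smul_zero]) v)
    (S.dMap_mem hT hMiso hg ha hσ hp hZ hW hω (s • v))⟩
  simp only [LinearMap.sub_apply, dMap_apply, mul_smul_comm, smul_mul_assoc, map_smul, smul_eq_mul,
    hv]
  match_scalars <;> field_simp <;> ring

/-- Two scalars and degree two. -/
lemma centre_small {ω : L} (hω : S.μ (p * ω) = 0) (hω0 : ω ≠ 0) (h2 : Module.finrank F L = 2)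
    (hq : ∀ x : F, x = 0 ∨ x = 1) (hdim : 14 ≤ Fintype.card ι) : ω • a ∈ centres B M := by
  classical
  have one_of : ∀ x : F, x ≠ 0 → x = 1 := fun x hx => (hq x).resolve_left hx
  have two : (2 : F) = 0 := by
    by_contra hne
    exact one_ne_zero (α := F) (by linear_combination one_of 2 hne)
  obtain ⟨w, hw⟩ := hW ω hω
  have hw0 : w ≠ 0 := fun e => hω0 (by
    rw [e, zero_smul, mulVec_zero] at hw
    exact (smul_eq_zero.1 hw.symm).resolve_right ha)
  obtain ⟨v₁, hv₁⟩ : ∃ v, S.μ (p * v) = 1 := by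
    obtain ⟨v, hv⟩ := S.exists_μ 1
    exact ⟨v / p, by rw [mul_div_cancel₀ _ hp, hv]⟩
  set u := (g : Matrix ι ι F) *ᵥ ((w / ω * v₁) • a) with hu
  set a' := ω • a with ha'
  have hgi := mem_isoGroup.1 (hMiso hg)
  have hau : B a' u = 0 := by
    rw [hu, ← hw, hgi, S.hB_smul, map_smul, LinearMap.smul_apply, S.h_alt, smul_zero,
      mul_zero, map_zero]
  have hK : shortT (B := B) a' u 1 ∈ M := by
    have h1 := S.root_move hT ha (e' := (w / ω) • a) (smul_ne_zero (div_ne_zero hw0 hω0) ha)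
      (S.dMap_mem hT hMiso hg ha hσ hp hZ hW hω v₁)
    have h2 := mul_mem (mul_mem hg h1) (inv_mem hg)
    convert h2 using 1
    refine gl_ext fun z => ?_
    set X := S.h (((g⁻¹ : GL ι F) : Matrix ι ι F) *ᵥ z) a with hX
    have e1 : S.μ (ω * (w / ω * X)) = B z a' := by
      rw [show ω * (w / ω * X) = w * X by field_simp, hX, ← S.hB_smul, ← hgi, mulVec_inv_mulVec,
        hw]
    have e2 : S.μ (v₁ * (w / ω * X)) = B z u := by
      rw [hu, show v₁ * (w / ω * X) = (w / ω * v₁) * X by ring, hX, ← S.hB_smul, ← hgi,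
        mulVec_inv_mulVec]
    rw [mul_mulVec', mul_mulVec', S.eT_mulVec, mulVec_add, mulVec_inv_mulVec, dMap_apply,
      map_smul, smul_eq_mul, ← hX, e1, e2, hv₁, S.shortT_mulVec hau]
    simp only [add_smul, smul_assoc, smul_smul ω, smul_smul v₁, mulVec_add, mulVec_smul]
    rw [show ω * (w / ω) = w by field_simp, show v₁ * (w / ω) = w / ω * v₁ by ring, hw, ← hu]
    module
  -- the vector `u` is outside the line
  have hua : ∀ k : L, u ≠ k • a' := by
    intro k hk
    rw [ha', smul_smul] at hk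
    have h0 : S.μ (p * (k * ω)) = 0 := by
      have := hZ (k * ω)
      rw [← hk, hu, inv_mulVec_mulVec, map_smul, LinearMap.smul_apply, S.h_alt, smul_zero] at this
      exact (algebraMap F L).injective (by
        rw [(mul_eq_zero.1 this.symm).resolve_right hσ, map_zero])
    have hli : LinearIndependent F ![ω, v₁] := LinearIndependent.pair_iff.2 fun s t e => by
      have ht : t = 0 := by
        have := congrArg (fun z => S.μ (p * z)) e
        simpa [mul_add, mul_smul_comm, hω, hv₁] using this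
      rw [ht, zero_smul, add_zero] at e
      exact ⟨(smul_eq_zero.1 e).resolve_right hω0, ht⟩
    have htop := hli.span_eq_top_of_card_eq_finrank (by simp [h2])
    obtain ⟨c, hc⟩ := (Submodule.mem_span_range_iff_exists_fun F).1
      (htop ▸ Submodule.mem_top : k * ω ∈ Submodule.span F (Set.range ![ω, v₁]))
    simp [Fin.sum_univ_two] at hc
    have hc1 : c 1 = 0 := by
      have := congrArg (fun z => S.μ (p * z)) hc
      simpa [mul_add, mul_smul_comm, hω, hv₁, h0] using this
    rw [hc1, zero_smul, add_zero] at hc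
    rw [← hc, smul_assoc, ← ha', ← hw, hu, ← mulVec_smul, ← smul_assoc] at hk
    have e : w / ω * v₁ = c 0 • w := lineMap_injective (F := F) ha (gl_mulVec_injective g hk)
    have e2 : w / ω * v₁ = w / ω * (c 0 • ω) := by
      rw [e, mul_smul_comm, div_mul_cancel₀ _ hω0]
    have e3 := mul_left_cancel₀ (div_ne_zero hw0 hω0) e2
    rw [e3, mul_smul_comm, map_smul, hω, smul_zero] at hv₁
    exact zero_ne_one hv₁
  -- translates of `u`
  have hSig : ∀ x, S.h a' x = 0 → S.h u x ≠ 0 → shortT (B := B) a' (u + x) 1 ∈ M := by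
    intro x hax hux
    have hTm := hT x (S.h u x)⁻¹
    have h1 := mul_mem (mul_mem hTm hK) (inv_mem hTm)
    rwa [S.shortT_conj hau 1 (hMiso hTm), S.eT_mulVec, S.eT_mulVec, hax,
      LinearMap.mulLeft_apply, LinearMap.mulLeft_apply, mul_zero, zero_smul, add_zero,
      inv_mul_cancel₀ hux, one_smul] at h1
  have ha'0 : a' ≠ 0 := smul_ne_zero hω0 ha
  obtain ⟨d, had, hud⟩ := S.exists_sep ha'0 hua
  obtain ⟨ω₀, hω₀⟩ : ∃ ω₀ : L, ∀ c : F, ω₀ ≠ algebraMap F L c := by
    by_contra hcon
    push Not at hcon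
    have hle : (⊤ : Submodule F L) ≤ F ∙ (1 : L) := fun l _ => by
      obtain ⟨c, rfl⟩ := hcon l
      exact Submodule.mem_span_singleton.2 ⟨c, by rw [Algebra.smul_def, mul_one]⟩
    have := Submodule.finrank_mono hle
    rw [finrank_top, finrank_span_singleton one_ne_zero, h2] at this
    omega
  -- a hyperbolic pair orthogonal to `a'`, `u` and `d`
  obtain ⟨x₀, x₀', hx, hx', hxx⟩ : ∃ x₀ x₀', (S.h a' x₀ = 0 ∧ S.h u x₀ = 0 ∧ S.h d x₀ = 0) ∧
      (S.h a' x₀' = 0 ∧ S.h u x₀' = 0 ∧ S.h d x₀' = 0) ∧ S.μ (S.h x₀ x₀') = 1 := by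
    haveI : Module.Finite L (ι → F) := Module.Finite.of_restrictScalars_finite F L _
    set vs : Fin 3 → ι → F := ![a', u, d] with hvs
    set f : (ι → F) →ₗ[L] (Fin 3 → L) := LinearMap.pi fun i => S.h (vs i) with hf
    have hV : 7 ≤ Module.finrank L (ι → F) := by
      have := Module.finrank_mul_finrank F L (ι → F)
      rw [h2, Module.finrank_fintype_fun_eq_card] at this
      omega
    have h1 := f.finrank_range_add_finrank_ker
    have h3 := Submodule.finrank_le (LinearMap.range f)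
    rw [Module.finrank_fin_fun] at h3
    obtain ⟨x₀, hx₀, hx₀'⟩ : ∃ x ∈ LinearMap.ker f, x ∉ Submodule.span L (Set.range vs) := by
      by_contra hcon
      push Not at hcon
      have h4 := Submodule.finrank_mono (show LinearMap.ker f ≤ _ from hcon)
      have h5 : Module.finrank L (Submodule.span L (Set.range vs)) ≤ 3 :=
        (finrank_range_le_card vs).trans (by simp)
      omega
    obtain ⟨y, hy, hxy⟩ : ∃ y ∈ LinearMap.ker f, S.h x₀ y ≠ 0 := by
      by_contra hcon
      push Not at hcon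
      refine hx₀' ?_
      have key : (S.h x₀ : (ι → F) →ₗ[L] L) ∈
          Submodule.span L (Set.range fun i => (S.h (vs i) : (ι → F) →ₗ[L] L)) := by
        refine mem_span_of_iInf_ker_le_ker fun v hv => ?_
        rw [Submodule.mem_iInf] at hv
        rw [LinearMap.mem_ker]
        exact hcon v (by simpa [hf, funext_iff] using hv)
      rw [show (Set.range fun i => (S.h (vs i) : (ι → F) →ₗ[L] L)) = S.h '' Set.range vs by
        rw [← Set.range_comp]; rfl, ← Submodule.map_span] at key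
      obtain ⟨z, hz, hzx⟩ := key
      suffices e : z = x₀ by rwa [e] at hz
      refine sub_eq_zero.1 (S.h_nd fun v => ?_)
      rw [map_sub, S.comm v z, S.comm v x₀, hzx, sub_self]
    obtain ⟨c, hc⟩ := S.exists_μ 1
    have hy' : (c / S.h x₀ y) • y ∈ LinearMap.ker f := Submodule.smul_mem _ _ hy
    simp only [LinearMap.mem_ker, hf, funext_iff, LinearMap.pi_apply] at hx₀ hy'
    exact ⟨x₀, (c / S.h x₀ y) • y, ⟨hx₀ 0, hx₀ 1, hx₀ 2⟩, ⟨hy' 0, hy' 1, hy' 2⟩,
      by rw [map_smul, smul_eq_mul, div_mul_cancel₀ _ hxy, hc]⟩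
  set x := x₀ + d with hxdef
  set x' := x₀' + ω₀ • d with hx'def
  have e1 : S.h a' x = 0 := by rw [hxdef, map_add, hx.1, had, add_zero]
  have e1' : S.h a' x' = 0 := by simp [hx'def, hx'.1, had]
  have e2 : S.h u x = 1 := by rw [hxdef, map_add, hx.2.1, hud, zero_add]
  have e2' : S.h u x' = ω₀ := by simp [hx'def, hx'.2.1, hud]
  have hxx' : B x x' = 1 := by
    rw [S.hB, hxdef, hx'def]
    simp only [map_add, map_smul, LinearMap.add_apply, LinearMap.smul_apply, smul_eq_mul,
      S.h_alt, S.comm x₀ d, hx.2.2, hx'.2.2, mul_zero, neg_zero, add_zero, map_zero]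
    exact hxx
  have ne1 : S.h u x ≠ 0 := by rw [e2]; exact one_ne_zero
  have ne2 : S.h u x' ≠ 0 := by rw [e2']; exact fun e => hω₀ 0 (by rw [e, map_zero])
  have ne3 : S.h u (x + x') ≠ 0 := by
    rw [map_add, e2, e2']
    exact fun e => hω₀ (-1) (by rw [map_neg, map_one]; linear_combination e)
  have hB0 : ∀ y, S.h a' y = 0 → B a' y = 0 := fun y hy => by rw [S.hB, hy, map_zero]
  have hb1 : B a' (u + x) = 0 := by rw [map_add, hau, hB0 x e1, add_zero]
  have hb2 : B a' (u + x') = 0 := by rw [map_add, hau, hB0 x' e1', add_zero]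
  have e3 : S.h a' (x + x') = 0 := by rw [map_add, e1, e1', add_zero]
  have hb3 : B a' (u + (x + x')) = 0 := by rw [map_add, hau, hB0 _ e3, add_zero]
  have prod := mul_mem (mul_mem (mul_mem hK (hSig x e1 ne1)) (hSig x' e1' ne2)) (hSig (x + x') e3 ne3)
  rw [S.shortT_mul hau hb1, S.shortT_mul (by rw [map_add, hau, hb1, add_zero]) hb2,
    S.shortT_mul (by rw [map_add, map_add, hau, hb1, hb2, add_zero, add_zero]) hb3] at prod
  intro t
  rcases hq t with rfl | rfl
  · convert M.one_mem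
    exact gl_ext fun z => by simp [sympT_mulVec S.alt]
  convert prod using 1
  have hcm : ∀ y z : ι → F, B y z = - B z y := fun y z => (S.alt.neg_eq z y).symm
  have hx'x : B x' x = -1 := by rw [hcm, hxx']
  refine gl_ext fun z => ?_
  rw [sympT_mulVec S.alt, S.shortT_mulVec (by
    rw [map_add, map_add, map_add, hau, hb1, hb2, hb3, add_zero, add_zero, add_zero])]
  simp only [map_add, LinearMap.add_apply, S.alt.self_eq_zero, hcm x u, hcm x' u, hxx', hx'x,
    ← ha']
  have n2 : ∀ y : F, y * 2 = 0 := fun y => by rw [two, mul_zero]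
  have n3 : ∀ y : F, y * 3 = y := fun y => by linear_combination y * two
  have n4 : ∀ y : F, y * 4 = 0 := fun y => by linear_combination 2 * y * two
  clear_value x x' u a'
  match_scalars <;> ring_nf <;> simp [n2, n3, n4]

end

/-- The normaliser of the field is maximal. -/
theorem maximal [FiniteDimensional F L] [Nonempty ι]
    (hdim : 3 ≤ Module.finrank F L ∨ (∃ s : F, s ≠ 0 ∧ s ≠ 1) ∨ 14 ≤ Fintype.card ι) {H : Subgroup (GL ι F)}
    (hH : H ≤ isoGroup B)
    (hmem : ∀ g ∈ isoGroup B, (g ∈ H ↔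
      ∀ (a : ι → F) (k : L), ∃ l : L, (g : Matrix ι ι F) *ᵥ (k • a) =
        l • ((g : Matrix ι ι F) *ᵥ a))) :
    Cfsg.Geo.IsMaximalIn (isoGroup B) H := by
  classical
  refine isMaximalIn_of hH ?_ fun M hle hM g₀ hg₀ hgn => ?_
  · obtain ⟨c, hc⟩ := S.exists_μ 1
    obtain ⟨x, hx0⟩ : ∃ x : ι → F, x ≠ 0 := by
      exact exists_ne 0
    obtain ⟨a, ha⟩ := S.exists_one hx0
    refine ⟨sympT B x 1, sympT_mem S.alt _ _, fun hin => ?_⟩
    obtain ⟨k₀, hk₀, hk0⟩ := (LinearMap.ker S.μ).exists_mem_ne_zero_of_ne_bot fun e => by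
      have h1 := S.μ.finrank_range_add_finrank_ker
      have h2 := Submodule.finrank_le (LinearMap.range S.μ)
      rw [e, finrank_bot] at h1
      rw [Module.finrank_self] at h2
      have := S.prime.two_le
      omega
    have hTk : ∀ k : L, (sympT B x 1 : Matrix ι ι F) *ᵥ (k • a) = k • a + S.μ k • x := by
      intro k
      rw [sympT_mulVec S.alt, one_mul, S.hB, map_smul, LinearMap.smul_apply, ha, smul_eq_mul,
        mul_one]
    have hxa : S.h x a = -1 := by rw [S.comm, ha]
    have hT1 := hTk 1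
    rw [one_smul] at hT1
    by_cases h1 : S.μ 1 = 0
    · obtain ⟨l, hl⟩ := (hmem _ (sympT_mem S.alt _ _)).1 hin a c
      rw [hTk, hc, hT1, h1, zero_smul, add_zero, one_smul] at hl
      have := congrArg (fun z => S.h z a) hl
      simp only [map_add, map_smul, LinearMap.add_apply, LinearMap.smul_apply, S.h_alt, hxa,
        smul_zero, zero_add] at this
      exact one_ne_zero (neg_eq_zero.1 this)
    · obtain ⟨l, hl⟩ := (hmem _ (sympT_mem S.alt _ _)).1 hin a k₀
      rw [hTk, LinearMap.mem_ker.1 hk₀, zero_smul, add_zero, hT1, ← algebraMap_smul L (S.μ 1) x]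
        at hl
      have h3 := congrArg (fun z => S.h z a) hl
      have h4 := congrArg (fun z => S.h z x) hl
      simp only [map_add, map_smul, LinearMap.add_apply, LinearMap.smul_apply, S.h_alt, hxa, ha,
        smul_zero, smul_eq_mul, zero_add, add_zero, mul_one, mul_zero] at h3 h4
      have hne : algebraMap F L (S.μ 1) ≠ 0 := by simpa using h1
      have hl0 : l = 0 := by
        have e := h3.symm
        simp only [mul_neg, neg_eq_zero, mul_eq_zero, one_ne_zero, or_false] at e
        simpa [hne] using e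
      exact hk0 (by rw [h4, hl0])
  · have hT : ∀ e c, S.eT e (LinearMap.mulLeft F c) ∈ M := fun e c => by
      have hgood := S.good_T e c
      refine hle ((hmem _ (S.good_iso hgood)).2 fun a k => ⟨k, hgood.1 k a⟩)
    obtain ⟨a₀, k₀, hbad⟩ : ∃ (a₀ : ι → F) (k₀ : L), ∀ l : L,
        (g₀ : Matrix ι ι F) *ᵥ (k₀ • a₀) ≠ l • ((g₀ : Matrix ι ι F) *ᵥ a₀) := by
      by_contra hcon
      push Not at hcon
      exact hgn ((hmem g₀ (hM hg₀)).2 hcon)
    obtain ⟨g, hg, a, σ, p, ha, hσ, hp, hZ, hW⟩ := S.exists_hyperplane hT hg₀ hM hbad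
    obtain ⟨ω, hω, hω0⟩ : ∃ ω, S.μ (p * ω) = 0 ∧ ω ≠ 0 := by
      obtain ⟨k, hk, hk0⟩ := (LinearMap.ker (S.μ ∘ₗ LinearMap.mulLeft F p)
        ).exists_mem_ne_zero_of_ne_bot fun e => by
          have h1 := (S.μ ∘ₗ LinearMap.mulLeft F p).finrank_range_add_finrank_ker
          have h2 := Submodule.finrank_le (LinearMap.range (S.μ ∘ₗ LinearMap.mulLeft F p))
          rw [e, finrank_bot] at h1
          rw [Module.finrank_self] at h2
          have := S.prime.two_le
          omega
      exact ⟨k, by simpa using hk, hk0⟩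
    refine S.iso_le_of_centre hT S.nd (smul_ne_zero hω0 ha) ?_
    rcases le_or_gt 3 (Module.finrank F L) with h3 | h3
    · exact S.centre_three hT hM hg ha hσ hp hZ hW hω hω0 h3
    by_cases hs : ∃ s : F, s ≠ 0 ∧ s ≠ 1
    · obtain ⟨s, hs0, hs1⟩ := hs
      exact S.centre_big hT hM hg ha hσ hp hZ hW hω hs0 hs1
    have h14 : 14 ≤ Fintype.card ι :=
      (hdim.resolve_left (by omega)).resolve_left hs
    push Not at hs
    exact S.centre_small hT hM hg ha hσ hp hZ hW hω hω0 (by have := S.prime.two_le; omega)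
      (fun x => or_iff_not_imp_left.2 (hs x)) h14

end SpExt

end Cfsg.Agent.Lib.Forms

namespace Cfsg.Agent.Lib.Forms

open Matrix

variable {ι : Type} [Fintype ι] [DecidableEq ι] {F : Type*} [Field F]

/-- Maximality for a field of self-adjoint matrices given by an embedding. -/
theorem sympExtField_maximal {L : Type*} [Field L] [Algebra F L] (φ : L →ₐ[F] Matrix ι ι F)
    (hp : (Module.finrank F L).Prime) {B : LinearMap.BilinForm F (ι → F)} (hA : B.IsAlt)
    (hnd : B.Nondegenerate) (hsa : ∀ (k : L) x y, B (φ k *ᵥ x) y = B x (φ k *ᵥ y))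
    (halt : ∀ (k : L) v, B (φ k *ᵥ v) v = 0) [Nonempty ι]
    (hdim : 3 ≤ Module.finrank F L ∨ (∃ s : F, s ≠ 0 ∧ s ≠ 1) ∨ 14 ≤ Fintype.card ι) :
    (∀ a : ι → F, ∃ b, ∀ k : L, b ≠ φ k *ᵥ a) ∧
      ∀ H : Subgroup (GL ι F), H ≤ isoGroup B →
        (∀ g ∈ isoGroup B, (g ∈ H ↔ ∀ (a : ι → F) (k : L), ∃ l : L,
          (g : Matrix ι ι F) *ᵥ (φ k *ᵥ a) = φ l *ᵥ ((g : Matrix ι ι F) *ᵥ a))) →
        Cfsg.Geo.IsMaximalIn (isoGroup B) H := by
  classical
  haveI : FiniteDimensional F L := Module.finite_of_finrank_pos hp.pos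
  letI : Module L (ι → F) := Module.compHom (ι → F)
    (((Matrix.toLinAlgEquiv' : Matrix ι ι F ≃ₐ[F] _).toAlgHom.comp φ).toRingHom)
  have hsm : ∀ (k : L) (v : ι → F), k • v = φ k *ᵥ v := fun k v => rfl
  haveI : IsScalarTower F L (ι → F) := ⟨fun c k v => by
    rw [hsm, hsm, map_smul, Matrix.smul_mulVec]⟩
  obtain ⟨μ, hμ1⟩ := LinearMap.exists_leftInverse_of_injective
    (LinearMap.toSpanSingleton F L 1) (LinearMap.ker_eq_bot.2 (smul_left_injective F one_ne_zero))
  have hμ : μ ≠ 0 := fun e => by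
    have := LinearMap.congr_fun hμ1 1
    simp [e] at this
  let Φ : L →ₗ[F] (L →ₗ[F] F) := LinearMap.compRight F μ ∘ₗ LinearMap.mul F L
  have hΦ : ∀ a k, Φ a k = μ (a * k) := fun a k => rfl
  have hinj : Function.Injective Φ := fun x y e => by
    by_contra hne
    refine hμ (LinearMap.ext fun l => ?_)
    have := congrArg (fun f => f (l / (x - y))) e
    simp only [hΦ] at this
    rw [← sub_eq_zero, ← map_sub, ← sub_mul, mul_div_cancel₀ _ (sub_ne_zero.2 hne)] at this
    simpa using this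
  let E := LinearEquiv.ofBijective Φ ⟨hinj,
    (LinearMap.injective_iff_surjective_of_finrank_eq_finrank
      (Subspace.dual_finrank_eq (K := F) (V := L)).symm).1 hinj⟩
  let pr : (ι → F) → (ι → F) → (L →ₗ[F] F) := fun x y =>
    { toFun := fun k => B (k • x) y
      map_add' := fun k l => by rw [add_smul, map_add, LinearMap.add_apply]
      map_smul' := fun c k => by rw [smul_assoc, map_smul, LinearMap.smul_apply]; rfl }
  have hE : ∀ x y (k : L), μ (E.symm (pr x y) * k) = B (k • x) y := fun x y k => by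
    rw [← hΦ, show Φ (E.symm (pr x y)) = pr x y from E.apply_symm_apply (pr x y)]
    rfl
  have hext : ∀ a b : L, (∀ k, μ (a * k) = μ (b * k)) → a = b := fun a b h =>
    hinj (LinearMap.ext fun k => by rw [hΦ, hΦ, h])
  have hadj : ∀ (k : L) x y, B (k • x) y = B x (k • y) := hsa
  let h : (ι → F) →ₗ[L] (ι → F) →ₗ[L] L :=
    LinearMap.mk₂ L (fun x y => E.symm (pr x y))
      (fun x x' y => hext _ _ fun k => by
        rw [hE, add_mul, map_add μ, hE, hE, smul_add, map_add, LinearMap.add_apply])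
      (fun l x y => hext _ _ fun k => by
        rw [hE, smul_eq_mul, show l * E.symm (pr x y) * k = E.symm (pr x y) * (k * l) by ring, hE,
          mul_smul])
      (fun x y y' => hext _ _ fun k => by
        rw [hE, add_mul, map_add μ, hE, hE, map_add])
      (fun l x y => hext _ _ fun k => by
        rw [hE, smul_eq_mul, show l * E.symm (pr x y) * k = E.symm (pr x y) * (l * k) by ring, hE,
          ← hadj, smul_smul])
  let S : SpExt B L :=
    { alt := hA
      nd := hnd
      h := h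
      h_alt := fun v => hext _ _ fun k => by
        show μ (E.symm (pr v v) * k) = _
        rw [hE, zero_mul, map_zero]
        exact halt k v
      μ := μ
      hB := fun u v => by
        show _ = μ (E.symm (pr u v))
        rw [← mul_one (E.symm (pr u v)), hE, one_smul]
      μ_ne := hμ
      prime := hp }
  refine ⟨fun a => ?_, fun H hH hmem => S.maximal hdim hH hmem⟩
  by_contra hcon
  push Not at hcon
  have h0 : ∀ x y, B x y = 0 := fun x y => by
    obtain ⟨k, rfl⟩ := hcon x
    obtain ⟨l, rfl⟩ := hcon y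
    rw [← hsm, ← hsm, S.hB_smul, map_smul, LinearMap.smul_apply, S.h_alt, smul_zero, mul_zero,
      map_zero]
  obtain ⟨x, hx⟩ := exists_ne (0 : ι → F)
  exact hx (hnd.1 x (h0 x))

end Cfsg.Agent.Lib.Forms
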