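import Cfsg.Agent.Lib.Forms.Symplectic

/-!
The symplectic similitude group is maximal in `SL`.
-/

set_option autoImplicit false

namespace Cfsg.Agent.Lib.Forms

open Matrix Cfsg.Geo

variable {ι : Type} [Fintype ι] [DecidableEq ι] {F : Type*} [Field F]
  {B : LinearMap.BilinForm F (ι → F)}

lemma bv_add (u v : ι → F) : bv B (u + v) = bv B u + bv B v := by ext; simp [bv]

lemma bv_smul (c : F) (v : ι → F) : bv B (c • v) = c • bv B v := by ext; simp [bv]

lemma bv_injective (hB : B.Nondegenerate) : Function.Injective (bv B) := by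
  intro u v h
  refine sub_eq_zero.1 (hB.2 _ fun x => ?_)
  rw [map_sub, ← bv_dot, ← bv_dot, h, sub_self]

lemma exists_bv_eq (hB : B.Nondegenerate) (φ : ι → F) : ∃ v, bv B v = φ := by
  let L : (ι → F) →ₗ[F] (ι → F) :=
    { toFun := bv B, map_add' := bv_add, map_smul' := bv_smul }
  exact (LinearMap.injective_iff_surjective (f := L)).1 (bv_injective hB) φ

lemma sympT_mem_specialLinear (v : ι → F) (c : F) : sympT B v c ∈ specialLinear ι F :=
  tv_mem_specialLinear _ _

/-- Some vector is mapped to a given non-zero vector by an element of `M`. -/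
lemma exists_mulVec_eq_of_iso (hA : B.IsAlt) (hB : B.Nondegenerate) (M : Subgroup (GL ι F))
    (hM : ∀ v c, sympT B v c ∈ M) {b a : ι → F} (hb : b ≠ 0) (ha : a ≠ 0) :
    ∃ g ∈ M, g ∈ isoGroup B ∧ (g : Matrix ι ι F) *ᵥ b = a := by
  have ex : ∀ x : ι → F, x ≠ 0 → ∃ z, B x z ≠ 0 := fun x hx => by
    by_contra hcon
    push Not at hcon
    exact hx (hB.1 x hcon)
  obtain ⟨z, hz⟩ := ex b hb
  obtain ⟨z', hz'⟩ := ex a ha
  obtain ⟨g, ⟨hg, hgi⟩, h1, -⟩ := exists_trans_pairs hA (M ⊓ isoGroup B) (U := ⊤)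
    (fun v _ c => ⟨hM v c, sympT_mem hA v c⟩) (u := b) (v := (B b z)⁻¹ • z) (u' := a)
    (v' := (B a z')⁻¹ • z') trivial trivial trivial trivial (by simp [hz]) (by simp [hz'])
  exact ⟨g, hg, hgi, h1⟩

/-- An element that is not a similitude, with the transvections, generates at least `SL`. -/
theorem specialLinear_le_of_not_similitude (hA : B.IsAlt) (hB : B.Nondegenerate)
    (M : Subgroup (GL ι F)) (hM : ∀ v c, sympT B v c ∈ M) {g : GL ι F} (hg : g ∈ M)
    (hns : ¬ ∃ c : F, ∀ u v, B ((g : Matrix ι ι F) *ᵥ u) ((g : Matrix ι ι F) *ᵥ v) = c * B u v) :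
    specialLinear ι F ≤ M := by
  let P : (ι → F) → (ι → F) → Prop := fun b φ => φ ⬝ᵥ b = 0 ∧ ∀ c : F, tv b (c • φ) ∈ M
  have Padd : ∀ {b φ ψ}, P b φ → P b ψ → P b (φ + ψ) := fun {b φ ψ} h h' =>
    ⟨by simp [add_dotProduct, h.1, h'.1], fun c => by
      rw [smul_add, ← tv_add (by simp [h.1]) (by simp [h'.1])]
      exact M.mul_mem (h.2 c) (h'.2 c)⟩
  have Psmul : ∀ {b φ} (s : F), P b φ → P b (s • φ) := fun {b φ} s h =>
    ⟨by simp [h.1], fun c => by rw [smul_smul]; exact h.2 _⟩
  have Pconj : ∀ {b φ} {h : GL ι F}, h ∈ M → P b φ →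
      P ((h : Matrix ι ι F) *ᵥ b) (φ ᵥ* ((h⁻¹ : GL ι F) : Matrix ι ι F)) := fun {b φ h} hh hp =>
    ⟨by rw [vecMul_inv_dot, hp.1], fun c => by
      rw [← smul_vecMul, ← tv_conj h (by simp [hp.1])]
      exact M.mul_mem (M.mul_mem hh (hp.2 c)) (M.inv_mem hh)⟩
  have P0 : ∀ v, P v (bv B v) := fun v => ⟨by simp [bv_dot, hA.self_eq_zero], hM v⟩
  -- `g` gives a new functional at some centre
  obtain ⟨b, e, hb0, hbe, hPe, he⟩ : ∃ b e, b ≠ 0 ∧ B e b = 0 ∧ P b (bv B e) ∧ ∀ s : F, e ≠ s • b := by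
    by_contra hcon
    push Not at hcon
    apply hns
    have hstep : ∀ v, ∃ s : F, ∀ x, B x v = s * B ((g : Matrix ι ι F) *ᵥ x)
        ((g : Matrix ι ι F) *ᵥ v) := by
      intro v
      rcases eq_or_ne v 0 with rfl | hv
      · exact ⟨1, fun x => by simp⟩
      obtain ⟨e, he⟩ := exists_bv_eq hB (bv B v ᵥ* ((g⁻¹ : GL ι F) : Matrix ι ι F))
      have hp := Pconj hg (P0 v)
      rw [← he] at hp
      obtain ⟨s, rfl⟩ := hcon _ e (fun h0 => hv (gl_mulVec_injective g (by simpa using h0))) (by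
        apply hA.isRefl
        rw [← bv_dot]; exact hp.1) hp
      refine ⟨s, fun x => ?_⟩
      have h2 := congrArg (fun φ => φ ⬝ᵥ ((g : Matrix ι ι F) *ᵥ x)) he
      simp only [vecMul_inv_dot, bv_dot, map_smul, smul_eq_mul] at h2
      exact h2.symm
    choose s hs using hstep
    rcases subsingleton_or_nontrivial (ι → F) with hsub | hnt
    · exact ⟨1, fun u v => by simp [Subsingleton.elim u 0]⟩
    have hgnd : ∀ y, (∀ x, B ((g : Matrix ι ι F) *ᵥ x) y = 0) → y = 0 := fun y hy =>
      hB.2 y fun z => by simpa [mulVec_inv_mulVec] using hy (((g⁻¹ : GL ι F) : Matrix ι ι F) *ᵥ z)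
    have hs0 : ∀ v, v ≠ 0 → s v ≠ 0 := fun v hv h0 => hv (hB.2 v fun x => by rw [hs v x, h0, zero_mul])
    have hconst : ∀ u v, u ≠ 0 → v ≠ 0 → s u = s v := by
      intro u v hu hv
      by_cases hind : ∃ t : F, v = t • u
      · obtain ⟨t, rfl⟩ := hind
        obtain ⟨x, hx⟩ : ∃ x, B x (t • u) ≠ 0 := by
          by_contra h; push Not at h; exact hv (hB.2 _ h)
        have h1 := hs (t • u) x
        have h2 := hs u x
        simp only [mulVec_smul, map_smul, smul_eq_mul] at h1 hx
        rw [h2] at h1 hx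
        by_contra hne
        have h3 : (s u - s (t • u)) * (t * B ((g : Matrix ι ι F) *ᵥ x) ((g : Matrix ι ι F) *ᵥ u)) = 0 := by
          linear_combination h1
        rcases mul_eq_zero.1 h3 with h4 | h4
        · exact hne (sub_eq_zero.1 h4)
        · exact hx (by linear_combination s u * h4)
      · have huv : u + v ≠ 0 := fun h => hind ⟨-1, by rw [neg_one_smul, eq_neg_iff_add_eq_zero, add_comm, h]⟩
        have h4 : (s (u + v) - s u) • ((g : Matrix ι ι F) *ᵥ u) +
            (s (u + v) - s v) • ((g : Matrix ι ι F) *ᵥ v) = 0 := by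
          refine hgnd _ fun x => ?_
          have h1 := hs (u + v) x
          simp only [mulVec_add, map_add] at h1
          rw [hs u x, hs v x] at h1
          simp only [map_add, map_smul, smul_eq_mul]
          linear_combination -h1
        have h5 : (s (u + v) - s u) • u + (s (u + v) - s v) • v = 0 := by
          apply gl_mulVec_injective g
          simpa [mulVec_add, mulVec_smul] using h4
        by_cases h6 : s (u + v) - s v = 0
        · rw [h6, zero_smul, add_zero, smul_eq_zero] at h5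
          rcases h5 with h5 | h5
          · rw [← sub_eq_zero.1 h5, sub_eq_zero.1 h6]
          · exact absurd h5 hu
        · exfalso
          refine hind ⟨-((s (u + v) - s v)⁻¹ * (s (u + v) - s u)), ?_⟩
          rw [neg_smul, mul_smul, eq_neg_of_add_eq_zero_left h5, smul_neg, neg_neg, smul_smul,
            inv_mul_cancel₀ h6, one_smul]
    obtain ⟨v₀, hv₀⟩ := exists_ne (0 : ι → F)
    refine ⟨(s v₀)⁻¹, fun u v => ?_⟩
    rcases eq_or_ne v 0 with rfl | hv
    · simp
    · rw [hs v u, hconst v₀ v hv₀ hv, inv_mul_cancel_left₀ (hs0 v hv)]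
  -- all functionals vanishing at `b`
  let E : (ι → F) → Prop := fun w => P b (bv B w)
  have Eadd : ∀ {u w}, E u → E w → E (u + w) := fun {u w} h h' => by
    show P b (bv B (u + w)); rw [bv_add]; exact Padd h h'
  have Esmul : ∀ {w} (s : F), E w → E (s • w) := fun {w} s h => by
    show P b (bv B (s • w)); rw [bv_smul]; exact Psmul s h
  have hEw : ∀ w, B b w = 0 → B e w ≠ 0 → E w := by
    intro w hw hew
    have h := Pconj (hM w (B e w)⁻¹) hPe
    have hfix : (sympT B w (B e w)⁻¹ : Matrix ι ι F) *ᵥ b = b := by simp [sympT_mulVec hA, hw]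
    have hiso := sympT_mem hA w (B e w)⁻¹
    have hbv : bv B e ᵥ* ((sympT B w (B e w)⁻¹)⁻¹ : GL ι F) =
        bv B ((sympT B w (B e w)⁻¹ : Matrix ι ι F) *ᵥ e) := by
      ext j
      rw [← dotProduct_single_one (bv B e ᵥ* _) j, ← dotProduct_mulVec, bv_dot]
      have hh := mem_isoGroup.1 hiso
        (((sympT B w (B e w)⁻¹)⁻¹ : GL ι F) *ᵥ Pi.single j 1) e
      rw [mulVec_inv_mulVec] at hh
      exact hh.symm
    rw [hfix, hbv, sympT_mulVec hA, inv_mul_cancel₀ hew, one_smul] at h
    have h' : E (e + w) := h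
    simpa using Eadd h' (Esmul (-1) hPe)
  obtain ⟨w₀, hw₀, hew₀⟩ : ∃ w₀, B b w₀ = 0 ∧ B e w₀ ≠ 0 := by
    obtain ⟨φ, hφ1, hφ2⟩ := exists_dot_eq_one (p := Submodule.span F {b}) (x := e) fun h => by
      obtain ⟨s, hs⟩ := Submodule.mem_span_singleton.1 h
      exact he s hs.symm
    obtain ⟨w, hw⟩ := exists_bv_eq hB φ
    exact ⟨w, by rw [← bv_dot, hw]; exact hφ2 b (Submodule.mem_span_singleton_self b),
      by rw [← bv_dot, hw, hφ1]; exact one_ne_zero⟩
  have hEall : ∀ w, B b w = 0 → E w := by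
    intro w hw
    by_cases hew : B e w = 0
    · have h1 := hEw (w + w₀) (by simp [hw, hw₀]) (by simp [hew, hew₀])
      simpa using Eadd h1 (Esmul (-1) (hEw w₀ hw₀ hew₀))
    · exact hEw w hw hew
  refine specialLinear_le_of_tv M fun a φ hφ => ?_
  rcases eq_or_ne a 0 with rfl | ha
  · rw [tv_zero_left]; exact M.one_mem
  obtain ⟨h, hh, -, hhb⟩ := exists_mulVec_eq_of_iso hA hB M hM hb0 ha
  obtain ⟨w, hw⟩ := exists_bv_eq hB (φ ᵥ* (h : Matrix ι ι F))
  have hwb : B b w = 0 := by rw [← bv_dot, hw, ← dotProduct_mulVec, hhb, hφ]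
  have := (Pconj hh (hEall w hwb)).2 1
  rwa [hhb, hw, vecMul_vecMul, ← Units.val_mul, mul_inv_cancel, Units.val_one, vecMul_one,
    one_smul] at this

/-- The similitude group meets `SL` in a maximal subgroup of `SL`. -/
theorem similarityGroup_isMaximalIn (hA : B.IsAlt) (hB : B.Nondegenerate)
    (hd : 3 ≤ Fintype.card ι) :
    IsMaximalIn (specialLinear ι F)
      (similarityGroup (fun u v => B u v) ⊓ specialLinear ι F) := by
  refine isMaximalIn_of inf_le_right ?_ fun M h h' g hg hgn => ?_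
  · have hne : ∀ p : Submodule F (ι → F), Module.finrank F p < Fintype.card ι → ∃ x, x ∉ p :=
      fun p hp => exists_notMem_of_ne_top fun ht => by
        rw [ht, finrank_top, Module.finrank_fintype_fun_eq_card] at hp; omega
    obtain ⟨b, hb⟩ := hne ⊥ (by simp; omega)
    have hb0 : b ≠ 0 := fun h => hb (by simp [h])
    -- a vector `e ⊥ b` off the line of `b`
    have hker : 2 ≤ Module.finrank F (LinearMap.ker (B b)) := by
      have := LinearMap.finrank_range_add_finrank_ker (B b)
      have := Submodule.finrank_le (LinearMap.range (B b))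
      simp [Module.finrank_fintype_fun_eq_card] at *
      omega
    obtain ⟨e, he, he'⟩ : ∃ e ∈ LinearMap.ker (B b), e ∉ Submodule.span F {b} := by
      by_contra hcon
      push Not at hcon
      have := Submodule.finrank_mono (show LinearMap.ker (B b) ≤ Submodule.span F {b} from hcon)
      rw [finrank_span_singleton hb0] at this
      omega
    rw [LinearMap.mem_ker] at he
    have hd0 : bv B e ⬝ᵥ b = 0 := by rw [bv_dot, he]
    refine ⟨tv b (bv B e), tv_mem_specialLinear _ _, fun h => ?_⟩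
    obtain ⟨c, hc⟩ := h.1
    -- pairs on which the transvection acts trivially force multiplier one
    have hxy : ∀ x y, B x e * B b y + B y e * B x b = ((c : F) - 1) * B x y := by
      intro x y
      have := hc x y
      simp only [tv_mulVec hd0, bv_dot, map_add, map_smul, LinearMap.add_apply, LinearMap.smul_apply,
        hA.self_eq_zero, smul_eq_mul] at this
      linear_combination this
    obtain ⟨φ, hφ1, hφ2⟩ := exists_dot_eq_one (p := Submodule.span F {b}) (x := e) he'
    obtain ⟨z, hz⟩ := exists_bv_eq hB φ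
    have hbz : B b z = 0 := by
      rw [← bv_dot, hz]; exact hφ2 b (Submodule.mem_span_singleton_self b)
    have hez : B e z = 1 := by rw [← bv_dot, hz, hφ1]
    have hzb : B z b = 0 := hA.isRefl _ _ hbz
    have hze : B z e = -1 := by rw [← hA.neg_eq e z, hez]
    have h1 := hxy e z
    simp [hA.self_eq_zero, hA.isRefl _ _ he, hez] at h1
    have hc1 : (c : F) = 1 := by linear_combination -h1
    obtain ⟨y, hy⟩ : ∃ y, B b y ≠ 0 := by
      by_contra hcon; push Not at hcon; exact hb0 (hB.1 b hcon)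
    have h2 := hxy z y
    simp [hze, hzb, hc1, hy] at h2
  · refine specialLinear_le_of_not_similitude hA hB M
      (fun v c => h ⟨⟨1, fun u w => by
        simpa using mem_isoGroup.1 (sympT_mem hA v c) u w⟩, sympT_mem_specialLinear v c⟩) hg ?_
    rintro ⟨c, hc⟩
    refine hgn ⟨?_, h' hg⟩
    rcases eq_or_ne c 0 with rfl | hc0
    · refine ⟨1, fun u v => ?_⟩
      have := hc (((g⁻¹ : GL ι F) : Matrix ι ι F) *ᵥ u) (((g⁻¹ : GL ι F) : Matrix ι ι F) *ᵥ v)
      rw [mulVec_inv_mulVec, mulVec_inv_mulVec, zero_mul] at this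
      have hB0 : ∀ u v, B u v = 0 := fun u v => by
        simpa [mulVec_inv_mulVec] using hc (((g⁻¹ : GL ι F) : Matrix ι ι F) *ᵥ u)
          (((g⁻¹ : GL ι F) : Matrix ι ι F) *ᵥ v)
      simp [hB0]
    · exact ⟨Units.mk0 c hc0, fun u v => hc u v⟩

end Cfsg.Agent.Lib.Forms
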