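import Cfsg.Agent.Lib.Forms.SubfieldBasic
import Cfsg.Agent.Lib.Forms.SLTwoGen
import Cfsg.Agent.Lib.Forms.Symplectic

/-!
The subfield subgroup is maximal in the symplectic group.
-/

set_option autoImplicit false

namespace Cfsg.Agent.Lib.Forms

open Matrix Cfsg.Geo
open scoped MatrixGroups
open Cfsg.Agent.Lib.PStab (ux uy coe_ux coe_uy mul_apply_two coe_inv_two det_eq slMk coe_slMk sl_ext)

variable {F : Type*} [Field F]

local notation "M₂" => Matrix (Fin 2) (Fin 2) F

/-- The large parameter lemma with small fields of characteristic two allowed. -/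
lemma uy_and_diag_of_full {K : Subgroup SL(2, F)} (hux : ∀ x, ux x ∈ K) {b : F} (hb : b ≠ 0)
    (hy : uy b ∈ K) (y : F) : uy y ∈ K := by
  set w := ux (-b⁻¹) * uy b * ux (-b⁻¹) with hw
  have hwK : w ∈ K := mul_mem (mul_mem (hux _) hy) (hux _)
  have e : w * ux (-y / b ^ 2) * w⁻¹ = uy y := by
    refine sl_ext ?_ ?_ ?_ ?_ <;>
      simp [hw, coe_ux, coe_uy, mul_apply_two, coe_inv_two, Matrix.adjugate_fin_two, hb] <;>
      field_simp <;> ring
  rw [← e]
  exact mul_mem (mul_mem hwK (hux _)) (inv_mem hwK)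

/-- The diagonal elements. -/
lemma diag_mem_of_full {K : Subgroup SL(2, F)} (hux : ∀ x, ux x ∈ K) (huy : ∀ y, uy y ∈ K)
    {s : F} (hs : s ≠ 0) : ∃ k ∈ K, (k : M₂) = !![s, 0; 0, s⁻¹] := by
  refine ⟨ux s * uy (-s⁻¹) * ux s * (ux 1 * uy (-1) * ux 1)⁻¹,
    mul_mem (mul_mem (mul_mem (hux _) (huy _)) (hux _))
      (inv_mem (mul_mem (mul_mem (hux _) (huy _)) (hux _))), ?_⟩
  ext i j
  fin_cases i <;> fin_cases j <;>
    simp [coe_ux, coe_uy, Matrix.adjugate_fin_two, hs]

/-- Every element of a finite field is a sum of two squares. -/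
lemma exists_sum_two_squares {K : Type*} [Field K] [Fintype K] (s : K) :
    ∃ x y : K, s = x * x + y * y := by
  rcases eq_or_ne (ringChar K) 2 with h | h
  · obtain ⟨x, hx⟩ := FiniteField.isSquare_of_char_two h s
    exact ⟨x, 0, by rw [hx, mul_zero, add_zero]⟩
  · open Polynomial in
    obtain ⟨x, y, hxy⟩ := FiniteField.exists_root_sum_quadratic (f := (X ^ 2 : K[X]))
      (g := X ^ 2 - C s) (degree_X_pow 2) (degree_X_pow_sub_C (by norm_num) s)
      (Nat.odd_iff.1 (Nat.odd_iff.2 (FiniteField.odd_card_of_char_ne_two h)))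
    exact ⟨x, y, by simp at hxy; linear_combination -hxy⟩

variable {ι : Type} [Fintype ι] [DecidableEq ι] {F₀ : Subfield F} {P : GL ι F} {ζ : F}
  {B : LinearMap.BilinForm F (ι → F)}

/-- A rational structure for an alternating form. -/
structure AltRat (B : LinearMap.BilinForm F (ι → F)) (F₀ : Subfield F) (P : GL ι F) (ζ : F) :
    Prop where
  alt : B.IsAlt
  nd : B.Nondegenerate
  ζ0 : ζ ≠ 0
  rat : ∀ u v : ι → F₀, ζ * B (ratVec P u) (ratVec P v) ∈ F₀

variable (S : AltRat B F₀ P ζ)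
include S

/-- The form on the rational vectors. -/
def AltRat.form : LinearMap.BilinForm F₀ (ι → F₀) :=
  LinearMap.mk₂ F₀ (fun u v => (⟨ζ * B (ratVec P u) (ratVec P v), S.rat u v⟩ : F₀))
    (fun u u' v => Subtype.ext (by
      rw [Subfield.coe_add]; simp only
      rw [ratVec_add, map_add, LinearMap.add_apply, mul_add]))
    (fun c u v => Subtype.ext (by
      rw [smul_eq_mul, Subfield.coe_mul]; simp only
      rw [ratVec_smul, map_smul, LinearMap.smul_apply, smul_eq_mul]; ring))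
    (fun u v v' => Subtype.ext (by
      rw [Subfield.coe_add]; simp only
      rw [ratVec_add, map_add, mul_add]))
    (fun c u v => Subtype.ext (by
      rw [smul_eq_mul, Subfield.coe_mul]; simp only
      rw [ratVec_smul, map_smul, smul_eq_mul]; ring))

lemma AltRat.form_coe (u v : ι → F₀) :
    ((S.form u v : F₀) : F) = ζ * B (ratVec P u) (ratVec P v) := rfl

lemma AltRat.exists_ne {x : ι → F} (hx : x ≠ 0) : ∃ u : ι → F₀, B x (ratVec P u) ≠ 0 := by
  by_contra hcon
  push Not at hcon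
  refine hx (S.nd.1 x fun y => ?_)
  rw [← mulVec_inv_mulVec P y, pi_eq_sum_univ' (((P⁻¹ : GL ι F) : Matrix ι ι F) *ᵥ y), mulVec_sum,
    map_sum]
  refine Finset.sum_eq_zero fun i _ => ?_
  have := hcon (Pi.single i 1)
  rw [ratVec, show (fun j => ((Pi.single i 1 : ι → F₀) j : F)) = Pi.single i 1 by
    funext j; rcases eq_or_ne j i with rfl | h' <;> simp [*]] at this
  rw [mulVec_smul, map_smul, this, smul_zero]

lemma AltRat.form_alt : S.form.IsAlt := fun u => Subtype.ext (by
  rw [S.form_coe, S.alt.self_eq_zero, mul_zero]; rfl)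

lemma AltRat.form_nd : S.form.Nondegenerate := by
  have key : ∀ u, (∀ v, S.form u v = 0) → u = 0 := by
    intro u hu
    by_contra h0
    obtain ⟨v, hv⟩ := S.exists_ne (ratVec_ne_zero (P := P) h0)
    refine hv ((mul_eq_zero.1 (?_ : ζ * B (ratVec P u) (ratVec P v) = 0)).resolve_left S.ζ0)
    rw [← S.form_coe, hu v]; rfl
  exact ⟨key, fun v hv => key v fun u => by rw [← S.form_alt.neg_eq, hv u, neg_zero]⟩

variable {M : Subgroup (GL ι F)} (hrat : ∀ (v : ι → F₀) (c : F₀), sympT B (ratVec P v) ((c : F) * ζ) ∈ M)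
include hrat

omit S in
/-- The multiplier is available at every rational centre. -/
def AltAll (B : LinearMap.BilinForm F (ι → F)) (F₀ : Subfield F) (P : GL ι F)
    (M : Subgroup (GL ι F)) (k : F) : Prop :=
  ∀ v : ι → F₀, sympT B (ratVec P v) k ∈ M

lemma AltRat.allAt_of_one [Finite F] {a : ι → F₀} (ha : a ≠ 0) {k : F}
    (hk : sympT B (ratVec P a) k ∈ M) : AltAll B F₀ P M k := by
  have step : ∀ u v, S.form u v ≠ 0 → sympT B (ratVec P u) k ∈ M → sympT B (ratVec P v) k ∈ M := by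
    intro u v huv hu
    have h := hrat (v - u) (S.form u v)⁻¹
    have e : ((((S.form u v)⁻¹ : F₀) : F) * ζ) * B (ratVec P u) (ratVec P (v - u)) = 1 := by
      rw [mul_assoc, ← S.form_coe, map_sub, S.form_alt.self_eq_zero, sub_zero, ← Subfield.coe_mul,
        inv_mul_cancel₀ huv, Subfield.coe_one]
    have h1 := mul_mem (mul_mem h hu) (inv_mem h)
    rwa [sympT_conj S.alt (sympT_mem S.alt _ _), sympT_mulVec S.alt, e, one_smul, ← ratVec_add,
      add_sub_cancel] at h1
  intro v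
  rcases eq_or_ne v 0 with rfl | hv
  · have : sympT B (ratVec P (0 : ι → F₀)) k = 1 := by
      rw [ratVec_zero, sympT, tv_zero_left]
    rw [this]; exact M.one_mem
  obtain ⟨w, -, h1, h2⟩ := exists_pair_ne_zero (B := S.form) (U := ⊤) (a := a) (b := v)
    (by
      by_contra h; push Not at h
      exact ha (S.form_nd.1 a fun z => h z trivial))
    (by
      by_contra h; push Not at h
      exact hv (S.form_nd.1 v fun z => h z trivial))
  exact step w v (fun e => h2 (by rw [← S.form_alt.neg_eq, e, neg_zero])) (step a w h1 hk)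

/-- One irrational multiplier gives every multiplier. -/
lemma AltRat.allAt_all [Finite F] (hn : 2 ≤ Fintype.card ι) {r : ℕ} (hr : r.Prime)
    (hcard : Nat.card F = Nat.card F₀ ^ r) {k : F} (hk : k / ζ ∉ F₀) (hall : AltAll B F₀ P M k)
    (c : F) : AltAll B F₀ P M c := by
  classical
  obtain ⟨i⟩ : Nonempty ι := Fintype.card_pos_iff.1 (by omega)
  set a : ι → F₀ := Pi.single i 1
  have ha : a ≠ 0 := by simp [a]
  obtain ⟨b, hab⟩ : ∃ b, S.form a b ≠ 0 := by
    by_contra h; push Not at h; exact ha (S.form_nd.1 a h)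
  set f := B (ratVec P a) (ratVec P b) with hf
  have hf0 : f ≠ 0 := fun e => hab (Subtype.ext (by rw [S.form_coe, ← hf, e, mul_zero]; rfl))
  let K : Subgroup SL(2, F) :=
    { carrier := {h | ∃ g ∈ M, (g : Matrix ι ι F) *ᵥ ratVec P a =
          (h : M₂) 0 0 • ratVec P a + (h : M₂) 1 0 • ratVec P b ∧
          (g : Matrix ι ι F) *ᵥ ratVec P b = (h : M₂) 0 1 • ratVec P a + (h : M₂) 1 1 • ratVec P b ∧
          ∀ z, B z (ratVec P a) = 0 → B z (ratVec P b) = 0 → (g : Matrix ι ι F) *ᵥ z = z}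
      one_mem' := ⟨1, M.one_mem, by simp, by simp, fun z _ _ => by simp⟩
      mul_mem' := by
        rintro h h' ⟨g₁, hg₁, e1, e2, i1⟩ ⟨g₂, hg₂, f1, f2, i2⟩
        refine ⟨g₁ * g₂, mul_mem hg₁ hg₂, ?_, ?_, fun z ha' hb' => by
          rw [mul_mulVec', i2 z ha' hb', i1 z ha' hb']⟩
        · rw [mul_mulVec', f1, mulVec_add, mulVec_smul, mulVec_smul, e1, e2, mul_apply_two, mul_apply_two]
          module
        · rw [mul_mulVec', f2, mulVec_add, mulVec_smul, mulVec_smul, e1, e2, mul_apply_two, mul_apply_two]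
          module
      inv_mem' := by
        rintro h ⟨g₁, hg₁, e1, e2, i1⟩
        have hd := det_eq h
        refine ⟨g₁⁻¹, inv_mem hg₁, ?_, ?_, fun z ha' hb' => gl_mulVec_injective g₁
          (by simp only [mulVec_inv_mulVec]; exact (i1 z ha' hb').symm)⟩ <;>
        · refine gl_mulVec_injective g₁ ?_
          simp only [mulVec_inv_mulVec, mulVec_add, mulVec_smul, e1, e2, coe_inv_two,
            Matrix.of_apply, Matrix.cons_val', Matrix.cons_val_zero, Matrix.cons_val_one,
            Matrix.cons_val_fin_one]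
          match_scalars <;> first | (ring; done) | linear_combination hd | linear_combination -hd }
  have hux : ∀ d, sympT B (ratVec P a) d ∈ M → ux (-(d * f)) ∈ K := fun d hd => by
    refine ⟨_, hd, ?_, ?_, fun z hza _ => by simp [sympT_mulVec S.alt, hza]⟩
    · rw [sympT_mulVec S.alt, S.alt.self_eq_zero]; simp [coe_ux]
    · rw [sympT_mulVec S.alt, ← S.alt.neg_eq, ← hf]; simp [coe_ux, add_comm]
  have huy : ∀ d, sympT B (ratVec P b) d ∈ M → uy (d * f) ∈ K := fun d hd => by
    refine ⟨_, hd, ?_, ?_, fun z _ hzb => by simp [sympT_mulVec S.alt, hzb]⟩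
    · rw [sympT_mulVec S.alt, ← hf]; simp [coe_uy]
    · rw [sympT_mulVec S.alt, S.alt.self_eq_zero]; simp [coe_uy]
  -- the multipliers form a vector space over the subfield
  let R : AddSubgroup F :=
    { carrier := {d | AltAll B F₀ P M d}
      zero_mem' := fun v => by rw [sympT, zero_smul, tv_zero_right]; exact M.one_mem
      add_mem' := fun {d e} hd he v => by
        rw [sympT, add_smul, ← tv_add (sympT_dot S.alt _ _) (sympT_dot S.alt _ _)]
        exact mul_mem (hd v) (he v)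
      neg_mem' := fun {d} hd v => by
        rw [sympT, neg_smul, ← tv_inv (sympT_dot S.alt _ _)]
        exact inv_mem (hd v) }
  haveI : Fintype F₀ := Fintype.ofFinite F₀
  have hsmul : ∀ s ∈ F₀, ∀ d ∈ R, s * d ∈ R := by
    have hsq : ∀ (s : F₀), ∀ d ∈ R, ((s : F) * s) * d ∈ R := by
      intro s d hd v
      have := hd (s • v)
      rw [ratVec_smul, sympT_smul S.alt] at this
      rwa [mul_comm _ d, ← mul_assoc]
    intro s hs d hd
    obtain ⟨x, y, hxy⟩ := exists_sum_two_squares (⟨s, hs⟩ : F₀)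
    have e : s = (x : F) * x + (y : F) * y := by
      have := congrArg Subtype.val hxy
      push_cast at this
      linear_combination this
    rw [e, add_mul]
    exact R.add_mem (hsq x d hd) (hsq y d hd)
  have hζR : ζ ∈ R := fun v => by simpa using hrat v 1
  let A : Set F := {x | ∃ d ∈ R, x = -(d * f)}
  have hAcard : Nat.card F₀ * Nat.card F₀ ≤ A.ncard := by
    rw [← Nat.card_prod]
    let e : F₀ × F₀ → A := fun p => ⟨-(((p.1 : F) * ζ + (p.2 : F) * k) * f), _,
      R.add_mem (hsmul _ p.1.2 _ hζR) (hsmul _ p.2.2 _ hall), rfl⟩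
    refine le_trans (Nat.card_le_card_of_injective e ?_) (le_of_eq (Nat.card_coe_set_eq A))
    rintro ⟨x, y⟩ ⟨x', y'⟩ h
    have h' := mul_right_cancel₀ hf0 (neg_injective (congrArg Subtype.val h))
    simp only at h'
    rcases eq_or_ne y y' with rfl | hy
    · exact Prod.ext (Subtype.ext (mul_right_cancel₀ S.ζ0 (add_right_cancel h'))) rfl
    · exfalso
      have hy' : (y : F) - y' ≠ 0 := sub_ne_zero.2 fun e => hy (Subtype.ext e)
      have hz := S.ζ0
      apply hk
      rw [show k / ζ = ((x' : F) - x) / ((y : F) - y') by field_simp; linear_combination h']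
      exact div_mem (sub_mem x'.2 x.2) (sub_mem y.2 y'.2)
  have hq : 2 ≤ Nat.card F₀ := Finite.one_lt_card
  have hb1 : uy (ζ * f) ∈ K := huy _ (hζR b)
  have hfull : ∀ x, ux x ∈ K := by
    refine ux_mem_of_large hr hcard (A := A) ?_ ?_ ?_ ?_ (mul_ne_zero S.ζ0 hf0) hb1
    · rintro x ⟨d, hd, rfl⟩; exact hux d (hd a)
    · rintro s hs x ⟨d, hd, rfl⟩
      exact ⟨s * d, hsmul s hs d hd, by ring⟩
    · by_cases h2 : (2 : F) = 0
      · exact Or.inr ⟨h2, by nlinarith⟩
      · left
        have h3 : 3 ≤ Nat.card F₀ := by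
          by_contra h3
          have hc : Fintype.card F₀ = 2 := by rw [← Nat.card_eq_fintype_card]; omega
          refine h2 ?_
          have h4 := FiniteField.cast_card_eq_zero F₀
          rw [hc] at h4
          exact congrArg Subtype.val (show (2 : F₀) = 0 by exact_mod_cast h4)
        nlinarith
    · nlinarith
  -- from the plane action to the transvection at `a`
  obtain ⟨g, hg, g1, g2, g3⟩ := hfull (-(c * f))
  refine S.allAt_of_one hrat ha ?_
  convert hg using 1
  refine gl_ext fun x => ?_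
  set α := B x (ratVec P b) / f with hα
  set β := -(B x (ratVec P a) / f) with hβ
  set z := x - α • ratVec P a - β • ratVec P b with hz
  have hba : B (ratVec P b) (ratVec P a) = -f := by rw [hf, S.alt.neg_eq]
  have hx : x = α • ratVec P a + β • ratVec P b + z := by rw [hz]; module
  have hgz : (g : Matrix ι ι F) *ᵥ z = z := g3 z
    (by simp [hz, S.alt.self_eq_zero, hba, hα, hβ]; field_simp; ring)
    (by simp [hz, S.alt.self_eq_zero, ← hf, hα, hβ]; field_simp; ring)
  have hza : B x (ratVec P a) = -(β * f) := by rw [hβ]; field_simp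
  rw [sympT_mulVec S.alt, hza]
  conv_rhs => rw [hx, mulVec_add, mulVec_add, mulVec_smul, mulVec_smul, g1, g2, hgz]
  simp [coe_ux]
  conv_lhs => rw [hx]
  module

omit hrat in
/-- A vector paired like a rational vector is a multiple of it. -/
lemma AltRat.eq_of_pairing {x : ι → F} {r : ι → F₀} {c : F}
    (h : ∀ v, B x (ratVec P v) = c * (S.form r v : F)) : x = (c * ζ) • ratVec P r := by
  refine sub_eq_zero.1 ?_
  by_contra hne
  obtain ⟨v, hv⟩ := S.exists_ne hne
  apply hv
  rw [map_sub, map_smul, LinearMap.sub_apply, LinearMap.smul_apply, h, S.form_coe, smul_eq_mul]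
  ring

omit hrat in
/-- An element outside the subfield group separates an orthogonal rational pair. -/
lemma AltRat.exists_triple (hn : 3 ≤ Fintype.card ι) {g : GL ι F} (hgi : g ∈ isoGroup B)
    (hgn : g ∉ subfieldSubgroup F₀ P) :
    ∃ a u v : ι → F₀, S.form u v = 0 ∧
      B (ratVec P a) ((g : Matrix ι ι F) *ᵥ ratVec P u) ≠ 0 ∧
      B (ratVec P a) ((g : Matrix ι ι F) *ᵥ ratVec P v) /
        B (ratVec P a) ((g : Matrix ι ι F) *ᵥ ratVec P u) ∉ F₀ := by
  classical
  by_contra hcon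
  push Not at hcon
  refine hgn ((Subgroup.inv_mem_iff _).1 (mem_subfieldSubgroup_of_lines fun a ha => ?_))
  have hpair : ∀ v : ι → F₀, B (((g⁻¹ : GL ι F) : Matrix ι ι F) *ᵥ ratVec P a) (ratVec P v) =
      B (ratVec P a) ((g : Matrix ι ι F) *ᵥ ratVec P v) := fun v => by
    rw [← (mem_isoGroup.1 hgi) (((g⁻¹ : GL ι F) : Matrix ι ι F) *ᵥ ratVec P a), mulVec_inv_mulVec]
  set φ := fun v : ι → F₀ => B (ratVec P a) ((g : Matrix ι ι F) *ᵥ ratVec P v) with hφ
  have hadd : ∀ v w, φ (v + w) = φ v + φ w := fun v w => by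
    simp [hφ, ratVec_add, mulVec_add]
  have hsmul : ∀ (t : F₀) v, φ (t • v) = (t : F) * φ v := fun t v => by
    simp [hφ, ratVec_smul, mulVec_smul]
  obtain ⟨u₁, hu₁⟩ : ∃ u₁, φ u₁ ≠ 0 := by
    have hne : ((g⁻¹ : GL ι F) : Matrix ι ι F) *ᵥ ratVec P a ≠ 0 := fun e =>
      ratVec_ne_zero (P := P) ha (gl_mulVec_injective g⁻¹ (by simpa using e))
    obtain ⟨v, hv⟩ := S.exists_ne hne
    exact ⟨v, by rwa [hpair] at hv⟩
  have orth : ∀ u v, S.form u v = 0 → φ u ≠ 0 → φ v / φ u ∈ F₀ := fun u v h h' => hcon a u v h h'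
  have rat : ∀ v, φ v / φ u₁ ∈ F₀ := by
    intro v
    by_contra hv
    have h1v : S.form u₁ v ≠ 0 := fun e => hv (orth u₁ v e hu₁)
    have hvanish : ∀ w, S.form u₁ w = 0 → S.form v w = 0 → φ w = 0 := by
      intro w h1 h2
      by_contra hw
      refine hv ?_
      have e1 := orth u₁ w h1 hu₁
      have e2 := orth w v (by rw [← S.form_alt.neg_eq, h2, neg_zero]) hw
      rw [show φ v / φ u₁ = φ v / φ w * (φ w / φ u₁) by field_simp]
      exact mul_mem e2 e1
    obtain ⟨w, hw, hw0⟩ := Submodule.exists_mem_ne_zero_of_ne_bot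
      (LinearMap.ker_ne_bot_of_finrank_lt (f := (S.form u₁).prod (S.form v))
        (by simp only [Module.finrank_prod, Module.finrank_self, Module.finrank_fintype_fun_eq_card]; omega))
    rw [LinearMap.mem_ker, LinearMap.prod_apply, Function.prod_apply, Prod.mk_eq_zero] at hw
    obtain ⟨z, hz⟩ : ∃ z, S.form w z ≠ 0 := by
      by_contra h; push Not at h; exact hw0 (S.form_nd.1 w h)
    set d := S.form u₁ v with hd
    have hdv : S.form v u₁ = -d := by rw [hd, S.form_alt.neg_eq]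
    set z' := z + (S.form v z / d) • u₁ - (S.form u₁ z / d) • v with hz'
    have z1 : S.form u₁ z' = 0 := by
      simp [hz', S.form_alt.self_eq_zero, ← hd]; field_simp; ring
    have z2 : S.form v z' = 0 := by
      simp [hz', S.form_alt.self_eq_zero, hdv]; field_simp; ring
    have hwu : S.form w u₁ = 0 := by rw [← S.form_alt.neg_eq, hw.1, neg_zero]
    have hwv : S.form w v = 0 := by rw [← S.form_alt.neg_eq, hw.2, neg_zero]
    have z3 : S.form w z' = S.form w z := by simp [hz', hwu, hwv]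
    set w' := (-d / S.form w z) • z' with hw'
    have e : S.form (u₁ + w) (v + w') = 0 := by
      simp [hw', z1, z3, hwv, ← hd]; field_simp; ring
    have h5 := orth (u₁ + w) (v + w') e (by rw [hadd, hvanish w hw.1 hw.2, add_zero]; exact hu₁)
    rw [hadd, hadd, hvanish w hw.1 hw.2,
      hvanish w' (by simp [hw', z1]) (by simp [hw', z2]), add_zero, add_zero] at h5
    exact hv h5
  let L : (ι → F₀) →ₗ[F₀] F₀ :=
    { toFun := fun v => ⟨φ v / φ u₁, rat v⟩
      map_add' := fun v w => Subtype.ext (by simp [hadd, add_div])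
      map_smul' := fun t v => Subtype.ext (by simp [hsmul, mul_div_assoc]) }
  obtain ⟨r, hr⟩ := (S.form.toDual S.form_nd).surjective L
  refine ⟨φ u₁ * ζ, r, S.eq_of_pairing fun v => ?_⟩
  have h := congrArg (fun f : Module.Dual F₀ (ι → F₀) => (f v : F)) hr
  simp [L, LinearMap.BilinForm.toDual_def] at h
  rw [hpair, h, mul_div_cancel₀ _ hu₁]

/-- An element outside the subfield group gives an irrational multiplier. -/
lemma AltRat.exists_multiplier [Finite F] (hn : 3 ≤ Fintype.card ι) {r : ℕ} (hr : r.Prime)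
    (hcard : Nat.card F = Nat.card F₀ ^ r) (hM : M ≤ isoGroup B) {g : GL ι F} (hg : g ∈ M)
    (hgn : g ∉ subfieldSubgroup F₀ P) : ∃ k, k / ζ ∉ F₀ ∧ AltAll B F₀ P M k := by
  classical
  have hA := S.alt
  obtain ⟨a₀, u, v, huv, hfa, hκ⟩ := S.exists_triple hn (hM hg) hgn
  set a := ratVec P a₀ with ha
  set x := (g : Matrix ι ι F) *ᵥ ratVec P u with hx
  set y := (g : Matrix ι ι F) *ᵥ ratVec P v with hy
  set fa := B a x with hfadef
  set κ := B a y / fa with hκdef
  set R := y - κ • x with hR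
  have hxy : B x y = 0 := by
    rw [hx, hy, (mem_isoGroup.1 (hM hg))]
    refine (mul_eq_zero.1 (?_ : ζ * _ = 0)).resolve_left S.ζ0
    rw [← S.form_coe, huv]; rfl
  have haR : B a R = 0 := by
    simp [hR, hκdef, ← hfadef]; field_simp; ring
  have hxR : B x R = 0 := by simp [hR, hxy, hA.self_eq_zero]
  have hRR : B R R = 0 := hA.self_eq_zero R
  have hxa : B x a = -fa := by rw [hfadef, hA.neg_eq]
  have hRx : B R x = 0 := by rw [← hA.neg_eq, hxR, neg_zero]
  have hRa : B R a = 0 := by rw [← hA.neg_eq, haR, neg_zero]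
  have hyR : y = κ • x + R := by rw [hR]; abel
  have hκ0 : κ ≠ 0 := fun e => hκ (by rw [e]; exact zero_mem _)
  have hfa0 : fa ≠ 0 := hfa
  -- transvections at the image plane
  have hT : ∀ c c₁ c₂ : F₀, sympT B ((c₁ : F) • x + (c₂ : F) • y) ((c : F) * ζ) ∈ M := by
    intro c c₁ c₂
    have h := mul_mem (mul_mem hg (hrat (c₁ • u + c₂ • v) c)) (inv_mem hg)
    rwa [sympT_conj hA (hM hg), ratVec_add, ratVec_smul, ratVec_smul, mulVec_add, mulVec_smul,
      mulVec_smul] at h
  have happ : ∀ c c₁ c₂ : F,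
      (sympT B (c₁ • x + c₂ • y) c : Matrix ι ι F) *ᵥ a =
        a + (c * fa * (c₁ + c₂ * κ) * (c₁ + c₂ * κ)) • x + (c * fa * (c₁ + c₂ * κ) * c₂) • R ∧
      (sympT B (c₁ • x + c₂ • y) c : Matrix ι ι F) *ᵥ x = x ∧
      (sympT B (c₁ • x + c₂ • y) c : Matrix ι ι F) *ᵥ R = R := by
    intro c c₁ c₂
    have e : B a y = fa * κ := by rw [hκdef, mul_div_cancel₀ _ hfa0]
    refine ⟨?_, ?_, ?_⟩
    · rw [sympT_mulVec hA, map_add, map_smul, map_smul, ← hfadef, e, smul_eq_mul, smul_eq_mul, hyR]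
      module
    · rw [sympT_mulVec hA, map_add, map_smul, map_smul, hA.self_eq_zero, hxy]; simp
    · rw [sympT_mulVec hA, map_add, map_smul, map_smul, hRx, hyR, map_add, map_smul, hRx, hRR]; simp
  let K : Subgroup SL(2, F) :=
    { carrier := {σ | ∃ h ∈ M, (h : Matrix ι ι F) *ᵥ R = R ∧ ∃ ρ₁ ρ₂ : F,
          (h : Matrix ι ι F) *ᵥ x = (σ : M₂) 0 0 • x + (σ : M₂) 1 0 • a + ρ₁ • R ∧
          (h : Matrix ι ι F) *ᵥ a = (σ : M₂) 0 1 • x + (σ : M₂) 1 1 • a + ρ₂ • R}
      one_mem' := ⟨1, M.one_mem, by simp, 0, 0, by simp, by simp⟩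
      mul_mem' := by
        rintro σ σ' ⟨g₁, hg₁, r1, p, q, e1, e2⟩ ⟨g₂, hg₂, r2, p', q', f1, f2⟩
        refine ⟨g₁ * g₂, mul_mem hg₁ hg₂, by rw [mul_mulVec', r2, r1],
          (σ' : M₂) 0 0 * p + (σ' : M₂) 1 0 * q + p', (σ' : M₂) 0 1 * p + (σ' : M₂) 1 1 * q + q', ?_, ?_⟩
        · rw [mul_mulVec', f1]; simp only [mulVec_add, mulVec_smul]
          rw [e1, e2, r1, mul_apply_two, mul_apply_two]
          module
        · rw [mul_mulVec', f2]; simp only [mulVec_add, mulVec_smul]
          rw [e1, e2, r1, mul_apply_two, mul_apply_two]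
          module
      inv_mem' := by
        rintro σ ⟨g₁, hg₁, r1, p, q, e1, e2⟩
        have hd := det_eq σ
        refine ⟨g₁⁻¹, inv_mem hg₁, gl_mulVec_injective g₁ (by simp [mulVec_inv_mulVec, r1]),
          (σ : M₂) 1 0 * q - (σ : M₂) 1 1 * p, (σ : M₂) 0 1 * p - (σ : M₂) 0 0 * q, ?_, ?_⟩ <;>
        · refine gl_mulVec_injective g₁ ?_
          simp only [mulVec_inv_mulVec, mulVec_add, mulVec_smul, e1, e2, r1, coe_inv_two,
            Matrix.of_apply, Matrix.cons_val', Matrix.cons_val_zero, Matrix.cons_val_one,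
            Matrix.cons_val_fin_one]
          match_scalars <;> first | (ring; done) | linear_combination hd | linear_combination -hd }
  set b := -(ζ * fa) with hb
  have hb0 : b ≠ 0 := neg_ne_zero.2 (mul_ne_zero S.ζ0 hfa0)
  have hyb : uy b ∈ K := by
    have h := hrat a₀ 1
    rw [Subfield.coe_one, one_mul] at h
    refine ⟨_, h, by rw [sympT_mulVec hA, ← ha, hRa]; simp, 0, 0, ?_, ?_⟩
    · rw [sympT_mulVec hA, ← ha, hxa]; simp [coe_uy, hb]
    · rw [sympT_mulVec hA, ← ha, hA.self_eq_zero]; simp [coe_uy]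
  -- the parameters
  let G : Set F := {d | ∃ c c₁ c₂ : F₀, d = (c : F) * ((c₁ : F) + (c₂ : F) * κ) ^ 2}
  let A : Set F := {w | ∃ d ∈ AddSubgroup.closure G, w = ζ * fa * d}
  have hAmem : ∀ w ∈ A, ux w ∈ K := by
    rintro w ⟨d, hd, rfl⟩
    rw [← mem_upperParams]
    induction hd using AddSubgroup.closure_induction with
    | mem d hd =>
      obtain ⟨c, c₁, c₂, rfl⟩ := hd
      obtain ⟨h1, h2, h3⟩ := happ ((c : F) * ζ) (c₁ : F) (c₂ : F)
      refine ⟨_, hT c c₁ c₂, h3, 0, (c : F) * ζ * fa * ((c₁ : F) + c₂ * κ) * c₂, ?_, ?_⟩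
      · rw [h2]; simp [coe_ux]
      · rw [h1]; simp [coe_ux]; module
    | zero => rw [mul_zero]; exact AddSubgroup.zero_mem _
    | add d e _ _ hd he => rw [mul_add]; exact AddSubgroup.add_mem _ hd he
    | neg d _ hd => rw [mul_neg]; exact AddSubgroup.neg_mem _ hd
  have hsmul : ∀ t ∈ F₀, ∀ w ∈ A, t * w ∈ A := by
    rintro t ht w ⟨d, hd, rfl⟩
    refine ⟨t * d, ?_, by ring⟩
    induction hd using AddSubgroup.closure_induction with
    | mem d hd =>
      obtain ⟨c, c₁, c₂, rfl⟩ := hd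
      exact AddSubgroup.subset_closure ⟨⟨t, ht⟩ * c, c₁, c₂, by rw [Subfield.coe_mul]; ring⟩
    | zero => rw [mul_zero]; exact AddSubgroup.zero_mem _
    | add d e _ _ hd he => rw [mul_add]; exact AddSubgroup.add_mem _ hd he
    | neg d _ hd => rw [mul_neg]; exact AddSubgroup.neg_mem _ hd
  have gen : ∀ c c₁ c₂ : F₀, (c : F) * ((c₁ : F) + (c₂ : F) * κ) ^ 2 ∈ AddSubgroup.closure G :=
    fun c c₁ c₂ => AddSubgroup.subset_closure ⟨c, c₁, c₂, rfl⟩
  -- a second parameter
  obtain ⟨μ₀, hμ₀, hμ₀mem⟩ : ∃ μ₀, μ₀ ∉ F₀ ∧ ∀ t : F₀, (t : F) * μ₀ ∈ AddSubgroup.closure G := by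
    by_cases h2 : (2 : F) = 0
    · refine ⟨κ ^ 2, fun h => hκ ?_, fun t => by simpa using gen t 0 1⟩
      haveI : Fintype F₀ := Fintype.ofFinite F₀
      have hch : ringChar F₀ = 2 := by
        by_contra hne
        exact Ring.two_ne_zero hne (Subtype.ext h2)
      obtain ⟨s, hs⟩ := FiniteField.isSquare_of_char_two hch ⟨κ ^ 2, h⟩
      have e : κ ^ 2 = (s : F) * s := congrArg Subtype.val hs
      have : (κ - s) ^ 2 = 0 := by linear_combination e + ((s : F) * s - κ * s) * h2
      rw [sub_eq_zero.1 (eq_zero_of_pow_eq_zero this)]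
      exact s.2
    · refine ⟨κ, hκ, fun t => ?_⟩
      have e := AddSubgroup.sub_mem _ (AddSubgroup.sub_mem _ (gen (t / 2) 1 1) (gen (t / 2) 1 0))
        (gen (t / 2) 0 1)
      convert e using 1
      push_cast
      rw [show ((2 : F₀) : F) = 2 from rfl]
      field_simp
      ring
  haveI : Fintype F₀ := Fintype.ofFinite F₀
  have hAcard : Nat.card F₀ * Nat.card F₀ ≤ A.ncard := by
    rw [← Nat.card_prod]
    let e : F₀ × F₀ → A := fun p => ⟨ζ * fa * ((p.1 : F) + (p.2 : F) * μ₀), _,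
      AddSubgroup.add_mem _ (by simpa using gen p.1 1 0) (hμ₀mem p.2), rfl⟩
    refine le_trans (Nat.card_le_card_of_injective e ?_) (le_of_eq (Nat.card_coe_set_eq A))
    rintro ⟨s, t⟩ ⟨s', t'⟩ h
    have h' := mul_left_cancel₀ (mul_ne_zero S.ζ0 hfa0) (congrArg Subtype.val h)
    simp only at h'
    rcases eq_or_ne t t' with rfl | ht
    · exact Prod.ext (Subtype.ext (add_right_cancel h')) rfl
    · exfalso
      have ht' : (t : F) - t' ≠ 0 := sub_ne_zero.2 fun e => ht (Subtype.ext e)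
      apply hμ₀
      rw [show μ₀ = ((s' : F) - s) / ((t : F) - t') by field_simp; linear_combination h']
      exact div_mem (sub_mem s'.2 s.2) (sub_mem t.2 t'.2)
  have hq : 2 ≤ Nat.card F₀ := Finite.one_lt_card
  have hfull : ∀ w, ux w ∈ K := by
    refine ux_mem_of_large hr hcard (A := A) hAmem hsmul ?_ (by nlinarith) hb0 hyb
    by_cases h2 : (2 : F) = 0
    · exact Or.inr ⟨h2, by nlinarith⟩
    · left
      have h3 : 3 ≤ Nat.card F₀ := by
        by_contra h3
        have hc : Fintype.card F₀ = 2 := by rw [← Nat.card_eq_fintype_card]; omega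
        refine h2 ?_
        have h4 := FiniteField.cast_card_eq_zero F₀
        rw [hc] at h4
        exact congrArg Subtype.val (show (2 : F₀) = 0 by exact_mod_cast h4)
      nlinarith
  have hdiag : ∀ s : F, s ≠ 0 → ∃ h ∈ M, (h : Matrix ι ι F) *ᵥ R = R ∧ ∃ ρ₁ ρ₂ : F,
      (h : Matrix ι ι F) *ᵥ x = s • x + ρ₁ • R ∧ (h : Matrix ι ι F) *ᵥ a = s⁻¹ • a + ρ₂ • R := by
    intro s hs
    obtain ⟨σ, hσ, e⟩ := diag_mem_of_full hfull (uy_and_diag_of_full hfull hb0 hyb) hs
    obtain ⟨h, hh, r1, p, q, e1, e2⟩ := hσ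
    refine ⟨h, hh, r1, p, q, ?_, ?_⟩
    · rw [e1, e]; simp
    · rw [e2, e]; simp
  -- a translation
  obtain ⟨τ, hτ, e₀, he₀, τx, τR, τa⟩ : ∃ τ ∈ M, ∃ e₀ : F, e₀ ≠ 0 ∧
      (τ : Matrix ι ι F) *ᵥ x = x ∧ (τ : Matrix ι ι F) *ᵥ R = R ∧
      (τ : Matrix ι ι F) *ᵥ a = a + e₀ • R := by
    by_cases h2 : (2 : F) = 0
    · obtain ⟨a1, x1, r1⟩ := happ ζ 1 1
      obtain ⟨a2, x2, r2⟩ := happ ζ 1 0
      obtain ⟨a3, x3, r3⟩ := happ ζ 0 1
      have m1 : sympT B ((1 : F) • x + (1 : F) • y) ζ ∈ M := by simpa using hT 1 1 1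
      have m2 : sympT B ((1 : F) • x + (0 : F) • y) ζ ∈ M := by simpa using hT 1 1 0
      have m3 : sympT B ((0 : F) • x + (1 : F) • y) ζ ∈ M := by simpa using hT 1 0 1
      refine ⟨_, mul_mem (mul_mem m1 m2) m3, ζ * fa, mul_ne_zero S.ζ0 hfa0, ?_, ?_, ?_⟩
      · rw [mul_mulVec', mul_mulVec', x3, x2, x1]
      · rw [mul_mulVec', mul_mulVec', r3, r2, r1]
      · rw [mul_mulVec', mul_mulVec', a3]
        simp only [mulVec_add, mulVec_smul, x2, r2, a2, x1, r1, a1]
        match_scalars <;> grind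
    · obtain ⟨J, hJ, JR, ρ₁, ρ₂, Jx, Ja⟩ := hdiag (-1) (neg_ne_zero.2 one_ne_zero)
      have conj : ∀ (c₁ c₂ : F₀) (z : F), J * sympT B ((c₁ : F) • x + (c₂ : F) • y) ζ * J⁻¹ =
          sympT B ((c₁ : F) • x + (c₂ : F) • y + z • R) ζ →
          ((c₁ : F) + (c₂ : F) * κ) * z ≠ 0 → ∃ τ ∈ M, ∃ e₀ : F, e₀ ≠ 0 ∧
          (τ : Matrix ι ι F) *ᵥ x = x ∧ (τ : Matrix ι ι F) *ᵥ R = R ∧
          (τ : Matrix ι ι F) *ᵥ a = a + e₀ • R := by
        intro c₁ c₂ z hc hne
        have m : sympT B ((c₁ : F) • x + (c₂ : F) • y) ζ ∈ M := by simpa using hT 1 c₁ c₂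
        have m' := mul_mem (mul_mem hJ m) (inv_mem hJ)
        rw [hc] at m'
        obtain ⟨a1, x1, r1⟩ := happ ζ (c₁ : F) (c₂ : F)
        set w := (c₁ : F) • x + (c₂ : F) • y + z • R with hw
        have i1 : ((sympT B ((c₁ : F) • x + (c₂ : F) • y) ζ)⁻¹ : GL ι F).1 *ᵥ x = x := by
          conv_lhs => arg 2; rw [← x1]
          rw [inv_mulVec_mulVec]
        have i2 : ((sympT B ((c₁ : F) • x + (c₂ : F) • y) ζ)⁻¹ : GL ι F).1 *ᵥ R = R := by
          conv_lhs => arg 2; rw [← r1]
          rw [inv_mulVec_mulVec]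
        have wx : B x w = 0 := by simp [hw, hA.self_eq_zero, hxy, hxR]
        have wR : B R w = 0 := by simp [hw, hRx, hRR, hyR]
        refine ⟨(sympT B ((c₁ : F) • x + (c₂ : F) • y) ζ)⁻¹ * sympT B w ζ, mul_mem (inv_mem m) m',
          ζ * fa * (((c₁ : F) + (c₂ : F) * κ) * z),
          mul_ne_zero (mul_ne_zero S.ζ0 hfa0) hne, ?_, ?_, ?_⟩
        · rw [mul_mulVec', sympT_mulVec hA, wx, mul_zero, zero_smul, add_zero, i1]
        · rw [mul_mulVec', sympT_mulVec hA, wR, mul_zero, zero_smul, add_zero, i2]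
        · refine gl_mulVec_injective (sympT B ((c₁ : F) • x + (c₂ : F) • y) ζ) ?_
          simp only [mul_mulVec', mulVec_inv_mulVec, mulVec_add, mulVec_smul, a1, r1]
          have e : B a w = fa * ((c₁ : F) + (c₂ : F) * κ) := by
            simp [hw, ← hfadef, hyR, haR]; ring
          rw [sympT_mulVec hA, e, hw, hyR]
          module
      have flip : ∀ w z : ι → F, (J : Matrix ι ι F) *ᵥ w = (-1 : F) • z →
          J * sympT B w ζ * J⁻¹ = sympT B z ζ := fun w z hz => by
        rw [sympT_conj hA (hM hJ), hz, sympT_smul hA]; congr 1; ring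
      by_cases hρ : ρ₁ = 0
      · refine conj 0 1 (-2) (flip _ _ ?_) (by simpa using ⟨hκ0, h2⟩)
        simp only [mulVec_add, mulVec_smul, Jx, hyR, JR, hρ, Subfield.coe_one, Subfield.coe_zero]
        module
      · refine conj 1 0 (-ρ₁) (flip _ _ ?_) (by simpa using hρ)
        simp only [mulVec_add, mulVec_smul, Jx, Subfield.coe_one, Subfield.coe_zero, hyR, JR]
        module
  -- scale the rational centre
  obtain ⟨μ, hμ0, hμ⟩ : ∃ μ : F, μ ≠ 0 ∧ μ * μ ∉ F₀ := by
    obtain ⟨m, hm⟩ : ∃ m, m ∉ F₀ := ⟨κ, hκ⟩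
    by_cases hmm : m * m ∈ F₀
    swap
    · exact ⟨m, fun e => hm (e ▸ F₀.zero_mem), hmm⟩
    by_cases h2 : (2 : F) = 0
    · exfalso
      have hch : ringChar F₀ = 2 := by
        by_contra hne
        exact Ring.two_ne_zero hne (Subtype.ext h2)
      obtain ⟨s, hs⟩ := FiniteField.isSquare_of_char_two hch ⟨m * m, hmm⟩
      have e : m * m = (s : F) * s := congrArg Subtype.val hs
      have : (m - s) ^ 2 = 0 := by linear_combination e + ((s : F) * s - m * s) * h2
      exact hm (sub_eq_zero.1 (eq_zero_of_pow_eq_zero this) ▸ s.2)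
    · refine ⟨m + 1, fun e => hm ?_, fun h => hm ?_⟩
      · rw [show m = -1 by linear_combination e]; exact neg_mem F₀.one_mem
      · rw [show m = ((m + 1) * (m + 1) - m * m - 1) / 2 by field_simp; ring]
        exact div_mem (sub_mem (sub_mem h hmm) F₀.one_mem)
          (by rw [← one_add_one_eq_two]; exact add_mem F₀.one_mem F₀.one_mem)
  obtain ⟨h, hh, hhR, ρ₁, ρ₂, -, hha⟩ := hdiag μ⁻¹ (inv_ne_zero hμ0)
  rw [inv_inv] at hha
  obtain ⟨h', hh', hh'a⟩ : ∃ h' ∈ M, (h' : Matrix ι ι F) *ᵥ a = μ • a := by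
    rcases eq_or_ne ρ₂ 0 with h0 | h0
    · exact ⟨h, hh, by rw [hha, h0, zero_smul, add_zero]⟩
    · set s := -(ρ₂ / μ) / e₀ with hs
      have hs0 : s ≠ 0 := div_ne_zero (neg_ne_zero.2 (div_ne_zero h0 hμ0)) he₀
      obtain ⟨d, hd, dR, p, q, dx, da⟩ := hdiag s hs0
      have hdinv : ((d⁻¹ : GL ι F) : Matrix ι ι F) *ᵥ a = s • a - (s * q) • R := by
        refine gl_mulVec_injective d ?_
        simp only [mulVec_inv_mulVec, mulVec_sub, mulVec_smul, da, dR]
        match_scalars <;> field_simp <;> ring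
      refine ⟨d * τ * d⁻¹ * h, mul_mem (mul_mem (mul_mem hd hτ) (inv_mem hd)) hh, ?_⟩
      have dinvR : ((d⁻¹ : GL ι F) : Matrix ι ι F) *ᵥ R = R := by
        conv_lhs => arg 2; rw [← dR]
        rw [inv_mulVec_mulVec]
      rw [mul_mulVec', hha]
      simp only [mul_mulVec', mulVec_add, mulVec_smul, hdinv, dinvR, mulVec_sub, τa, τR, da, dR]
      rw [hs]
      match_scalars <;> field_simp <;> ring
  refine ⟨ζ * μ * μ, ?_, S.allAt_of_one hrat (a := a₀) ?_ ?_⟩
  · rwa [show ζ * μ * μ / ζ = μ * μ by have := S.ζ0; field_simp]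
  · intro e; exact hfa0 (by rw [hfadef, show a = 0 by rw [ha, e, ratVec_zero]]; simp)
  · have h1 := mul_mem (mul_mem hh' (by simpa using hrat a₀ 1 : sympT B a ζ ∈ M)) (inv_mem hh')
    rwa [sympT_conj hA (hM hh'), hh'a, sympT_smul hA] at h1

/-- All rational root groups give the whole isometry group. -/
lemma AltRat.isoGroup_le [Finite F] (hall : ∀ c, AltAll B F₀ P M c) : isoGroup B ≤ M := by
  classical
  have hA := S.alt
  have hr0 : ∀ r : ι → F₀, ratVec P r ∈ centres B M := fun r c => hall c r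
  have step : ∀ (x : ι → F), x ∈ centres B M → ∀ (r : ι → F₀) (t : F),
      x + t • ratVec P r ∈ centres B M := by
    intro x hx r t
    by_cases h : B x (ratVec P r) = 0
    swap
    · exact add_smul_mem_centres hA hx (hr0 r) h t
    rcases eq_or_ne r 0 with rfl | hr
    · rwa [ratVec_zero, smul_zero, add_zero]
    by_cases h' : ∃ r₁, S.form r r₁ = 0 ∧ B x (ratVec P r₁) ≠ 0
    · obtain ⟨r₁, h1, h2⟩ := h'
      have h1' : B (ratVec P r₁) (ratVec P r) = 0 := by
        have e := congrArg Subtype.val h1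
        rw [S.form_coe, ← hA.neg_eq] at e
        simpa [S.ζ0] using e
      have hy := add_smul_mem_centres hA hx (hr0 r₁) h2 (-t)
      have := add_smul_mem_centres hA hy (hr0 (r + r₁))
        (by simp [ratVec_add, h, h1', hA.self_eq_zero, h2]) t
      rw [ratVec_add, smul_add, neg_smul] at this
      convert this using 1
      abel
    · push Not at h'
      obtain ⟨v₀, hv₀⟩ : ∃ v₀, S.form r v₀ ≠ 0 := by
        by_contra hc; push Not at hc; exact hr (S.form_nd.1 r hc)
      have e : x = ((B x (ratVec P v₀) / (S.form r v₀ : F)) * ζ) • ratVec P r := by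
        refine S.eq_of_pairing fun v => ?_
        have h1 := h' (v - (S.form r v / S.form r v₀) • v₀) (by simp [hv₀])
        have hne : (S.form r v₀ : F) ≠ 0 := fun e => hv₀ (Subtype.ext e)
        rw [ratVec, ← ratVec] at h1
        simp [sub_eq_add_neg, ratVec_add, ← neg_smul, ratVec_smul] at h1
        field_simp at h1 ⊢
        linear_combination h1
      rw [e, ← add_smul]
      exact smul_mem_centres hA _ (hr0 r)
  refine isoGroup_le_of_centres hA S.nd fun x => ?_
  rw [← mulVec_inv_mulVec P x, pi_eq_sum_univ' (((P⁻¹ : GL ι F) : Matrix ι ι F) *ᵥ x), mulVec_sum]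
  suffices ∀ s : Finset ι, ∑ i ∈ s, (P : Matrix ι ι F) *ᵥ
      ((((P⁻¹ : GL ι F) : Matrix ι ι F) *ᵥ x) i • Pi.single i 1) ∈ centres B M from this _
  intro s
  induction s using Finset.induction with
  | empty => simpa [ratVec_zero] using hr0 0
  | insert i s hi ih =>
    rw [Finset.sum_insert hi, add_comm]
    have := step _ ih (Pi.single i 1) ((((P⁻¹ : GL ι F) : Matrix ι ι F) *ᵥ x) i)
    rw [mulVec_smul]
    rwa [ratVec, show (fun j => ((Pi.single i 1 : ι → F₀) j : F)) = Pi.single i 1 by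
      funext j; rcases eq_or_ne j i with rfl | h' <;> simp [*]] at this

omit hrat in
/-- The subfield group is maximal in the isometry group. -/
theorem AltRat.isMaximalIn [Finite F] (hn : 3 ≤ Fintype.card ι) {r : ℕ} (hr : r.Prime)
    (hcard : Nat.card F = Nat.card F₀ ^ r) :
    IsMaximalIn (isoGroup B) (subfieldSubgroup F₀ P ⊓ isoGroup B) := by
  classical
  have hA := S.alt
  refine isMaximalIn_of inf_le_right ?_ fun M hle hM g hg hgn => ?_
  · obtain ⟨k, hk⟩ : ∃ k : F, k ∉ F₀ := by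
      by_contra h; push Not at h
      have : F₀ = ⊤ := eq_top_iff.2 fun z _ => h z
      have hc : Nat.card F₀ = Nat.card F := by rw [this]; exact Nat.card_congr Subfield.topEquiv.toEquiv
      rw [hc] at hcard
      exact hr.ne_one (Nat.pow_right_injective (a := Nat.card F) Finite.one_lt_card
        (show _ ^ 1 = _ ^ r by rwa [pow_one])).symm
    obtain ⟨i⟩ : Nonempty ι := Fintype.card_pos_iff.1 (by omega)
    set a : ι → F₀ := Pi.single i 1
    have ha : a ≠ 0 := by simp [a]
    obtain ⟨b, hab⟩ : ∃ b, S.form b a ≠ 0 := by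
      by_contra h; push Not at h; exact ha (S.form_nd.2 a h)
    refine ⟨sympT B (ratVec P a) (k * ζ), sympT_mem hA _ _, fun h => hk ?_⟩
    obtain ⟨g₀, c, hgc⟩ := mem_subfieldSubgroup_iff.1 h.1
    have e1 := hgc a
    rw [sympT_mulVec hA, hA.self_eq_zero, mul_zero, zero_smul, add_zero] at e1
    simp only [ratVec, ← mulVec_smul] at e1
    have e1' := congrFun (gl_mulVec_injective P e1) i
    simp [a] at e1'
    have hc : (c : F) ∈ F₀ := by
      rw [show (c : F) = ((g₀ : Matrix ι ι F₀) i i : F)⁻¹ from eq_inv_of_mul_eq_one_left e1'.symm]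
      exact inv_mem (SetLike.coe_mem _)
    have e2 := hgc b
    rw [sympT_mulVec hA, mul_assoc, ← S.form_coe] at e2
    simp only [ratVec, ← mulVec_smul, ← mulVec_add] at e2
    have e2' := congrFun (gl_mulVec_injective P e2) i
    simp [a] at e2'
    rw [show k = ((c : F) * (((g₀ : Matrix ι ι F₀) *ᵥ b) i : F) - (b i : F)) / (S.form b a : F) by
      have hne : (S.form b a : F) ≠ 0 := fun e => hab (Subtype.ext e)
      field_simp
      linear_combination e2']
    exact div_mem (sub_mem (mul_mem hc (SetLike.coe_mem _)) (SetLike.coe_mem _)) (SetLike.coe_mem _)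
  · have hrat : ∀ (v : ι → F₀) (c : F₀), sympT B (ratVec P v) ((c : F) * ζ) ∈ M := fun v c => by
      refine hle ⟨mem_subfieldSubgroup_iff.2 ⟨sympT S.form v c, 1, fun u => ?_⟩, sympT_mem hA _ _⟩
      rw [sympT_mulVec hA, sympT_mulVec S.form_alt, Units.val_one, one_smul, ratVec_add, ratVec_smul,
        Subfield.coe_mul, S.form_coe]
      congr 2
      ring
    obtain ⟨k, hk, hall⟩ := S.exists_multiplier hrat hn hr hcard hM hg fun h => hgn ⟨h, hM hg⟩
    exact S.isoGroup_le hrat fun c => S.allAt_all hrat (by omega) hr hcard hk hall c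

end Cfsg.Agent.Lib.Forms
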