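import Cfsg.Agent.Lib.Forms.SympTI

/-!
Steinberg's count of the unipotent elements of a symplectic group.

For a unipotent `g ≠ 1` the form degenerates on the fixed space of `g`, and a weighted alternating
sum over isotropic independent families inside a space on which the form degenerates vanishes.
-/

set_option autoImplicit false

namespace Cfsg.Agent.Lib.Forms.SpUnip

open Matrix Finset

variable {F : Type*} [Field F] {m : ℕ}

local notation "V" => (Fin m ⊕ Fin m → F)
local notation "ω" => Cfsg.sympForm m F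

/-! ### Frames inside a subspace -/

/-- Frames with all members in `W`. -/
def FrameIn (W : Submodule F V) (k : ℕ) : Type _ :=
  {u : TIFrame ω k // ∀ i, u.1 i ∈ W}

/-- Frames in `W` whose span contains `r`. -/
def FrameS (W : Submodule F V) (r : V) (k : ℕ) : Type _ :=
  {u : FrameIn W k // r ∈ Submodule.span F (Set.range u.1.1)}

/-- Frames in `W` whose span avoids `r`. -/
def FrameB (W : Submodule F V) (r : V) (k : ℕ) : Type _ :=
  {u : FrameIn W k // ¬ r ∈ Submodule.span F (Set.range u.1.1)}

variable [Fintype F]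

instance (k : ℕ) : Finite (TIFrame ω k) := by unfold TIFrame; infer_instance
instance (W : Submodule F V) (k : ℕ) : Finite (FrameIn W k) := by unfold FrameIn; infer_instance
instance (W : Submodule F V) (r : V) (k : ℕ) : Finite (FrameS W r k) := by unfold FrameS; infer_instance
instance (W : Submodule F V) (r : V) (k : ℕ) : Finite (FrameB W r k) := by unfold FrameB; infer_instance

theorem card_split (W : Submodule F V) (r : V) (k : ℕ) :
    Nat.card (FrameIn W k) = Nat.card (FrameS W r k) + Nat.card (FrameB W r k) := by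
  classical
  unfold FrameS FrameB
  rw [← Nat.card_sum]
  exact (Nat.card_congr (Equiv.sumCompl _)).symm

theorem card_S_zero (W : Submodule F V) {r : V} (hr : r ≠ 0) : Nat.card (FrameS W r 0) = 0 := by
  haveI : IsEmpty (FrameS W r 0) := ⟨fun u => hr (by
    have h := u.2
    simpa [Set.range_eq_empty] using h)⟩
  exact Nat.card_of_isEmpty

theorem card_B_large (W : Submodule F V) (r : V) {k : ℕ} (hk : 2 * m < k) :
    Nat.card (FrameB W r k) = 0 := by
  haveI : IsEmpty (FrameB W r k) := ⟨fun u => by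
    have h := u.1.1.2.1.fintype_card_le_finrank
    rw [Fintype.card_fin, Module.finrank_fintype_fun_eq_card, Fintype.card_sum, Fintype.card_fin] at h
    omega⟩
  exact Nat.card_of_isEmpty

omit [Fintype F] in
theorem orth_span {k : ℕ} (w : Fin k → V) (hw : ∀ i j, ω (w i) (w j) = 0) {r : V}
    (hrr : ω r r = 0) (h1 : ∀ i, ω r (w i) = 0) (h2 : ∀ i, ω (w i) r = 0) :
    ∀ x ∈ Submodule.span F (insert r (Set.range w)), ∀ y ∈ Submodule.span F (insert r (Set.range w)),
      ω x y = 0 := by
  refine sympForm_span_zero _ ?_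
  rintro x (rfl | ⟨i, rfl⟩) y (rfl | ⟨j, rfl⟩)
  · exact hrr
  · exact h1 j
  · exact h2 i
  · exact hw i j

theorem card_S_succ (W : Submodule F V) {r : V} (hr : r ≠ 0) (hrW : r ∈ W)
    (hrad : ∀ w ∈ W, ω r w = 0 ∧ ω w r = 0) (k : ℕ) :
    Nat.card (FrameS W r (k + 1)) = (Fintype.card F ^ (k + 1) - 1) * Nat.card (FrameB W r k) := by
  classical
  have hpiv : ∀ a : {a : Fin (k + 1) → F // a ≠ 0}, ∃ i, a.1 i ≠ 0 := fun a =>
    Function.ne_iff.1 a.2
  choose piv hp using hpiv
  let vec : {a : Fin (k + 1) → F // a ≠ 0} → FrameB W r k → (Fin (k + 1) → V) := fun a w =>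
    (piv a).insertNth ((a.1 (piv a))⁻¹ • (r - ∑ j, a.1 ((piv a).succAbove j) • w.1.1.1 j)) w.1.1.1
  have hsum : ∀ a w, ∑ i, a.1 i • vec a w i = r := by
    intro a w
    rw [Fin.sum_univ_succAbove _ (piv a)]
    simp only [vec, Fin.insertNth_apply_same, Fin.insertNth_apply_succAbove]
    rw [smul_smul, mul_inv_cancel₀ (hp a), one_smul, sub_add_cancel]
  have hmemW : ∀ a w i, vec a w i ∈ W := by
    intro a w i
    induction i using (piv a).succAboveCases with
    | x =>
      simp only [vec, Fin.insertNth_apply_same]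
      exact W.smul_mem _ (W.sub_mem hrW (Submodule.sum_mem _ fun j _ => W.smul_mem _ (w.1.2 j)))
    | p j => simp only [vec, Fin.insertNth_apply_succAbove]; exact w.1.2 j
  have horth : ∀ a w i j, ω (vec a w i) (vec a w j) = 0 := by
    intro a w i j
    have hsp : ∀ i, vec a w i ∈ Submodule.span F (insert r (Set.range w.1.1.1)) := by
      intro i
      induction i using (piv a).succAboveCases with
      | x =>
        simp only [vec, Fin.insertNth_apply_same]
        exact Submodule.smul_mem _ _ (Submodule.sub_mem _ (Submodule.subset_span (Set.mem_insert _ _))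
          (Submodule.sum_mem _ fun j _ =>
            Submodule.smul_mem _ _ (Submodule.subset_span (Set.mem_insert_of_mem _ ⟨j, rfl⟩))))
      | p j =>
        simp only [vec, Fin.insertNth_apply_succAbove]
        exact Submodule.subset_span (Set.mem_insert_of_mem _ ⟨j, rfl⟩)
    exact orth_span _ w.1.1.2.2 (hrad r hrW).1 (fun i => (hrad _ (w.1.2 i)).1)
      (fun i => (hrad _ (w.1.2 i)).2) _ (hsp i) _ (hsp j)
  have hli : ∀ a w, LinearIndependent F (vec a w) := by
    intro a w
    rw [Fintype.linearIndependent_iff]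
    intro c hc
    rw [Fin.sum_univ_succAbove _ (piv a)] at hc
    simp only [vec, Fin.insertNth_apply_same, Fin.insertNth_apply_succAbove] at hc
    set t := c (piv a) * (a.1 (piv a))⁻¹ with ht
    have hc' : t • r + ∑ j, (c ((piv a).succAbove j) - t * a.1 ((piv a).succAbove j)) • w.1.1.1 j = 0 := by
      rw [← hc, smul_smul, ← ht, smul_sub, Finset.smul_sum]
      simp only [sub_smul, smul_smul, Finset.sum_sub_distrib]
      abel
    have ht0 : t = 0 := by
      by_contra h
      apply w.2
      have e : r = -(t⁻¹ • ∑ j, (c ((piv a).succAbove j) - t * a.1 ((piv a).succAbove j)) • w.1.1.1 j) := by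
        rw [eq_neg_iff_add_eq_zero]
        have := congrArg (t⁻¹ • ·) hc'
        simpa [smul_add, smul_smul, inv_mul_cancel₀ h] using this
      have hm : -(t⁻¹ • ∑ j, (c ((piv a).succAbove j) - t * a.1 ((piv a).succAbove j)) • w.1.1.1 j) ∈
          Submodule.span F (Set.range w.1.1.1) :=
        Submodule.neg_mem _ (Submodule.smul_mem _ _ (Submodule.sum_mem _ fun j _ =>
          Submodule.smul_mem _ _ (Submodule.subset_span ⟨j, rfl⟩)))
      rwa [← e] at hm
    rw [ht0] at hc'
    simp only [zero_smul, zero_mul, sub_zero, zero_add] at hc'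
    have hall := Fintype.linearIndependent_iff.1 w.1.1.2.1 _ hc'
    intro i
    induction i using (piv a).succAboveCases with
    | x => exact (mul_eq_zero.1 (ht.symm.trans ht0)).resolve_right (inv_ne_zero (hp a))
    | p j => exact hall j
  let Φ : {a : Fin (k + 1) → F // a ≠ 0} × FrameB W r k → FrameS W r (k + 1) := fun x =>
    ⟨⟨⟨vec x.1 x.2, hli _ _, horth _ _⟩, hmemW _ _⟩, (Submodule.mem_span_range_iff_exists_fun F).2 ⟨x.1.1, hsum _ _⟩⟩
  have hΦ : Function.Bijective Φ := by
    constructor
    · rintro ⟨a, w⟩ ⟨a', w'⟩ h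
      have hv : vec a w = vec a' w' := congrArg (fun u : FrameS W r (k + 1) => u.1.1.1) h
      have ha : a = a' := by
        apply Subtype.ext
        have h0 : ∑ i, (a.1 i - a'.1 i) • vec a w i = 0 := by
          simp only [sub_smul, Finset.sum_sub_distrib]
          rw [hsum, hv, hsum, sub_self]
        funext i
        exact sub_eq_zero.1 (Fintype.linearIndependent_iff.1 (hli a w) _ h0 i)
      subst ha
      refine Prod.ext rfl (Subtype.ext (Subtype.ext (Subtype.ext (funext fun j => ?_))))
      have := congrFun hv ((piv a).succAbove j)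
      simpa [vec] using this
    · intro u
      obtain ⟨a, ha⟩ := (Submodule.mem_span_range_iff_exists_fun F).1 u.2
      have ha0 : a ≠ 0 := by
        rintro rfl
        exact hr (by simpa using ha.symm)
      set i₀ := piv ⟨a, ha0⟩ with hi₀
      have hpa : a i₀ ≠ 0 := hp ⟨a, ha0⟩
      let w : Fin k → V := fun j => u.1.1.1 (i₀.succAbove j)
      have hwB : ¬ r ∈ Submodule.span F (Set.range w) := by
        intro h
        obtain ⟨b, hb⟩ := (Submodule.mem_span_range_iff_exists_fun F).1 h
        have h0 : ∑ i, (a i - (i₀.insertNth (α := fun _ => F) 0 b i)) • u.1.1.1 i = 0 := by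
          simp only [sub_smul, Finset.sum_sub_distrib]
          rw [ha, Fin.sum_univ_succAbove (fun i => (i₀.insertNth (α := fun _ => F) 0 b i) • u.1.1.1 i) i₀]
          simp only [Fin.insertNth_apply_same, Fin.insertNth_apply_succAbove, zero_smul, zero_add]
          rw [sub_eq_zero]
          exact hb.symm
        have := Fintype.linearIndependent_iff.1 u.1.1.2.1 _ h0 i₀
        simp [Fin.insertNth_apply_same] at this
        exact hpa this
      refine ⟨(⟨a, ha0⟩, ⟨⟨⟨w, u.1.1.2.1.comp _ (Fin.succAbove_right_injective),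
        fun i j => u.1.1.2.2 _ _⟩, fun j => u.1.2 _⟩, hwB⟩), ?_⟩
      refine Subtype.ext (Subtype.ext (Subtype.ext (funext fun i => ?_)))
      show vec _ _ i = u.1.1.1 i
      induction i using (piv ⟨a, ha0⟩).succAboveCases with
      | x =>
        simp only [vec, Fin.insertNth_apply_same]
        rw [Fin.sum_univ_succAbove _ i₀] at ha
        have e : r - ∑ j, a (i₀.succAbove j) • w j = a i₀ • u.1.1.1 i₀ := by
          simp only [w, ← ha]
          abel
        calc _ = (a i₀)⁻¹ • (r - ∑ j, a (i₀.succAbove j) • w j) := rfl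
          _ = _ := by rw [e, smul_smul, inv_mul_cancel₀ hpa, one_smul]
      | p j => simp only [vec, Fin.insertNth_apply_succAbove]; rfl
  rw [← Nat.card_eq_of_bijective Φ hΦ, Nat.card_prod]
  congr 1
  rw [Nat.card_eq_fintype_card, Fintype.card_subtype_compl, Fintype.card_subtype_eq, Fintype.card_fun,
    Fintype.card_fin]

/-- The weights. -/
def cw (q : ℚ) : ℕ → ℚ
  | 0 => 1
  | k + 1 => -cw q k / (q ^ (k + 1) - 1)

/-- The alternating sum over frames in `W`. -/
noncomputable def hsum (W : Submodule F V) : ℚ :=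
  ∑ k ∈ range (2 * m + 2), cw (Fintype.card F : ℚ) k * (Nat.card (FrameIn W k) : ℚ)

theorem one_lt_q : (1 : ℚ) < (Fintype.card F : ℚ) := by exact_mod_cast Fintype.one_lt_card

theorem q_pow_sub_one_ne {j : ℕ} (hj : j ≠ 0) : (Fintype.card F : ℚ) ^ j - 1 ≠ 0 :=
  sub_ne_zero.2 (one_lt_pow₀ one_lt_q hj).ne'

theorem hsum_eq_zero (W : Submodule F V) {r : V} (hr : r ≠ 0) (hrW : r ∈ W)
    (hrad : ∀ w ∈ W, ω r w = 0 ∧ ω w r = 0) : hsum W = 0 := by
  set c := cw (Fintype.card F : ℚ)
  have key : ∀ n, ∑ k ∈ range (n + 1), c k * (Nat.card (FrameIn W k) : ℚ) =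
      c n * (Nat.card (FrameB W r n) : ℚ) := by
    intro n
    induction n with
    | zero => simp [card_split W r 0, card_S_zero W hr]
    | succ n ih =>
      rw [Finset.sum_range_succ, ih, card_split W r (n + 1), card_S_succ W hr hrW hrad n]
      have h1 : 1 ≤ Fintype.card F ^ (n + 1) := Nat.one_le_pow _ _ Fintype.card_pos
      push_cast [Nat.cast_sub h1]
      have h2 : c (n + 1) * ((Fintype.card F : ℚ) ^ (n + 1) - 1) = -c n := by
        simp only [c, cw]
        rw [div_mul_cancel₀ _ (q_pow_sub_one_ne (Nat.succ_ne_zero n))]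
      linear_combination (Nat.card (FrameB W r n) : ℚ) * h2
  rw [hsum, key, card_B_large W r (by omega)]
  simp

/-! ### The numerical identity -/

/-- `(-1)^k` times the number of totally isotropic `k`-spaces. -/
def R (q : ℚ) (m : ℕ) : ℕ → ℚ
  | 0 => 1
  | k + 1 => -R q m k * (q ^ (2 * (m - k)) - 1) / (q ^ (k + 1) - 1)

theorem R_succ (q : ℚ) (m k : ℕ) :
    R q m (k + 1) = -R q m k * (q ^ (2 * (m - k)) - 1) / (q ^ (k + 1) - 1) := rfl

theorem R_eq_zero (q : ℚ) {m k : ℕ} (h : m < k) : R q m k = 0 := by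
  induction k with
  | zero => omega
  | succ k ih =>
    rw [R]
    by_cases hk : m < k
    · simp [ih hk]
    · simp [show m - k = 0 by omega]

theorem R_shift {q : ℚ} (hq : 1 < q) (m k : ℕ) :
    R q (m + 1) (k + 1) = -(q ^ (2 * m + 2) - 1) / (q ^ (k + 1) - 1) * R q m k := by
  induction k with
  | zero => simp [R, show 2 * (m + 1) = 2 * m + 2 by ring]
  | succ k ih =>
    rw [R_succ, ih, R_succ q m k]
    rw [show m + 1 - (k + 1) = m - k by omega]
    ring

theorem R_rec {q : ℚ} (hq : 1 < q) {m k : ℕ} (hk : k ≤ m) :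
    R q (m + 1) (k + 1) = q ^ (k + 1) * R q m (k + 1) - (1 + q ^ (2 * m + 1 - k)) * R q m k := by
  have hne : q ^ (k + 1) - 1 ≠ 0 := sub_ne_zero.2 (one_lt_pow₀ hq (Nat.succ_ne_zero k)).ne'
  rw [R_shift hq, R_succ q m k]
  obtain ⟨d, rfl⟩ := Nat.exists_eq_add_of_le hk
  rw [show 2 * (k + d) + 1 - k = k + 2 * d + 1 by omega, show k + d - k = d by omega,
    show 2 * (k + d) + 2 = (k + 2 * d + 1) + (k + 1) by omega, pow_add]
  field_simp
  ring

/-- The sum belonging to the trivial element. -/
def Asum (q : ℚ) (m : ℕ) : ℚ := ∑ k ∈ range (m + 1), q ^ k.choose 2 * R q m k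

/-- The sum with the expected numbers of unipotent elements. -/
def Bsum (q : ℚ) (m : ℕ) : ℚ := ∑ k ∈ range (m + 1), q ^ (m ^ 2 + (m - k) ^ 2) * R q m k

theorem Asum_succ {q : ℚ} (hq : 1 < q) (m : ℕ) : Asum q (m + 1) = -q ^ (2 * m + 1) * Asum q m := by
  set f : ℕ → ℚ := fun k => q ^ k * (q ^ k.choose 2 * R q m k) with hf
  have hterm : ∀ k ∈ range (m + 1), q ^ (k + 1).choose 2 * R q (m + 1) (k + 1) =
      (f (k + 1) - f k) + -q ^ (2 * m + 1) * (q ^ k.choose 2 * R q m k) := by
    intro k hk
    rw [Finset.mem_range, Nat.lt_succ_iff] at hk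
    rw [R_rec hq hk]
    simp only [hf]
    rw [Nat.choose_succ_succ' k 1, Nat.choose_one_right]
    obtain ⟨d, rfl⟩ := Nat.exists_eq_add_of_le hk
    rw [show 2 * (k + d) + 1 - k = k + 2 * d + 1 by omega]
    ring
  rw [Asum, Finset.sum_range_succ', Finset.sum_congr rfl hterm, Finset.sum_add_distrib,
    Finset.sum_range_sub, ← Finset.mul_sum]
  simp [hf, Asum, R_eq_zero q (Nat.lt_succ_self m), R]

theorem Bsum_succ {q : ℚ} (hq : 1 < q) (m : ℕ) : Bsum q (m + 1) = -q ^ (2 * m + 1) * Bsum q m := by
  set g : ℕ → ℚ := fun k => q ^ (4 * m + 2 - k) * (q ^ (m ^ 2 + (m - k) ^ 2) * R q m k) with hg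
  have hterm : ∀ k ∈ range (m + 1), q ^ ((m + 1) ^ 2 + (m + 1 - (k + 1)) ^ 2) * R q (m + 1) (k + 1) =
      (g (k + 1) - g k) + -q ^ (2 * m + 1) * (q ^ (m ^ 2 + (m - k) ^ 2) * R q m k) := by
    intro k hk
    rw [Finset.mem_range, Nat.lt_succ_iff] at hk
    rw [R_rec hq hk]
    simp only [hg]
    rcases hk.eq_or_lt with rfl | hlt
    · rw [R_eq_zero q (Nat.lt_succ_self k), show 2 * k + 1 - k = k + 1 by omega,
        show 4 * k + 2 - k = 3 * k + 2 by omega, show k + 1 - (k + 1) = 0 by omega, Nat.sub_self]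
      ring
    · obtain ⟨d, rfl⟩ := Nat.exists_eq_add_of_lt hlt
      rw [show 2 * (k + d + 1) + 1 - k = k + 2 * d + 3 by omega,
        show 4 * (k + d + 1) + 2 - k = 3 * k + 4 * d + 6 by omega,
        show 4 * (k + d + 1) + 2 - (k + 1) = 3 * k + 4 * d + 5 by omega,
        show k + d + 1 - k = d + 1 by omega, show k + d + 1 + 1 - (k + 1) = d + 1 by omega,
        show k + d + 1 - (k + 1) = d by omega]
      ring
  rw [Bsum, Finset.sum_range_succ', Finset.sum_congr rfl hterm, Finset.sum_add_distrib,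
    Finset.sum_range_sub, ← Finset.mul_sum]
  have g1 : g (m + 1) = 0 := by simp [hg, R_eq_zero q (Nat.lt_succ_self m)]
  have g0 : g 0 = q ^ (4 * m + 2) * q ^ (m ^ 2 + m ^ 2) := by simp [hg, R]
  rw [g1, g0, ← Bsum]
  have e : R q (m + 1) 0 = 1 := rfl
  rw [e, Nat.sub_zero]
  ring

theorem Asum_eq_Bsum {q : ℚ} (hq : 1 < q) (m : ℕ) : Asum q m = Bsum q m := by
  induction m with
  | zero => simp [Asum, Bsum]
  | succ m ih => rw [Asum_succ hq, Bsum_succ hq, ih]

end Cfsg.Agent.Lib.Forms.SpUnip
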