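import Cfsg.Agent.Lib.Forms.SympTI

/-!
The stabiliser of a standard isotropic frame in a symplectic group: it maps onto a smaller
symplectic group, with a kernel of exponent dividing `p ^ 2`.
-/

set_option autoImplicit false

namespace Cfsg.Agent.Lib.Forms.SpUnip

open Matrix Finset Sum

/-- Being killed by a power of `p`. -/
def IsU {M : Type*} [Monoid M] (p : ℕ) (x : M) : Prop := ∃ j, x ^ p ^ j = 1

variable {F : Type*} [Field F]

theorem sub_one_pow_char {ι : Type*} [Fintype ι] [DecidableEq ι] (p : ℕ) [Fact p.Prime] [CharP F p]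
    (A : Matrix ι ι F) (j : ℕ) : (A - 1) ^ p ^ j = A ^ p ^ j - 1 := by
  rcases isEmpty_or_nonempty ι with h | h
  · exact Subsingleton.elim _ _
  · rw [sub_pow_char_pow_of_commute (p := p) (n := j) (Commute.one_right A), one_pow]

theorem sandwich {n : ℕ} {α : Type*} [Fintype α] (M : Matrix α (Fin n ⊕ Fin n) F) (u v : α) :
    (M * Matrix.J (Fin n) F * Mᵀ) u v =
      ∑ x, (M u (inr x) * M v (inl x) - M u (inl x) * M v (inr x)) := by
  have h : M * Matrix.J (Fin n) F =
      Matrix.of fun u y => Sum.elim (fun x => M u (inr x)) (fun x => -M u (inl x)) y := by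
    ext u (x | x) <;> simp [Matrix.J, Matrix.mul_apply, Matrix.one_apply]
  rw [h]
  simp [Matrix.mul_apply, Finset.sum_add_distrib, sub_eq_add_neg]

variable {k l : ℕ}

theorem sandwich_mem {n : ℕ} (A : Matrix.symplecticGroup (Fin n) F) (u v : Fin n ⊕ Fin n) :
    ∑ x, (A.1 u (inr x) * A.1 v (inl x) -
      A.1 u (inl x) * A.1 v (inr x)) = Matrix.J (Fin n) F u v := by
  rw [← sandwich, SymplecticGroup.mem_iff.1 A.2]

theorem sandwich_mem' {n : ℕ} (A : Matrix.symplecticGroup (Fin n) F) (u v : Fin n ⊕ Fin n) :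
    ∑ x, (A.1 (inr x) u * A.1 (inl x) v -
      A.1 (inl x) u * A.1 (inr x) v) = Matrix.J (Fin n) F u v := by
  rw [← SymplecticGroup.mem_iff'.1 A.2]
  have := sandwich (A.1ᵀ) u v
  rw [Matrix.transpose_transpose] at this
  exact this.symm

theorem cast_ne_nat (i : Fin k) (j : Fin l) : Fin.castAdd l i ≠ Fin.natAdd k j := fun h => by
  have := congrArg Fin.val h
  simp at this
  omega

/-- The first standard isotropic frame. -/
def stdFr (F : Type*) [Field F] (k l : ℕ) : Fin k → (Fin (k + l) ⊕ Fin (k + l) → F) :=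
  fun i => Pi.single (inl (Fin.castAdd l i)) 1

/-- Its pointwise stabiliser. -/
abbrev Stab (F : Type*) [Field F] (k l : ℕ) : Subgroup (Matrix.symplecticGroup (Fin (k + l)) F) :=
  fixFrame (stdFr F k l)

theorem stab_col (g : Stab F k l) (y : Fin (k + l) ⊕ Fin (k + l)) (i : Fin k) :
    g.1.1 y (inl (Fin.castAdd l i)) = (1 : Matrix (Fin (k + l) ⊕ Fin (k + l)) (Fin (k + l) ⊕ Fin (k + l)) F) y (inl (Fin.castAdd l i)) := by
  have := congrFun (g.2 i) y
  simpa [stdFr, Pi.single_apply, Matrix.one_apply, Matrix.col] using this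

theorem stab_row (g : Stab F k l) (i : Fin k) (y : Fin (k + l) ⊕ Fin (k + l)) :
    g.1.1 (inr (Fin.castAdd l i)) y = (1 : Matrix (Fin (k + l) ⊕ Fin (k + l)) (Fin (k + l) ⊕ Fin (k + l)) F) (inr (Fin.castAdd l i)) y := by
  have h := sandwich_mem' g.1 (inl (Fin.castAdd l i)) y
  simp only [stab_col] at h
  rcases y with y | y <;>
    simpa [Matrix.one_apply, Matrix.J, neg_eq_iff_eq_neg, eq_comm] using h

/-- The small indices. -/
def emb (k l : ℕ) : Fin l ⊕ Fin l → Fin (k + l) ⊕ Fin (k + l) := Sum.map (Fin.natAdd k) (Fin.natAdd k)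

theorem stab_small_col (g : Stab F k l) (a : Fin l ⊕ Fin l) (i : Fin k) :
    g.1.1 (emb k l a) (inl (Fin.castAdd l i)) = 0 := by
  rw [stab_col]
  rcases a with a | a <;> simp [emb, Matrix.one_apply, (cast_ne_nat i a).symm]

theorem stab_small_row (g : Stab F k l) (b : Fin l ⊕ Fin l) (i : Fin k) :
    g.1.1 (inr (Fin.castAdd l i)) (emb k l b) = 0 := by
  rw [stab_row]
  rcases b with b | b <;> simp [emb, Matrix.one_apply, cast_ne_nat i b]

theorem proj_mem (g : Stab F k l) :
    g.1.1.submatrix (emb k l) (emb k l) ∈ Matrix.symplecticGroup (Fin l) F := by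
  rw [SymplecticGroup.mem_iff]
  ext u v
  rw [sandwich]
  have h := sandwich_mem g.1 (emb k l u) (emb k l v)
  rw [Fin.sum_univ_add] at h
  simp only [stab_small_col, mul_zero, zero_mul, sub_zero, Finset.sum_const_zero, zero_add] at h
  refine Eq.trans h ?_
  rcases u with u | u <;> rcases v with v | v <;>
    simp [emb, Matrix.J, Matrix.one_apply, (Fin.natAdd_injective l k).eq_iff]

theorem proj_mul (g h : Stab F k l) :
    (g * h).1.1.submatrix (emb k l) (emb k l) =
      g.1.1.submatrix (emb k l) (emb k l) * h.1.1.submatrix (emb k l) (emb k l) := by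
  ext u v
  rw [Subgroup.coe_mul, Submonoid.coe_mul]
  simp only [Matrix.submatrix_apply, Matrix.mul_apply, Fintype.sum_sum_type, Fin.sum_univ_add,
    stab_small_col, stab_small_row, mul_zero, zero_mul, Finset.sum_const_zero, zero_add]
  simp only [emb, Sum.map_inl, Sum.map_inr]

/-- The projection. -/
def proj (F : Type*) [Field F] (k l : ℕ) : Stab F k l →* Matrix.symplecticGroup (Fin l) F where
  toFun g := ⟨g.1.1.submatrix (emb k l) (emb k l), proj_mem g⟩
  map_one' := by
    apply Subtype.ext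
    simp only [OneMemClass.coe_one]
    ext (u | u) (v | v) <;> simp [emb, Matrix.one_apply, (Fin.natAdd_injective l k).eq_iff]
  map_mul' g h := Subtype.ext (proj_mul g h)

/-- Padding with a block in the first coordinates. -/
def pad (d : Matrix (Fin k) (Fin k) F) (X : Matrix (Fin l) (Fin l) F) :
    Matrix (Fin (k + l)) (Fin (k + l)) F :=
  Matrix.reindex finSumFinEquiv finSumFinEquiv (Matrix.fromBlocks d 0 0 X)

@[simp] theorem pad_cc (d : Matrix (Fin k) (Fin k) F) (X : Matrix (Fin l) (Fin l) F) (i j : Fin k) :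
    pad d X (Fin.castAdd l i) (Fin.castAdd l j) = d i j := by simp [pad]

@[simp] theorem pad_cn (d : Matrix (Fin k) (Fin k) F) (X : Matrix (Fin l) (Fin l) F) (i : Fin k) (j : Fin l) :
    pad d X (Fin.castAdd l i) (Fin.natAdd k j) = 0 := by simp [pad]

@[simp] theorem pad_nc (d : Matrix (Fin k) (Fin k) F) (X : Matrix (Fin l) (Fin l) F) (i : Fin l) (j : Fin k) :
    pad d X (Fin.natAdd k i) (Fin.castAdd l j) = 0 := by simp [pad]

@[simp] theorem pad_nn (d : Matrix (Fin k) (Fin k) F) (X : Matrix (Fin l) (Fin l) F) (i j : Fin l) :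
    pad d X (Fin.natAdd k i) (Fin.natAdd k j) = X i j := by simp [pad]

/-- The extension by the identity. -/
def ext0 (k : ℕ) (B : Matrix (Fin l ⊕ Fin l) (Fin l ⊕ Fin l) F) :
    Matrix (Fin (k + l) ⊕ Fin (k + l)) (Fin (k + l) ⊕ Fin (k + l)) F :=
  Matrix.fromBlocks (pad 1 B.toBlocks₁₁) (pad 0 B.toBlocks₁₂) (pad 0 B.toBlocks₂₁) (pad 1 B.toBlocks₂₂)

theorem ext0_mem (B : Matrix.symplecticGroup (Fin l) F) :
    ext0 k B.1 ∈ Matrix.symplecticGroup (Fin (k + l)) F := by
  rw [SymplecticGroup.mem_iff]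
  ext u v
  rw [sandwich, Fin.sum_univ_add]
  have hB := sandwich_mem B
  rcases u with u | u <;> induction u using Fin.addCases <;>
    rcases v with v | v <;> induction v using Fin.addCases <;>
    simp [ext0, Matrix.J, Matrix.one_apply, toBlocks₁₁, toBlocks₁₂, toBlocks₂₁, toBlocks₂₂, hB,
      cast_ne_nat, (cast_ne_nat _ _).symm, (Fin.natAdd_injective l k).eq_iff]

theorem proj_surjective : Function.Surjective (proj F k l) := by
  intro B
  refine ⟨⟨⟨ext0 k B.1, ext0_mem B⟩, fun i => ?_⟩, Subtype.ext ?_⟩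
  · ext y
    rcases y with y | y <;> induction y using Fin.addCases <;>
      simp [stdFr, ext0, Matrix.col, Pi.single_apply, Matrix.one_apply, cast_ne_nat, (cast_ne_nat _ _).symm,
        eq_comm]
  · show (ext0 k B.1).submatrix (emb k l) (emb k l) = B
    ext (u | u) (v | v) <;> simp [emb, ext0, toBlocks₁₁, toBlocks₁₂, toBlocks₂₁, toBlocks₂₂]

theorem ker_pow (p : ℕ) [Fact p.Prime] [CharP F p] (g : Stab F k l) (hg : proj F k l g = 1) :
    g ^ p ^ 2 = 1 := by
  set N := g.1.1 - 1 with hN
  have hcol : ∀ y i, N y (inl (Fin.castAdd l i)) = 0 := fun y i => by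
    rw [hN, Matrix.sub_apply, stab_col, sub_self]
  have hrow : ∀ i y, N (inr (Fin.castAdd l i)) y = 0 := fun i y => by
    rw [hN, Matrix.sub_apply, stab_row, sub_self]
  have hmid : ∀ a b, N (emb k l a) (emb k l b) = 0 := by
    intro a b
    have h : g.1.1 (emb k l a) (emb k l b) = (1 : Matrix (Fin l ⊕ Fin l) (Fin l ⊕ Fin l) F) a b :=
      congrFun (congrFun (congrArg Subtype.val hg) a) b
    rw [hN, Matrix.sub_apply, h]
    rcases a with a | a <;> rcases b with b | b <;>
      simp [emb, Matrix.one_apply, (Fin.natAdd_injective l k).eq_iff]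
  have h11 := fun a b => hmid (inl a) (inl b)
  have h12 := fun a b => hmid (inl a) (inr b)
  have h21 := fun a b => hmid (inr a) (inl b)
  have h22 := fun a b => hmid (inr a) (inr b)
  simp only [emb, Sum.map_inl, Sum.map_inr] at h11 h12 h21 h22
  have h3 : N ^ 3 = 0 := by
    ext x y
    simp only [pow_succ, pow_zero, Matrix.one_mul, Matrix.mul_apply, Fintype.sum_sum_type, Fin.sum_univ_add,
      hcol, hrow, h11, h12, h21, h22, mul_zero, zero_mul, Finset.sum_const_zero, add_zero, Matrix.zero_apply]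
  have hp : 3 ≤ p ^ 2 := by
    have := (Fact.out : p.Prime).two_le
    nlinarith
  have := sub_one_pow_char p g.1.1 2
  rw [← hN, pow_eq_zero_of_le hp h3, eq_comm, sub_eq_zero] at this
  apply Subtype.ext
  apply Subtype.ext
  simpa [Subgroup.coe_pow] using this

theorem isU_proj (p : ℕ) [Fact p.Prime] [CharP F p] (g : Stab F k l) :
    IsU p (g.1) ↔ IsU p (proj F k l g) := by
  constructor
  · rintro ⟨j, hj⟩
    have h : g ^ p ^ j = 1 := Subtype.ext (by simpa using hj)
    exact ⟨j, by rw [← map_pow, h, map_one]⟩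
  · rintro ⟨j, hj⟩
    have h := ker_pow p (g ^ p ^ j) (by rw [map_pow, hj])
    rw [← pow_mul, ← pow_add] at h
    exact ⟨j + 2, by simpa using congrArg Subtype.val h⟩

theorem card_preimage {H K : Type*} [Group H] [Group K] (f : H →* K) (hf : Function.Surjective f)
    (P : K → Prop) :
    Nat.card {g : H // P (f g)} = Nat.card f.ker * Nat.card {h : K // P h} := by
  rw [← Nat.card_prod]
  refine Nat.card_congr ?_
  exact
    { toFun := fun g => (⟨(Function.surjInv hf (f g.1))⁻¹ * g.1, by
          rw [MonoidHom.mem_ker, map_mul, map_inv, Function.surjInv_eq hf, inv_mul_cancel]⟩, ⟨f g.1, g.2⟩)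
      invFun := fun x => ⟨Function.surjInv hf x.2.1 * x.1.1, by
          rw [map_mul, x.1.2, mul_one, Function.surjInv_eq hf]; exact x.2.2⟩
      left_inv := fun g => Subtype.ext (by simp)
      right_inv := fun x => by
        obtain ⟨⟨n, hn⟩, ⟨h, hh⟩⟩ := x
        have e : f (Function.surjInv hf h * n) = h := by
          rw [map_mul, hn, mul_one, Function.surjInv_eq hf]
        simp [e] }

theorem card_stab (F : Type*) [Field F] (k l : ℕ) :
    Nat.card (Stab F k l) = Nat.card (proj F k l).ker * Nat.card (Matrix.symplecticGroup (Fin l) F) := by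
  have := card_preimage (proj F k l) proj_surjective fun _ => True
  rwa [Nat.card_congr (Equiv.subtypeUnivEquiv fun _ => trivial),
    Nat.card_congr (Equiv.subtypeUnivEquiv fun _ => trivial)] at this

theorem card_stab_isU (F : Type*) [Field F] (p : ℕ) [Fact p.Prime] [CharP F p] (k l : ℕ) :
    Nat.card {g : Matrix.symplecticGroup (Fin (k + l)) F // IsU p g ∧ g ∈ Stab F k l} =
      Nat.card (proj F k l).ker * Nat.card {h : Matrix.symplecticGroup (Fin l) F // IsU p h} := by
  rw [← card_preimage (proj F k l) proj_surjective (IsU p)]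
  exact Nat.card_congr
    { toFun := fun g => ⟨⟨g.1, g.2.2⟩, (isU_proj p ⟨g.1, g.2.2⟩).1 g.2.1⟩
      invFun := fun g => ⟨g.1.1, (isU_proj p g.1).2 g.2, g.1.2⟩
      left_inv := fun g => rfl
      right_inv := fun g => rfl }

end Cfsg.Agent.Lib.Forms.SpUnip
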