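import Cfsg.Agent.Lib.Forms.SympUnipotentCount
import Cfsg.Agent.Lib.Forms.SympUnipotentStab
import Cfsg.Agent.Lib.Classical.SympOrder

/-!
Summing the weighted frame counts over the unipotent elements of a symplectic group.
-/

set_option autoImplicit false

namespace Cfsg.Agent.Lib.Forms.SpUnip

open Matrix Finset Sum

variable {F : Type*} [Field F] {m : ℕ}

/-- The fixed space. -/
def fixS (g : Matrix.symplecticGroup (Fin m) F) : Submodule F (Fin m ⊕ Fin m → F) where
  carrier := {v | g.1 *ᵥ v = v}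
  add_mem' := fun {a b} ha hb => show g.1 *ᵥ (a + b) = a + b by rw [mulVec_add, ha, hb]
  zero_mem' := mulVec_zero _
  smul_mem' := fun c {v} hv => show g.1 *ᵥ (c • v) = c • v by rw [mulVec_smul, hv]

variable [Fintype F] (p : ℕ) [Fact p.Prime] [CharP F p]

theorem hsum_fix_eq_zero (g : Matrix.symplecticGroup (Fin m) F) (hg : IsU p g) (h1 : g ≠ 1) :
    hsum (fixS g) = 0 := by
  classical
  set N := g.1 - 1 with hN
  have hN0 : N ≠ 0 := fun h => h1 (Subtype.ext (sub_eq_zero.1 h))
  obtain ⟨j, hj⟩ := hg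
  have hnil : ∃ n, N ^ (n + 1) = 0 := by
    refine ⟨p ^ j, ?_⟩
    rw [pow_succ, hN, sub_one_pow_char p g.1 j, ← SubmonoidClass.coe_pow, hj]
    simp
  set n := Nat.find hnil with hn
  have hspec : N ^ (n + 1) = 0 := Nat.find_spec hnil
  have hnz : n ≠ 0 := fun h => hN0 (by simpa [h] using hspec)
  obtain ⟨n', hn'⟩ := Nat.exists_eq_succ_of_ne_zero hnz
  have hne : N ^ (n' + 1) ≠ 0 := Nat.find_min hnil (m := n') (by omega)
  obtain ⟨x, hx⟩ : ∃ x, (N ^ (n' + 1)) *ᵥ x ≠ 0 := by
    by_contra h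
    push_neg at h
    exact hne (Matrix.ext_of_mulVec_single fun i => by rw [h, zero_mulVec])
  have hr : (N ^ (n' + 1)) *ᵥ x ∈ fixS g := by
    show g.1 *ᵥ _ = _
    have : N *ᵥ ((N ^ (n' + 1)) *ᵥ x) = 0 := by
      rw [mulVec_mulVec, ← pow_succ', show n' + 1 + 1 = n + 1 by omega, hspec, zero_mulVec]
    rwa [hN, sub_mulVec, one_mulVec, sub_eq_zero] at this
  refine hsum_eq_zero _ hx hr fun w hw => ?_
  rw [pow_succ', ← mulVec_mulVec, hN, sub_mulVec, one_mulVec]
  set y := (N ^ n') *ᵥ x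
  have hw' : g.1 *ᵥ w = w := hw
  have e1 := Cfsg.Agent.Lib.Classical.sp_iso m g y w
  have e2 := Cfsg.Agent.Lib.Classical.sp_iso m g w y
  rw [hw'] at e1 e2
  rw [← stdB_apply, ← stdB_apply, LinearMap.BilinForm.sub_left, LinearMap.BilinForm.sub_right, e1, e2]
  simp

/-- The number of unipotent elements. -/
noncomputable def nU (F : Type*) [Field F] (m : ℕ) : ℕ :=
  Nat.card {g : Matrix.symplecticGroup (Fin m) F // IsU p g}

theorem card_fix_eq {k : ℕ} (u e : TIFrame (Cfsg.sympForm m F) k) :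
    Nat.card {g : Matrix.symplecticGroup (Fin m) F // IsU p g ∧ g ∈ fixFrame u.1} =
      Nat.card {g : Matrix.symplecticGroup (Fin m) F // IsU p g ∧ g ∈ fixFrame e.1} := by
  obtain ⟨h, hh⟩ := exists_sp_frame e u
  refine (Nat.card_congr (Equiv.subtypeEquiv (MulAut.conj h).toEquiv fun g => ?_)).symm
  refine and_congr ?_ ?_
  · show IsU p g ↔ IsU p (MulAut.conj h g)
    exact exists_congr fun j => by
      rw [← map_pow]
      exact (MulEquiv.map_eq_one_iff _).symm
  · show (∀ i, g.1 *ᵥ e.1 i = e.1 i) ↔ ∀ i, (h * g * h⁻¹).1 *ᵥ u.1 i = u.1 i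
    have hinv : ∀ i, (h⁻¹).1 *ᵥ u.1 i = e.1 i := fun i => by
      rw [← hh i, mulVec_mulVec, ← Submonoid.coe_mul, inv_mul_cancel]
      simp
    refine forall_congr' fun i => ?_
    rw [Submonoid.coe_mul, Submonoid.coe_mul, ← mulVec_mulVec, hinv, ← mulVec_mulVec]
    refine ⟨fun e1 => by rw [e1, hh], fun e1 => ?_⟩
    rw [← hh i] at e1
    have := congrArg ((h⁻¹).1 *ᵥ ·) e1
    have hi : ∀ v, (h⁻¹).1 *ᵥ (h.1 *ᵥ v) = v := fun v => by
      rw [mulVec_mulVec, ← Submonoid.coe_mul, inv_mul_cancel, OneMemClass.coe_one, one_mulVec]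
    simpa only [hi] using this

/-- The standard frame. -/
def stdTI (F : Type*) [Field F] (k l : ℕ) : TIFrame (Cfsg.sympForm (k + l) F) k :=
  ⟨stdFr F k l, by
    refine ⟨?_, fun i j => ?_⟩
    · have h := (Pi.basisFun F (Fin (k + l) ⊕ Fin (k + l))).linearIndependent.comp
        (fun i : Fin k => inl (Fin.castAdd l i)) (Sum.inl_injective.comp (Fin.castAdd_injective k l))
      unfold stdFr
      simpa [Function.comp_def] using h
    · simp [Cfsg.sympForm, stdFr, Matrix.J]⟩

theorem sum_card_frameIn [Fintype {g : Matrix.symplecticGroup (Fin m) F // IsU p g}] {k l : ℕ} (h : m = k + l) :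
    ∑ g : {g : Matrix.symplecticGroup (Fin m) F // IsU p g}, Nat.card (FrameIn (fixS g.1) k) =
      Nat.card (TIFrame (Cfsg.sympForm m F) k) * (Nat.card (proj F k l).ker * nU p F l) := by
  subst h
  classical
  haveI : Fintype (TIFrame (Cfsg.sympForm (k + l) F) k) := Fintype.ofFinite _
  rw [← Nat.card_sigma]
  rw [Nat.card_congr (β := Σ u : TIFrame (Cfsg.sympForm (k + l) F) k,
    {g : Matrix.symplecticGroup (Fin (k + l)) F // IsU p g ∧ g ∈ fixFrame u.1})
    { toFun := fun x => ⟨x.2.1, x.1.1, x.1.2, x.2.2⟩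
      invFun := fun x => ⟨⟨x.2.1, x.2.2.1⟩, x.1, x.2.2.2⟩
      left_inv := fun x => rfl
      right_inv := fun x => rfl }]
  rw [Nat.card_sigma, Finset.sum_congr rfl (fun u _ => card_fix_eq p u (stdTI F k l)), Finset.sum_const,
    smul_eq_mul, Finset.card_univ, ← Nat.card_eq_fintype_card]
  congr 1
  exact card_stab_isU F p k l

/-- The product over the symplectic degrees. -/
def D (q : ℚ) (m : ℕ) : ℚ := ∏ i ∈ range m, (q ^ (2 * (i + 1)) - 1)

/-- The first factors of `D`, read from above. -/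
def P (q : ℚ) (m k : ℕ) : ℚ := ∏ i ∈ range k, (q ^ (2 * (m - i)) - 1)

theorem D_ne {q : ℚ} (hq : 1 < q) (m : ℕ) : D q m ≠ 0 :=
  Finset.prod_ne_zero_iff.2 fun i _ => sub_ne_zero.2 (one_lt_pow₀ hq (by omega)).ne'

theorem P_mul_D (q : ℚ) (k l : ℕ) : P q (k + l) k * D q l = D q (k + l) := by
  induction k with
  | zero => simp [P]
  | succ k ih =>
    rw [show k + 1 + l = (k + l) + 1 by omega, show D q (k + l + 1) = _ from Finset.prod_range_succ _ _,
      ← D, ← ih, P, Finset.prod_range_succ']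
    simp only [Nat.sub_zero, Nat.add_sub_add_right]
    rw [← P]
    ring

theorem cw_mul_P (q : ℚ) (m k : ℕ) : cw q k * P q m k = R q m k := by
  induction k with
  | zero => simp [cw, P, R]
  | succ k ih =>
    rw [cw, P, Finset.prod_range_succ, ← P, R_succ, ← ih]
    ring

local notation "q" => (Fintype.card F : ℚ)

omit [CharP F p] [Fact p.Prime] in
theorem card_TI (k : ℕ) :
    (Nat.card (TIFrame (Cfsg.sympForm m F) k) : ℚ) = q ^ k.choose 2 * P q m k := by
  induction k with
  | zero => simp [card_symp_frame, P]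
  | succ k ih =>
    rw [card_symp_frame] at ih ⊢
    rw [Finset.prod_range_succ, Nat.cast_mul, ih, P, P, Finset.prod_range_succ, Nat.choose_succ_succ' k 1,
      Nat.choose_one_right]
    by_cases hk : k ≤ m
    · rw [Nat.cast_sub (Nat.pow_le_pow_right Fintype.card_pos (by omega)), Nat.cast_pow, Nat.cast_pow,
        show 2 * m - k = k + 2 * (m - k) by omega]
      ring
    · have h0 : ∏ i ∈ range k, (q ^ (2 * (m - i)) - 1) = 0 :=
        Finset.prod_eq_zero (Finset.mem_range.2 (Nat.lt_of_not_le hk)) (by simp)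
      simp [h0]

omit [CharP F p] [Fact p.Prime] in
theorem card_Sp (n : ℕ) : (Nat.card (Matrix.symplecticGroup (Fin n) F) : ℚ) = q ^ (n ^ 2) * D q n := by
  rw [Cfsg.Agent.Lib.Classical.card_symplecticGroup, Nat.cast_mul, Nat.cast_pow, Nat.cast_prod, D]
  congr 1
  refine Finset.prod_congr rfl fun i _ => ?_
  rw [Nat.cast_sub (Nat.one_le_pow _ _ Fintype.card_pos), Nat.cast_pow, Nat.cast_one]

omit [CharP F p] [Fact p.Prime] in
theorem ker_card (k l : ℕ) :
    (Nat.card (proj F k l).ker : ℚ) * q ^ k.choose 2 * q ^ (l ^ 2) = q ^ ((k + l) ^ 2) := by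
  have h := congrArg (Nat.cast : ℕ → ℚ) (card_sp_eq_frame_mul (stdTI F k l))
  have e : fixFrame (stdTI F k l).1 = Stab F k l := rfl
  rw [e, card_stab, Nat.cast_mul, Nat.cast_mul, card_Sp, card_Sp, card_TI, ← P_mul_D q k l] at h
  refine mul_right_cancel₀ (b := P q (k + l) k * D q l) ?_ ?_
  · rw [P_mul_D]; exact D_ne one_lt_q _
  · linear_combination -h

theorem frameIn_top (k : ℕ) :
    Nat.card (FrameIn (⊤ : Submodule F (Fin m ⊕ Fin m → F)) k) =
      Nat.card (TIFrame (Cfsg.sympForm m F) k) :=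
  Nat.card_congr (Equiv.subtypeUnivEquiv fun _ _ => Submodule.mem_top)

omit [CharP F p] [Fact p.Prime] in
theorem hsum_top : hsum (⊤ : Submodule F (Fin m ⊕ Fin m → F)) = Asum q m := by
  rw [hsum, Asum]
  have h : ∀ k, cw q k * (Nat.card (FrameIn (⊤ : Submodule F (Fin m ⊕ Fin m → F)) k) : ℚ) =
      q ^ k.choose 2 * R q m k := fun k => by
    rw [frameIn_top, card_TI, mul_left_comm, cw_mul_P]
  simp only [h]
  refine (Finset.sum_subset (Finset.range_mono (by omega)) fun k _ hk => ?_).symm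
  rw [R_eq_zero _ (by simpa [Nat.lt_succ_iff, Nat.succ_le_iff] using hk), mul_zero]

theorem card_U (m : ℕ) : nU p F m = Fintype.card F ^ (2 * m ^ 2) := by
  induction m using Nat.strong_induction_on with
  | h m IH =>
    classical
    haveI : Fintype {g : Matrix.symplecticGroup (Fin m) F // IsU p g} := Fintype.ofFinite _
    set S : ℕ → ℚ := fun k => cw q k *
      ((∑ g : {g : Matrix.symplecticGroup (Fin m) F // IsU p g}, Nat.card (FrameIn (fixS g.1) k) : ℕ) : ℚ)
      with hS
    have hfix1 : fixS (1 : Matrix.symplecticGroup (Fin m) F) = ⊤ := by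
      ext v
      simp only [Submodule.mem_top, iff_true]
      show (1 : Matrix _ _ F) *ᵥ v = v
      exact one_mulVec v
    have hA : ∑ g : {g : Matrix.symplecticGroup (Fin m) F // IsU p g}, hsum (fixS g.1) = Asum q m := by
      rw [Finset.sum_eq_single ⟨1, ⟨0, one_pow _⟩⟩ (fun g _ hg => hsum_fix_eq_zero p g.1 g.2
        (fun h => hg (Subtype.ext h))) (fun h => absurd (Finset.mem_univ _) h)]
      rw [hfix1, hsum_top]
    have hterm : ∀ k l, m = k + l → S k * q ^ (l ^ 2) = R q m k * q ^ (m ^ 2) * (nU p F l : ℚ) := by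
      intro k l h
      simp only [hS]
      rw [sum_card_frameIn p h, Nat.cast_mul, Nat.cast_mul, card_TI, ← cw_mul_P]
      subst h
      rw [← ker_card k l]
      ring
    have hzero : ∀ k, m < k → S k = 0 := by
      intro k hk
      simp only [hS]
      have h0 : ∀ g : {g : Matrix.symplecticGroup (Fin m) F // IsU p g},
          Nat.card (FrameIn (fixS g.1) k) = 0 := by
        intro g
        have ht : Nat.card (TIFrame (Cfsg.sympForm m F) k) = 0 := by
          rw [card_symp_frame]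
          exact Finset.prod_eq_zero (Finset.mem_range.2 hk) (by simp [two_mul])
        refine Nat.eq_zero_of_le_zero (ht ▸ ?_)
        exact Nat.card_le_card_of_injective (fun u => u.1) Subtype.val_injective
      simp [h0]
    have hsumS : Asum q m = ∑ k ∈ range (m + 1), S k := by
      rw [← hA]
      simp only [hsum]
      rw [Finset.sum_comm, Finset.sum_subset (s₁ := range (m + 1)) (s₂ := range (2 * m + 2))
        (Finset.range_mono (by omega)) (fun k _ hk => hzero k (by simpa [Nat.lt_succ_iff, Nat.succ_le_iff] using hk))]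
      exact Finset.sum_congr rfl fun k _ => by simp only [hS, Nat.cast_sum, Finset.mul_sum]
    have hq0 : q ≠ 0 := Nat.cast_ne_zero.2 Fintype.card_ne_zero
    have hS0 : S 0 = (nU p F m : ℚ) := by
      have h := hterm 0 m (Nat.zero_add m).symm
      rw [show R q m 0 = 1 from rfl, one_mul, mul_comm] at h
      exact mul_left_cancel₀ (pow_ne_zero _ hq0) h
    have hS1 : ∀ k ∈ range m, S (k + 1) = q ^ (m ^ 2 + (m - (k + 1)) ^ 2) * R q m (k + 1) := by
      intro k hk
      rw [Finset.mem_range] at hk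
      have h := hterm (k + 1) (m - (k + 1)) (by omega)
      rw [IH (m - (k + 1)) (by omega), Nat.cast_pow, show 2 * (m - (k + 1)) ^ 2 = (m - (k + 1)) ^ 2 + (m - (k + 1)) ^ 2 by ring,
        pow_add] at h
      refine mul_right_cancel₀ (pow_ne_zero ((m - (k + 1)) ^ 2) hq0) (h.trans ?_)
      rw [pow_add]
      ring
    rw [Asum_eq_Bsum one_lt_q, Bsum, Finset.sum_range_succ', Finset.sum_range_succ' S,
      Finset.sum_congr rfl hS1, add_right_inj, hS0, Nat.sub_zero, show R q m 0 = 1 from rfl, mul_one,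
      ← two_mul] at hsumS
    exact_mod_cast hsumS.symm

end Cfsg.Agent.Lib.Forms.SpUnip
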