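import Cfsg.Agent.Lib.Forms.Symplectic
import Cfsg.Agent.Lib.Forms.OrthUnitaryField

/-!
The normaliser in a symplectic group of a quadratic field on which the adjoint is the
conjugation, in odd characteristic.

The product of two transvections attached to an isotropic point over the field is moved by an
element outside the normaliser; two conjugates under the unitary group then give a single
transvection.
-/

set_option autoImplicit false

namespace Cfsg.Agent.Lib.Forms

open Matrix QuadraticMap Cfsg.Agent.Lib.Classical.Quad Cfsg.Agent.Lib.Classical.QuadOmega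

variable {ι : Type} [Fintype ι] [DecidableEq ι] {F : Type*} [Field F]
  {B : LinearMap.BilinForm F (ι → F)}

/-- A skew square root of a non-square scalar for an alternating form. -/
structure SpU (B : LinearMap.BilinForm F (ι → F)) where
  alt : B.IsAlt
  nd : B.Nondegenerate
  two : (2 : F) ≠ 0
  j : (ι → F) →ₗ[F] (ι → F)
  δ : F
  sq : ∀ v, j (j v) = δ • v
  skew : ∀ u v, B (j u) v = - B u (j v)
  irr : ∀ a b : F, a * a - δ * b * b = 0 → a = 0 ∧ b = 0

namespace SpU

variable (S : SpU B)
include S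

lemma δ_ne : S.δ ≠ 0 := fun e => one_ne_zero (S.irr 0 1 (by rw [e]; ring)).2

lemma comm (u v : ι → F) : B u v = - B v u := (S.alt.neg_eq v u).symm

lemma jj (u v : ι → F) : B (S.j u) (S.j v) = -(S.δ * B u v) := by
  rw [S.skew, S.sq, map_smul, smul_eq_mul]

lemma jsymm (u v : ι → F) : B (S.j u) v = B (S.j v) u := by
  rw [S.skew u v, S.comm u (S.j v), neg_neg]

/-- The associated quadratic form: its singular vectors are the isotropic ones over the field. -/
noncomputable def q : QuadraticForm F (ι → F) :=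
  LinearMap.BilinMap.toQuadraticMap (B ∘ₗ S.j)

lemma q_apply (v : ι → F) : S.q v = B (S.j v) v := rfl

lemma polar_q (u v : ι → F) : polar S.q u v = 2 * B (S.j u) v := by
  simp only [polar, q_apply, map_add, LinearMap.add_apply, S.jsymm v u]
  ring

lemma q_nd : Nd S.q := fun x hx => by
  have h : S.j x = 0 := S.nd.1 _ fun v => (mul_eq_zero.1 ((S.polar_q x v).symm.trans (hx v))).resolve_left
    S.two
  have := S.sq x
  rw [h, map_zero] at this
  exact (smul_eq_zero.1 this.symm).resolve_left S.δ_ne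

/-- The field as a field for the quadratic form. -/
noncomputable def uField : UField S.q where
  J := S.j
  t := 0
  N := -S.δ
  sq := fun v => by rw [S.sq, zero_smul, zero_sub, neg_smul, neg_neg]
  irr := fun a b h => S.irr a b (by linear_combination h)
  adj := fun u v => by
    rw [S.polar_q, S.polar_q, S.jj, S.sq, map_smul, LinearMap.smul_apply, smul_eq_mul]
    ring
  qJ := fun v => by
    rw [S.q_apply, S.q_apply, S.jj]
    ring
  self := fun v => by rw [S.polar_q, S.jj, S.alt.self_eq_zero]; ring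

lemma uField_J : S.uField.J = S.j := rfl

lemma perp_j {u v : ι → F} (h : polar S.q (S.j u) v = 0) : B u v = 0 := by
  rw [S.polar_q, S.sq, map_smul, LinearMap.smul_apply, smul_eq_mul] at h
  exact (mul_eq_zero.1 ((mul_eq_zero.1 h).resolve_left S.two)).resolve_left S.δ_ne

lemma perp {u v : ι → F} (h : polar S.q u v = 0) : B u (S.j v) = 0 := by
  rw [S.polar_q, S.skew] at h
  exact neg_eq_zero.1 ((mul_eq_zero.1 h).resolve_left S.two)

/-- The unitary transvection of an isotropic point. -/
noncomputable def pairT (a : ι → F) (k : F) : GL ι F :=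
  sympT B a (S.δ * k) * sympT B (S.j a) (-k)

lemma pairT_mulVec {a : ι → F} (ha : S.q a = 0) (k : F) (x : ι → F) :
    (S.pairT a k : Matrix ι ι F) *ᵥ x =
      x + (S.δ * k * B x a) • a - (k * B x (S.j a)) • S.j a := by
  rw [pairT, mul_mulVec', sympT_mulVec S.alt, sympT_mulVec S.alt]
  simp only [map_add, map_smul, LinearMap.add_apply, LinearMap.smul_apply, smul_eq_mul,
    show B (S.j a) a = 0 from ha]
  match_scalars <;> ring

lemma pairT_mem (a : ι → F) (k : F) : S.pairT a k ∈ isoGroup B :=
  mul_mem (sympT_mem S.alt _ _) (sympT_mem S.alt _ _)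

lemma pairT_comm {a : ι → F} (ha : S.q a = 0) (k : F) (x : ι → F) :
    (S.pairT a k : Matrix ι ι F) *ᵥ S.j x = S.j ((S.pairT a k : Matrix ι ι F) *ᵥ x) := by
  rw [S.pairT_mulVec ha, S.pairT_mulVec ha, map_sub, map_add, map_smul, map_smul, S.sq, S.skew,
    S.jj]
  match_scalars <;> ring

/-- The polarisation of the unitary transvections. -/
noncomputable def mixT (c d : ι → F) (k : F) : GL ι F :=
  S.pairT (c + d) k * S.pairT c (-k) * S.pairT d (-k)

section

variable {c d : ι → F} (hc : S.q c = 0) (hd : S.q d = 0) (hcd : B c d = 0)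
  (hcd' : B (S.j c) d = 0)
include hc hd hcd hcd'

lemma q_add : S.q (c + d) = 0 := by
  rw [QuadraticMap.map_add ⇑S.q, hc, hd, S.polar_q, hcd']
  ring

lemma mixT_mulVec (k : F) (x : ι → F) : (S.mixT c d k : Matrix ι ι F) *ᵥ x =
    x + (S.δ * k) • (B x c • d + B x d • c) -
      k • (B x (S.j c) • S.j d + B x (S.j d) • S.j c) := by
  have h1 : B (S.j c) c = 0 := hc
  have h2 : B (S.j d) d = 0 := hd
  have h3 : B d c = 0 := by rw [S.comm, hcd, neg_zero]
  have h4 : B (S.j d) c = 0 := by rw [S.jsymm, hcd']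
  have h5 : B c (S.j d) = 0 := by rw [← neg_eq_zero, ← S.skew, hcd']
  have h6 : B d (S.j c) = 0 := by rw [← neg_eq_zero, ← S.skew, h4]
  have h7 : B c (S.j c) = 0 := by rw [← neg_eq_zero, ← S.skew, h1]
  have h8 : B d (S.j d) = 0 := by rw [← neg_eq_zero, ← S.skew, h2]
  rw [mixT, mul_mulVec', mul_mulVec', S.pairT_mulVec hd, S.pairT_mulVec hc,
    S.pairT_mulVec (S.q_add hc hd hcd hcd')]
  simp only [map_add, map_sub, map_smul, LinearMap.add_apply, LinearMap.sub_apply,
    LinearMap.smul_apply, smul_eq_mul, S.alt.self_eq_zero, S.jj, hcd, hcd', h1, h2, h3, h4, h5,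
    h6, h7, h8]
  match_scalars <;> ring

lemma mixT_mem {M : Subgroup (GL ι F)} (hM : ∀ a, S.q a = 0 → ∀ k, S.pairT a k ∈ M) (k : F) :
    S.mixT c d k ∈ M :=
  mul_mem (mul_mem (hM _ (S.q_add hc hd hcd hcd') k) (hM _ hc _)) (hM _ hd _)

end

end SpU

section

variable [Finite F]

namespace SpU

variable (S : SpU B) {M : Subgroup (GL ι F)} (hn : 13 ≤ Fintype.card ι)
  (hM : ∀ a, S.q a = 0 → ∀ k, S.pairT a k ∈ M)
include S hn hM

/-- A product of two transvections off the lines over the field yields a transvection. -/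
lemma exists_centre {a b : ι → F}
    (hnb : ∀ g e : F, b ≠ g • a + e • S.j a)
    (h : ∀ k, sympT B a (S.δ * k) * sympT B b (-k) ∈ M) :
    ∃ w, w ≠ 0 ∧ S.q w = 0 ∧ w ∈ centres B M := by
  have hf : 13 ≤ Module.finrank F (ι → F) := by rwa [Module.finrank_fintype_fun_eq_card]
  obtain ⟨d, d', hd, -, hdd, hp⟩ := exists_hyp_perp S.q_nd ![a, S.j a, b, S.j b] (by omega)
  have p0 := hp 0; have p1 := hp 1; have p2 := hp 2; have p3 := hp 3
  simp at p0 p1 p2 p3
  have hspan : b ∉ Submodule.span F (Set.range ![a, S.j a, d, S.j d]) := by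
    intro hmem
    obtain ⟨r, hr⟩ := (Submodule.mem_span_range_iff_exists_fun F).1 hmem
    simp [Fin.sum_univ_four] at hr
    set w := b - r 0 • a - r 1 • S.j a with hw
    obtain ⟨e2, e3⟩ := S.uField.indep hdd (w := w)
      (by simp [hw, polar_sub_left, polar_smul_left, p0.2, p1.2, p2.2])
      (by simp [hw, S.uField_J, map_sub, map_smul, S.sq, polar_sub_left, polar_smul_left, p0.2,
        p1.2, p3.2])
      (a := r 2) (b := r 3) (g := 1) (d := 0) (by rw [S.uField_J, hw, ← hr]; module)
    rw [e2, e3] at hr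
    exact hnb (r 0) (r 1) (by rw [← hr]; module)
  obtain ⟨c, hc, hQc, hbc⟩ := exists_sing_pairing S.q_nd ![a, S.j a, d, S.j d] (by omega) hspan
  have c0 := mem_perpK.1 hc 0
  have c1 := mem_perpK.1 hc 1
  have c2 := mem_perpK.1 hc 2
  have c3 := mem_perpK.1 hc 3
  simp at c0 c1 c2 c3
  have hcd : B c d = 0 := by rw [S.comm, S.perp_j c3, neg_zero]
  have hcd' : B (S.j c) d = 0 := by
    rw [S.jsymm]; exact (mul_eq_zero.1 ((S.polar_q d c).symm.trans c2)).resolve_left S.two
  set w := (S.δ * B b c) • d - B b (S.j c) • S.j d with hw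
  have hbd : B b d = 0 := S.perp_j p3.1
  have hbd' : B b (S.j d) = 0 := S.perp p2.1
  have hha : ∀ k, (S.mixT c d k : Matrix ι ι F) *ᵥ a = a := fun k => by
    rw [S.mixT_mulVec hQc hd hcd hcd', S.perp_j c1, S.perp_j p1.1, S.perp c0, S.perp p0.1]
    simp
  have hhb : ∀ k, (S.mixT c d k : Matrix ι ι F) *ᵥ b = b + k • w := fun k => by
    rw [S.mixT_mulVec hQc hd hcd hcd', hbd, hbd', hw]
    module
  have hh : ∀ k l, sympT B b k * sympT B (b + l • w) (-k) ∈ M := fun k l => by
    have hm := S.mixT_mem hQc hd hcd hcd' hM l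
    have hi : S.mixT c d l ∈ isoGroup B :=
      mul_mem (mul_mem (S.pairT_mem _ _) (S.pairT_mem _ _)) (S.pairT_mem _ _)
    have h1 := mul_mem (inv_mem (h k)) (mul_mem (mul_mem hm (h k)) (inv_mem hm))
    rw [show ∀ x y z : GL ι F, x * (y * z) * x⁻¹ = x * y * x⁻¹ * (x * z * x⁻¹) by
      intro x y z; group, sympT_conj S.alt hi, sympT_conj S.alt hi, hha, hhb, _root_.mul_inv_rev,
      mul_assoc, inv_mul_cancel_left] at h1
    have e : (sympT B b (-k))⁻¹ = sympT B b k := by
      refine inv_eq_of_mul_eq_one_right (gl_ext fun x => ?_)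
      rw [mul_mulVec', sympT_mulVec S.alt, sympT_mulVec S.alt]
      simp [S.alt.self_eq_zero]
    rwa [e] at h1
  have hw0 : w ≠ 0 := fun e => hbc (by
    have := (S.uField.kfree (S.uField.ne_zero_of_pair hdd) (a := S.δ * B b c)
      (b := -B b (S.j c)) (by rw [S.uField_J, ← e, hw]; module)).2
    rw [S.polar_q, S.skew, this, mul_zero])
  have hdj : B d (S.j d) = 0 := by rw [← neg_eq_zero, ← S.skew]; exact hd
  have hbw : B b w = 0 := by simp [hw, hbd, hbd']
  have hwb : B w b = 0 := by rw [S.comm, hbw, neg_zero]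
  refine ⟨w, hw0, ?_, fun r => ?_⟩
  · rw [S.q_apply, hw]
    simp [map_sub, map_smul, S.sq, S.jj, S.skew d, hdj, S.alt.self_eq_zero]
  · have hk := mul_mem (hh (-r / 2) 1) (hh (-r / 2) (-1))
    convert hk using 1
    refine gl_ext fun x => ?_
    simp only [mul_mulVec', sympT_mulVec S.alt, map_add, map_smul, LinearMap.add_apply,
      LinearMap.smul_apply, smul_eq_mul, S.alt.self_eq_zero, hbw, hwb]
    have h2 : (2 : F) * 2⁻¹ = 1 := mul_inv_cancel₀ S.two
    match_scalars <;> field_simp [S.two] <;> ring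

/-- One isotropic centre gives all centres. -/
lemma centres_all {w : ι → F} (hw0 : w ≠ 0) (hw : S.q w = 0) (hwc : w ∈ centres B M)
    (x : ι → F) : x ∈ centres B M := by
  have hf : 13 ≤ Module.finrank F (ι → F) := by rwa [Module.finrank_fintype_fun_eq_card]
  have addc : ∀ {w d : ι → F}, w ∈ centres B M → S.q d = 0 → polar S.q w d = 0 →
      polar S.q (S.j w) d = 0 → (∀ g e : F, w ≠ g • d + e • S.j d) → w + d ∈ centres B M := by
    intro w d hwc hd hwd hwd' hnd
    obtain ⟨c, hc, hQc, hwc'⟩ := exists_sing_pairing S.q_nd ![d, S.j d, w] (by omega)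
      (show S.j w ∉ _ from S.uField.J_notMem_span hnd)
    have c0 := mem_perpK.1 hc 0
    have c1 := mem_perpK.1 hc 1
    have c2 := mem_perpK.1 hc 2
    simp at c0 c1 c2
    have hcd : B c d = 0 := by rw [S.comm, S.perp_j c1, neg_zero]
    have hcd' : B (S.j c) d = 0 := by
      rw [S.jsymm]; exact (mul_eq_zero.1 ((S.polar_q d c).symm.trans c0)).resolve_left S.two
    have hne : B w c ≠ 0 := fun e => hwc' (by
      rw [S.polar_q, S.sq, map_smul, LinearMap.smul_apply, e, smul_zero, mul_zero])
    have := mulVec_mem_centres S.alt (S.mixT_mem hQc hd hcd hcd' hM (S.δ * B w c)⁻¹)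
      (mul_mem (mul_mem (S.pairT_mem _ _) (S.pairT_mem _ _)) (S.pairT_mem _ _)) hwc
    rw [S.mixT_mulVec hQc hd hcd hcd', S.perp_j hwd', S.perp hwd, S.perp c2] at this
    convert this using 1
    have hne' := S.δ_ne
    match_scalars <;> field_simp <;> ring
  have step : ∀ {w d : ι → F}, w ∈ centres B M → w ≠ 0 → S.q d = 0 → polar S.q w d = 0 →
      polar S.q (S.j w) d = 0 → (∀ g e : F, d ≠ g • w + e • S.j w) → d ∈ centres B M := by
    intro w d hwc hw0 hd hwd hwd' hnd
    obtain ⟨e, he, hQe, hde⟩ := exists_sing_pairing S.q_nd ![w, S.j w, d] (by omega)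
      (show S.j d ∉ _ from S.uField.J_notMem_span hnd)
    have e0 := mem_perpK.1 he 0
    have e1 := mem_perpK.1 he 1
    have e2 := mem_perpK.1 he 2
    simp at e0 e1 e2
    have hjd : polar S.q (S.j d) d = 0 := by
      rw [polar_comm, ← S.uField_J, (S.uField.long hd).xu]
    have notK : ∀ z, polar S.q d z = 0 → polar S.q (S.j d) z ≠ 0 →
        ∀ g e : F, w ≠ g • z + e • S.j z := by
      intro z hz hz' g k hwz
      have h1 := congrArg (fun u => polar S.q d u) hwz
      have h2 := congrArg (fun u => polar S.q (S.j d) u) hwz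
      have hs : polar S.q d (S.j z) = - polar S.q (S.j d) z := by
        rw [← S.uField_J, S.uField.swap]; simp [uField]
      have hs' : polar S.q (S.j d) (S.j z) = 0 := by rw [← S.uField_J, S.uField.JJ, hz, mul_zero]
      simp only [polar_add_right, polar_smul_right, smul_eq_mul, hz, hs, hs', mul_zero, add_zero,
        zero_add, polar_comm _ d w, polar_comm _ (S.j d) w, hwd] at h1 h2
      have hk : k = 0 := (mul_eq_zero.1 h1.symm).resolve_right (neg_ne_zero.2 hz')
      have hwjd : polar S.q w (S.j d) = 0 := by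
        rw [← S.uField_J, S.uField.swap, S.uField_J, hwd', hwd]; simp
      rw [hwjd] at h2
      have hg : g = 0 := (mul_eq_zero.1 h2.symm).resolve_right hz'
      exact hw0 (by rw [hwz, hk, hg]; simp)
    have hu := addc hwc hQe e0 e1 (notK e e2 hde)
    have hv := addc hwc (d := e + (-1 : F) • d)
      (by rw [QuadraticMap.map_add ⇑S.q, QuadraticMap.map_smul, hQe, hd, polar_smul_right,
        polar_comm, e2]; simp)
      (by rw [polar_add_right, polar_smul_right, e0, hwd]; simp)
      (by rw [polar_add_right, polar_smul_right, e1, hwd']; simp)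
      (notK _ (by rw [polar_add_right, polar_smul_right, e2, polar_self_sing hd]; simp)
        (by rw [polar_add_right, polar_smul_right, hjd, smul_zero, add_zero]; exact hde))
    have hne : B (w + e) (w + (e + (-1 : F) • d)) ≠ 0 := by
      intro h
      refine hde ?_
      have h1 : B w e = 0 := S.perp_j e1
      have h2 : B w d = 0 := S.perp_j hwd'
      simp [S.alt.self_eq_zero, h1, h2, S.comm e w] at h
      rw [S.polar_q, S.sq, map_smul, LinearMap.smul_apply, S.comm, h]
      simp
    have := add_smul_mem_centres S.alt hu hv hne (-1)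
    convert this using 1
    module
  have sing : ∀ d, S.q d = 0 → d ∈ centres B M := by
    intro d hd
    rcases eq_or_ne d 0 with rfl | hd0
    · simpa using smul_mem_centres S.alt 0 hwc
    obtain ⟨s, s', hs, -, hss, hp⟩ := exists_hyp_perp S.q_nd ![w, S.j w, d, S.j d] (by omega)
    have p0 := hp 0; have p1 := hp 1; have p2 := hp 2; have p3 := hp 3
    simp at p0 p1 p2 p3
    have hsc := step hwc hw0 hs p0.1 p1.1 (S.uField.notMem_line hss p0.2 p1.2)
    refine step hsc (S.uField.ne_zero_of_pair hss) hd (by rw [polar_comm, p2.1]) ?_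
      (S.uField.notMem_line' hss p2.2 p3.2 hd0)
    rw [polar_comm, ← S.uField_J, S.uField.swap, S.uField_J, p2.1, p3.1]
    simp
  by_cases hx : S.q x = 0
  · exact sing x hx
  have hx0 : x ≠ 0 := fun e => hx (by rw [e, map_zero])
  obtain ⟨e, he, hxe, hjxe⟩ := exists_sing_polar₂ S.q_nd (by omega) hx0 (u' := S.j x) fun h => hx0 (by
    have := S.sq x
    rw [h, map_zero] at this
    exact (smul_eq_zero.1 this.symm).resolve_left S.δ_ne)
  set k := S.q x / polar S.q x e with hk
  have hy : S.q (x + (-k) • e) = 0 := by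
    rw [QuadraticMap.map_add ⇑S.q, QuadraticMap.map_smul, he, polar_smul_right, smul_eq_mul, hk]
    rw [smul_eq_mul, mul_zero, add_zero, neg_mul, div_mul_cancel₀ _ hxe, add_neg_cancel]
  have hne : B (x + (-k) • e) e ≠ 0 := by
    intro h
    simp [S.alt.self_eq_zero] at h
    refine hjxe ?_
    rw [S.polar_q, S.sq, map_smul, LinearMap.smul_apply, h, smul_zero, mul_zero]
  have := add_smul_mem_centres S.alt (sing _ hy) (sing _ he) hne k
  rwa [neg_smul, neg_add_cancel_right] at this

omit hM in
/-- The normaliser of the field is maximal. -/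
theorem maximal {H : Subgroup (GL ι F)} (hH : H ≤ isoGroup B)
    (hmem : ∀ g ∈ isoGroup B, (g ∈ H ↔ ∃ a b : F, ∀ v, (g : Matrix ι ι F) *ᵥ S.j v =
      a • ((g : Matrix ι ι F) *ᵥ v) + b • S.j ((g : Matrix ι ι F) *ᵥ v))) :
    Cfsg.Geo.IsMaximalIn (isoGroup B) H := by
  have hf : 13 ≤ Module.finrank F (ι → F) := by rwa [Module.finrank_fintype_fun_eq_card]
  refine isMaximalIn_of hH ?_ fun N hle hN g hg hgn => ?_
  · obtain ⟨s, s', hs, -, hss, -⟩ := exists_hyp_perp S.q_nd (Fin.elim0 : Fin 0 → ι → F) (by omega)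
    have hs0 := S.uField.ne_zero_of_pair hss
    refine ⟨sympT B s 1, sympT_mem S.alt _ _, fun h => ?_⟩
    obtain ⟨a, b, hab⟩ := (hmem _ (sympT_mem S.alt _ _)).1 h
    have h1 := hab s
    have h2 := hab s'
    simp only [sympT_mulVec S.alt, one_mul, S.alt.self_eq_zero, show B (S.j s) s = 0 from hs,
      zero_smul, add_zero] at h1 h2
    obtain ⟨rfl, hb⟩ := S.uField.kfree hs0 (a := a) (b := b - 1)
      (by rw [S.uField_J]; linear_combination (norm := module) -h1)
    rw [sub_eq_zero.1 hb, map_add, map_smul] at h2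
    have hne : B (S.j s') s ≠ 0 := fun e => by
      rw [polar_comm, S.polar_q, e, mul_zero] at hss
      exact zero_ne_one hss
    exact hne (S.uField.kfree hs0 (a := B (S.j s') s) (b := -B s' s)
      (by rw [S.uField_J]; linear_combination (norm := module) h2)).1
  · have hgi : g ∈ isoGroup B := hN hg
    have hM : ∀ a, S.q a = 0 → ∀ k, S.pairT a k ∈ N := fun a ha k =>
      hle ((hmem _ (S.pairT_mem a k)).2
        ⟨0, 1, fun x => by rw [S.pairT_comm ha, zero_smul, one_smul, zero_add]⟩)
    obtain ⟨v, hv, hv0, hv'⟩ : ∃ v, S.q v = 0 ∧ v ≠ 0 ∧ ∀ a b : F,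
        (g : Matrix ι ι F) *ᵥ S.j v ≠
          a • ((g : Matrix ι ι F) *ᵥ v) + b • S.j ((g : Matrix ι ι F) *ᵥ v) := by
      by_contra hcon
      push Not at hcon
      let T : (ι → F) →ₗ[F] (ι → F) := Matrix.toLin' ((g⁻¹ : GL ι F) : Matrix ι ι F) ∘ₗ S.j ∘ₗ
        Matrix.toLin' (g : Matrix ι ι F)
      have hTj : ∀ v, (g : Matrix ι ι F) *ᵥ T v = S.j ((g : Matrix ι ι F) *ᵥ v) := fun v => by
        simp [T, Matrix.mulVec_mulVec]
      obtain ⟨a, b, hT⟩ := S.uField.scalar_of_sing S.q_nd hn T fun w hw hw0 => by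
        obtain ⟨a, b, e⟩ := hcon w hw hw0
        have hb : b ≠ 0 := by
          rintro rfl
          rw [zero_smul, add_zero, ← mulVec_smul] at e
          exact S.uField.no_eigen hw0 a (gl_mulVec_injective g e)
        refine ⟨-(a / b), b⁻¹, gl_mulVec_injective g ?_⟩
        show (g : Matrix ι ι F) *ᵥ T w = (g : Matrix ι ι F) *ᵥ (-(a / b) • w + b⁻¹ • S.uField.J w)
        rw [hTj, mulVec_add, mulVec_smul, mulVec_smul, S.uField_J, e]
        match_scalars <;> field_simp <;> ring
      refine hgn ((hmem g hgi).2 ?_)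
      obtain ⟨s, s', hs, -, hss, -⟩ := exists_hyp_perp S.q_nd (Fin.elim0 : Fin 0 → ι → F) (by omega)
      have hb : b ≠ 0 := by
        rintro rfl
        have := hTj s
        rw [hT, zero_smul, add_zero, mulVec_smul] at this
        exact S.uField.no_eigen (fun e => S.uField.ne_zero_of_pair hss
          (gl_mulVec_injective g (by simp [e]))) a this.symm
      refine ⟨-(a / b), b⁻¹, fun v => ?_⟩
      rw [← hTj v, hT, mulVec_add, mulVec_smul, mulVec_smul, S.uField_J]
      match_scalars <;> field_simp <;> ring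
    obtain ⟨w, hw0, hw, hwc⟩ := S.exists_centre hn hM hv' fun k => by
      have := mul_mem (mul_mem hg (hM v hv k)) (inv_mem hg)
      rwa [pairT, show ∀ x y z : GL ι F, x * (y * z) * x⁻¹ = x * y * x⁻¹ * (x * z * x⁻¹) by
        intro x y z; group, sympT_conj S.alt hgi, sympT_conj S.alt hgi] at this
    exact isoGroup_le_of_centres S.alt S.nd (S.centres_all hn hM hw0 hw hwc)

end SpU

end

end Cfsg.Agent.Lib.Forms
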