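import Cfsg.Agent.Lib.Forms.SympMaximal

/-!
Maximality of the stabiliser of an orthogonal decomposition in the symplectic group.
-/

set_option autoImplicit false

namespace Cfsg.Agent.Lib.Forms

open Matrix Cfsg.Geo

variable {ι : Type} [Fintype ι] [DecidableEq ι] {F : Type*} [Field F] {t : ℕ}

/-- An orthogonal decomposition into non-degenerate pieces of one dimension. -/
structure OrthDec (B : LinearMap.BilinForm F (ι → F)) (k : ℕ)
    (D : Fin t → Submodule F (ι → F)) : Prop where
  rank : ∀ i, Module.finrank F (D i) = k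
  pos : 0 < k
  spans : iSup D = ⊤
  nd : ∀ i, ∀ a ∈ D i, a ≠ 0 → ∃ z ∈ D i, B a z ≠ 0
  orth : ∀ i j, i ≠ j → ∀ a ∈ D i, ∀ b ∈ D j, B a b = 0

variable {B : LinearMap.BilinForm F (ι → F)} {k : ℕ} {D : Fin t → Submodule F (ι → F)}

lemma OrthDec.exists_parts (h : OrthDec B k D) (x : ι → F) :
    ∃ p : Fin t → (ι → F), (∀ i, p i ∈ D i) ∧ ∑ i, p i = x := by
  have hx : x ∈ iSup D := by rw [h.spans]; trivial
  rw [Submodule.mem_iSup_iff_exists_finsupp] at hx
  obtain ⟨f, hf, hfx⟩ := hx
  exact ⟨f, hf, by rw [← hfx, Finsupp.sum_fintype]; exact fun _ => rfl⟩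

lemma OrthDec.apply_sum_mem (h : OrthDec B k D) {p : Fin t → (ι → F)} (hp : ∀ i, p i ∈ D i)
    {j : Fin t} {z : ι → F} (hz : z ∈ D j) : B (∑ i, p i) z = B (p j) z := by
  rw [map_sum, LinearMap.sum_apply, Finset.sum_eq_single j]
  · exact fun i _ hij => h.orth i j hij _ (hp i) _ hz
  · simp

lemma OrthDec.apply_sum_sum (h : OrthDec B k D) {p q : Fin t → (ι → F)} (hp : ∀ i, p i ∈ D i)
    (hq : ∀ i, q i ∈ D i) : B (∑ i, p i) (∑ i, q i) = ∑ i, B (p i) (q i) := by
  rw [map_sum]
  exact Finset.sum_congr rfl fun j _ => h.apply_sum_mem hp (hq j)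

lemma OrthDec.parts_unique (h : OrthDec B k D) {p q : Fin t → (ι → F)} (hp : ∀ i, p i ∈ D i)
    (hq : ∀ i, q i ∈ D i) (he : ∑ i, p i = ∑ i, q i) : p = q := by
  funext i
  by_contra hne
  obtain ⟨z, hz, hz'⟩ := h.nd i (p i - q i) ((D i).sub_mem (hp i) (hq i)) (sub_ne_zero.2 hne)
  refine hz' ?_
  rw [map_sub, LinearMap.sub_apply, ← h.apply_sum_mem hp hz, ← h.apply_sum_mem hq hz, he, sub_self]

lemma OrthDec.sympT_mem_stab (h : OrthDec B k D) (hA : B.IsAlt) {j : Fin t} {v : ι → F}
    (hv : v ∈ D j) (c : F) : sympT B v c ∈ decompositionStabilizer D ⊓ isoGroup B := by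
  refine ⟨⟨1, fun i => Submodule.eq_of_le_of_finrank_eq (map_le_of_mulVec_mem fun w hw => ?_)
    (by rw [finrank_map_gl]; rfl)⟩, sympT_mem hA v c⟩
  rw [sympT_mulVec hA]
  rcases eq_or_ne i j with rfl | hij
  · exact (D i).add_mem hw ((D i).smul_mem _ hv)
  · simpa [h.orth i j hij w hw v hv] using hw

lemma OrthDec.exists_perm (h : OrthDec B k D) (hA : B.IsAlt) (σ : Equiv.Perm (Fin t)) :
    ∃ g ∈ decompositionStabilizer D ⊓ isoGroup B,
      ∀ i, ∀ a ∈ D i, (g : Matrix ι ι F) *ᵥ a ∈ D (σ i) := by
  have hiso : ∀ i, ∃ e : D i ≃ₗ[F] D (σ i), ∀ x y, B.restrict (D (σ i)) (e x) (e y) =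
      B.restrict (D i) x y := by
    intro i
    have hsep : ∀ l, (B.restrict (D l)).SeparatingLeft := fun l x hx => by
      by_contra hx0
      obtain ⟨z, hz, hxz⟩ := h.nd l x x.2 (by simpa using hx0)
      exact hxz (hx ⟨z, hz⟩)
    exact exists_alt_isometry (B.restrict (D i)) (fun x => hA x) (hsep i) (B.restrict (D (σ i)))
      (fun x => hA x) (hsep (σ i))
      (by rw [h.rank, h.rank])
  choose e he using hiso
  have hparts := h.exists_parts
  choose p hp hps using hparts
  have padd : ∀ x y, p (x + y) = p x + p y := fun x y => h.parts_unique (hp _)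
    (fun i => (D i).add_mem (hp x i) (hp y i)) (by simp [hps, Finset.sum_add_distrib])
  have psmul : ∀ (c : F) x, p (c • x) = c • p x := fun c x => h.parts_unique (hp _)
    (fun i => (D i).smul_mem c (hp x i)) (by simp [hps, ← Finset.smul_sum])
  let π : ∀ i, (ι → F) →ₗ[F] D i := fun i =>
    { toFun := fun x => ⟨p x i, hp x i⟩
      map_add' := fun x y => Subtype.ext (by simp [padd])
      map_smul' := fun c x => Subtype.ext (by simp [psmul]) }
  let L : (ι → F) →ₗ[F] (ι → F) :=
    ∑ i, (D (σ i)).subtype.comp ((e i).toLinearMap.comp (π i))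
  let q : (ι → F) → Fin t → (ι → F) := fun x j => (e (σ.symm j) (π (σ.symm j) x) : ι → F)
  have hqm : ∀ x j, q x j ∈ D j := fun x j => by
    have := (e (σ.symm j) (π (σ.symm j) x)).2
    convert this
    exact (σ.apply_symm_apply j).symm
  have hLx : ∀ x, L x = ∑ j, q x j := by
    intro x
    rw [LinearMap.sum_apply, ← Equiv.sum_comp σ (q x)]
    refine Finset.sum_congr rfl fun i _ => ?_
    simp only [q, LinearMap.comp_apply, LinearEquiv.coe_coe, Submodule.coe_subtype]
    rw [σ.symm_apply_apply]
  have hLiso : ∀ x y, B (L x) (L y) = B x y := by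
    intro x y
    rw [hLx, hLx, h.apply_sum_sum (hqm x) (hqm y), ← Equiv.sum_comp σ]
    conv_rhs => rw [← hps x, ← hps y, h.apply_sum_sum (hp x) (hp y)]
    refine Finset.sum_congr rfl fun i _ => ?_
    simp only [q]
    rw [σ.symm_apply_apply]
    exact he i (π i x) (π i y)
  have hLinj : Function.Injective L := by
    intro x y hxy
    have hd : p x - p y = 0 := by
      funext i
      by_contra hne
      obtain ⟨z, hz, hz'⟩ := h.nd i ((p x - p y) i) ((D i).sub_mem (hp x i) (hp y i)) hne
      refine hz' ?_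
      rw [Pi.sub_apply, map_sub, LinearMap.sub_apply, ← h.apply_sum_mem (hp x) hz,
        ← h.apply_sum_mem (hp y) hz, hps, hps, ← hLiso x z, ← hLiso y z, hxy, sub_self]
    rw [← hps x, ← hps y, sub_eq_zero.1 hd]
  have hdet : IsUnit (LinearMap.toMatrix' L) :=
    Matrix.mulVec_injective_iff_isUnit.1 fun x y hxy => hLinj (by
      simpa [LinearMap.toMatrix'_mulVec] using hxy)
  obtain ⟨g, hg⟩ := hdet
  have hgv : ∀ x, (g : Matrix ι ι F) *ᵥ x = L x := fun x => by
    rw [hg, LinearMap.toMatrix'_mulVec]
  have hmap : ∀ i, ∀ a ∈ D i, (g : Matrix ι ι F) *ᵥ a ∈ D (σ i) := by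
    intro i a ha
    have hpa : p a = fun l => if l = i then a else 0 := h.parts_unique (hp a)
      (fun l => by split_ifs with hl <;> [exact hl ▸ ha; exact zero_mem _]) (by simp [hps])
    rw [hgv, LinearMap.sum_apply]
    refine Submodule.sum_mem _ fun l _ => ?_
    rcases eq_or_ne l i with rfl | hl
    · exact (e l (π l a)).2
    · have : π l a = 0 := Subtype.ext (by simp [π, hpa, hl])
      simp [this]
  refine ⟨g, ⟨⟨σ, fun i => Submodule.eq_of_le_of_finrank_eq (map_le_of_mulVec_mem (hmap i))
    (by rw [finrank_map_gl, h.rank, h.rank])⟩, fun u v => ?_⟩, hmap⟩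
  show B ((g : Matrix ι ι F) *ᵥ u) ((g : Matrix ι ι F) *ᵥ v) = B u v
  rw [hgv, hgv, hLiso]

theorem decomposition_stab_isMaximalIn (hA : B.IsAlt) (hB : B.Nondegenerate) (ht : 2 ≤ t)
    (h : OrthDec B k D) (hex : 3 ≤ k ∨ ∃ s : F, s ≠ 0 ∧ s ≠ -1) :
    IsMaximalIn (isoGroup B) (decompositionStabilizer D ⊓ isoGroup B) := by
  classical
  have hne : ∀ i, D i ≠ ⊥ := fun i hi => by
    have := h.rank i; rw [hi, finrank_bot] at this; have := h.pos; omega
  have hblock : ∀ {g : GL ι F}, g ∈ decompositionStabilizer D → ∀ i, ∀ a ∈ D i,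
      ∃ j, (g : Matrix ι ι F) *ᵥ a ∈ D j := by
    rintro g ⟨σ, hσ⟩ i a ha
    exact ⟨σ i, hσ i ▸ ⟨a, ha, by simp⟩⟩
  refine isMaximalIn_of inf_le_right ?_ fun M hM h' g hg hgn => ?_
  · obtain ⟨a, ha, ha0⟩ := Submodule.exists_mem_ne_zero_of_ne_bot (hne ⟨0, by omega⟩)
    obtain ⟨b, hb, hb0⟩ := Submodule.exists_mem_ne_zero_of_ne_bot (hne ⟨1, by omega⟩)
    obtain ⟨z, hz, haz⟩ := h.nd _ a ha ha0
    have hab : (⟨0, by omega⟩ : Fin t) ≠ ⟨1, by omega⟩ := by simp [Fin.ext_iff]
    refine ⟨sympT B (a + b) 1, sympT_mem hA _ _, fun hs => ?_⟩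
    obtain ⟨j, hj⟩ := hblock hs.1 _ z hz
    set s := B z (a + b) with hs'
    have hs0 : s ≠ 0 := by
      rw [hs', map_add, h.orth _ _ hab z hz b hb, add_zero, ← hA.neg_eq a z]
      simpa using haz
    rw [sympT_mulVec hA, one_mul] at hj
    let p : Fin t → (ι → F) := fun l => (if l = ⟨0, by omega⟩ then z + s • a else 0) +
      (if l = ⟨1, by omega⟩ then s • b else 0)
    have hp : ∀ l, p l ∈ D l := fun l => by
      refine (D l).add_mem ?_ ?_
      · split_ifs with hl
        · exact hl ▸ add_mem hz ((D _).smul_mem _ ha)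
        · exact zero_mem _
      · split_ifs with hl
        · exact hl ▸ (D _).smul_mem _ hb
        · exact zero_mem _
    have hsum : ∑ l, p l = z + s • (a + b) := by
      simp [p, Finset.sum_add_distrib, smul_add, add_assoc]
    have e := h.parts_unique hp (q := fun l => if l = j then z + s • (a + b) else 0)
      (fun l => by split_ifs with hl <;> [exact hl ▸ hj; exact zero_mem _]) (by simp [hsum])
    rcases eq_or_ne j (⟨1, by omega⟩ : Fin t) with rfl | hj1
    · have e0 := congrFun e ⟨0, by omega⟩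
      simp [p, hab, Fin.ext_iff] at e0
      have hz0 : z = -(s • a) := eq_neg_of_add_eq_zero_left e0
      rw [hz0, map_neg, map_smul, hA.self_eq_zero, smul_zero, neg_zero] at haz
      exact haz rfl
    · have e1 := congrFun e ⟨1, by omega⟩
      simp [p, hab.symm, hj1.symm, hs0, hb0] at e1
  have hgi : g ∈ isoGroup B := h' hg
  have hc : ∀ j, ∀ v ∈ D j, v ∈ centres B M := fun j v hv c => hM (h.sympT_mem_stab hA hv c)
  -- changing parts without changing the support
  have change : ∀ (p q : Fin t → (ι → F)), (∀ i, p i ∈ D i) → (∀ i, q i ∈ D i) →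
      (∀ i, p i = 0 ↔ q i = 0) → (∑ i, p i) ∈ centres B M → (∑ i, q i) ∈ centres B M := by
    intro p q hp hq hpq hs
    suffices ∀ s : Finset (Fin t), (∑ i, if i ∈ s then q i else p i) ∈ centres B M by
      simpa using this Finset.univ
    intro s
    induction s using Finset.induction_on with
    | empty => simpa using hs
    | @insert j s hj ih =>
      rcases eq_or_ne (p j) 0 with h0 | h0
      · convert ih using 2 with i
        rcases eq_or_ne i j with rfl | hij
        · simp [hj, h0, (hpq i).1 h0]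
        · simp [hij]
      set f : Fin t → (ι → F) := fun i => if i ∈ s then q i else p i
      set r := ∑ i ∈ Finset.univ.erase j, f i
      have e1 : ∑ i, f i = p j + r := by
        rw [← Finset.add_sum_erase _ f (Finset.mem_univ j)]; simp [f, hj, r]
      have e2 : (∑ i, if i ∈ insert j s then q i else p i) = q j + r := by
        rw [← Finset.add_sum_erase _ _ (Finset.mem_univ j)]
        simp only [Finset.mem_insert, true_or, if_true, r]
        congr 1
        refine Finset.sum_congr rfl fun i hi => ?_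
        simp [f, Finset.ne_of_mem_erase hi]
      rw [e2]
      refine centres_change hA (h.nd j) (hc j) (hp j) h0 (hq j) (fun h1 => h0 ((hpq j).2 h1))
        (fun z hz => ?_) (e1 ▸ ih)
      rw [map_sum, LinearMap.sum_apply]
      refine Finset.sum_eq_zero fun i hi => h.orth i j (Finset.ne_of_mem_erase hi) _ ?_ _ hz
      simp only [f]; split_ifs <;> [exact hq i; exact hp i]
  -- a vector in a block with image in no block
  obtain ⟨p, hp, hps, i, j, hij, hi, hj⟩ : ∃ p : Fin t → (ι → F), (∀ l, p l ∈ D l) ∧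
      (∑ l, p l) ∈ centres B M ∧ ∃ i j, i ≠ j ∧ p i ≠ 0 ∧ p j ≠ 0 := by
    by_contra hcon
    push Not at hcon
    refine hgn ⟨?_, hgi⟩
    have hmem : ∀ i, ∀ a ∈ D i, ∃ j, (g : Matrix ι ι F) *ᵥ a ∈ D j := by
      intro i a ha
      obtain ⟨p, hp, hps⟩ := h.exists_parts ((g : Matrix ι ι F) *ᵥ a)
      rcases eq_or_ne ((g : Matrix ι ι F) *ᵥ a) 0 with h0 | h0
      · exact ⟨i, h0.symm ▸ zero_mem _⟩
      obtain ⟨j, hj⟩ : ∃ j, p j ≠ 0 := by
        by_contra hz; push Not at hz; exact h0 (by rw [← hps]; simp [hz])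
      refine ⟨j, ?_⟩
      rw [← hps, Finset.sum_eq_single j (fun l _ hl => ?_) (by simp)]
      · exact hp j
      · exact hcon p hp (hps ▸ mulVec_mem_centres hA hg hgi (hc i a ha)) j l hl.symm hj
    have hone : ∀ i, ∃ j, ∀ a ∈ D i, (g : Matrix ι ι F) *ᵥ a ∈ D j := by
      intro i
      obtain ⟨a, ha, ha0⟩ := Submodule.exists_mem_ne_zero_of_ne_bot (hne i)
      obtain ⟨j, hj⟩ := hmem i a ha
      refine ⟨j, fun b hb => ?_⟩
      by_contra hbj
      obtain ⟨l, hl⟩ := hmem i b hb
      obtain ⟨m, hm⟩ := hmem i (a + b) (add_mem ha hb)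
      rw [mulVec_add] at hm
      have hlj : l ≠ j := fun e => hbj (e ▸ hl)
      have e := h.parts_unique
        (p := fun x => (if x = j then (g : Matrix ι ι F) *ᵥ a else 0) +
          (if x = l then (g : Matrix ι ι F) *ᵥ b else 0))
        (q := fun x => if x = m then (g : Matrix ι ι F) *ᵥ a + (g : Matrix ι ι F) *ᵥ b else 0)
        (fun x => (D x).add_mem (by split_ifs with hx <;> [exact hx ▸ hj; exact zero_mem _])
          (by split_ifs with hx <;> [exact hx ▸ hl; exact zero_mem _]))
        (fun x => by split_ifs with hx <;> [exact hx ▸ hm; exact zero_mem _])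
        (by simp [Finset.sum_add_distrib])
      rcases eq_or_ne m j with rfl | hmj
      · have := congrFun e l
        simp [hlj] at this
        exact hbj (this ▸ zero_mem _)
      · have := congrFun e j
        simp [hlj.symm, hmj.symm] at this
        exact ha0 (gl_mulVec_injective g (by simpa using this))
    choose σ hσ using hone
    have hσeq : ∀ i, (D i).map (Matrix.toLin' (g : Matrix ι ι F)) = D (σ i) := fun i =>
      Submodule.eq_of_le_of_finrank_eq (map_le_of_mulVec_mem (hσ i))
        (by rw [finrank_map_gl, h.rank, h.rank])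
    have hinj : Function.Injective σ := by
      intro a b hab
      by_contra hne'
      have h3 := (hσeq a).trans (by rw [hab, ← hσeq b])
      obtain ⟨x, hx, hx0⟩ := Submodule.exists_mem_ne_zero_of_ne_bot (hne a)
      obtain ⟨y, hy, hxy⟩ := h.nd a x hx hx0
      have : (Matrix.toLin' (g : Matrix ι ι F)) x ∈ (D b).map (Matrix.toLin' (g : Matrix ι ι F)) :=
        h3 ▸ ⟨x, hx, rfl⟩
      obtain ⟨x', hx', hxe⟩ := this
      rw [Matrix.toLin'_apply, Matrix.toLin'_apply] at hxe
      have := gl_mulVec_injective g hxe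
      subst this
      exact hxy (h.orth b a (Ne.symm hne') _ hx' _ hy)
    exact ⟨Equiv.ofBijective σ (Finite.injective_iff_bijective.1 hinj), hσeq⟩
  -- a pair
  obtain ⟨w, hw, hwp, hw0, hwp'⟩ : ∃ w ∈ D j, B (p j) w = 0 ∧ w ≠ 0 ∧ p j + w ≠ 0 := by
    rcases hex with hk | ⟨s, hs0, hs1⟩
    · obtain ⟨w, hw, hw'⟩ : ∃ w ∈ D j ⊓ LinearMap.ker (B (p j)), w ∉ Submodule.span F {p j} := by
        by_contra hcon
        push Not at hcon
        have h2 := Submodule.finrank_mono (show D j ⊓ LinearMap.ker (B (p j)) ≤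
          Submodule.span F {p j} from hcon)
        rw [finrank_span_singleton hj] at h2
        have h3 := Submodule.finrank_sup_add_finrank_inf_eq (D j) (LinearMap.ker (B (p j)))
        have h4 := Submodule.finrank_le (D j ⊔ LinearMap.ker (B (p j)))
        have h5 := LinearMap.finrank_range_add_finrank_ker (B (p j))
        have h6 := Submodule.finrank_le (LinearMap.range (B (p j)))
        rw [h.rank] at h3
        simp [Module.finrank_self] at h6
        omega
      refine ⟨w, hw.1, hw.2, fun h0 => hw' (h0 ▸ zero_mem _), fun h0 => hw' ?_⟩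
      rw [eq_neg_of_add_eq_zero_right h0]
      exact neg_mem (Submodule.mem_span_singleton_self _)
    · refine ⟨s • p j, (D j).smul_mem _ (hp j), by simp [hA.self_eq_zero], smul_ne_zero hs0 hj,
        fun h0 => ?_⟩
      have : ((1 + s) • p j) = 0 := by rw [add_smul, one_smul, h0]
      rcases smul_eq_zero.1 this with h1 | h1
      · exact hs1 (by linear_combination h1)
      · exact hj h1
  obtain ⟨z, hz, hpz⟩ := h.nd i _ (hp i) hi
  let q : Fin t → (ι → F) := fun l => if l = i then z else if l = j then w else -p l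
  have hq : ∀ l, q l ∈ D l := fun l => by
    simp only [q]
    split_ifs with h1 h2
    · exact h1 ▸ hz
    · exact h2 ▸ hw
    · exact neg_mem (hp l)
  have hz0 : z ≠ 0 := fun h0 => hpz (by simp [h0])
  have hqc : (∑ l, q l) ∈ centres B M := change p q hp hq (fun l => by
    rcases eq_or_ne l i with rfl | h1
    · simp [q, hi, hz0]
    rcases eq_or_ne l j with rfl | h2
    · simp [q, h1, hj, hw0]
    · simp [q, h1, h2]) hps
  have hBpq : B (∑ l, p l) (∑ l, q l) = B (p i) z := by
    rw [h.apply_sum_sum hp hq, Finset.sum_eq_single i (fun l _ hl => ?_) (by simp)]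
    · simp [q]
    · rcases eq_or_ne l j with rfl | h2
      · simpa [q, hl] using hwp
      · simp [q, hl, h2, hA.self_eq_zero]
  have hpair : ∀ i' j', i' ≠ j' → ∀ r : Fin t → (ι → F), (∀ l, r l ∈ D l) → r i' ≠ 0 → r j' ≠ 0 →
      (∀ l, l ≠ i' → l ≠ j' → r l = 0) → (∑ l, r l) ∈ centres B M := by
    intro i' j' hij' r hr hri hrj hr0
    have hbase := add_smul_mem_centres hA hps hqc (by rw [hBpq]; exact hpz) 1
    rw [one_smul, ← Finset.sum_add_distrib] at hbase
    have hpzi : p i + z ≠ 0 := fun h0 => hpz (by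
      rw [eq_neg_of_add_eq_zero_right h0, map_neg, hA.self_eq_zero, neg_zero])
    let τ : Equiv.Perm (Fin t) := Equiv.swap i i'
    let σ : Equiv.Perm (Fin t) := τ.trans (Equiv.swap (τ j) j')
    have hσj : σ j = j' := by simp [σ]
    have hσi : σ i = i' := by
      simp only [σ, Equiv.trans_apply]
      rw [show τ i = i' from Equiv.swap_apply_left i i']
      refine Equiv.swap_apply_of_ne_of_ne (fun e => hij ?_) hij'
      exact τ.injective (show τ i = τ j by rw [← e]; exact Equiv.swap_apply_left i i')
    obtain ⟨gσ, hgσ, hgσmap⟩ := h.exists_perm hA σ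
    have himg := mulVec_mem_centres hA (hM hgσ) hgσ.2 hbase
    rw [mulVec_sum] at himg
    rw [← Equiv.sum_comp σ.symm] at himg
    refine change _ r (fun l => ?_) hr (fun l => ?_) himg
    · have := hgσmap (σ.symm l) _ (add_mem (hp _) (hq (σ.symm l)))
      simpa using this
    · rw [← mulVec_zero (gσ : Matrix ι ι F), (gl_mulVec_injective gσ).eq_iff, mulVec_zero]
      rcases eq_or_ne l i' with rfl | h1
      · rw [← hσi, σ.symm_apply_apply]
        simp [q, hpzi, hσi, hri]
      rcases eq_or_ne l j' with rfl | h2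
      · rw [← hσj, σ.symm_apply_apply]
        simp [q, hij.symm, hwp', hσj, hrj]
      · have e1 : σ.symm l ≠ i := fun e => h1 (by rw [← hσi, ← e, σ.apply_symm_apply])
        have e2 : σ.symm l ≠ j := fun e => h2 (by rw [← hσj, ← e, σ.apply_symm_apply])
        simp [q, e1, e2, hr0 l h1 h2]
  refine isoGroup_le_of_centres hA hB fun x => ?_
  obtain ⟨r, hr, rfl⟩ := h.exists_parts x
  -- induction on the support
  suffices ∀ (n : ℕ) (r : Fin t → (ι → F)), (∀ l, r l ∈ D l) →
      (Finset.univ.filter fun l => r l ≠ 0).card = n → (∑ l, r l) ∈ centres B M from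
    this _ r hr rfl
  intro n
  induction n using Nat.strong_induction_on with
  | _ n ih =>
    intro r hr hn
    set S := Finset.univ.filter fun l => r l ≠ 0 with hS
    rcases Nat.lt_or_ge n 2 with h2 | h2
    · rcases (show n = 0 ∨ n = 1 by omega) with rfl | rfl
      · have : ∀ l, r l = 0 := fun l => by
          by_contra hl
          have : l ∈ S := by simp [hS, hl]
          rw [Finset.card_eq_zero.1 hn] at this
          simp at this
        simpa [this] using hc ⟨0, by omega⟩ 0 (zero_mem _)
      · obtain ⟨a, ha⟩ := Finset.card_eq_one.1 hn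
        rw [Finset.sum_eq_single a (fun l _ hl => ?_) (by simp)]
        · exact hc a _ (hr a)
        · by_contra hl'
          have : l ∈ S := by simp [hS, hl']
          rw [ha, Finset.mem_singleton] at this
          exact hl this
    · obtain ⟨a, ha, b, hb, hab⟩ := Finset.one_lt_card.1 (by omega : 1 < S.card)
      have hra : r a ≠ 0 := (Finset.mem_filter.1 ha).2
      have hrb : r b ≠ 0 := (Finset.mem_filter.1 hb).2
      rcases eq_or_lt_of_le h2 with rfl | h3
      · refine hpair a b hab r hr hra hrb fun l hla hlb => ?_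
        by_contra hl
        have : l ∈ S := by simp [hS, hl]
        have hsub : ({a, b} : Finset (Fin t)) ⊆ S := by simp [Finset.insert_subset_iff, ha, hb]
        rw [← Finset.eq_of_subset_of_card_le hsub (by rw [Finset.card_pair hab, hn])] at this
        simp [hla, hlb] at this
      · obtain ⟨z, hz, hzr⟩ := h.nd b _ (hr b) hrb
        have hz' : r b - z ≠ 0 := fun h0 => hzr (by rw [← sub_eq_zero.1 h0, hA.self_eq_zero])
        have hz1 : z ≠ 0 := fun h0 => hzr (by simp [h0])
        let u : Fin t → (ι → F) := fun l => if l = a then 0 else if l = b then z else r l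
        let v : Fin t → (ι → F) := fun l => if l = a then r a else if l = b then r b - z else 0
        have hu : ∀ l, u l ∈ D l := fun l => by
          simp only [u]; split_ifs with h1 h1'
          exacts [zero_mem _, h1' ▸ hz, hr l]
        have hv : ∀ l, v l ∈ D l := fun l => by
          simp only [v]; split_ifs with h1 h1'
          exacts [h1 ▸ hr a, h1' ▸ (sub_mem (hr b) hz : r b - z ∈ D b), zero_mem _]
        have huc : (∑ l, u l) ∈ centres B M := by
          refine ih ((S.erase a).card) (by rw [Finset.card_erase_of_mem ha]; omega) u hu ?_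
          congr 1
          ext l
          rcases eq_or_ne l a with rfl | h1
          · simp [u]
          rcases eq_or_ne l b with rfl | h1'
          · simp [u, h1, hS, hrb, hz1]
          · simp [u, h1, h1', hS]
        have hvc : (∑ l, v l) ∈ centres B M := hpair a b hab v hv (by simp [v, hra])
          (by simp [v, hab.symm, hz']) (fun l h1 h1' => by simp [v, h1, h1'])
        have hne' : B (∑ l, u l) (∑ l, v l) ≠ 0 := by
          rw [h.apply_sum_sum hu hv, Finset.sum_eq_single b (fun l _ hl => ?_) (by simp)]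
          · simp only [u, v, hab.symm, if_false, if_true, map_sub, hA.self_eq_zero, sub_zero]
            rw [← hA.neg_eq (r b) z]; simpa using hzr
          · rcases eq_or_ne l a with rfl | h1 <;> simp [u, v, *]
        have := add_smul_mem_centres hA huc hvc hne' 1
        rw [one_smul, ← Finset.sum_add_distrib] at this
        convert this using 2 with l
        rcases eq_or_ne l a with rfl | h1
        · simp [u, v]
        rcases eq_or_ne l b with rfl | h1'
        · simp [u, v, h1]
        · simp [u, v, h1, h1']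

end Cfsg.Agent.Lib.Forms
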