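import Cfsg.Agent.Lib.Forms.TensorFrame
import Cfsg.Agent.Lib.Forms.SymmType

/-!
The tensor data of a tensor form structure, in both orientations, and the frames over the fields
with three and four elements.
-/

set_option autoImplicit false

namespace Cfsg.Agent.Lib.Forms

open Matrix Cfsg.Geo Kronecker

variable {F : Type*} [Field F] {ι : Type} [Fintype ι] [DecidableEq ι] {n₁ n₂ : ℕ}

/-- The product vector. -/
def tauMap (e : ι ≃ Fin n₁ × Fin n₂) (P : GL ι F) :
    (Fin n₁ → F) →ₗ[F] (Fin n₂ → F) →ₗ[F] (ι → F) :=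
  LinearMap.mk₂ F (fun p v => (P : Matrix ι ι F) *ᵥ ((fun z : Fin n₁ × Fin n₂ => p z.1 * v z.2) ∘ e))
    (fun p p' v => by rw [← mulVec_add]; congr 1; funext i; simp [add_mul])
    (fun c p v => by rw [← mulVec_smul]; congr 1; funext i; simp [mul_assoc])
    (fun p v v' => by rw [← mulVec_add]; congr 1; funext i; simp [mul_add])
    (fun c p v => by rw [← mulVec_smul]; congr 1; funext i; simp [mul_left_comm])

lemma tauMap_apply (e : ι ≃ Fin n₁ × Fin n₂) (P : GL ι F) (p : Fin n₁ → F) (v : Fin n₂ → F) :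
    tauMap e P p v = (P : Matrix ι ι F) *ᵥ ((fun z : Fin n₁ × Fin n₂ => p z.1 * v z.2) ∘ e) := rfl

lemma tensor_acts (e : ι ≃ Fin n₁ × Fin n₂) (P : GL ι F) {g : GL ι F}
    (hg : g ∈ tensorProductSubgroup n₁ n₂ e P) :
    ∃ (a : GL (Fin n₁) F) (b : GL (Fin n₂) F), ∀ p v, (g : Matrix ι ι F) *ᵥ tauMap e P p v =
      tauMap e P ((a : Matrix (Fin n₁) (Fin n₁) F) *ᵥ p) ((b : Matrix (Fin n₂) (Fin n₂) F) *ᵥ v) := by
  obtain ⟨g', ⟨k, ⟨a, b, hk⟩, rfl⟩, rfl⟩ := hg
  refine ⟨a, b, fun p v => ?_⟩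
  rw [tauMap_apply, tauMap_apply]
  change ((P * glReindex e.symm k * P⁻¹ : GL ι F) : Matrix ι ι F) *ᵥ _ = _
  rw [mulVec_mulVec, ← Units.val_mul, inv_mul_cancel_right, Units.val_mul, ← mulVec_mulVec]
  congr 1
  have e1 : ((glReindex e.symm k : GL ι F) : Matrix ι ι F) =
      (k : Matrix (Fin n₁ × Fin n₂) (Fin n₁ × Fin n₂) F).submatrix e e := by
    show Matrix.reindexAlgEquiv F F e.symm (k : Matrix (Fin n₁ × Fin n₂) (Fin n₁ × Fin n₂) F) = _
    rw [Matrix.reindexAlgEquiv_apply, Matrix.reindex_apply]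
    simp
  rw [e1, Matrix.submatrix_mulVec_equiv, Function.comp_assoc, Equiv.self_comp_symm, Function.comp_id]
  congr 1
  funext z
  rw [hk]
  simp only [Matrix.mulVec, dotProduct, Fintype.sum_prod_type, kroneckerMap_apply, Finset.sum_mul_sum]
  refine Finset.sum_congr rfl fun i _ => Finset.sum_congr rfl fun j _ => ?_
  ring

/-- Frame in the second factor. -/
noncomputable def TData.ofStructure {σ : F →+* F} {f : (ι → F) → (ι → F) → F}
    {f₁ : (Fin n₁ → F) → (Fin n₁ → F) → F} {f₂ : (Fin n₂ → F) → (Fin n₂ → F) → F}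
    (S : Sesq σ f) (S₁ : Sesq σ f₁) (S₂ : Sesq σ f₂) (e : ι ≃ Fin n₁ × Fin n₂) (P : GL ι F)
    (hT : IsTensorFormStructure σ f f₁ f₂ e P) : TData σ f f₁ f₂ where
  τ := tauMap e P
  c := hT.choose
  c_ne := hT.choose_spec.1
  card := by rw [Fintype.card_congr e, Fintype.card_prod]
  pair p q v w := by
    rw [tauMap_apply, tauMap_apply, hT.choose_spec.2, formOfGram_kron, S₁.formOfGram_eq,
      S₂.formOfGram_eq]
  inj {r} u hu x hx := by
    have h := congrArg (fun w => ((P⁻¹ : GL ι F) : Matrix ι ι F) *ᵥ w) hx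
    simp only [tauMap_apply, mulVec_sum, mulVec_mulVec, ← Units.val_mul, inv_mul_cancel,
      Units.val_one, one_mulVec, mulVec_zero] at h
    funext l i
    refine Fintype.linearIndependent_iff.1 hu (fun l => x l i) ?_ l
    funext j
    simpa [Finset.sum_apply] using congrFun h (e.symm (i, j))
  sesq := S
  sesqA := S₁
  sesqB := S₂

/-- Frame in the first factor. -/
noncomputable def TData.ofStructureFlip {σ : F →+* F} {f : (ι → F) → (ι → F) → F}
    {f₁ : (Fin n₁ → F) → (Fin n₁ → F) → F} {f₂ : (Fin n₂ → F) → (Fin n₂ → F) → F}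
    (S : Sesq σ f) (S₁ : Sesq σ f₁) (S₂ : Sesq σ f₂) (e : ι ≃ Fin n₁ × Fin n₂) (P : GL ι F)
    (hT : IsTensorFormStructure σ f f₁ f₂ e P) : TData σ f f₂ f₁ where
  τ := (tauMap e P).flip
  c := hT.choose
  c_ne := hT.choose_spec.1
  card := by rw [Fintype.card_congr e, Fintype.card_prod, mul_comm]
  pair p q v w := by
    rw [LinearMap.flip_apply, LinearMap.flip_apply, tauMap_apply, tauMap_apply, hT.choose_spec.2,
      formOfGram_kron, S₁.formOfGram_eq, S₂.formOfGram_eq]
    ring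
  inj {r} u hu x hx := by
    have h := congrArg (fun w => ((P⁻¹ : GL ι F) : Matrix ι ι F) *ᵥ w) hx
    simp only [LinearMap.flip_apply, tauMap_apply, mulVec_sum, mulVec_mulVec, ← Units.val_mul,
      inv_mul_cancel, Units.val_one, one_mulVec, mulVec_zero] at h
    funext l j
    refine Fintype.linearIndependent_iff.1 hu (fun l => x l j) ?_ l
    funext i
    simpa [Finset.sum_apply, mul_comm] using congrFun h (e.symm (i, j))
  sesq := S
  sesqA := S₂
  sesqB := S₁

lemma acts_ofStructure {σ : F →+* F} {f : (ι → F) → (ι → F) → F}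
    {f₁ : (Fin n₁ → F) → (Fin n₁ → F) → F} {f₂ : (Fin n₂ → F) → (Fin n₂ → F) → F}
    (S : Sesq σ f) (S₁ : Sesq σ f₁) (S₂ : Sesq σ f₂) (e : ι ≃ Fin n₁ × Fin n₂) (P : GL ι F)
    (hT : IsTensorFormStructure σ f f₁ f₂ e P) {g : GL ι F}
    (hg : g ∈ tensorProductSubgroup n₁ n₂ e P) : (TData.ofStructure S S₁ S₂ e P hT).Acts g :=
  tensor_acts e P hg

lemma acts_ofStructureFlip {σ : F →+* F} {f : (ι → F) → (ι → F) → F}
    {f₁ : (Fin n₁ → F) → (Fin n₁ → F) → F} {f₂ : (Fin n₂ → F) → (Fin n₂ → F) → F}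
    (S : Sesq σ f) (S₁ : Sesq σ f₁) (S₂ : Sesq σ f₂) (e : ι ≃ Fin n₁ × Fin n₂) (P : GL ι F)
    (hT : IsTensorFormStructure σ f f₁ f₂ e P) {g : GL ι F}
    (hg : g ∈ tensorProductSubgroup n₁ n₂ e P) :
    (TData.ofStructureFlip S S₁ S₂ e P hT).Acts g := by
  obtain ⟨a, b, h⟩ := tensor_acts e P hg
  exact ⟨b, a, fun p v => h v p⟩

lemma Sesq.of_bilinear {α : Type} {f : (α → F) → (α → F) → F}
    (h : Cfsg.Geo.IsBilinearForm f) : Sesq (RingHom.id F) f :=
  ⟨h.add_left, h.smul_left, h.add_right, h.smul_right⟩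

lemma Sesq.of_unitary {α : Type} [Fintype α] [DecidableEq α] {σ : F →+* F} {q : ℕ} {f : (α → F) → (α → F) → F}
    (hσ : ∀ x, σ x = x ^ q) (h : Cfsg.Geo.IsUnitaryFormPow q f) : Sesq σ f where
  add_left := h.add_left
  smul_left := h.smul_left
  add_right v x y := by
    rw [h.herm, h.add_left, ← hσ, map_add, hσ, hσ, ← h.herm, ← h.herm]
  smul_right c v x := by
    rw [h.herm, h.smul_left, mul_pow, ← h.herm, hσ]

lemma count_three : (Finset.univ.filter fun x : ZMod 3 × ZMod 3 × ZMod 3 =>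
      x.1 * x.1 + x.2.1 * x.2.1 + x.2.2 * x.2.2 = 1).card = 6 ∧
    (Finset.univ.filter fun x : ZMod 3 × ZMod 3 × ZMod 3 =>
      x.1 * x.1 + x.2.1 * x.2.1 + x.2.2 * x.2.2 = 2).card = 12 := by decide

lemma frame_three : ∀ a b c : ZMod 3, a * a + b * b + c * c = 1 →
    (b = 0 ∧ c = 0) ∨ (a = 0 ∧ c = 0) ∨ (a = 0 ∧ b = 0) := by decide

lemma two_ne_zero_three : (2 : ZMod 3) ≠ 0 := by decide

lemma eq_two_three : ∀ z : ZMod 3, z ≠ 0 → z ≠ 1 → z = 2 := by decide

lemma eq_one_iff_three : ∀ z : ZMod 3, z = 1 ↔ 2 * z = 2 := by decide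

/-- The orthogonal frame of a symmetric form of rank three over three elements. -/
theorem exists_frame_three [Fintype F] (hq : Fintype.card F = 3) (fB : (Fin 3 → F) → (Fin 3 → F) → F)
    (hB : Cfsg.Geo.IsSymmetricForm fB) :
    ∃ (u : Fin 3 → Fin 3 → F) (ε : F), ε ≠ 0 ∧ LinearIndependent F u ∧
      (∀ l m, fB (u l) (u m) = if l = m then ε else 0) ∧
      ∀ (b : GL (Fin 3) F) (lam : F), lam ≠ 0 →
        (∀ v w, fB ((b : Matrix (Fin 3) (Fin 3) F) *ᵥ v) ((b : Matrix (Fin 3) (Fin 3) F) *ᵥ w) =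
          lam * fB v w) →
        ∀ l, ∃ m, ∃ d : F, (b : Matrix (Fin 3) (Fin 3) F) *ᵥ u l = d • u m := by
  classical
  haveI : Fact (Nat.Prime 3) := ⟨Nat.prime_three⟩
  let φ := ZMod.ringEquivOfPrime F Nat.prime_three hq
  have h2 : (2 : F) ≠ 0 := by
    have h := two_ne_zero_three
    intro h0
    exact h (φ.injective (by rw [map_ofNat, map_zero, h0]))
  let B : LinearMap.BilinForm F (Fin 3 → F) := LinearMap.mk₂ F fB hB.bilinear.add_left
    (fun c x v => by rw [hB.bilinear.smul_left, smul_eq_mul]) hB.bilinear.add_right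
    (fun c v x => by rw [hB.bilinear.smul_right, smul_eq_mul])
  have hnd : B.Nondegenerate := ⟨fun x hx => by
      by_contra h0; obtain ⟨y, hy⟩ := (hB.nondegenerate x h0).2; exact hy (hx y),
    fun x hx => by by_contra h0; obtain ⟨y, hy⟩ := (hB.nondegenerate x h0).1; exact hy (hx y)⟩
  obtain ⟨b0, a, ha, hb0⟩ := exists_diag_basis h2 B ⟨hB.symm⟩ hnd
  have hd : Module.finrank F (Fin 3 → F) = 3 := by simp
  let b3 := b0.reindex (finCongr hd)
  let a3 : Fin 3 → F := a ∘ (finCongr hd).symm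
  have hb3 : ∀ i j, B (b3 i) (b3 j) = if i = j then a3 i else 0 := fun i j => by
    simp only [b3, a3, Module.Basis.reindex_apply, hb0, Function.comp_apply,
      EmbeddingLike.apply_eq_iff_eq]
  set ε := ∏ i, a3 i with hε
  have hε0 : ε ≠ 0 := Finset.prod_ne_zero_iff.2 fun i _ => ha _
  let Dg : LinearMap.BilinForm F (Fin 3 → F) := Matrix.toBilin' (Matrix.diagonal fun _ => ε)
  have hDg : ∀ i j, Dg (Pi.basisFun F _ i) (Pi.basisFun F _ j) = if i = j then ε else 0 := fun i j => by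
    simp [Dg, Matrix.toBilin'_single, Matrix.diagonal_apply]
  obtain ⟨g, hg⟩ := exists_isometry h2 B Dg b3 (Pi.basisFun F _) a3 (fun _ => ε) hb3 hDg
    (fun i => ha _) (fun _ => hε0) ⟨ε ^ 2, by rw [Finset.prod_const, ← hε]; simp; ring⟩
  have hgi : Function.Injective g := by
    rw [injective_iff_map_eq_zero]
    intro x hx
    refine (Pi.basisFun F (Fin 3)).ext_elem fun i => ?_
    have h := hg x (Pi.basisFun F _ i)
    rw [hx, map_zero, LinearMap.zero_apply] at h
    simpa [Dg, Matrix.toBilin'_apply', Matrix.mulVec_diagonal, dotProduct, Pi.single_apply, hε0]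
      using h.symm
  refine ⟨fun l => g (Pi.basisFun F _ l), ε, hε0,
    (Pi.basisFun F (Fin 3)).linearIndependent.map' g (LinearMap.ker_eq_bot.2 hgi),
    fun l m => (hg _ _).trans (hDg l m), fun b lam hlam hb l => ?_⟩
  have hgs : Function.Surjective g := LinearMap.injective_iff_surjective.1 hgi
  have hval : ∀ y, fB (g y) (g y) = ε * (y 0 * y 0 + y 1 * y 1 + y 2 * y 2) := fun y => by
    show B (g y) (g y) = _
    rw [hg]
    simp [Dg, Matrix.toBilin'_apply', Matrix.mulVec_diagonal, dotProduct, Fin.sum_univ_three]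
    ring
  -- the multiplier is one
  have hlam1 : lam = 1 := by
    by_contra hne
    have hl2 : φ.symm lam = 2 := by
      exact eq_two_three _ (by simpa using hlam) (by simpa using hne)
    let E : (ZMod 3 × ZMod 3 × ZMod 3) ≃ (Fin 3 → F) :=
      { toFun := fun x => ![φ x.1, φ x.2.1, φ x.2.2]
        invFun := fun y => (φ.symm (y 0), φ.symm (y 1), φ.symm (y 2))
        left_inv := fun x => by simp
        right_inv := fun y => by funext i; fin_cases i <;> simp }
    let G : (Fin 3 → F) ≃ (Fin 3 → F) := Equiv.ofBijective g ⟨hgi, hgs⟩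
    let M : (Fin 3 → F) ≃ (Fin 3 → F) :=
      { toFun := fun v => (b : Matrix (Fin 3) (Fin 3) F) *ᵥ v
        invFun := fun v => ((b⁻¹ : GL (Fin 3) F) : Matrix (Fin 3) (Fin 3) F) *ᵥ v
        left_inv := fun v => by simp [mulVec_mulVec, ← Units.val_mul]
        right_inv := fun v => by simp [mulVec_mulVec, ← Units.val_mul] }
    let W := E.trans (G.trans (M.trans (G.symm.trans E.symm)))
    have hW : ∀ x : ZMod 3 × ZMod 3 × ZMod 3,
        (W x).1 * (W x).1 + (W x).2.1 * (W x).2.1 + (W x).2.2 * (W x).2.2 =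
          2 * (x.1 * x.1 + x.2.1 * x.2.1 + x.2.2 * x.2.2) := by
      intro x
      have h := hb (g (E x)) (g (E x))
      have hy : g (E (W x)) = (b : Matrix (Fin 3) (Fin 3) F) *ᵥ g (E x) := by
        show G (E (E.symm (G.symm (M (G (E x)))))) = _
        rw [E.apply_symm_apply, G.apply_symm_apply]
        rfl
      rw [← hy, hval, hval, ← mul_left_comm] at h
      have h' := congrArg φ.symm (mul_left_cancel₀ hε0 h)
      simpa [E, hl2] using h'
    have := Finset.card_equiv (s := Finset.univ.filter fun x : ZMod 3 × ZMod 3 × ZMod 3 =>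
        x.1 * x.1 + x.2.1 * x.2.1 + x.2.2 * x.2.2 = 1)
      (t := Finset.univ.filter fun x : ZMod 3 × ZMod 3 × ZMod 3 =>
        x.1 * x.1 + x.2.1 * x.2.1 + x.2.2 * x.2.2 = 2) W (fun x => by
        simp only [Finset.mem_filter, Finset.mem_univ, true_and, hW]
        exact eq_one_iff_three _)
    rw [count_three.1, count_three.2] at this
    exact absurd this (by norm_num)
  subst hlam1
  obtain ⟨y, hy⟩ := hgs ((b : Matrix (Fin 3) (Fin 3) F) *ᵥ g (Pi.basisFun F _ l))
  have h := hb (g (Pi.basisFun F _ l)) (g (Pi.basisFun F _ l))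
  rw [one_mul, ← hy, hval, show fB (g (Pi.basisFun F _ l)) (g (Pi.basisFun F _ l)) = ε from by
    rw [show fB (g (Pi.basisFun F _ l)) (g (Pi.basisFun F _ l)) = B (g _) (g _) from rfl, hg, hDg,
      if_pos rfl]] at h
  have h1 : y 0 * y 0 + y 1 * y 1 + y 2 * y 2 = 1 :=
    mul_left_cancel₀ hε0 (h.trans (mul_one ε).symm)
  have h1' := frame_three (φ.symm (y 0)) (φ.symm (y 1)) (φ.symm (y 2)) (by
    simp only [← map_mul, ← map_add, h1, map_one])
  simp only [EmbeddingLike.map_eq_zero_iff] at h1'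
  have hyb : ∀ m, (∀ j, j ≠ m → y j = 0) → ∃ d : F, (b : Matrix (Fin 3) (Fin 3) F) *ᵥ
      g (Pi.basisFun F _ l) = d • g (Pi.basisFun F _ m) := fun m hm => by
    refine ⟨y m, ?_⟩
    rw [← hy, ← map_smul]
    congr 1
    funext j
    rcases eq_or_ne j m with rfl | hj
    · simp
    · simp [hm j hj, hj]
  rcases h1' with ⟨e₁, e₂⟩ | ⟨e₁, e₂⟩ | ⟨e₁, e₂⟩
  · exact ⟨0, hyb 0 fun j hj => by fin_cases j <;> first | exact absurd rfl hj | assumption⟩
  · exact ⟨1, hyb 1 fun j hj => by fin_cases j <;> first | exact absurd rfl hj | assumption⟩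
  · exact ⟨2, hyb 2 fun j hj => by fin_cases j <;> first | exact absurd rfl hj | assumption⟩

/-- The orthogonal frame of a unitary form of rank two over four elements. -/
theorem exists_frame_four [Fintype F] (hF : Fintype.card F = 4) (σ : F ≃+* F)
    (hσ : ∀ x, σ x = x ^ 2) (hσne : σ ≠ RingEquiv.refl F)
    (fB : (Fin 2 → F) → (Fin 2 → F) → F) (hB : Cfsg.Geo.IsUnitaryFormPow 2 fB) :
    ∃ u : Fin 2 → Fin 2 → F, LinearIndependent F u ∧
      (∀ l m, fB (u l) (u m) = if l = m then 1 else 0) ∧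
      ∀ (b : GL (Fin 2) F) (lam : F), lam ≠ 0 →
        (∀ v w, fB ((b : Matrix (Fin 2) (Fin 2) F) *ᵥ v) ((b : Matrix (Fin 2) (Fin 2) F) *ᵥ w) =
          lam * fB v w) →
        ∀ l, ∃ m, ∃ d : F, (b : Matrix (Fin 2) (Fin 2) F) *ᵥ u l = d • u m := by
  classical
  have hinv : ∀ a, σ (σ a) = a := fun a => by
    rw [hσ, hσ, ← pow_mul, show 2 * 2 = 4 from rfl, ← hF, FiniteField.pow_card]
  have hS : Sesq σ.toRingHom fB := Sesq.of_unitary hσ hB
  obtain ⟨u, hu⟩ := exists_orthonormal_family σ hσne hinv 2 (Fin 2 → F) fB hB.add_left hB.smul_left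
    (fun x y => by rw [hσ]; exact hB.herm x y) (fun x hx => (hB.nondegenerate x hx).2) (by simp)
  have hli : LinearIndependent F u := by
    rw [Fintype.linearIndependent_iff]
    intro g hg i
    have := congrArg (fun x => fB x (u i)) hg
    rw [hS.sum_left, hS.zero_left] at this
    simpa [-Fin.sum_univ_two, hB.smul_left, hu] using this
  refine ⟨u, hli, hu, fun b lam hlam hb l => ?_⟩
  have hcube : ∀ a : F, a = 0 ∨ a * σ a = 1 := fun a => by
    rcases eq_or_ne a 0 with h | h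
    · exact Or.inl h
    · right
      rw [hσ, ← pow_succ']
      have := FiniteField.pow_card_sub_one_eq_one a h
      rwa [hF] at this
  have hlam1 : lam = 1 := by
    have h := hB.herm ((b : Matrix (Fin 2) (Fin 2) F) *ᵥ u l) ((b : Matrix (Fin 2) (Fin 2) F) *ᵥ u l)
    rw [hb, hu, if_pos rfl, mul_one] at h
    have h' : lam * (lam - 1) = 0 := by linear_combination -h
    exact sub_eq_zero.1 ((mul_eq_zero.1 h').resolve_left hlam)
  have hsp : Submodule.span F (Set.range u) = ⊤ :=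
    Submodule.eq_top_of_finrank_eq (by rw [finrank_span_eq_card hli]; simp)
  obtain ⟨d, hd⟩ := (Submodule.mem_span_range_iff_exists_fun F).1
    (hsp ▸ Submodule.mem_top : (b : Matrix (Fin 2) (Fin 2) F) *ᵥ u l ∈ Submodule.span F (Set.range u))
  have h := hb (u l) (u l)
  rw [← hd, hu, if_pos rfl, hlam1, mul_one, hS.sum_left] at h
  simp only [hS.sum_right, hB.smul_left, hS.smul_right] at h
  simp [hu, Fin.sum_univ_two] at h
  have hone : (1 : F) + 1 ≠ 1 := by simp
  rcases hcube (d 0) with h0 | h0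
  · refine ⟨1, d 1, ?_⟩
    rw [← hd, Fin.sum_univ_two, h0, zero_smul, zero_add]
  · rcases hcube (d 1) with h1 | h1
    · refine ⟨0, d 0, ?_⟩
      rw [← hd, Fin.sum_univ_two, h1, zero_smul, add_zero]
    · exact absurd (by linear_combination h - h0 - h1) hone

end Cfsg.Agent.Lib.Forms
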