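import Cfsg.Agent.Lib.Forms.Symplectic
import Cfsg.Agent.Lib.Forms.Alternating

/-!
Alternating forms: representing functionals and transitivity on orthogonal independent pairs.
-/

set_option autoImplicit false

namespace Cfsg.Agent.Lib.Forms

open Matrix Cfsg.Geo

variable {ι : Type} [Fintype ι] [DecidableEq ι] {F : Type*} [Field F]
  {B : LinearMap.BilinForm F (ι → F)}

omit [DecidableEq ι] in
/-- Every functional is pairing with some vector. -/
lemma exists_rep (hN : B.Nondegenerate) (φ : (ι → F) →ₗ[F] F) : ∃ z, ∀ x, B x z = φ x := by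
  have hi : Function.Injective B.flip := (injective_iff_map_eq_zero _).2 fun z hz =>
    hN.2 z fun y => LinearMap.congr_fun hz y
  obtain ⟨z, hz⟩ := (LinearMap.injective_iff_surjective_of_finrank_eq_finrank
    Subspace.dual_finrank_eq.symm).1 hi φ
  exact ⟨z, fun x => LinearMap.congr_fun hz x⟩

omit [DecidableEq ι] in
/-- A vector outside a subspace pairs to one with a vector orthogonal to the subspace. -/
lemma exists_one_perp_span (hN : B.Nondegenerate) {S : Submodule F (ι → F)} {x : ι → F}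
    (hx : x ∉ S) : ∃ z, B x z = 1 ∧ ∀ s ∈ S, B s z = 0 := by
  obtain ⟨φ, hφx, hφ⟩ := Submodule.exists_dual_map_eq_bot_of_notMem hx inferInstance
  obtain ⟨z, hz⟩ := exists_rep hN ((φ x)⁻¹ • φ)
  refine ⟨z, by rw [hz, LinearMap.smul_apply, smul_eq_mul, inv_mul_cancel₀ hφx], fun s hs => ?_⟩
  have : φ s ∈ S.map φ := ⟨s, hs, rfl⟩
  rw [hφ, Submodule.mem_bot] at this
  rw [hz, LinearMap.smul_apply, this, smul_zero]

omit [DecidableEq ι] in
lemma exists_one (hN : B.Nondegenerate) {x : ι → F} (hx : x ≠ 0) : ∃ z, B x z = 1 := by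
  obtain ⟨z, hz, -⟩ := exists_one_perp_span hN (S := ⊥) (x := x) (by simpa using hx)
  exact ⟨z, hz⟩

omit [DecidableEq ι] in
/-- A vector orthogonal to `s` outside the span of `t`. -/
lemma exists_perp_not_mem {j : ℕ} (s : Fin j → ι → F) (S : Submodule F (ι → F))
    (h : Module.finrank F S + j < Fintype.card ι) : ∃ x, (∀ i, B x (s i) = 0) ∧ x ∉ S := by
  set φ : (ι → F) →ₗ[F] (Fin j → F) := LinearMap.pi fun i => B.flip (s i) with hφ
  have h1 := LinearMap.finrank_range_add_finrank_ker φ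
  have h2 := Submodule.finrank_le (LinearMap.range φ)
  rw [Module.finrank_fin_fun] at h2
  rw [Module.finrank_fintype_fun_eq_card] at h1
  obtain ⟨x, hx, hxS⟩ : ∃ x ∈ LinearMap.ker φ, x ∉ S := SetLike.not_le_iff_exists.1 fun hle => by
    have := Submodule.finrank_mono hle
    omega
  exact ⟨x, fun i => congrFun (LinearMap.mem_ker.1 hx) i, hxS⟩

/-- Transitivity on non-zero vectors. -/
lemma exists_iso_move (hA : B.IsAlt) (hN : B.Nondegenerate) {u u' : ι → F} (hu : u ≠ 0)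
    (hu' : u' ≠ 0) : ∃ g ∈ isoGroup B, (g : Matrix ι ι F) *ᵥ u = u' := by
  obtain ⟨v, hv⟩ := exists_one hN hu
  obtain ⟨v', hv'⟩ := exists_one hN hu'
  obtain ⟨g, hg, e, -⟩ := exists_trans_pairs hA (isoGroup B) (U := ⊤)
    (fun w _ c => sympT_mem hA w c) trivial trivial trivial trivial hv hv'
  exact ⟨g, hg, e⟩

/-- A vector orthogonal to a hyperbolic pair can be moved to another one with the pair fixed. -/
lemma exists_iso_fix (hA : B.IsAlt) (hN : B.Nondegenerate) {c d e e' : ι → F} (hcd : B c d = 1)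
    (hec : B e c = 0) (hed : B e d = 0) (he'c : B e' c = 0) (he'd : B e' d = 0) (he : e ≠ 0)
    (he' : e' ≠ 0) : ∃ g ∈ isoGroup B, (g : Matrix ι ι F) *ᵥ c = c ∧
      (g : Matrix ι ι F) *ᵥ d = d ∧ (g : Matrix ι ι F) *ᵥ e = e' := by
  set U : Submodule F (ι → F) := LinearMap.ker (B.flip c) ⊓ LinearMap.ker (B.flip d) with hU
  have hmem : ∀ z, z ∈ U ↔ B z c = 0 ∧ B z d = 0 := fun z => by simp [hU]
  let K : Subgroup (GL ι F) :=
    { carrier := {g | g ∈ isoGroup B ∧ (g : Matrix ι ι F) *ᵥ c = c ∧ (g : Matrix ι ι F) *ᵥ d = d}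
      one_mem' := ⟨one_mem _, by simp, by simp⟩
      mul_mem' := fun {a b} ha hb => ⟨mul_mem ha.1 hb.1, by rw [mul_mulVec', hb.2.1, ha.2.1],
        by rw [mul_mulVec', hb.2.2, ha.2.2]⟩
      inv_mem' := fun {a} ha => ⟨inv_mem ha.1,
        by conv_lhs => rw [← ha.2.1]
           rw [inv_mulVec_mulVec],
        by conv_lhs => rw [← ha.2.2]
           rw [inv_mulVec_mulVec]⟩ }
  have hdc : B d c = -1 := by rw [← hA.neg_eq c d, hcd]
  -- partners inside the orthogonal of the pair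
  have partner : ∀ x, x ≠ 0 → x ∈ U → ∃ y ∈ U, B x y = 1 := by
    intro x hx hxU
    obtain ⟨y, hy⟩ := exists_one hN hx
    obtain ⟨h1, h2⟩ := (hmem x).1 hxU
    refine ⟨y - B y d • c + B y c • d, (hmem _).2 ⟨?_, ?_⟩, ?_⟩ <;>
      simp [hA.self_eq_zero, hcd, hdc, h1, h2, hy]
  obtain ⟨f, hf, hef⟩ := partner e he ((hmem e).2 ⟨hec, hed⟩)
  obtain ⟨f', hf', hef'⟩ := partner e' he' ((hmem e').2 ⟨he'c, he'd⟩)
  obtain ⟨g, hg, h1, -⟩ := exists_trans_pairs hA K (U := U) (fun w hw t => by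
      obtain ⟨hwc, hwd⟩ := (hmem w).1 hw
      have hcw : B c w = 0 := by rw [← hA.neg_eq w c, hwc, neg_zero]
      have hdw : B d w = 0 := by rw [← hA.neg_eq w d, hwd, neg_zero]
      exact ⟨sympT_mem hA w t, by rw [sympT_mulVec hA, hcw, mul_zero, zero_smul, add_zero],
        by rw [sympT_mulVec hA, hdw, mul_zero, zero_smul, add_zero]⟩)
    ((hmem e).2 ⟨hec, hed⟩) hf ((hmem e').2 ⟨he'c, he'd⟩) hf' hef hef'
  exact ⟨g, hg.1, hg.2.1, hg.2.2, h1⟩

/-- Transitivity on orthogonal independent pairs. -/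
lemma exists_iso_perp (hA : B.IsAlt) (hN : B.Nondegenerate) {c e c' e' : ι → F}
    (hce : B c e = 0) (hce' : B c' e' = 0) (hc : c ≠ 0) (hc' : c' ≠ 0)
    (hi : e ∉ Submodule.span F {c}) (hi' : e' ∉ Submodule.span F {c'}) :
    ∃ g ∈ isoGroup B, (g : Matrix ι ι F) *ᵥ c = c' ∧ (g : Matrix ι ι F) *ᵥ e = e' := by
  -- partners of the first vectors orthogonal to the second ones
  have partner : ∀ c e : ι → F, c ≠ 0 → e ∉ Submodule.span F {c} →
      ∃ d, B c d = 1 ∧ B e d = 0 := by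
    intro c e hc hi
    have hn : c ∉ Submodule.span F {e} := fun h => by
      obtain ⟨t, ht⟩ := Submodule.mem_span_singleton.1 h
      rcases eq_or_ne t 0 with rfl | ht0
      · exact hc (by rw [← ht, zero_smul])
      · exact hi (Submodule.mem_span_singleton.2 ⟨t⁻¹, by rw [← ht, inv_smul_smul₀ ht0]⟩)
    obtain ⟨d, hd, hd'⟩ := exists_one_perp_span hN hn
    exact ⟨d, hd, hd' e (Submodule.mem_span_singleton_self e)⟩
  obtain ⟨d, hd, hed⟩ := partner c e hc hi
  obtain ⟨d', hd', hed'⟩ := partner c' e' hc' hi'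
  obtain ⟨g₁, hg₁, hg₁c, hg₁d⟩ := exists_trans_pairs hA (isoGroup B) (U := ⊤)
    (fun w _ t => sympT_mem hA w t) trivial trivial trivial trivial hd hd'
  set e₁ := (g₁ : Matrix ι ι F) *ᵥ e with he₁
  have he₁c : B e₁ c' = 0 := by
    rw [← hg₁c, he₁, mem_isoGroup.1 hg₁, ← hA.neg_eq c e, hce, neg_zero]
  have he₁d : B e₁ d' = 0 := by rw [← hg₁d, he₁, mem_isoGroup.1 hg₁, hed]
  have he₁0 : e₁ ≠ 0 := fun h => hi (by
    rw [gl_mulVec_injective g₁ (h.trans (mulVec_zero _).symm)]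
    exact zero_mem _)
  have he'0 : e' ≠ 0 := fun h => hi' (by rw [h]; exact zero_mem _)
  obtain ⟨g₂, hg₂, hg₂c, -, hg₂e⟩ := exists_iso_fix hA hN hd' he₁c he₁d
    (by rw [← hA.neg_eq c' e', hce', neg_zero]) hed' he₁0 he'0
  exact ⟨g₂ * g₁, mul_mem hg₂ hg₁, by rw [mul_mulVec', hg₁c, hg₂c], by rw [mul_mulVec', ← he₁, hg₂e]⟩

omit [DecidableEq ι] in
/-- A non-degenerate alternating form lives in even dimension. -/
lemma even_of_alt (hA : B.IsAlt) (hN : B.Nondegenerate) : Even (Fintype.card ι) := by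
  obtain ⟨m, k, b, -, -, -, h4⟩ := exists_altBasis B hA
  obtain rfl : k = 0 := by
    by_contra hk
    exact b.ne_zero (Sum.inr ⟨0, Nat.pos_of_ne_zero hk⟩) (hN.1 _ fun v => h4 _ v)
  exact ⟨m, by rw [← Module.finrank_fintype_fun_eq_card (R := F) (η := ι),
    Module.finrank_eq_card_basis b]; simp⟩

end Cfsg.Agent.Lib.Forms
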