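import Cfsg.Agent.Lib.Forms.TensorProdRed
import Cfsg.Agent.Lib.Forms.TensorOrthTrans
import Cfsg.Agent.Lib.Forms.OrthStab

/-!
A quadratic form on a tensor product of two symplectic spaces, vanishing on pure tensors.
-/

set_option autoImplicit false

namespace Cfsg.Agent.Lib.Forms

open Matrix QuadraticMap Cfsg.Agent.Lib.Classical.Quad Cfsg.Agent.Lib.Classical.QuadOmega

variable {ι : Type} [Fintype ι] [DecidableEq ι] {F : Type*} [Field F]
  {Q : QuadraticForm F (ι → F)}

/-- Long root elements with mutually orthogonal vectors commute. -/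
lemma sg_comm {x u y v : ι → F} (L : LongPair Q x u) (L' : LongPair Q y v)
    (hxy : polar Q y x = 0) (hxv : polar Q v x = 0) (huy : polar Q y u = 0) (huv : polar Q v u = 0) :
    sg Q x u * sg Q y v = sg Q y v * sg Q x u := by
  have h := sg_conj (Q := Q) (g := sg Q x u) (fun z => sg_isometry z) L'.x0 L'.xu
  rw [L.mulVec, L.mulVec, hxy, hxv, huy, huv] at h
  simp only [zero_smul, add_zero, sub_zero] at h
  rwa [mul_inv_eq_iff_eq_mul] at h

/-- Products of long root elements in a subspace realise the maps allowed by an alternating form. -/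
lemma shift_mem {W : Type*} [AddCommGroup W] [Module F W] [FiniteDimensional F W]
    {β : LinearMap.BilinForm F W} (hβ : β.IsAlt) (hβN : β.Nondegenerate)
    (E : W →ₗ[F] ι → F) (π : (ι → F) →ₗ[F] W) {c : F} (hc : c ≠ 0) (hE : ∀ z, Q (E z) = 0)
    (hπ : ∀ X z, polar Q X (E z) = c * β (π X) z) (hπE : ∀ z, π (E z) = 0)
    {M : Subgroup (GL ι F)} (hM : ∀ u v, sg Q (E u) (E v) ∈ M)
    (A : W →ₗ[F] W) (hA : ∀ z, β z (A z) = 0) :
    ∃ s ∈ M, ∀ X, (s : Matrix ι ι F) *ᵥ X = X + E (A (π X)) := by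
  induction hn : Module.finrank F (LinearMap.range A) using Nat.strong_induction_on generalizing A with
  | _ n ih =>
  by_cases h0 : A = 0
  · exact ⟨1, one_mem _, fun X => by simp [h0]⟩
  obtain ⟨z₀, hz₀⟩ : ∃ z, A z ≠ 0 := by
    by_contra h
    push Not at h
    exact h0 (LinearMap.ext h)
  obtain ⟨y₀, hy₀⟩ : ∃ y, β y (A z₀) ≠ 0 := by
    by_contra h
    push Not at h
    exact hz₀ (hβN.2 _ h)
  have pol : ∀ z y, β z (A y) = -β y (A z) := fun z y => by
    have := hA (z + y)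
    simp only [map_add, LinearMap.add_apply, hA, zero_add, add_zero] at this
    linear_combination this
  set w := A z₀ with hw
  set v := A y₀ with hv
  set b := β y₀ w with hb
  let P : W →ₗ[F] W := b⁻¹ • ((β.flip w).smulRight v - (β.flip v).smulRight w)
  have hP : ∀ z, P z = b⁻¹ • (β z w • v - β z v • w) := fun z => by simp [P]
  have hA' : ∀ z, β z ((A - P) z) = 0 := fun z => by
    simp only [LinearMap.sub_apply, map_sub, hA, hP, map_smul, smul_eq_mul]
    ring
  have hlt : Module.finrank F (LinearMap.range (A - P)) < n := by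
    have hker : LinearMap.ker A < LinearMap.ker (A - P) := by
      refine lt_of_le_of_ne (fun z hz => ?_) fun e => hz₀ ?_
      · rw [LinearMap.mem_ker] at hz ⊢
        rw [LinearMap.sub_apply, hz, hP, hw, hv, pol z z₀, pol z y₀, hz]
        simp
      · show A z₀ = 0
        rw [← LinearMap.mem_ker, e, LinearMap.mem_ker, LinearMap.sub_apply, hP]
        have h1 : β z₀ w = 0 := hA z₀
        have h2 : β z₀ v = -b := pol z₀ y₀
        rw [h1, h2, zero_smul, zero_sub, neg_smul, neg_neg, smul_smul, inv_mul_cancel₀ hy₀, one_smul,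
          sub_self]
    have := Submodule.finrank_lt_finrank_of_lt hker
    have := LinearMap.finrank_range_add_finrank_ker A
    have := LinearMap.finrank_range_add_finrank_ker (A - P)
    omega
  obtain ⟨s, hs, hsX⟩ := ih _ hlt (A - P) hA' rfl
  have hL : LongPair Q (E w) (E ((b⁻¹ * c⁻¹) • v)) := ⟨hE _, hE _, by rw [hπ, hπE]; simp⟩
  refine ⟨sg Q (E w) (E ((b⁻¹ * c⁻¹) • v)) * s, mul_mem (hM _ _) hs, fun X => ?_⟩
  rw [mul_mulVec', hsX, hL.mulVec, polar_add_left, polar_add_left, hπ X, hπ X, hπ (E _), hπ (E _),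
    hπE]
  simp only [map_zero, LinearMap.zero_apply, mul_zero, add_zero, LinearMap.sub_apply, map_sub, hP,
    map_smul, smul_eq_mul]
  match_scalars <;> field_simp <;> ring

namespace TProd

open Cfsg.Geo

variable {m k : ℕ}

/-- A quadratic form of a product of two alternating forms. -/
structure OT (F : Type*) [Field F] (m k : ℕ) where
  Q : QuadraticForm F (Fin m × Fin k → F)
  f : LinearMap.BilinForm F (Fin m → F)
  g : LinearMap.BilinForm F (Fin k → F)
  c₀ : F
  hfA : f.IsAlt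
  hgA : g.IsAlt
  hfN : f.Nondegenerate
  hgN : g.Nondegenerate
  c₀_ne : c₀ ≠ 0
  hQ : Nd Q
  pure : ∀ v z, Q (vt v z) = 0
  pair : ∀ v z w y, polar Q (vt v z) (vt w y) = c₀ * f v w * g z y

namespace OT

variable (T : OT F m k)

/-- The product group inside Ω. -/
def grp : Subgroup (GL (Fin m × Fin k) F) := kroneckerSubgroup m k F ⊓ omegaGL ⇑T.Q

/-- The left coordinate along a vector of the right space. -/
noncomputable def rL (z : Fin k → F) : (Fin m × Fin k → F) →ₗ[F] (Fin m → F) := coL (bv T.g z)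

/-- The right coordinate along a vector of the left space. -/
noncomputable def rR (a : Fin m → F) : (Fin m × Fin k → F) →ₗ[F] (Fin k → F) := coR (bv T.f a)

lemma rL_vt (z : Fin k → F) (v : Fin m → F) (y : Fin k → F) :
    T.rL z (vt v y) = T.g y z • v := by
  rw [rL, coL_vt, bv_dot]

lemma rR_vt (a v : Fin m → F) (y : Fin k → F) : T.rR a (vt v y) = T.f v a • y := by
  rw [rR, coR_vt, bv_dot]

lemma rL_row (z : Fin k → F) (x : Fin m × Fin k → F) (i : Fin m) :
    T.rL z x i = T.g (row x i) z := by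
  show bv T.g z ⬝ᵥ row x i = _
  rw [bv_dot]

lemma g_flip (x y : Fin k → F) : T.g x y = -T.g y x := (T.hgA.neg_eq y x).symm

lemma f_flip (x y : Fin m → F) : T.f x y = -T.f y x := (T.hfA.neg_eq y x).symm

lemma polar_vt (X : Fin m × Fin k → F) (v : Fin m → F) (z : Fin k → F) :
    polar T.Q X (vt v z) = T.c₀ * T.f (T.rL z X) v :=
  LinearMap.congr_fun (pure_ext (N := T.Q.polarBilin.flip (vt v z))
    (N' := T.c₀ • (T.f.flip v ∘ₗ T.rL z)) fun i y => by
      show polar T.Q (vt (Pi.single i 1) y) (vt v z) = T.c₀ * T.f (T.rL z (vt (Pi.single i 1) y)) v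
      rw [T.pair, T.rL_vt, map_smul, LinearMap.smul_apply, smul_eq_mul]
      ring) X

lemma polar_vt' (X : Fin m × Fin k → F) (v : Fin m → F) (z : Fin k → F) :
    polar T.Q X (vt v z) = T.c₀ * T.g (T.rR v X) z :=
  LinearMap.congr_fun (pure_ext (N := T.Q.polarBilin.flip (vt v z))
    (N' := T.c₀ • (T.g.flip z ∘ₗ T.rR v)) fun i y => by
      show polar T.Q (vt (Pi.single i 1) y) (vt v z) = T.c₀ * T.g (T.rR v (vt (Pi.single i 1) y)) z
      rw [T.pair, T.rR_vt, map_smul, LinearMap.smul_apply, smul_eq_mul]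
      ring) X

lemma rL_self (c : Fin k → F) (a : Fin m → F) : T.rL c (vt a c) = 0 := by
  rw [T.rL_vt, T.hgA.self_eq_zero, zero_smul]

lemma ext_polar {x y : Fin m × Fin k → F}
    (h : ∀ v z, polar T.Q x (vt v z) = polar T.Q y (vt v z)) : x = y := by
  refine sub_eq_zero.1 (T.hQ _ fun Y => ?_)
  refine LinearMap.congr_fun (pure_ext (N := T.Q.polarBilin (x - y)) (N' := 0) fun i z => ?_) Y
  show polar T.Q (x - y) _ = 0
  rw [polar_sub_left, h, sub_self]

lemma longPair (v w : Fin m → F) (z y : Fin k → F) (h : T.f v w * T.g z y = 0) :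
    LongPair T.Q (vt v z) (vt w y) :=
  ⟨T.pure _ _, T.pure _ _, by rw [T.pair, mul_assoc, h, mul_zero]⟩

lemma sg_vt_mulVec {v w : Fin m → F} {z y : Fin k → F} (h : T.f v w * T.g z y = 0)
    (X : Fin m × Fin k → F) :
    (sg T.Q (vt v z) (vt w y) : Matrix (Fin m × Fin k) (Fin m × Fin k) F) *ᵥ X =
      X + (T.c₀ * T.f (T.rL z X) v) • vt w y - (T.c₀ * T.f (T.rL y X) w) • vt v z := by
  rw [(T.longPair v w z y h).mulVec, T.polar_vt, T.polar_vt]

/-- An element respecting the pure pairing is an isometry. -/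
lemma isometry_of_pure (n : GL (Fin m × Fin k) F)
    (h : ∀ v z w y, polar T.Q ((n : Matrix (Fin m × Fin k) (Fin m × Fin k) F) *ᵥ vt v z)
      ((n : Matrix (Fin m × Fin k) (Fin m × Fin k) F) *ᵥ vt w y) = polar T.Q (vt v z) (vt w y))
    (h0 : ∀ v z, T.Q ((n : Matrix (Fin m × Fin k) (Fin m × Fin k) F) *ᵥ vt v z) = 0)
    (X : Fin m × Fin k → F) :
    T.Q ((n : Matrix (Fin m × Fin k) (Fin m × Fin k) F) *ᵥ X) = T.Q X := by
  set N := Matrix.toLin' (n : Matrix (Fin m × Fin k) (Fin m × Fin k) F) with hN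
  have hNa : ∀ X, (n : Matrix (Fin m × Fin k) (Fin m × Fin k) F) *ᵥ X = N X := fun X =>
    (Matrix.toLin'_apply _ _).symm
  simp only [hNa] at h h0 ⊢
  have hp : ∀ X Y, polar T.Q (N X) (N Y) = polar T.Q X Y := by
    intro X Y
    refine LinearMap.congr_fun (pure_ext (N := T.Q.polarBilin (N X) ∘ₗ N)
      (N' := T.Q.polarBilin X) fun j y => ?_) Y
    exact LinearMap.congr_fun (pure_ext (N := T.Q.polarBilin.flip (N (vt (Pi.single j 1) y)) ∘ₗ N)
      (N' := T.Q.polarBilin.flip (vt (Pi.single j 1) y)) fun i z => h _ z _ y) X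
  rw [sum_rows X]
  refine Finset.sum_induction _ (fun Z => T.Q (N Z) = T.Q Z) (fun A B hA hB => ?_) ?_ fun i _ => ?_
  · rw [map_add, QuadraticMap.map_add ⇑T.Q, QuadraticMap.map_add ⇑T.Q, hA, hB, hp]
  · rw [map_zero]
  · rw [h0, T.pure]

lemma kr_isometry {a : GL (Fin m) F} {b : GL (Fin k) F} {μ ν : F} (hμν : μ * ν = 1)
    (ha : ∀ v w, T.f ((a : Matrix (Fin m) (Fin m) F) *ᵥ v) ((a : Matrix (Fin m) (Fin m) F) *ᵥ w) =
      μ * T.f v w)
    (hb : ∀ z y, T.g ((b : Matrix (Fin k) (Fin k) F) *ᵥ z) ((b : Matrix (Fin k) (Fin k) F) *ᵥ y) =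
      ν * T.g z y) (X : Fin m × Fin k → F) :
    T.Q ((kr a b : Matrix (Fin m × Fin k) (Fin m × Fin k) F) *ᵥ X) = T.Q X :=
  T.isometry_of_pure _ (fun v z w y => by
    rw [kr_vt, kr_vt, T.pair, T.pair, ha, hb]
    linear_combination (T.c₀ * T.f v w * T.g z y) * hμν) (fun v z => by rw [kr_vt, T.pure]) X

/-- A root element of the right factor. -/
noncomputable def rt (c : Fin k → F) (l : F) : GL (Fin m × Fin k) F := kr 1 (sympT T.g c l)

lemma rt_mulVec (c : Fin k → F) (l : F) (X : Fin m × Fin k → F) :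
    (T.rt c l : Matrix (Fin m × Fin k) (Fin m × Fin k) F) *ᵥ X = X + vt (l • T.rL c X) c := by
  refine row_ext fun i => ?_
  rw [rt, kr_one_row, sympT_mulVec T.hgA, row_add, row_vt, Pi.smul_apply, smul_eq_mul, T.rL_row]

lemma left_mulVec (a : Fin m → F) (κ : F) (X : Fin m × Fin k → F) :
    (kr (sympT T.f a κ) (1 : GL (Fin k) F) : Matrix (Fin m × Fin k) (Fin m × Fin k) F) *ᵥ X =
      X + vt a (κ • T.rR a X) := by
  show Matrix.toLin' (kr (sympT T.f a κ) (1 : GL (Fin k) F) :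
    Matrix (Fin m × Fin k) (Fin m × Fin k) F) X = _
  refine LinearMap.congr_fun (pure_ext (N' := LinearMap.id + vtR a ∘ₗ (κ • T.rR a)) fun i z => ?_) X
  show _ = vt (Pi.single i 1) z + vt a (κ • T.rR a (vt (Pi.single i 1) z))
  rw [Matrix.toLin'_apply, kr_vt, sympT_mulVec T.hfA, Units.val_one, one_mulVec, vt_add_left,
    T.rR_vt, smul_smul, vt_smul_left, vt_smul_right]

variable [Fintype F]

lemma good (hn : 7 ≤ m * k) : Good T.Q :=
  good_of_finrank T.hQ (by
    rw [Module.finrank_fintype_fun_eq_card, Fintype.card_prod, Fintype.card_fin, Fintype.card_fin]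
    exact hn)

lemma sg_vt_omega (hn : 7 ≤ m * k) {v w : Fin m → F} {z y : Fin k → F}
    (h : T.f v w * T.g z y = 0) : sg T.Q (vt v z) (vt w y) ∈ omegaGL ⇑T.Q :=
  sg_mem_omegaGL (T.good hn) (T.pure _ _) (T.longPair v w z y h).xu

/-- Central elements of the radical attached to `c`. -/
lemma central_omega (hn : 7 ≤ m * k) (c : Fin k → F) (Φ : (Fin m → F) →ₗ[F] (Fin m → F))
    (hΦ : ∀ v, T.f v (Φ v) = 0) : ∃ s ∈ omegaGL ⇑T.Q, ∀ X,
      (s : Matrix (Fin m × Fin k) (Fin m × Fin k) F) *ᵥ X = X + vt (Φ (T.rL c X)) c :=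
  shift_mem T.hfA T.hfN (vtL c) (T.rL c) T.c₀_ne (fun z => T.pure z c)
    (fun X z => T.polar_vt X z c) (fun z => T.rL_self c z)
    (fun u v => T.sg_vt_omega hn (by rw [T.hgA.self_eq_zero, mul_zero])) Φ hΦ

lemma rt_mem_grp (hn : 7 ≤ m * k) (c : Fin k → F) (l : F) : T.rt c l ∈ T.grp := by
  refine ⟨mem_kronecker.2 ⟨_, _, rfl⟩, ?_⟩
  obtain ⟨s, hs, hsX⟩ := T.central_omega hn c (l • LinearMap.id)
    (fun v => by simp [T.hfA.self_eq_zero])
  rwa [show T.rt c l = s from gl_ext fun X => by rw [hsX, T.rt_mulVec]; rfl]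

lemma right_mem_grp (hn : 7 ≤ m * k) {b : GL (Fin k) F} (hb : b ∈ isoGroup T.g) :
    kr 1 b ∈ T.grp := by
  let H : Subgroup (GL (Fin k) F) :=
    { carrier := {b | kr 1 b ∈ T.grp}
      one_mem' := by rw [Set.mem_setOf_eq, kr_one]; exact one_mem _
      mul_mem' := fun {a b} ha hb => by
        have := mul_mem (show kr 1 a ∈ T.grp from ha) (show kr 1 b ∈ T.grp from hb)
        rwa [kr_mul, one_mul] at this
      inv_mem' := fun {a} ha => by
        have := inv_mem (show kr 1 a ∈ T.grp from ha)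
        rwa [kr_inv, inv_one] at this }
  exact isoGroup_le_of_sympT T.hgA H T.hgN (fun w t => T.rt_mem_grp hn w t) hb

lemma left_transvection_mem (hn : 7 ≤ m * k) (a : Fin m → F) (κ : F) :
    kr (sympT T.f a κ) 1 ∈ T.grp := by
  refine ⟨mem_kronecker.2 ⟨_, _, rfl⟩, ?_⟩
  obtain ⟨s, hs, hsX⟩ := shift_mem T.hgA T.hgN (vtR a) (T.rR a) T.c₀_ne (fun z => T.pure a z)
    (fun X z => T.polar_vt' X a z)
    (fun z => by show T.rR a (vt a z) = 0; rw [T.rR_vt, T.hfA.self_eq_zero, zero_smul])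
    (M := omegaGL ⇑T.Q) (fun u v => T.sg_vt_omega hn (by rw [T.hfA.self_eq_zero, zero_mul]))
    (κ • LinearMap.id) (fun z => by simp [T.hgA.self_eq_zero])
  rwa [show kr (sympT T.f a κ) (1 : GL (Fin k) F) = s from gl_ext fun X => by
    rw [hsX, T.left_mulVec]; rfl]

lemma left_mem_grp (hn : 7 ≤ m * k) {a : GL (Fin m) F} (ha : a ∈ isoGroup T.f) :
    kr a 1 ∈ T.grp := by
  let H : Subgroup (GL (Fin m) F) :=
    { carrier := {a | kr a 1 ∈ T.grp}
      one_mem' := by rw [Set.mem_setOf_eq, kr_one]; exact one_mem _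
      mul_mem' := fun {a b} ha hb => by
        have := mul_mem (show kr a 1 ∈ T.grp from ha) (show kr b 1 ∈ T.grp from hb)
        rwa [kr_mul, one_mul] at this
      inv_mem' := fun {a} ha => by
        have := inv_mem (show kr a 1 ∈ T.grp from ha)
        rwa [kr_inv, inv_one] at this }
  exact isoGroup_le_of_sympT T.hfA H T.hfN (fun w t => T.left_transvection_mem hn w t) ha

lemma kr_mem_grp (hn : 7 ≤ m * k) {a : GL (Fin m) F} {b : GL (Fin k) F} (ha : a ∈ isoGroup T.f)
    (hb : b ∈ isoGroup T.g) : kr a b ∈ T.grp := by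
  have := mul_mem (T.left_mem_grp hn ha) (T.right_mem_grp hn hb)
  rwa [kr_mul, mul_one, one_mul] at this

/-- The image of a long root element of pure vectors under the product group. -/
lemma sg_kr_conj {a : GL (Fin m) F} {b : GL (Fin k) F} (ha : a ∈ isoGroup T.f)
    (hb : b ∈ isoGroup T.g) {v w : Fin m → F} {z y : Fin k → F} (h : T.f v w * T.g z y = 0) :
    kr a b * sg T.Q (vt v z) (vt w y) * (kr a b)⁻¹ =
      sg T.Q (vt ((a : Matrix (Fin m) (Fin m) F) *ᵥ v) ((b : Matrix (Fin k) (Fin k) F) *ᵥ z))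
        (vt ((a : Matrix (Fin m) (Fin m) F) *ᵥ w) ((b : Matrix (Fin k) (Fin k) F) *ᵥ y)) := by
  rw [sg_conj (T.kr_isometry (one_mul 1) (fun v w => by rw [one_mul, mem_isoGroup.1 ha])
    (fun z y => by rw [one_mul, mem_isoGroup.1 hb])) (T.pure _ _) (T.longPair v w z y h).xu, kr_vt,
    kr_vt]

omit [Fintype F] in
include T in
lemma m_ne_one (hm : m = 1) : False := by
  haveI : Subsingleton (Fin m) := by rw [hm]; infer_instance
  let i₀ : Fin m := ⟨0, by omega⟩
  have h1 : (1 : Fin m → F) ≠ 0 := fun e => one_ne_zero (congrFun e i₀)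
  obtain ⟨z, hz⟩ := exists_one T.hfN h1
  have e : z = z i₀ • (1 : Fin m → F) := funext fun i => by simp [Subsingleton.elim i i₀]
  rw [e, map_smul, T.hfA.self_eq_zero, smul_zero] at hz
  exact zero_ne_one hz

end OT

end TProd

end Cfsg.Agent.Lib.Forms
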