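import Cfsg.Agent.Lib.Forms.TensorOrthBasic

/-!
All long root elements on pairs of pure vectors with a common left factor generate Ω together with
the product group.
-/

set_option autoImplicit false

namespace Cfsg.Agent.Lib.Forms.TProd

open Matrix Kronecker QuadraticMap Cfsg.Agent.Lib.Forms Cfsg.Geo

variable {F : Type*} [Field F] [Fintype F] {m k : ℕ}

namespace OT

variable {T : OT F m k} {M : Subgroup (GL (Fin m × Fin k) F)}

variable (T M) in
/-- The long root elements with a common left factor lie in the group. -/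
def Diag : Prop := ∀ s α β, T.g α β = 0 → sg T.Q (vt s α) (vt s β) ∈ M

omit [Fintype F] in
lemma vt_polar_zero {v w : Fin m → F} {z y : Fin k → F} (h : T.f v w * T.g z y = 0) :
    polar T.Q (vt v z) (vt w y) = 0 := (T.longPair v w z y h).xu

omit [Fintype F] in
lemma sg_vt_add {v : Fin m → F} {z : Fin k → F} {u w : Fin m × Fin k → F}
    (hu : polar T.Q (vt v z) u = 0) (hw : polar T.Q (vt v z) w = 0)
    (h₁ : sg T.Q (vt v z) u ∈ M) (h₂ : sg T.Q (vt v z) w ∈ M) : sg T.Q (vt v z) (u + w) ∈ M := by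
  rw [sg_add (T.pure v z) hu hw]
  exact mul_mem h₁ h₂

omit [Fintype F] in
lemma sg_vt_cancel {v : Fin m → F} {z : Fin k → F} {u w : Fin m × Fin k → F}
    (hu : polar T.Q (vt v z) u = 0) (hw : polar T.Q (vt v z) w = 0)
    (h₁ : sg T.Q (vt v z) (u + w) ∈ M) (h₂ : sg T.Q (vt v z) u ∈ M) : sg T.Q (vt v z) w ∈ M := by
  rw [sg_add (T.pure v z) hu hw] at h₁
  exact (M.mul_mem_cancel_left h₂).1 h₁

omit [Fintype F] in
/-- The left factor of the second vector is free when the right factors are orthogonal. -/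
lemma diag_left (hk : 5 ≤ k) (hD : T.Diag M) {c : Fin m → F} {b : Fin k → F} (hc : c ≠ 0)
    {β : Fin k → F} (hbβ : T.g b β = 0) (e : Fin m → F) :
    sg T.Q (vt c b) (vt e β) ∈ M := by
  classical
  obtain ⟨a, ha, han⟩ := exists_perp_not_mem (B := T.g) ![b, β] (Submodule.span F {b, β}) (by
    have h := finrank_span_le_card (R := F) ({b, β} : Set (Fin k → F))
    have h2 : ({b, β} : Set (Fin k → F)).toFinset.card ≤ 2 := by
      rw [Set.toFinset_insert, Set.toFinset_singleton]; exact Finset.card_le_two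
    rw [Fintype.card_fin]
    omega)
  have hab : T.g a b = 0 := ha 0
  have haβ : T.g a β = 0 := ha 1
  obtain ⟨a', haa', ha'⟩ := exists_one_perp_span T.hgN han
  have hba' : T.g b a' = 0 := ha' b (Submodule.subset_span (by simp))
  have hβa' : T.g β a' = 0 := ha' β (Submodule.subset_span (by simp))
  have key : ∀ e, T.f c e ≠ 0 → sg T.Q (vt c b) (vt e β) ∈ M := by
    intro e hce
    set φ := T.c₀ * T.f c e
    have hφ : φ ≠ 0 := mul_ne_zero T.c₀_ne hce
    set h := sg T.Q (vt e a') (vt e (φ⁻¹ • β))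
    have hh : h ∈ M := hD e a' (φ⁻¹ • β) (by rw [map_smul, T.g_flip, hβa', neg_zero, smul_zero])
    have hx : sg T.Q (vt c b) (vt c a) ∈ M := hD c b a (by rw [T.g_flip, hab, neg_zero])
    have hm := mul_mem (mul_mem hh hx) (inv_mem hh)
    have hL : T.f e e * T.g a' (φ⁻¹ • β) = 0 := by rw [T.hfA.self_eq_zero, zero_mul]
    rw [sg_conj (fun z => sg_isometry z) (T.pure c b)
      (vt_polar_zero (by rw [T.hfA.self_eq_zero, zero_mul])), T.sg_vt_mulVec hL, T.sg_vt_mulVec hL,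
      T.rL_vt, T.rL_vt, T.rL_vt, T.rL_vt] at hm
    simp only [map_smul, hba', hbβ, haa', haβ, smul_eq_mul, smul_zero, zero_smul, map_zero,
      LinearMap.zero_apply, mul_zero, add_zero, sub_zero, one_smul] at hm
    rw [vt_smul_right φ⁻¹ e β, smul_smul, mul_inv_cancel₀ hφ, one_smul] at hm
    exact sg_vt_cancel (vt_polar_zero (by rw [T.hfA.self_eq_zero, zero_mul]))
      (vt_polar_zero (by rw [hbβ, mul_zero])) hm hx
  by_cases hce : T.f c e = 0
  swap
  · exact key e hce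
  obtain ⟨e₀, he₀⟩ := exists_one T.hfN hc
  have h1 := key (e + e₀) (by rw [map_add, hce, he₀, zero_add]; exact one_ne_zero)
  have h2 := key (-e₀) (by rw [map_neg, he₀]; exact neg_ne_zero.2 one_ne_zero)
  rw [show e = e + e₀ + -e₀ by abel, vt_add_left (e + e₀)]
  exact sg_vt_add (vt_polar_zero (by rw [hbβ, mul_zero])) (vt_polar_zero (by rw [hbβ, mul_zero])) h1 h2

omit [Fintype F] in
set_option maxHeartbeats 1000000 in
/-- The right factor of the second vector is free when the left factors are orthogonal. -/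
lemma diag_right (hk : 5 ≤ k) (hD : T.Diag M) {c c₁ : Fin m → F} {b : Fin k → F} (hc : c ≠ 0)
    (hb : b ≠ 0) (hcc₁ : T.f c c₁ = 0) (a₁ : Fin k → F) :
    sg T.Q (vt c b) (vt c₁ a₁) ∈ M := by
  rcases eq_or_ne c₁ 0 with rfl | hc₁
  · rw [vt_zero_left, sg_zero (T.pure c b)]; exact one_mem _
  obtain ⟨β₁, hβ₁, hβ₁n⟩ := exists_perp_not_mem (B := T.g) ![b, a₁] (Submodule.span F {b}) (by
    rw [finrank_span_singleton hb, Fintype.card_fin]; omega)
  have hβ₁b : T.g β₁ b = 0 := hβ₁ 0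
  have hβ₁a : T.g β₁ a₁ = 0 := hβ₁ 1
  have hba₁ : T.g b β₁ = 0 := by rw [T.g_flip, hβ₁b, neg_zero]
  have haβ₁ : T.g a₁ β₁ = 0 := by rw [T.g_flip, hβ₁a, neg_zero]
  obtain ⟨β₀, hβ₀, hβ₀b⟩ := exists_one_perp_span T.hgN hβ₁n
  set β := T.c₀⁻¹ • β₀ with hβ
  have hbβ : T.g b β = 0 := by
    rw [hβ, map_smul, hβ₀b b (Submodule.mem_span_singleton_self b), smul_zero]
  have hββ₁ : T.g β β₁ = -T.c₀⁻¹ := by
    rw [hβ, map_smul, LinearMap.smul_apply, T.g_flip, hβ₀, smul_eq_mul]; ring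
  obtain ⟨z, hz⟩ : ∃ z, z ≠ (0 : Fin m → F) := ⟨c, hc⟩
  obtain ⟨z₁, hz₁⟩ := exists_one T.hfN hz
  set h := sg T.Q (vt c₁ a₁) (vt z₁ β₁) with hh'
  have hh : h ∈ M := diag_left hk hD hc₁ haβ₁ z₁
  have hx : sg T.Q (vt c b) (vt z β) ∈ M := diag_left hk hD hc hbβ z
  have hm := mul_mem (mul_mem hh hx) (inv_mem hh)
  have hL : T.f c₁ z₁ * T.g a₁ β₁ = 0 := by rw [haβ₁, mul_zero]
  rw [sg_conj (fun z => sg_isometry z) (T.pure c b) (vt_polar_zero (by rw [hbβ, mul_zero])),
    T.sg_vt_mulVec hL, T.sg_vt_mulVec hL, T.rL_vt, T.rL_vt, T.rL_vt, T.rL_vt, hba₁, hββ₁] at hm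
  simp only [map_smul, LinearMap.smul_apply, smul_eq_mul, hcc₁, hz₁, mul_zero, zero_smul, add_zero,
    sub_zero, map_zero, LinearMap.zero_apply, mul_one, mul_neg, neg_mul, mul_inv_cancel₀ T.c₀_ne,
    neg_smul, one_smul, sub_neg_eq_add, map_neg, LinearMap.neg_apply] at hm
  have hp : ∀ t : F, polar T.Q (vt c b) (t • vt z₁ β₁) = 0 := fun t => by
    rw [polar_smul_right, vt_polar_zero (by rw [hba₁, mul_zero]), smul_zero]
  have hzβ : polar T.Q (vt c b) (vt z β) = 0 := vt_polar_zero (by rw [hbβ, mul_zero])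
  refine sg_vt_cancel (by rw [polar_add_right, hzβ, hp, add_zero])
    (vt_polar_zero (by rw [hcc₁, zero_mul])) hm (sg_vt_add hzβ (hp _) hx ?_)
  rw [← vt_smul_left]
  exact diag_left hk hD hc hba₁ _

omit [Fintype F] in
/-- Pure vectors have their whole root group in the group. -/
lemma rootFull_vt (hk : 5 ≤ k) (hD : T.Diag M) {c : Fin m → F} {b : Fin k → F} (hc : c ≠ 0)
    (hb : b ≠ 0) : RootFull T.Q M (vt c b) := by
  classical
  refine ⟨T.pure c b, fun u hu => ?_⟩
  obtain ⟨d, hd⟩ := exists_one T.hgN hb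
  let c₁ : Fin m → F := fun i => T.g b (row u i)
  have hsplit : u = (∑ i, vt (Pi.single i (1 : F)) (row u i - c₁ i • d)) + vt c₁ d := by
    refine row_ext fun l => ?_
    rw [row_add, row_sum, Finset.sum_eq_single l (fun i _ hi => by
      rw [row_vt_single, if_neg (Ne.symm hi)]) (by simp), row_vt_single, if_pos rfl, row_vt,
      sub_add_cancel]
  have hβ : ∀ i, T.g b (row u i - c₁ i • d) = 0 := fun i => by simp [c₁, hd]
  have hsum : polar T.Q (vt c b) (∑ i, vt (Pi.single i (1 : F)) (row u i - c₁ i • d)) = 0 ∧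
      sg T.Q (vt c b) (∑ i, vt (Pi.single i (1 : F)) (row u i - c₁ i • d)) ∈ M := by
    refine Finset.sum_induction _ (fun w => polar T.Q (vt c b) w = 0 ∧ sg T.Q (vt c b) w ∈ M)
      (fun w w' h h' => ⟨by rw [polar_add_right, h.1, h'.1, add_zero], sg_vt_add h.1 h'.1 h.2 h'.2⟩)
      ⟨polar_zero_right _ _, by rw [sg_zero (T.pure c b)]; exact one_mem _⟩ fun i _ =>
      ⟨vt_polar_zero (by rw [hβ, mul_zero]), diag_left hk hD hc (hβ i) _⟩
  rw [hsplit, polar_add_right, hsum.1, zero_add, T.pair, hd, mul_one] at hu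
  have hcc₁ : T.f c c₁ = 0 := (mul_eq_zero.1 hu).resolve_left T.c₀_ne
  rw [hsplit]
  exact sg_vt_add hsum.1 (vt_polar_zero (by rw [hcc₁, zero_mul])) hsum.2
    (diag_right hk hD hc hb hcc₁ d)

/-- The group is all of Ω. -/
theorem omega_le_of_diag (hn : 9 ≤ m * k) (hk : 5 ≤ k) (hMG : M ≤ omegaGL ⇑T.Q) (hD : T.Diag M) :
    omegaGL ⇑T.Q ≤ M := by
  have hm : 0 < m := by
    by_contra h
    rw [show m = 0 by omega, zero_mul] at hn
    omega
  set c : Fin m → F := Pi.single ⟨0, hm⟩ 1 with hc'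
  set b : Fin k → F := Pi.single ⟨0, by omega⟩ 1 with hb'
  have hc : c ≠ 0 := fun h => by simpa [hc'] using congrFun h ⟨0, hm⟩
  have hb : b ≠ 0 := fun h => by simpa [hb'] using congrFun h ⟨0, by omega⟩
  obtain ⟨c', hcc'⟩ := exists_one T.hfN hc
  obtain ⟨b', hbb'⟩ := exists_one T.hgN hb
  refine omega_le_of_pair T.hQ ?_ hMG (rootFull_vt hk hD hc hb)
    (rootFull_vt (c := c') (b := b') hk hD (fun e => by simp [e] at hcc') (fun e => by simp [e] at hbb'))
    ?_
  · rw [Fintype.card_prod, Fintype.card_fin, Fintype.card_fin]; exact hn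
  · rw [T.pair, hcc', hbb', mul_one, mul_one]; exact T.c₀_ne

end OT

end Cfsg.Agent.Lib.Forms.TProd
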