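import Cfsg.Agent.Lib.Forms.TensorProdUnip

/-!
An element outside the product group which stabilises a subspace `M ⊗ U` and conjugates the root
group of `U` into the right factor.
-/

set_option autoImplicit false

namespace Cfsg.Agent.Lib.Forms.TProd

open Matrix Kronecker Cfsg.Agent.Lib.Forms

variable {F : Type*} [Field F] [Finite F] {m k : ℕ} {p : ℕ} [Fact p.Prime] [CharP F p]

/-- The span of the rows. -/
def rowSpan (v : Fin m × Fin k → F) : Submodule F (Fin k → F) :=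
  Submodule.span F (Set.range (row v))

/-- The product group inside the special linear group. -/
def prodGroup (m k : ℕ) (F : Type*) [Field F] : Subgroup (GL (Fin m × Fin k) F) :=
  Cfsg.Geo.kroneckerSubgroup m k F ⊓ Cfsg.Geo.specialLinear (Fin m × Fin k) F

lemma kr_mem {a : GL (Fin m) F} {b : GL (Fin k) F}
    (ha : (a : Matrix (Fin m) (Fin m) F).det = 1) (hb : (b : Matrix (Fin k) (Fin k) F).det = 1) :
    kr a b ∈ prodGroup m k F :=
  ⟨mem_kronecker.2 ⟨a, b, rfl⟩, (mem_specialLinear _).2 (by rw [det_kr, ha, hb, one_pow, one_pow, one_mul])⟩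

lemma kr_tv_mem (a ψ : Fin m → F) (c φ : Fin k → F) :
    kr (tv a ψ) (tv c φ) ∈ prodGroup m k F := kr_mem (tv_det a ψ) (tv_det c φ)

lemma kr_one_tv_mem (c φ : Fin k → F) : kr (1 : GL (Fin m) F) (tv c φ) ∈ prodGroup m k F :=
  kr_mem (by simp) (tv_det c φ)

lemma kr_tv_one_mem (a ψ : Fin m → F) : kr (tv a ψ) (1 : GL (Fin k) F) ∈ prodGroup m k F :=
  kr_mem (tv_det a ψ) (by simp)

lemma rootGroup_le (U : Submodule F (Fin k → F)) : rootGroup U ≤ prodGroup m k F := by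
  rintro _ ⟨T, -, -, rfl⟩
  exact kr_mem (by simp) (uni_det T)

lemma pairGroup_le (a : Fin m → F) (c : Fin k → F) : pairGroup a c ≤ prodGroup m k F := by
  rintro _ ⟨ψ, φ, -, -, rfl⟩
  exact kr_tv_mem _ _ _ _

section

variable {G : Type*} [Group G] [Finite G]

omit [Finite F] [CharP F p] in
lemma exists_maximal_pgroup {P₀ K : Subgroup G} (h : IsPGroup p P₀) (hK : P₀ ≤ K) :
    ∃ P, P₀ ≤ P ∧ P ≤ K ∧ IsPGroup p P ∧
      ∀ Q, P ≤ Q → Q ≤ K → IsPGroup p Q → Q = P := by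
  obtain ⟨P, hle, hP⟩ := Finite.exists_le_maximal
    (p := fun P : Subgroup G => P ≤ K ∧ IsPGroup p P) (show P₀ ≤ K ∧ IsPGroup p P₀ from ⟨hK, h⟩)
  exact ⟨P, hle, hP.1.1, hP.1.2, fun Q hQ hQK hQp => le_antisymm (hP.2 ⟨hQK, hQp⟩ hQ) hQ⟩

omit [Finite F] [CharP F p] in
lemma maximal_conj {P R K : Subgroup G} (hPK : P ≤ K) (hP : IsPGroup p P)
    (hPm : ∀ Q, P ≤ Q → Q ≤ K → IsPGroup p Q → Q = P) (hRK : R ≤ K) (hR : IsPGroup p R)
    (hRm : ∀ Q, R ≤ Q → Q ≤ K → IsPGroup p Q → Q = R) :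
    ∃ h ∈ K, ∀ x ∈ P, h * x * h⁻¹ ∈ R := by
  classical
  have mk : ∀ (P : Subgroup G), P ≤ K → IsPGroup p P →
      (∀ Q, P ≤ Q → Q ≤ K → IsPGroup p Q → Q = P) → ∃ S : Sylow p K, (S : Subgroup K) = P.subgroupOf K := by
    intro P hPK hP hPm
    obtain ⟨S, hS⟩ := (hP.of_equiv (Subgroup.subgroupOfEquivOfLe hPK).symm).exists_le_sylow
    refine ⟨S, le_antisymm (fun x hx => ?_) hS⟩
    have hmap : P ≤ (S : Subgroup K).map K.subtype := fun y hy =>
      ⟨⟨y, hPK hy⟩, hS hy, rfl⟩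
    have := hPm _ hmap (Subgroup.map_subtype_le _) (S.2.map _)
    show (x : G) ∈ P
    rw [← this]
    exact ⟨x, hx, rfl⟩
  obtain ⟨S, hS⟩ := mk P hPK hP hPm
  obtain ⟨T, hT⟩ := mk R hRK hR hRm
  obtain ⟨h, hh⟩ := MulAction.exists_smul_eq K S T
  refine ⟨h, h.2, fun x hx => ?_⟩
  have hxS : (⟨x, hPK hx⟩ : K) ∈ (S : Subgroup K) := by rw [hS]; exact hx
  have : h * ⟨x, hPK hx⟩ * h⁻¹ ∈ ((h • S : Sylow p K) : Subgroup K) :=
    Subgroup.smul_mem_pointwise_smul _ (MulAut.conj h) _ hxS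
  rw [hh, hT] at this
  exact this

omit [Finite F] [CharP F p] in
lemma exists_normalizing {P R : Subgroup G} (hR : IsPGroup p R) (hPR : P < R) :
    ∃ y ∈ R, y ∉ P ∧ ∀ s ∈ P, y * s * y⁻¹ ∈ P ∧ y⁻¹ * s * y ∈ P := by
  haveI : Group.IsNilpotent R := hR.isNilpotent
  have hlt : P.subgroupOf R < ⊤ := lt_top_iff_ne_top.2 fun e =>
    hPR.not_ge (Subgroup.subgroupOf_eq_top.1 e)
  obtain ⟨y, hy, hyP⟩ := SetLike.exists_of_lt (normalizerCondition_of_isNilpotent _ hlt)
  refine ⟨y, y.2, hyP, fun s hs => ⟨?_, ?_⟩⟩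
  · exact ((Subgroup.mem_normalizer_iff.1 hy) ⟨s, hPR.le hs⟩).1 hs
  · have := (Subgroup.mem_normalizer_iff.1 (inv_mem hy)) ⟨s, hPR.le hs⟩
    have h2 := this.1 hs
    simpa [Subgroup.mem_subgroupOf] using h2

end

/-- What is wanted of an element. -/
def GoodElt (y : GL (Fin m × Fin k) F) (U : Submodule F (Fin k → F)) : Prop :=
  (∀ x ∈ W U, (y : Matrix (Fin m × Fin k) (Fin m × Fin k) F) *ᵥ x ∈ W U) ∧
    ∀ f ∈ U, ∀ φ, (∀ u ∈ U, φ ⬝ᵥ u = 0) → ∃ b, y * kr 1 (tv f φ) * y⁻¹ = kr 1 b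

lemma rk_root {f φ : Fin k → F} (hfφ : φ ⬝ᵥ f = 0) :
    rk (kr (1 : GL (Fin m) F) (tv f φ)) ≤ m := by
  refine le_trans (Submodule.finrank_mono (t := LinearMap.range (vtL (m := m) f)) ?_)
    (le_trans (LinearMap.finrank_range_le _) (by simp))
  rintro _ ⟨x, rfl⟩
  refine ⟨fun l => φ ⬝ᵥ row x l, row_ext fun i => ?_⟩
  show row (vt (fun l => φ ⬝ᵥ row x l) f) i = _
  simp only [LinearMap.sub_apply, Matrix.toLin'_apply, LinearMap.id_apply, row_sub, row_vt,
    kr_one_row, tv_mulVec hfφ]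
  abel

lemma goodElt_of_normalizing (hmk : m < k) {v : Fin m × Fin k → F} (hv : v ≠ 0)
    {S : Subgroup (GL (Fin m × Fin k) F)} (hSH : S ≤ prodGroup m k F) (hS : IsPGroup p S)
    (hroot : ∀ f ∈ rowSpan v, ∀ φ, (∀ u ∈ rowSpan v, φ ⬝ᵥ u = 0) → kr 1 (tv f φ) ∈ S)
    (hfix : ∀ s ∈ S, (s : Matrix (Fin m × Fin k) (Fin m × Fin k) F) *ᵥ v = v)
    {y : GL (Fin m × Fin k) F} (hy : ∀ s ∈ S, y * s * y⁻¹ ∈ S ∧ y⁻¹ * s * y ∈ S) :
    GoodElt y (rowSpan v) := by
  obtain ⟨i₀, hi₀⟩ : ∃ i, row v i ≠ 0 := by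
    by_contra h
    push Not at h
    exact hv (row_ext h)
  obtain ⟨j₀, -⟩ := Function.ne_iff.1 hi₀
  have low : ∀ s ∈ S, rk s < k → ∃ b, s = kr (1 : GL (Fin m) F) b := by
    intro s hs hrk
    obtain ⟨a, b, rfl⟩ := mem_kronecker.1 (hSH hs).1
    obtain ⟨e, he⟩ := hS ⟨_, hs⟩
    have he' : kr a b ^ p ^ e = 1 := by simpa [Subtype.ext_iff] using he
    obtain ⟨a', b', hab, ha', -⟩ := split_p i₀ j₀ he'
    refine ⟨b', ?_⟩
    by_cases h1 : a' = 1
    · rw [hab, h1]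
    · exact absurd (le_rk b' ha' h1) (by rw [← hab]; omega)
  have fixU : ∀ b, kr (1 : GL (Fin m) F) b ∈ S → ∀ u ∈ rowSpan v,
      (b : Matrix (Fin k) (Fin k) F) *ᵥ u = u := by
    intro b hb u hu
    induction hu using Submodule.span_induction with
    | mem w hw =>
      obtain ⟨i, rfl⟩ := hw
      rw [← kr_one_row, hfix _ hb]
    | zero => rw [mulVec_zero]
    | add w w' _ _ h h' => rw [mulVec_add, h, h']
    | smul c w _ h => rw [mulVec_smul, h]
  have hU : row v i₀ ∈ rowSpan v := Submodule.subset_span ⟨i₀, rfl⟩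
  have hW : ∀ x, x ∈ W (rowSpan v) ↔ ∀ s ∈ S, rk s < k →
      (s : Matrix (Fin m × Fin k) (Fin m × Fin k) F) *ᵥ x = x := by
    refine fun x => ⟨fun hx s hs hrk => ?_, fun h i => ?_⟩
    · obtain ⟨b, rfl⟩ := low s hs hrk
      exact row_ext fun i => by rw [kr_one_row, fixU b hs _ (hx i)]
    · by_contra hcon
      obtain ⟨φ, hφ1, hφ⟩ := exists_dot_eq_one hcon
      have := congrArg (fun z => row z i)
        (h _ (hroot _ hU φ hφ) (lt_of_le_of_lt (rk_root (hφ _ hU)) hmk))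
      simp only [kr_one_row, tv_mulVec (hφ _ hU), hφ1, one_smul, add_eq_left] at this
      exact hi₀ this
  refine ⟨fun x hx => (hW _).2 fun s hs hrk => ?_, fun f hf φ hφ => low _ (hy _ (hroot f hf φ hφ)).1
    (by rw [rk_conj]; exact lt_of_le_of_lt (rk_root (hφ f hf)) hmk)⟩
  have h1 := (hW x).1 hx _ (hy s hs).2 (by
    have := rk_conj y⁻¹ s
    rw [inv_inv] at this
    rwa [this])
  have := congrArg (fun z => (y : Matrix (Fin m × Fin k) (Fin m × Fin k) F) *ᵥ z) h1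
  simpa only [mul_mulVec', mulVec_inv_mulVec] using this

lemma finrank_rowSpan_le (v : Fin m × Fin k → F) : Module.finrank F (rowSpan v) ≤ m :=
  (finrank_range_le_card (row v)).trans (by simp)

omit [Finite F] [CharP F p] in
/-- The stabiliser of a vector. -/
def fixVec (v : Fin m × Fin k → F) : Subgroup (GL (Fin m × Fin k) F) where
  carrier := {g | (g : Matrix (Fin m × Fin k) (Fin m × Fin k) F) *ᵥ v = v}
  one_mem' := by simp
  mul_mem' := fun {a b} ha hb => by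
    show ((a * b : GL (Fin m × Fin k) F) : Matrix (Fin m × Fin k) (Fin m × Fin k) F) *ᵥ v = v
    rw [mul_mulVec', hb, ha]
  inv_mem' := fun {a} ha => by
    have : (a : Matrix (Fin m × Fin k) (Fin m × Fin k) F) *ᵥ v = v := ha
    show ((a⁻¹ : GL (Fin m × Fin k) F) : Matrix (Fin m × Fin k) (Fin m × Fin k) F) *ᵥ v = v
    conv_lhs => rw [← this]
    rw [inv_mulVec_mulVec]

/-- An overgroup element that does not preserve pure vectors yields a good element. -/
theorem exists_goodElt (hmk : m < k) {M : Subgroup (GL (Fin m × Fin k) F)}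
    (hHM : prodGroup m k F ≤ M) {g : GL (Fin m × Fin k) F} (hg : g ∈ M) {a : Fin m → F}
    {c : Fin k → F} (ha : a ≠ 0) (hc : c ≠ 0)
    (hbad : ∀ w z, (g : Matrix (Fin m × Fin k) (Fin m × Fin k) F) *ᵥ vt a c ≠ vt w z) :
    ∃ y ∈ M, y ∉ prodGroup m k F ∧ ∃ v : Fin m × Fin k → F, v ≠ 0 ∧ GoodElt y (rowSpan v) := by
  classical
  obtain ⟨p, hpc⟩ := CharP.exists F
  haveI : Fact p.Prime := ⟨CharP.char_is_prime F p⟩
  obtain ⟨P, hP₀, hPH, hP, hPm⟩ := exists_maximal_pgroup (pairGroup_isPGroup (p := p) a c)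
    (pairGroup_le a c)
  have hfixP : ∀ s ∈ P, (s : Matrix (Fin m × Fin k) (Fin m × Fin k) F) *ᵥ vt a c = vt a c := by
    haveI : Finite (Fin m × Fin k → F) := inferInstance
    letI : MulAction P (Fin m × Fin k → F) :=
      { smul := fun s x => ((s : GL (Fin m × Fin k) F) : Matrix (Fin m × Fin k) (Fin m × Fin k) F) *ᵥ x
        one_smul := fun x => by
          show ((1 : GL (Fin m × Fin k) F) : Matrix (Fin m × Fin k) (Fin m × Fin k) F) *ᵥ x = x
          simp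
        mul_smul := fun s t x => mul_mulVec' _ _ x }
    have hdvd : p ∣ Nat.card (Fin m × Fin k → F) := by
      obtain ⟨i, -⟩ := Function.ne_iff.1 ha
      obtain ⟨j, -⟩ := Function.ne_iff.1 hc
      haveI : Fintype F := Fintype.ofFinite F
      obtain ⟨n, -, hn⟩ := FiniteField.card F p
      rw [Nat.card_fun, Nat.card_eq_fintype_card, hn, ← pow_mul]
      refine dvd_pow_self p (mul_ne_zero n.pos.ne' ?_)
      rw [Nat.card_prod, Nat.card_fin, Nat.card_fin]
      exact mul_ne_zero i.pos.ne' j.pos.ne'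
    obtain ⟨x, hx, hx0⟩ := hP.exists_fixed_point_of_prime_dvd_card_of_fixed_point
      (Fin m × Fin k → F) hdvd (a := (0 : Fin m × Fin k → F)) (fun s => mulVec_zero _)
    obtain ⟨t, rfl⟩ := pairGroup_fixed ha hc (x := x) fun s hs => hx ⟨s, hP₀ hs⟩
    have ht : t ≠ 0 := fun e => hx0 (by rw [e, zero_smul])
    intro s hs
    have := hx ⟨s, hs⟩
    change (s : Matrix (Fin m × Fin k) (Fin m × Fin k) F) *ᵥ (t • vt a c) = t • vt a c at this
    rw [mulVec_smul] at this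
    exact smul_right_injective _ ht this
  by_cases hcase : ∃ R, P < R ∧ R ≤ M ∧ IsPGroup p R
  · obtain ⟨R, hPR, hRM, hR⟩ := hcase
    obtain ⟨y, hyR, hyP, hy⟩ := exists_normalizing hR hPR
    refine ⟨y, hRM hyR, fun hyH => hyP ?_, vt a c, fun e => (vt_eq_zero e).elim ha hc,
      goodElt_of_normalizing (p := p) hmk (fun e => (vt_eq_zero e).elim ha hc) hPH hP ?_ hfixP hy⟩
    · rw [← hPm (P ⊔ Subgroup.zpowers y) le_sup_left (sup_le hPH (Subgroup.zpowers_le.2 hyH))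
        (hR.to_le (sup_le hPR.le (Subgroup.zpowers_le.2 hyR)))]
      exact le_sup_right (a := P) (Subgroup.mem_zpowers y)
    · intro f hf φ hφ
      have hle : rowSpan (vt a c) ≤ Submodule.span F {c} := Submodule.span_le.2 (by
        rintro _ ⟨i, rfl⟩
        show row (vt a c) i ∈ _
        rw [row_vt]
        exact Submodule.smul_mem _ _ (Submodule.mem_span_singleton_self c))
      obtain ⟨t, rfl⟩ := Submodule.mem_span_singleton.1 (hle hf)
      obtain ⟨i, hi⟩ := Function.ne_iff.1 ha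
      have hφc : φ ⬝ᵥ c = 0 := by
        have := hφ _ (Submodule.subset_span ⟨i, rfl⟩)
        rw [row_vt, dotProduct_smul, smul_eq_mul, mul_eq_zero] at this
        exact this.resolve_left hi
      refine hP₀ ⟨0, t • φ, zero_dotProduct _, by rw [smul_dotProduct, hφc, smul_zero], ?_⟩
      rw [tv_zero_right, tv_smul_center t hφc]
  · push Not at hcase
    set v := (g : Matrix (Fin m × Fin k) (Fin m × Fin k) F) *ᵥ vt a c with hv
    have hv0 : v ≠ 0 := fun e => hbad 0 0 (by rw [e, vt_zero_left])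
    have hrf : rootGroup (m := m) (rowSpan v) ≤ prodGroup m k F ⊓ fixVec v := by
      refine le_inf (rootGroup_le _) ?_
      rintro _ ⟨T, h1, h2, rfl⟩
      refine row_ext fun i => ?_
      rw [kr_one_row, uni_mulVec (fun z => h2 _ (h1 z)), h2 _ (Submodule.subset_span ⟨i, rfl⟩),
        add_zero]
    obtain ⟨S, hS₀, hSH, hS, hSm⟩ := exists_maximal_pgroup (rootGroup_isPGroup (p := p) _) hrf
    obtain ⟨R, hSR, hRM, hR, hRm⟩ := exists_maximal_pgroup hS
      (show S ≤ M ⊓ fixVec v from le_inf ((le_inf_iff.1 hSH).1.trans hHM) (le_inf_iff.1 hSH).2)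
    set R₀ := P.map (MulAut.conj g).toMonoidHom with hR₀
    have hR₀M : R₀ ≤ M ⊓ fixVec v := by
      rintro _ ⟨s, hs, rfl⟩
      refine ⟨M.mul_mem (M.mul_mem hg (hHM (hPH hs))) (M.inv_mem hg), ?_⟩
      show _ *ᵥ v = v
      simp only [MulEquiv.coe_toMonoidHom, MulAut.conj_apply, hv, mul_mulVec', inv_mulVec_mulVec,
        hfixP s hs]
    have hR₀m : ∀ Q, R₀ ≤ Q → Q ≤ M ⊓ fixVec v → IsPGroup p Q → Q = R₀ := by
      intro Q h1 h2 h3
      have hPQ : P ≤ Q.map (MulAut.conj g⁻¹).toMonoidHom := fun s hs =>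
        ⟨g * s * g⁻¹, h1 ⟨s, hs, rfl⟩, by simp [mul_assoc]⟩
      have e : Q.map (MulAut.conj g⁻¹).toMonoidHom = P := by
        refine (eq_of_le_of_not_lt hPQ fun hlt => hcase _ hlt ?_ (h3.map _)).symm
        rintro _ ⟨q, hq, rfl⟩
        simpa using M.mul_mem (M.mul_mem (M.inv_mem hg) (h2 hq).1) hg
      refine le_antisymm (fun q hq => ⟨g⁻¹ * q * g, ?_, by simp [mul_assoc]⟩) h1
      rw [SetLike.mem_coe, ← e]
      exact ⟨q, hq, by simp⟩
    by_cases hRH : R ≤ prodGroup m k F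
    · exfalso
      obtain ⟨h, hh, hconj⟩ := maximal_conj hR₀M (hP.map _) hR₀m hRM hR hRm
      set w := h * g with hw
      have hwv : (w : Matrix (Fin m × Fin k) (Fin m × Fin k) F) *ᵥ vt a c = v := by
        rw [hw, mul_mulVec']
        exact hh.2
      have hPR : ∀ x ∈ P, w * x * w⁻¹ ∈ R := fun x hx => by
        have := hconj _ ⟨x, hx, rfl⟩
        simpa [hw, mul_assoc] using this
      have hRmH : ∀ Q, R ≤ Q → Q ≤ prodGroup m k F → IsPGroup p Q → Q = R := by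
        intro Q h1 h2 h3
        have hwM : w ∈ M := mul_mem hh.1 hg
        have hPQ : P ≤ Q.map (MulAut.conj w⁻¹).toMonoidHom := fun x hx =>
          ⟨w * x * w⁻¹, h1 (hPR x hx), by simp [mul_assoc]⟩
        have e : Q.map (MulAut.conj w⁻¹).toMonoidHom = P := by
          refine (eq_of_le_of_not_lt hPQ fun hlt => hcase _ hlt ?_ (h3.map _)).symm
          rintro _ ⟨q, hq, rfl⟩
          simpa using mul_mem (mul_mem (inv_mem hwM) (hHM (h2 hq))) hwM
        refine le_antisymm (fun q hq => ?_) h1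
        have hqP : w⁻¹ * q * w ∈ P := by
          rw [← e]; exact ⟨q, hq, by simp⟩
        simpa [mul_assoc] using hPR _ hqP
      obtain ⟨h', hh', hconj'⟩ := maximal_conj hPH hP hPm hRH hR hRmH
      obtain ⟨t, ht⟩ := pairGroup_fixed ha hc
        (x := ((h'⁻¹ : GL (Fin m × Fin k) F) : Matrix (Fin m × Fin k) (Fin m × Fin k) F) *ᵥ v)
        fun s hs => by
          have h1 : ((h' * s * h'⁻¹ : GL (Fin m × Fin k) F) :
              Matrix (Fin m × Fin k) (Fin m × Fin k) F) *ᵥ v = v := (hRM (hconj' s (hP₀ hs))).2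
          rw [mul_mulVec', mul_mulVec'] at h1
          have := congrArg (fun z => ((h'⁻¹ : GL (Fin m × Fin k) F) :
            Matrix (Fin m × Fin k) (Fin m × Fin k) F) *ᵥ z) h1
          simpa only [inv_mulVec_mulVec] using this
      obtain ⟨A, B, hAB⟩ := mem_kronecker.1 hh'.1
      refine hbad (t • ((A : Matrix (Fin m) (Fin m) F) *ᵥ a)) ((B : Matrix (Fin k) (Fin k) F) *ᵥ c) ?_
      rw [← mulVec_inv_mulVec h' v, ht, mulVec_smul, hAB, kr_vt, vt_smul_left]
    · have hlt : S < R := lt_of_le_of_ne hSR fun e => hRH (e ▸ (le_inf_iff.1 hSH).1)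
      obtain ⟨y, hyR, hyS, hy⟩ := exists_normalizing hR hlt
      refine ⟨y, (hRM hyR).1, fun hyH => hyS ?_, v, hv0,
        goodElt_of_normalizing (p := p) hmk hv0 (le_inf_iff.1 hSH).1 hS
          (fun f hf φ hφ => hS₀ (rootGroup_tv hf hφ)) (fun s hs => (hSH hs).2) hy⟩
      rw [← hSm (S ⊔ Subgroup.zpowers y) le_sup_left
        (sup_le hSH (Subgroup.zpowers_le.2 ⟨hyH, (hRM hyR).2⟩))
        (hR.to_le (sup_le hlt.le (Subgroup.zpowers_le.2 hyR)))]
      exact le_sup_right (a := S) (Subgroup.mem_zpowers y)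

end Cfsg.Agent.Lib.Forms.TProd
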