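import Cfsg.Agent.Lib.Forms.TensorOrthBasic
import Cfsg.Agent.Lib.Forms.TensorProdSylow

/-!
An overgroup of the product group inside Ω has a new element fixing some `V ⊗ c`.
-/

set_option autoImplicit false

namespace Cfsg.Agent.Lib.Forms.TProd

open Matrix Kronecker QuadraticMap Cfsg.Agent.Lib.Forms Cfsg.Geo

variable {F : Type*} [Field F] [Fintype F] {m k : ℕ}

namespace OT

variable {T : OT F m k} {M : Subgroup (GL (Fin m × Fin k) F)}

variable (T) in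
/-- An element conjugating a root element into the product group lies in it. -/
def NoOut (M : Subgroup (GL (Fin m × Fin k) F)) : Prop :=
  ∀ y ∈ M, ∀ c l, c ≠ 0 → l ≠ 0 → y * T.rt c l * y⁻¹ ∈ T.grp → y ∈ T.grp

omit [Fintype F] in
lemma rt_pow_p {p : ℕ} [Fact p.Prime] [CharP F p] (c : Fin k → F) (l : F) :
    T.rt c l ^ p = 1 := by
  rw [rt, kr_pow, one_pow, sympT, tv_pow (sympT_dot T.hgA c l), ← Nat.cast_smul_eq_nsmul F p,
    CharP.cast_eq_zero F p, zero_smul, tv_zero_right, kr_one]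

omit [Fintype F] in
lemma zpowers_rt_isPGroup {p : ℕ} [Fact p.Prime] [CharP F p] (c : Fin k → F) (l : F) :
    IsPGroup p (Subgroup.zpowers (T.rt c l)) := fun x => by
  obtain ⟨n, hn⟩ := Subgroup.mem_zpowers_iff.1 x.2
  refine ⟨1, Subtype.ext ?_⟩
  rw [pow_one, SubmonoidClass.coe_pow, ← hn, ← zpow_natCast, zpow_comm, zpow_natCast,
    rt_pow_p, _root_.one_zpow, OneMemClass.coe_one]

omit [Fintype F] in
/-- Every vector has a root element fixing it. -/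
lemma exists_root_fix (hmk : m < k) (x : Fin m × Fin k → F) : ∃ c, c ≠ 0 ∧ T.rL c x = 0 := by
  let φ : (Fin k → F) →ₗ[F] (Fin m → F) := LinearMap.pi fun i => T.g (row x i)
  have h1 := LinearMap.finrank_range_add_finrank_ker φ
  have h2 := Submodule.finrank_le (LinearMap.range φ)
  rw [Module.finrank_fin_fun] at h1 h2
  have hne : LinearMap.ker φ ≠ ⊥ := fun e => by rw [e, finrank_bot] at h1; omega
  obtain ⟨c, hc, hc0⟩ := Submodule.exists_mem_ne_zero_of_ne_bot hne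
  exact ⟨c, hc0, funext fun i => by rw [T.rL_row]; exact congrFun (LinearMap.mem_ker.1 hc) i⟩

lemma maximal_in {p : ℕ} [Fact p.Prime] (hno : T.NoOut M)
    {K : Subgroup (GL (Fin m × Fin k) F)} (hKM : K ≤ M) {S : Subgroup (GL (Fin m × Fin k) F)}
    (hSK : S ≤ T.grp ⊓ K) (hSm : ∀ Q, S ≤ Q → Q ≤ T.grp ⊓ K → IsPGroup p Q → Q = S)
    {c : Fin k → F} {l : F} (hc : c ≠ 0) (hl : l ≠ 0) (hr : T.rt c l ∈ S) :
    ∀ Q, S ≤ Q → Q ≤ K → IsPGroup p Q → Q = S := by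
  intro Q h1 h2 h3
  by_contra hne
  obtain ⟨y, hyQ, hyS, hy⟩ := exists_normalizing h3 (lt_of_le_of_ne h1 (Ne.symm hne))
  have hyH : y ∈ T.grp := hno y (hKM (h2 hyQ)) c l hc hl (hSK (hy _ hr).1).1
  refine hyS ?_
  rw [← hSm (S ⊔ Subgroup.zpowers y) le_sup_left
    (sup_le hSK (Subgroup.zpowers_le.2 ⟨hyH, h2 hyQ⟩))
    (h3.to_le (sup_le h1 (Subgroup.zpowers_le.2 hyQ)))]
  exact le_sup_right (a := S) (Subgroup.mem_zpowers y)

/-- Two subgroups with root elements that are conjugate are conjugate by the product group. -/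
lemma fusion {p : ℕ} [Fact p.Prime] [CharP F p] (hn : 7 ≤ m * k) (hno : T.NoOut M)
    {g : GL (Fin m × Fin k) F} (hg : g ∈ M) {K₁ K₂ : Subgroup (GL (Fin m × Fin k) F)}
    (h₁ : K₁ ≤ M) (h₂ : K₂ ≤ M) (hK : ∀ x ∈ K₁, g * x * g⁻¹ ∈ K₂)
    (hK' : ∀ x ∈ K₂, g⁻¹ * x * g ∈ K₁)
    {c₁ c₂ : Fin k → F} (hc₁ : c₁ ≠ 0) (hc₂ : c₂ ≠ 0)
    (hr₁ : T.rt c₁ 1 ∈ K₁) (hr₂ : T.rt c₂ 1 ∈ K₂) : ∃ y ∈ K₂, y * g ∈ T.grp := by
  obtain ⟨S₁, hr₁', hS₁, hS₁p, hS₁m⟩ := exists_maximal_pgroup (K := T.grp ⊓ K₁)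
    (zpowers_rt_isPGroup (T := T) (p := p) c₁ 1)
    (Subgroup.zpowers_le.2 ⟨T.rt_mem_grp hn c₁ 1, hr₁⟩)
  obtain ⟨S₂, hr₂', hS₂, hS₂p, hS₂m⟩ := exists_maximal_pgroup (K := T.grp ⊓ K₂)
    (zpowers_rt_isPGroup (T := T) (p := p) c₂ 1)
    (Subgroup.zpowers_le.2 ⟨T.rt_mem_grp hn c₂ 1, hr₂⟩)
  have m₁ := maximal_in (p := p) hno h₁ hS₁ hS₁m hc₁ one_ne_zero (Subgroup.zpowers_le.1 hr₁')
  have m₂ := maximal_in (p := p) hno h₂ hS₂ hS₂m hc₂ one_ne_zero (Subgroup.zpowers_le.1 hr₂')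
  set f := (MulAut.conj g).toMonoidHom with hf
  have hm₁' : ∀ Q, S₁.map f ≤ Q → Q ≤ K₂ → IsPGroup p Q → Q = S₁.map f := by
    intro Q h1 h2 h3
    have e : Q.map (MulAut.conj g⁻¹).toMonoidHom = S₁ := by
      refine m₁ _ (fun x hx => ⟨g * x * g⁻¹, h1 ⟨x, hx, rfl⟩, by simp [mul_assoc]⟩) ?_ (h3.map _)
      rintro _ ⟨x, hx, rfl⟩
      simpa [mul_assoc] using hK' x (h2 hx)
    refine le_antisymm (fun x hx => ⟨g⁻¹ * x * g, ?_, by simp [hf, mul_assoc]⟩) h1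
    rw [SetLike.mem_coe, ← e]
    exact ⟨x, hx, by simp [mul_assoc]⟩
  obtain ⟨y, hy, hyc⟩ := maximal_conj (P := S₁.map f) (R := S₂) (K := K₂)
    (by rintro _ ⟨x, hx, rfl⟩; exact hK x (hS₁ hx).2) (hS₁p.map f) hm₁' (hS₂.trans inf_le_right)
    hS₂p m₂
  refine ⟨y, hy, hno (y * g) (mul_mem (h₂ hy) hg) c₁ 1 hc₁ one_ne_zero ?_⟩
  have := (hS₂ (hyc _ ⟨T.rt c₁ 1, Subgroup.zpowers_le.1 hr₁', rfl⟩)).1
  simpa [hf, mul_assoc] using this

/-- An overgroup element agrees with the product group on every vector. -/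
lemma exists_agree (hn : 7 ≤ m * k) (hmk : m < k) (hno : T.NoOut M) (hHM : T.grp ≤ M)
    {g : GL (Fin m × Fin k) F} (hg : g ∈ M) (x : Fin m × Fin k → F) :
    ∃ h ∈ T.grp, (h : Matrix (Fin m × Fin k) (Fin m × Fin k) F) *ᵥ x =
      (g : Matrix (Fin m × Fin k) (Fin m × Fin k) F) *ᵥ x := by
  obtain ⟨p, hpc⟩ := CharP.exists F
  haveI : Fact p.Prime := ⟨CharP.char_is_prime F p⟩
  set v := (g : Matrix (Fin m × Fin k) (Fin m × Fin k) F) *ᵥ x with hv'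
  obtain ⟨c₁, hc₁, h₁⟩ := exists_root_fix (T := T) hmk x
  obtain ⟨c₂, hc₂, h₂⟩ := exists_root_fix (T := T) hmk v
  obtain ⟨y, hy, hyg⟩ := fusion (p := p) hn hno hg (K₁ := M ⊓ fixVec x) (K₂ := M ⊓ fixVec v)
    inf_le_left inf_le_left
    (fun s hs => ⟨M.mul_mem (M.mul_mem hg hs.1) (M.inv_mem hg), by
      show _ *ᵥ v = v
      rw [hv', mul_mulVec', mul_mulVec', inv_mulVec_mulVec,
        show (s : Matrix (Fin m × Fin k) (Fin m × Fin k) F) *ᵥ x = x from hs.2]⟩)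
    (fun s hs => ⟨M.mul_mem (M.mul_mem (M.inv_mem hg) hs.1) hg, by
      show _ *ᵥ x = x
      rw [mul_mulVec', mul_mulVec', ← hv',
        show (s : Matrix (Fin m × Fin k) (Fin m × Fin k) F) *ᵥ v = v from hs.2, hv',
        inv_mulVec_mulVec]⟩)
    hc₁ hc₂
    ⟨hHM (T.rt_mem_grp hn c₁ 1), by
      show _ *ᵥ x = x
      rw [T.rt_mulVec, h₁, smul_zero, vt_zero_left, add_zero]⟩
    ⟨hHM (T.rt_mem_grp hn c₂ 1), by
      show _ *ᵥ v = v
      rw [T.rt_mulVec, h₂, smul_zero, vt_zero_left, add_zero]⟩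
  refine ⟨y * g, hyg, ?_⟩
  rw [mul_mulVec']
  exact hy.2

/-- An overgroup has a new element fixing some `V ⊗ c`. -/
theorem exists_locate (hn : 7 ≤ m * k) (hmk : m < k) (hHM : T.grp ≤ M)
    (hMG : M ≤ omegaGL ⇑T.Q) {g : GL (Fin m × Fin k) F} (hg : g ∈ M) (hgH : g ∉ T.grp) :
    ∃ y ∈ M, y ∉ T.grp ∧ ∃ c, c ≠ 0 ∧
      ∀ a, ∃ a', (y : Matrix (Fin m × Fin k) (Fin m × Fin k) F) *ᵥ vt a c = vt a' c := by
  classical
  have hm0 : 0 < m := by
    by_contra h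
    rw [show m = 0 by omega, zero_mul] at hn
    omega
  obtain ⟨p, hpc⟩ := CharP.exists F
  haveI : Fact p.Prime := ⟨CharP.char_is_prime F p⟩
  by_cases hno : T.NoOut M
  · refine absurd ⟨mem_of_pure hmk g fun a z => ?_, hMG hg⟩ hgH
    obtain ⟨h, hh, e⟩ := exists_agree hn hmk hno hHM hg (vt a z)
    obtain ⟨A, B, rfl⟩ := mem_kronecker.1 hh.1
    exact ⟨_, _, by rw [← e, kr_vt]⟩
  simp only [NoOut, not_forall] at hno
  obtain ⟨y, hy, c, l, hc, hl, hconj, hyH⟩ := hno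
  set s := y * T.rt c l * y⁻¹ with hs
  have hrk : rk s ≤ m := by
    rw [hs, rk_conj, rt, sympT]
    exact rk_root (sympT_dot T.hgA c l)
  obtain ⟨A, B, hAB⟩ := mem_kronecker.1 hconj.1
  obtain ⟨j₀, -⟩ := Function.ne_iff.1 hc
  have hpow : s ^ p ^ 1 = 1 := by
    rw [hs, pow_one, conj_pow, rt_pow_p, mul_one, mul_inv_cancel]
  obtain ⟨A', B', hAB', hA', -⟩ := split_p (⟨0, hm0⟩ : Fin m) j₀ (hAB ▸ hpow)
  have hA1 : A' = 1 := by
    by_contra h
    have := le_rk B' hA' h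
    rw [← hAB', ← hAB] at this
    omega
  set E := Matrix.toLin' (s : Matrix (Fin m × Fin k) (Fin m × Fin k) F) - LinearMap.id with hE
  have hsB : ∀ a z, E (vt a z) = vt a ((B' : Matrix (Fin k) (Fin k) F) *ᵥ z - z) := fun a z => by
    rw [hE, LinearMap.sub_apply, LinearMap.id_apply, Matrix.toLin'_apply, hAB, hAB', hA1, kr_vt,
      Units.val_one, one_mulVec]
    funext q
    simp only [vt, Pi.sub_apply]
    ring
  obtain ⟨d, hcd⟩ := exists_one T.hgN hc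
  have hRy : ∀ a, (y : Matrix (Fin m × Fin k) (Fin m × Fin k) F) *ᵥ vt a c ∈ LinearMap.range E := by
    intro a
    refine ⟨(y : Matrix (Fin m × Fin k) (Fin m × Fin k) F) *ᵥ vt (-l⁻¹ • a) d, ?_⟩
    rw [hE, LinearMap.sub_apply, LinearMap.id_apply, Matrix.toLin'_apply, hs, mul_mulVec',
      mul_mulVec', inv_mulVec_mulVec, T.rt_mulVec, mulVec_add, T.rL_vt, T.g_flip d c, hcd,
      smul_smul, smul_smul, add_sub_cancel_left]
    congr 2
    rw [show l * -1 * -l⁻¹ = 1 by field_simp, one_smul]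
  obtain ⟨i₀⟩ : Nonempty (Fin m) := ⟨⟨0, hm0⟩⟩
  obtain ⟨z, hz⟩ : ∃ z, (B' : Matrix (Fin k) (Fin k) F) *ᵥ z - z ≠ 0 := by
    by_contra hcon
    push Not at hcon
    obtain ⟨x, hx⟩ := hRy (Pi.single i₀ 1)
    have h0 : E = 0 := pure_ext fun i z => by rw [hsB, hcon, vt_zero_right]; rfl
    rw [h0, LinearMap.zero_apply] at hx
    have := gl_mulVec_injective y (hx.symm.trans (mulVec_zero _).symm)
    rcases vt_eq_zero this with h | h
    · simpa using congrFun h i₀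
    · exact hc h
  set u := (B' : Matrix (Fin k) (Fin k) F) *ᵥ z - z
  have hle : LinearMap.range (vtL (m := m) u) ≤ LinearMap.range E := by
    rintro _ ⟨a, rfl⟩
    exact ⟨vt a z, hsB a z⟩
  have hd := LinearMap.finrank_range_of_inj (vtL_injective (m := m) hz)
  rw [Module.finrank_fin_fun] at hd
  have hdE : Module.finrank F (LinearMap.range E) = rk s := rfl
  have heq : LinearMap.range (vtL (m := m) u) = LinearMap.range E :=
    Submodule.eq_of_le_of_finrank_le hle (by omega)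
  obtain ⟨B₁, hB₁, e⟩ := exists_iso_move T.hgA T.hgN hz hc
  refine ⟨kr 1 B₁ * y, mul_mem (hHM (T.right_mem_grp hn hB₁)) hy, fun h => hyH ?_, c, hc,
    fun a => ?_⟩
  · have := mul_mem (inv_mem (T.right_mem_grp hn hB₁)) h
    rwa [inv_mul_cancel_left] at this
  · have h := hRy a
    rw [← heq] at h
    obtain ⟨a', ha'⟩ := h
    refine ⟨a', ?_⟩
    rw [mul_mulVec', ← ha']
    show _ *ᵥ vt a' u = _
    rw [kr_vt, Units.val_one, one_mulVec, e]

end OT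

end Cfsg.Agent.Lib.Forms.TProd
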