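import Cfsg.Agent.Lib.Forms.TensorOrthBasic

/-!
The unipotent radical of the stabiliser of `V ⊗ c`.
-/

set_option autoImplicit false

namespace Cfsg.Agent.Lib.Forms.TProd

open Matrix Kronecker QuadraticMap Cfsg.Agent.Lib.Forms Cfsg.Geo

variable {F : Type*} [Field F] {m k : ℕ}

namespace OT

variable {T : OT F m k} {M : Subgroup (GL (Fin m × Fin k) F)} {c d : Fin k → F}

variable (T) in
/-- An isometry in the unipotent radical of the stabiliser of `V ⊗ c`. -/
structure Rad (c : Fin k → F) (r : GL (Fin m × Fin k) F) : Prop where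
  iso : ∀ X, T.Q ((r : Matrix (Fin m × Fin k) (Fin m × Fin k) F) *ᵥ X) = T.Q X
  fix : ∀ a, (r : Matrix (Fin m × Fin k) (Fin m × Fin k) F) *ᵥ vt a c = vt a c
  mid : ∀ X, T.rL c X = 0 → ∃ a, (r : Matrix (Fin m × Fin k) (Fin m × Fin k) F) *ᵥ X = X + vt a c

variable (T) in
/-- The Siegel element of the right factor. -/
noncomputable def sie (c z : Fin k → F) : GL (Fin m × Fin k) F :=
  kr 1 (sympT T.g (c + z) 1 * sympT T.g c (-1) * sympT T.g z (-1))

lemma sie_mem [Fintype F] (hn : 7 ≤ m * k) (c z : Fin k → F) : T.sie c z ∈ T.grp :=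
  T.right_mem_grp hn (mul_mem (mul_mem (sympT_mem T.hgA _ _) (sympT_mem T.hgA _ _))
    (sympT_mem T.hgA _ _))

lemma sie_mulVec {z : Fin k → F} (hz : T.g c z = 0) (X : Fin m × Fin k → F) :
    (T.sie c z : Matrix (Fin m × Fin k) (Fin m × Fin k) F) *ᵥ X =
      X + vt (T.rL z X) c + vt (T.rL c X) z := by
  refine row_ext fun i => ?_
  have hzc : T.g z c = 0 := by rw [T.g_flip, hz, neg_zero]
  rw [sie, kr_one_row, row_add, row_add, row_vt, row_vt, T.rL_row, T.rL_row, mul_mulVec',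
    mul_mulVec', sympT_mulVec T.hgA z, sympT_mulVec T.hgA c, sympT_mulVec T.hgA (c + z)]
  simp only [map_add, LinearMap.add_apply, map_smul, LinearMap.smul_apply, smul_eq_mul,
    T.hgA.self_eq_zero, hz, hzc]
  module

lemma Rad.polar_eq {r : GL (Fin m × Fin k) F} (R : T.Rad c r) (X Y : Fin m × Fin k → F) :
    polar T.Q ((r : Matrix (Fin m × Fin k) (Fin m × Fin k) F) *ᵥ X)
      ((r : Matrix (Fin m × Fin k) (Fin m × Fin k) F) *ᵥ Y) = polar T.Q X Y :=
  polar_of_isometry R.iso X Y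

lemma Rad.rL_eq {r : GL (Fin m × Fin k) F} (R : T.Rad c r) (X : Fin m × Fin k → F) :
    T.rL c ((r : Matrix (Fin m × Fin k) (Fin m × Fin k) F) *ᵥ X) = T.rL c X := by
  refine sub_eq_zero.1 (T.hfN.1 _ fun u => ?_)
  have e := R.polar_eq X (vt u c)
  rw [R.fix, T.polar_vt, T.polar_vt] at e
  rw [map_sub, LinearMap.sub_apply, mul_left_cancel₀ T.c₀_ne e, sub_self]

lemma Rad.mid_eq (hcd : T.g c d = 1) {r : GL (Fin m × Fin k) F} (R : T.Rad c r)
    {X : Fin m × Fin k → F} (hX : T.rL c X = 0) :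
    (r : Matrix (Fin m × Fin k) (Fin m × Fin k) F) *ᵥ X = X +
      vt (T.rL d ((r : Matrix (Fin m × Fin k) (Fin m × Fin k) F) *ᵥ X - X)) c := by
  obtain ⟨a, ha⟩ := R.mid X hX
  rw [ha, add_sub_cancel_left, T.rL_vt, hcd, one_smul]

/-- A radical element trivial on the orthogonal of `V ⊗ c` is central. -/
lemma Rad.central (hcd : T.g c d = 1) {r : GL (Fin m × Fin k) F} (R : T.Rad c r)
    (htriv : ∀ X, T.rL c X = 0 → (r : Matrix (Fin m × Fin k) (Fin m × Fin k) F) *ᵥ X = X) :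
    ∃ Φ : (Fin m → F) →ₗ[F] (Fin m → F), (∀ v, T.f v (Φ v) = 0) ∧
      ∀ X, (r : Matrix (Fin m × Fin k) (Fin m × Fin k) F) *ᵥ X = X + vt (Φ (T.rL c X)) c := by
  set G := Matrix.toLin' (r : Matrix (Fin m × Fin k) (Fin m × Fin k) F) with hG
  have hdc : T.g d c = -1 := by rw [T.g_flip, hcd]
  let Φ : (Fin m → F) →ₗ[F] (Fin m → F) := -(T.rL d ∘ₗ (G - LinearMap.id) ∘ₗ vtL d)
  have hΦ : ∀ X, (r : Matrix (Fin m × Fin k) (Fin m × Fin k) F) *ᵥ X = X + vt (Φ (T.rL c X)) c := by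
    intro X
    set v := T.rL c X
    have h0 : T.rL c (X + vt v d) = 0 := by
      rw [map_add, T.rL_vt, hdc, neg_one_smul, add_neg_cancel]
    have h1 := htriv _ h0
    rw [mulVec_add] at h1
    set D := (r : Matrix (Fin m × Fin k) (Fin m × Fin k) F) *ᵥ vt v d - vt v d with hD
    suffices D = vt (T.rL d D) c by
      have e : (r : Matrix (Fin m × Fin k) (Fin m × Fin k) F) *ᵥ X = X + -D := by
        rw [hD, eq_sub_of_add_eq h1]; abel
      rw [e, this]
      show _ = X + vt (-(T.rL d (G (vt v d) - vt v d))) c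
      rw [hG, Matrix.toLin'_apply, ← hD, ← this]
      congr 1
      conv_lhs => rw [this, ← neg_one_smul F (vt (T.rL d D) c), ← vt_smul_left, neg_one_smul]
    refine T.ext_polar fun a z => ?_
    have key : ∀ Y, T.rL c Y = 0 → polar T.Q D Y = 0 := fun Y hY => by
      have e := R.polar_eq (vt v d) Y
      rw [htriv Y hY] at e
      rw [hD, polar_sub_left, e, sub_self]
    set z₀ := z - T.g c z • d with hz₀d
    have hz₀ : T.g c z₀ = 0 := by simp [z₀, hcd]
    have hz : z = z₀ + T.g c z • d := by simp only [z₀]; module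
    have h2 : polar T.Q D (vt a z₀) = 0 := key _ (by
      rw [T.rL_vt, T.g_flip, hz₀, neg_zero, zero_smul])
    rw [hz, vt_add_right, vt_smul_right, polar_add_right, polar_add_right, polar_smul_right,
      polar_smul_right, h2, T.pair, hz₀, mul_zero, T.polar_vt, T.pair, hcd, mul_one]
  refine ⟨Φ, fun v => ?_, hΦ⟩
  set X := vt (-v) d
  have hXv : T.rL c X = v := by rw [T.rL_vt, hdc, neg_one_smul, neg_neg]
  have e := R.iso X
  rw [hΦ, hXv, QuadraticMap.map_add ⇑T.Q, T.pure, T.pure, T.polar_vt, hXv, zero_add, zero_add] at e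
  exact (mul_eq_zero.1 e).resolve_left T.c₀_ne

variable [Fintype F]

/-- Isometries in the radical lie in Ω. -/
theorem Rad.mem_omega (hn : 7 ≤ m * k) (hcd : T.g c d = 1) {r : GL (Fin m × Fin k) F}
    (R : T.Rad c r) : r ∈ omegaGL ⇑T.Q := by
  classical
  set G := Matrix.toLin' (r : Matrix (Fin m × Fin k) (Fin m × Fin k) F) with hG
  have hGa : ∀ X, G X = (r : Matrix (Fin m × Fin k) (Fin m × Fin k) F) *ᵥ X := fun X =>
    Matrix.toLin'_apply _ _
  let L : (Fin m × Fin k → F) →ₗ[F] (Fin m → F) := T.rL d ∘ₗ (G - LinearMap.id)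
  have hLc : ∀ a, L (vt a c) = 0 := fun a => by
    show T.rL d (G (vt a c) - vt a c) = 0
    rw [hGa, R.fix, sub_self, map_zero]
  have hL : ∀ X, T.rL c X = 0 →
      (r : Matrix (Fin m × Fin k) (Fin m × Fin k) F) *ᵥ X = X + vt (L X) c := fun X hX => by
    show _ = X + vt (T.rL d (G X - X)) c
    rw [hGa, ← R.mid_eq hcd hX]
  have hN : (T.Q.polarBilin).Nondegenerate :=
    ⟨fun x hx => T.hQ x fun y => hx y, fun y hy => T.hQ y fun x => by rw [polar_comm]; exact hy x⟩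
  choose u hu using fun i : Fin m => exists_rep hN (LinearMap.proj i ∘ₗ L)
  have hu' : ∀ i X, polar T.Q X (u i) = L X i := fun i X => hu i X
  let e : Fin m → Fin m → F := fun i => Pi.single i 1
  have hxu : ∀ i, polar T.Q (vt (e i) c) (-u i) = 0 := fun i => by
    rw [polar_neg_right, hu', hLc]; simp
  obtain ⟨s, ⟨hs, hsX⟩⟩ : ∃ s, s ∈ omegaGL ⇑T.Q ∧ ∀ X, T.rL c X = 0 →
      (s : Matrix (Fin m × Fin k) (Fin m × Fin k) F) *ᵥ X = X + vt (∑ i, L X i • e i) c := by
    induction (Finset.univ : Finset (Fin m)) using Finset.induction_on with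
    | empty => exact ⟨1, one_mem _, fun X _ => by simp [vt_zero_left]⟩
    | insert j S hj ih =>
      obtain ⟨s, hs, hsX⟩ := ih
      refine ⟨sg T.Q (vt (e j) c) (-u j) * s,
        mul_mem (sg_mem_omegaGL (T.good hn) (T.pure _ _) (hxu j)) hs, fun X hX => ?_⟩
      rw [mul_mulVec', hsX X hX, sg_mulVec (T.pure _ _) (hxu j), polar_neg_right, hu', map_add,
        hLc, add_zero, T.polar_vt (X + _) (e j) c, map_add, hX, T.rL_self, add_zero, map_zero,
        LinearMap.zero_apply, mul_zero, zero_smul, mul_zero, zero_smul, add_zero, sub_zero,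
        Finset.sum_insert hj, vt_add_left, vt_smul_left]
      module
  have hsum : ∀ X, ∑ i, L X i • e i = L X := fun X => (pi_eq_sum_univ' (L X)).symm
  simp only [hsum] at hsX
  have hsi := mem_isometryGroup_of_omega hs
  have htriv : ∀ X, T.rL c X = 0 →
      ((s⁻¹ * r : GL (Fin m × Fin k) F) : Matrix (Fin m × Fin k) (Fin m × Fin k) F) *ᵥ X = X :=
    fun X hX => by
      refine gl_mulVec_injective s ?_
      beta_reduce
      rw [mul_mulVec', mulVec_inv_mulVec, hL X hX, hsX X hX]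
  have tR : T.Rad c (s⁻¹ * r) := ⟨fun X => by
      rw [mul_mulVec', ← hsi, mulVec_inv_mulVec, R.iso],
    fun a => htriv _ (T.rL_self c a), fun X hX => ⟨0, by rw [htriv X hX, vt_zero_left, add_zero]⟩⟩
  obtain ⟨Φ, hΦ0, hΦ⟩ := tR.central hcd htriv
  obtain ⟨t, ht, htX⟩ := T.central_omega hn c Φ hΦ0
  have : s⁻¹ * r = t := gl_ext fun X => by rw [hΦ, htX]
  have := mul_mem hs (this ▸ ht)
  rwa [mul_inv_cancel_left] at this

/-- An element of the radical outside the product group. -/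
theorem exists_rad (hn : 7 ≤ m * k) (hm : 0 < m) (hk : 3 ≤ k) (hHM : T.grp ≤ M)
    (hMG : M ≤ omegaGL ⇑T.Q) {y : GL (Fin m × Fin k) F} (hy : y ∈ M) (hyH : y ∉ T.grp)
    (hcd : T.g c d = 1)
    (hstab : ∀ a, ∃ a', (y : Matrix (Fin m × Fin k) (Fin m × Fin k) F) *ᵥ vt a c = vt a' c) :
    ∃ r ∈ M, r ∉ T.grp ∧ T.Rad c r := by
  classical
  have hc : c ≠ 0 := fun e => by simp [e] at hcd
  have hdc : T.g d c = -1 := by rw [T.g_flip, hcd]
  obtain ⟨i₀⟩ : Nonempty (Fin m) := ⟨⟨0, hm⟩⟩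
  set a₁ : Fin m → F := Pi.single i₀ 1 with ha₁
  have ha10 : a₁ ≠ 0 := fun h => by simpa [ha₁] using congrFun h i₀
  set G := Matrix.toLin' (y : Matrix (Fin m × Fin k) (Fin m × Fin k) F) with hG
  have hGa : ∀ X, G X = (y : Matrix (Fin m × Fin k) (Fin m × Fin k) F) *ᵥ X := fun X =>
    Matrix.toLin'_apply _ _
  choose φ hφ using hstab
  let A₀ : (Fin m → F) →ₗ[F] (Fin m → F) := T.rL d ∘ₗ G ∘ₗ vtL c
  have hA₀ : ∀ a, (y : Matrix (Fin m × Fin k) (Fin m × Fin k) F) *ᵥ vt a c = vt (A₀ a) c := fun a => by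
    show _ = vt (T.rL d (G (vt a c))) c
    rw [hGa, hφ, T.rL_vt, hcd, one_smul]
  obtain ⟨A, hA⟩ := exists_gl A₀ fun a b e => vtL_injective hc (gl_mulVec_injective y (by
    show _ *ᵥ vt a c = _ *ᵥ vt b c
    rw [hA₀, hA₀, e]))
  have hA' : ∀ a, (y : Matrix (Fin m × Fin k) (Fin m × Fin k) F) *ᵥ vt a c =
      vt ((A : Matrix (Fin m) (Fin m) F) *ᵥ a) c := fun a => by rw [hA₀, hA]
  have hyi := mem_isometryGroup_of_omega (hMG hy)
  have hyp := polar_of_isometry hyi
  have hinv : ∀ a, ((y⁻¹ : GL (Fin m × Fin k) F) : Matrix (Fin m × Fin k) (Fin m × Fin k) F) *ᵥ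
      vt ((A : Matrix (Fin m) (Fin m) F) *ᵥ a) c = vt a c := fun a => by
    rw [← hA', inv_mulVec_mulVec]
  have hperp : ∀ X, T.rL c X = 0 →
      T.rL c ((y : Matrix (Fin m × Fin k) (Fin m × Fin k) F) *ᵥ X) = 0 := by
    intro X hX
    refine T.hfN.1 _ fun u => ?_
    obtain ⟨a, rfl⟩ : ∃ a, (A : Matrix (Fin m) (Fin m) F) *ᵥ a = u := ⟨_, mulVec_inv_mulVec A u⟩
    have e := hyp X (vt a c)
    rw [hA', T.polar_vt, T.polar_vt, hX, map_zero, LinearMap.zero_apply, mul_zero] at e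
    exact (mul_eq_zero.1 e).resolve_left T.c₀_ne
  have hperp' : ∀ X, T.rL c X = 0 →
      T.rL c (((y⁻¹ : GL (Fin m × Fin k) F) : Matrix (Fin m × Fin k) (Fin m × Fin k) F) *ᵥ X) = 0 := by
    intro X hX
    refine T.hfN.1 _ fun u => ?_
    have e := hyp (((y⁻¹ : GL (Fin m × Fin k) F) : Matrix (Fin m × Fin k) (Fin m × Fin k) F) *ᵥ X) (vt u c)
    rw [hA', mulVec_inv_mulVec, T.polar_vt, T.polar_vt, hX, map_zero, LinearMap.zero_apply,
      mul_zero] at e
    exact (mul_eq_zero.1 e.symm).resolve_left T.c₀_ne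
  by_cases hout : ∃ z, T.g c z = 0 ∧ y * T.sie c z * y⁻¹ ∉ T.grp
  · obtain ⟨z, hz, h⟩ := hout
    have hsM := hHM (sie_mem (T := T) hn c z)
    have htM := M.mul_mem (M.mul_mem hy hsM) (M.inv_mem hy)
    refine ⟨_, htM, h, mem_isometryGroup_of_omega (hMG htM), fun a => ?_, fun X hX => ?_⟩
    · obtain ⟨b, rfl⟩ : ∃ b, (A : Matrix (Fin m) (Fin m) F) *ᵥ b = a := ⟨_, mulVec_inv_mulVec A a⟩
      rw [mul_mulVec', mul_mulVec', hinv, sie_mulVec hz, T.rL_self, T.rL_vt, hz, zero_smul,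
        vt_zero_left, vt_zero_left, add_zero, add_zero, hA']
    · refine ⟨(A : Matrix (Fin m) (Fin m) F) *ᵥ
        T.rL z (((y⁻¹ : GL (Fin m × Fin k) F) : Matrix (Fin m × Fin k) (Fin m × Fin k) F) *ᵥ X), ?_⟩
      rw [mul_mulVec', mul_mulVec', sie_mulVec hz, hperp' X hX, vt_zero_left, add_zero, mulVec_add,
        mulVec_inv_mulVec, hA']
  push Not at hout
  obtain ⟨a₁', ha₁'⟩ := exists_one T.hfN ha10
  -- the conjugates stay in the right factor
  have hzeta : ∀ z, T.g c z = 0 → ∃ z', T.g z' c = 0 ∧ ∀ Y, T.rL c Y = 0 →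
      T.rL z' ((y : Matrix (Fin m × Fin k) (Fin m × Fin k) F) *ᵥ Y) =
        (A : Matrix (Fin m) (Fin m) F) *ᵥ T.rL z Y := by
    intro z hz
    have hs := hout z hz
    obtain ⟨A₁, B₁, hAB⟩ := mem_kronecker.1 hs.1
    have hfix : ∀ a, (kr A₁ B₁ : Matrix (Fin m × Fin k) (Fin m × Fin k) F) *ᵥ vt a c = vt a c := by
      intro a
      obtain ⟨b, rfl⟩ : ∃ b, (A : Matrix (Fin m) (Fin m) F) *ᵥ b = a := ⟨_, mulVec_inv_mulVec A a⟩
      rw [← hAB, mul_mulVec', mul_mulVec', hinv, sie_mulVec hz, T.rL_self, T.rL_vt, hz, zero_smul,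
        vt_zero_left, vt_zero_left, add_zero, add_zero, hA']
    set B₁c := (B₁ : Matrix (Fin k) (Fin k) F) *ᵥ c
    obtain ⟨j, hj⟩ := Function.ne_iff.1 hc
    have hpt : ∀ a i, ((A₁ : Matrix (Fin m) (Fin m) F) *ᵥ a) i * B₁c j = a i * c j := fun a i =>
      congrFun (show vt ((A₁ : Matrix (Fin m) (Fin m) F) *ᵥ a) B₁c = vt a c by
        rw [← hfix a, kr_vt]) (i, j)
    have hs0 : B₁c j ≠ 0 := fun e => hj (by
      have := hpt a₁ i₀
      simpa [e, ha₁] using this.symm)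
    set t := c j / B₁c j
    have ht : t ≠ 0 := div_ne_zero hj hs0
    have hA₁ : ∀ a, (A₁ : Matrix (Fin m) (Fin m) F) *ᵥ a = t • a := fun a => funext fun i => by
      simp only [t, Pi.smul_apply, smul_eq_mul]
      field_simp
      linear_combination hpt a i
    set B : GL (Fin k) F := sc k (Units.mk0 t ht) * B₁
    have hsB : y * T.sie c z * y⁻¹ = kr 1 B := by
      rw [hAB, show (1 : GL (Fin m) F) = sc m (Units.mk0 t ht)⁻¹ * A₁ from gl_ext fun v => by
        rw [mul_mulVec', hA₁, sc_val, smul_mulVec, one_mulVec, Units.val_inv_eq_inv_val,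
          Units.val_mk0, inv_smul_smul₀ ht, Units.val_one, one_mulVec], ← kr_mul, kr_sc, one_mul]
    have hBiso : ∀ u v, T.g ((B : Matrix (Fin k) (Fin k) F) *ᵥ u) ((B : Matrix (Fin k) (Fin k) F) *ᵥ v) =
        T.g u v := by
      intro u v
      have := polar_of_isometry (mem_isometryGroup_of_omega hs.2) (vt a₁ u) (vt a₁' v)
      rw [hsB, kr_vt, kr_vt, Units.val_one, one_mulVec, one_mulVec, T.pair, T.pair] at this
      exact mul_left_cancel₀ (mul_ne_zero T.c₀_ne (by rw [ha₁']; exact one_ne_zero)) this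
    have hBc : (B : Matrix (Fin k) (Fin k) F) *ᵥ c = c := by
      refine vtR_injective (F := F) ha10 ?_
      show vt _ _ = vt _ _
      conv_rhs => rw [← hfix]
      rw [← hAB, hsB, kr_vt, Units.val_one, one_mulVec]
    refine ⟨((B⁻¹ : GL (Fin k) F) : Matrix (Fin k) (Fin k) F) *ᵥ d - d, ?_, fun Y hY => ?_⟩
    · have := hBiso (((B⁻¹ : GL (Fin k) F) : Matrix (Fin k) (Fin k) F) *ᵥ d) c
      rw [mulVec_inv_mulVec, hBc] at this
      rw [map_sub, LinearMap.sub_apply, ← this, sub_self]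
    · set X := (y : Matrix (Fin m × Fin k) (Fin m × Fin k) F) *ᵥ Y
      have e := sie_mulVec (T := T) hz Y
      rw [hY, vt_zero_left, add_zero] at e
      have e2 : ((y * T.sie c z * y⁻¹ : GL (Fin m × Fin k) F) :
          Matrix (Fin m × Fin k) (Fin m × Fin k) F) *ᵥ X =
          X + vt ((A : Matrix (Fin m) (Fin m) F) *ᵥ T.rL z Y) c := by
        rw [mul_mulVec', mul_mulVec', inv_mulVec_mulVec, e, mulVec_add, hA']
      rw [hsB] at e2
      funext i
      have e3 := congrArg (fun W => row W i) e2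
      simp only [kr_one_row, row_add, row_vt] at e3
      have e4 : T.g ((B : Matrix (Fin k) (Fin k) F) *ᵥ row X i - row X i) d =
          ((A : Matrix (Fin m) (Fin m) F) *ᵥ T.rL z Y) i := by
        rw [e3, add_sub_cancel_left, map_smul, LinearMap.smul_apply, hcd, smul_eq_mul, mul_one]
      rw [← e4, T.rL_row, map_sub, map_sub, LinearMap.sub_apply]
      have e5 := hBiso (row X i) (((B⁻¹ : GL (Fin k) F) : Matrix (Fin k) (Fin k) F) *ᵥ d)
      rw [mulVec_inv_mulVec] at e5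
      rw [e5]
  choose! ζ hζc hζ using hzeta
  -- only the multiples of `c` are orthogonal to everything orthogonal to `c`
  have span_c : ∀ u, (∀ z, T.g c z = 0 → T.g u z = 0) → u = T.g u d • c := by
    intro u h
    refine sub_eq_zero.1 (T.hgN.1 _ fun z => ?_)
    have := h (z - T.g c z • d) (by simp [hcd])
    simp only [map_sub, map_smul, smul_eq_mul] at this
    simp only [map_sub, map_smul, LinearMap.sub_apply, LinearMap.smul_apply, smul_eq_mul]
    linear_combination this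
  have nd : ∀ u, T.g u c = 0 → (∀ z, T.g c z = 0 → T.g u (ζ z) = 0) → ∃ s : F, u = s • c := by
    intro u hu h
    set X := ((y⁻¹ : GL (Fin m × Fin k) F) : Matrix (Fin m × Fin k) (Fin m × Fin k) F) *ᵥ vt a₁ u
    have hX : T.rL c X = 0 := hperp' _ (by rw [T.rL_vt, hu, zero_smul])
    have hrow : ∀ i, row X i = T.g (row X i) d • c := by
      intro i
      refine span_c _ fun z hz => ?_
      have e := hζ z hz X hX
      rw [mulVec_inv_mulVec, T.rL_vt, h z hz, zero_smul] at e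
      have e0 := gl_mulVec_injective A (e.symm.trans (mulVec_zero _).symm)
      have e1 := congrFun e0 i
      rwa [T.rL_row] at e1
    have hXs : X = vt (T.rL d X) c := row_ext fun i => by rw [row_vt, T.rL_row, ← hrow]
    have e : vt a₁ u = vt ((A : Matrix (Fin m) (Fin m) F) *ᵥ T.rL d X) c := by
      rw [← hA', ← hXs, mulVec_inv_mulVec]
    have := congrArg (fun W => row W i₀) e
    simp only [row_vt, ha₁, Pi.single_eq_same, one_smul] at this
    exact ⟨_, this⟩
  let pr : (Fin k → F) →ₗ[F] (Fin k → F) :=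
    LinearMap.id - (T.g.flip d).smulRight c + (T.g.flip c).smulRight d
  have hpr : ∀ x, pr x = x - T.g x d • c + T.g x c • d := fun x => by simp [pr]
  have hprc : ∀ x, T.g (pr x) c = 0 := fun x => by simp [hpr, T.hgA.self_eq_zero, hdc]
  have hprd : ∀ x, T.g (pr x) d = 0 := fun x => by simp [hpr, T.hgA.self_eq_zero, hcd]
  have hprc' : ∀ x, T.g c (pr x) = 0 := fun x => by rw [T.g_flip, hprc, neg_zero]
  have hprd' : ∀ x, T.g d (pr x) = 0 := fun x => by rw [T.g_flip, hprd, neg_zero]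
  have hA1 : (A : Matrix (Fin m) (Fin m) F) *ᵥ a₁ ≠ 0 := fun h =>
    ha10 (gl_mulVec_injective A (h.trans (mulVec_zero _).symm))
  obtain ⟨i₁, hi₁⟩ := Function.ne_iff.1 hA1
  let B₀ : (Fin k → F) →ₗ[F] (Fin k → F) := pr ∘ₗ
    ((((A : Matrix (Fin m) (Fin m) F) *ᵥ a₁) i₁)⁻¹ • (rowL i₁ ∘ₗ G ∘ₗ vtR a₁ :
      (Fin k → F) →ₗ[F] (Fin k → F)))
  have hB₀v : ∀ x, B₀ x = pr ((((A : Matrix (Fin m) (Fin m) F) *ᵥ a₁) i₁)⁻¹ •
      row ((y : Matrix (Fin m × Fin k) (Fin m × Fin k) F) *ᵥ vt a₁ x) i₁) := fun x => by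
    rw [← hGa]
    rfl
  have hrowc : ∀ v x, T.g x c = 0 → ∀ i,
      T.g (row ((y : Matrix (Fin m × Fin k) (Fin m × Fin k) F) *ᵥ vt v x) i) c = 0 := by
    intro v x hx i
    have := congrFun (hperp (vt v x) (by rw [T.rL_vt, hx, zero_smul])) i
    rwa [T.rL_row] at this
  have hB₀z : ∀ x, T.g x c = 0 → ∀ z, T.g c z = 0 → T.g (B₀ x) (ζ z) = T.g x z := by
    intro x hx z hz
    have hcz : T.g c (ζ z) = 0 := by rw [T.g_flip, hζc z hz, neg_zero]
    have e := congrFun (hζ z hz (vt a₁ x) (by rw [T.rL_vt, hx, zero_smul])) i₁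
    rw [T.rL_row, T.rL_vt, mulVec_smul, Pi.smul_apply, smul_eq_mul] at e
    have hi₁' : ((A : Matrix (Fin m) (Fin m) F) *ᵥ a₁) i₁ ≠ 0 := hi₁
    simp only [hB₀v, hpr, map_add, map_sub, map_smul, LinearMap.add_apply, LinearMap.sub_apply,
      LinearMap.smul_apply, smul_eq_mul, hrowc a₁ x hx i₁, hcz, e]
    field_simp
    ring
  have hmid : ∀ x, T.g x c = 0 → ∀ v, ∃ s, (y : Matrix (Fin m × Fin k) (Fin m × Fin k) F) *ᵥ vt v x =
      vt ((A : Matrix (Fin m) (Fin m) F) *ᵥ v) (B₀ x) + vt s c := by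
    intro x hx v
    set Z := (y : Matrix (Fin m × Fin k) (Fin m × Fin k) F) *ᵥ vt v x with hZ
    have hrow : ∀ i, ∃ s : F, row Z i - ((A : Matrix (Fin m) (Fin m) F) *ᵥ v) i • B₀ x = s • c := by
      intro i
      refine nd _ ?_ fun z hz => ?_
      · rw [map_sub, LinearMap.sub_apply, map_smul, LinearMap.smul_apply, hrowc v x hx i, hB₀v,
          hprc, smul_zero, sub_zero]
      · have e := congrFun (hζ z hz (vt v x) (by rw [T.rL_vt, hx, zero_smul])) i
        rw [T.rL_row, T.rL_vt, mulVec_smul, Pi.smul_apply, smul_eq_mul] at e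
        rw [map_sub, LinearMap.sub_apply, map_smul, LinearMap.smul_apply, hB₀z x hx z hz, hZ, e,
          smul_eq_mul]
        ring
    choose s hs using hrow
    exact ⟨s, row_ext fun i => by rw [row_add, row_vt, row_vt, ← hs]; abel⟩
  have hBc : ∀ x, T.g (B₀ x) c = 0 ∧ T.g c (B₀ x) = 0 ∧ T.g (B₀ x) d = 0 ∧ T.g d (B₀ x) = 0 :=
    fun x => by rw [hB₀v]; exact ⟨hprc _, hprc' _, hprd _, hprd' _⟩
  have hsim : ∀ x x', T.g x c = 0 → T.g x' c = 0 → ∀ v w,
      T.f ((A : Matrix (Fin m) (Fin m) F) *ᵥ v) ((A : Matrix (Fin m) (Fin m) F) *ᵥ w) *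
        T.g (B₀ x) (B₀ x') = T.f v w * T.g x x' := by
    intro x x' hx hx' v w
    obtain ⟨s, hs⟩ := hmid x hx v
    obtain ⟨s', hs'⟩ := hmid x' hx' w
    have e := hyp (vt v x) (vt w x')
    rw [hs, hs', polar_add_left, polar_add_right, polar_add_right, T.pair, T.pair, T.pair, T.pair,
      T.pair, T.hgA.self_eq_zero, (hBc x).1, (hBc x').2.1, mul_zero, mul_zero, mul_zero, add_zero,
      add_zero, add_zero, mul_assoc, mul_assoc] at e
    exact mul_left_cancel₀ T.c₀_ne e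
  obtain ⟨x₀, x₀', hx₀, hx₀', hg₀⟩ : ∃ x x', T.g x c = 0 ∧ T.g x' c = 0 ∧ T.g x x' = 1 := by
    obtain ⟨x, hx, hx0⟩ := exists_perp_not_mem (B := T.g) ![c, d] (⊥ : Submodule F (Fin k → F))
      (by rw [finrank_bot, Fintype.card_fin]; omega)
    have hx1 : T.g x c = 0 := hx 0
    have hx2 : T.g x d = 0 := hx 1
    obtain ⟨x', hx'⟩ := exists_one T.hgN (x := x) (by simpa using hx0)
    exact ⟨x, pr x', hx1, hprc _, by simp [hpr, hx', hx1, hx2]⟩
  set ν := T.g (B₀ x₀) (B₀ x₀') with hν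
  have h00 := hsim x₀ x₀' hx₀ hx₀' a₁ a₁'
  rw [hg₀, ha₁', mul_one, ← hν] at h00
  have hν0 : ν ≠ 0 := fun e => by rw [e, mul_zero] at h00; exact zero_ne_one h00
  have hAsim : ∀ v w, T.f ((A : Matrix (Fin m) (Fin m) F) *ᵥ v) ((A : Matrix (Fin m) (Fin m) F) *ᵥ w) =
      ν⁻¹ * T.f v w := fun v w => by
    have e := hsim x₀ x₀' hx₀ hx₀' v w
    rw [hg₀, mul_one, ← hν] at e
    rw [← e]
    field_simp
  have hBsim : ∀ x x', T.g x c = 0 → T.g x' c = 0 → T.g (B₀ x) (B₀ x') = ν * T.g x x' := by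
    intro x x' hx hx'
    have e := hsim x x' hx hx' a₁ a₁'
    rw [hAsim, ha₁', mul_one, one_mul] at e
    rw [← e, mul_inv_cancel_left₀ hν0]
  let BL : (Fin k → F) →ₗ[F] (Fin k → F) :=
    (T.g.flip d).smulRight c - ν • (T.g.flip c).smulRight d + B₀ ∘ₗ pr
  have hBL : ∀ x, BL x = T.g x d • c - (ν * T.g x c) • d + B₀ (pr x) := fun x => by
    simp [BL, smul_smul]
  have hBLsim : ∀ x x', T.g (BL x) (BL x') = ν * T.g x x' := by
    intro x x'
    have e := hBsim _ _ (hprc x) (hprc x')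
    have e' : T.g (pr x) (pr x') =
        T.g x x' - T.g x' d * T.g x c + T.g x' c * T.g x d := by
      conv_lhs => rw [hpr x]
      simp only [map_add, map_sub, map_smul, LinearMap.add_apply, LinearMap.sub_apply,
        LinearMap.smul_apply, smul_eq_mul, hprc', hprd', mul_zero, sub_zero, add_zero]
      rw [hpr x']
      simp only [map_add, map_sub, map_smul, smul_eq_mul]
    simp only [hBL, map_add, map_sub, map_smul, LinearMap.add_apply, LinearMap.sub_apply,
      LinearMap.smul_apply, smul_eq_mul, T.hgA.self_eq_zero, hcd, hdc, hBc, e, e']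
    ring
  obtain ⟨B, hB⟩ := exists_gl BL fun x x' e => sub_eq_zero.1 (T.hgN.1 _ fun w => by
    have := hBLsim (x - x') w
    rw [map_sub BL, e, sub_self, map_zero, LinearMap.zero_apply] at this
    exact (mul_eq_zero.1 this.symm).resolve_left hν0)
  have hni := T.kr_isometry (a := A) (b := B) (inv_mul_cancel₀ hν0) hAsim fun z w => by
    rw [hB, hB, hBLsim]
  set r := (kr A B)⁻¹ * y with hr
  have hpc : pr c = 0 := by simp [hpr, hcd, T.hgA.self_eq_zero]
  have hBcc : (B : Matrix (Fin k) (Fin k) F) *ᵥ c = c := by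
    rw [hB, hBL, hcd, T.hgA.self_eq_zero, one_smul, mul_zero, zero_smul, sub_zero, hpc, map_zero,
      add_zero]
  have R : T.Rad c r := by
    refine ⟨fun X => ?_, fun a => ?_, fun X hX => ?_⟩
    · rw [hr, mul_mulVec', ← hni, mulVec_inv_mulVec, hyi]
    · rw [hr, mul_mulVec', hA',
        show vt ((A : Matrix (Fin m) (Fin m) F) *ᵥ a) c = _ *ᵥ vt a c from by rw [kr_vt, hBcc],
        inv_mulVec_mulVec]
    · have hone : ∀ v u, T.g u c = 0 → ∃ a,
          (r : Matrix (Fin m × Fin k) (Fin m × Fin k) F) *ᵥ vt v u = vt v u + vt a c := by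
        intro v u hu
        obtain ⟨s, hs⟩ := hmid (pr u) (hprc u) v
        refine ⟨((A⁻¹ : GL (Fin m) F) : Matrix (Fin m) (Fin m) F) *ᵥ s, ?_⟩
        have hu' : u = T.g u d • c + pr u := by rw [hpr, hu, zero_smul]; abel
        refine gl_mulVec_injective (kr A B) ?_
        beta_reduce
        rw [hr, mul_mulVec', mulVec_inv_mulVec]
        conv_lhs => rw [hu', vt_add_right, vt_smul_right, mulVec_add, mulVec_smul, hA', hs]
        rw [mulVec_add, kr_vt, kr_vt, hBcc, mulVec_inv_mulVec, hB, hBL, hu, mul_zero, zero_smul,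
          sub_zero, vt_add_right, vt_smul_right, add_assoc]
      have hrow : ∀ i, T.g (row X i) c = 0 := fun i => by
        have := congrFun hX i
        rwa [T.rL_row] at this
      choose a ha using fun i => hone (Pi.single i 1) (row X i) (hrow i)
      refine ⟨∑ i, a i, ?_⟩
      conv_lhs => rw [sum_rows X, mulVec_sum]
      simp only [ha]
      rw [Finset.sum_add_distrib, ← sum_rows]
      congr 1
      exact (map_sum (vtL (m := m) c) a Finset.univ).symm
  have hnΩ : kr A B ∈ omegaGL ⇑T.Q := by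
    have := mul_mem (hMG hy) (inv_mem (R.mem_omega hn hcd))
    rwa [hr, _root_.mul_inv_rev, inv_inv, mul_inv_cancel_left] at this
  have hnH : kr A B ∈ T.grp := ⟨mem_kronecker.2 ⟨A, B, rfl⟩, hnΩ⟩
  exact ⟨r, M.mul_mem (M.inv_mem (hHM hnH)) hy, fun h => hyH (by
    have := mul_mem hnH h
    rwa [hr, mul_inv_cancel_left] at this), R⟩

end OT

end Cfsg.Agent.Lib.Forms.TProd
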