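import Cfsg.Agent.Lib.Forms.TensorProdRed

/-!
A product map moving everything into a small space is scalar modulo a projection.
-/

set_option autoImplicit false

namespace Cfsg.Agent.Lib.Forms.TProd

open Matrix Kronecker Cfsg.Agent.Lib.Forms

variable {F : Type*} [Field F] {m k : ℕ}

/-- An operator applied to all rows. -/
def mapRows (P : (Fin k → F) →ₗ[F] (Fin k → F)) :
    (Fin m × Fin k → F) →ₗ[F] (Fin m × Fin k → F) where
  toFun x p := P (row x p.1) p.2
  map_add' x y := funext fun p => by simp [row_add]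
  map_smul' c x := funext fun p => by simp [row_smul]

lemma row_mapRows (P : (Fin k → F) →ₗ[F] (Fin k → F)) (x : Fin m × Fin k → F) (i : Fin m) :
    row (mapRows P x) i = P (row x i) := rfl

lemma mapRows_vt (P : (Fin k → F) →ₗ[F] (Fin k → F)) (v : Fin m → F) (z : Fin k → F) :
    mapRows P (vt v z) = vt v (P z) :=
  row_ext fun i => by rw [row_mapRows, row_vt, row_vt, map_smul]

/-- A pure vector. -/
def IsPure (x : Fin m × Fin k → F) : Prop := ∃ v z, x = vt v z

lemma exists_indep (hm : 0 < m) (A : (Fin m → F) →ₗ[F] (Fin m → F))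
    (hA : ¬ ∃ a : F, ∀ v, A v = a • v) :
    ∃ b : Fin m → F, b ≠ 0 ∧ A b ∉ Submodule.span F {b} := by
  by_contra hcon
  push Not at hcon
  have hev : ∀ b : Fin m → F, b ≠ 0 → ∃ a : F, a • b = A b := fun b hb =>
    Submodule.mem_span_singleton.1 (hcon b hb)
  let e : Fin m → Fin m → F := fun i => Pi.single i 1
  have he : ∀ i, e i ≠ 0 := fun i h => by simpa [e] using congrFun h i
  choose a ha using fun i => hev (e i) (he i)
  have heq : ∀ i j, a i = a j := by
    intro i j
    rcases eq_or_ne i j with rfl | hij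
    · rfl
    obtain ⟨c, hc⟩ := hev (e i + e j) (fun h => by
      simpa [e, hij, Pi.single_apply] using congrFun h i)
    rw [map_add, ← ha i, ← ha j, smul_add] at hc
    have h1 := congrFun hc i
    have h2 := congrFun hc j
    simp [e, Pi.single_apply, hij, hij.symm] at h1 h2
    rw [← h1, ← h2]
  refine hA ⟨a ⟨0, hm⟩, fun v => LinearMap.congr_fun (f := A) (g := a ⟨0, hm⟩ • LinearMap.id) ?_ v⟩
  refine LinearMap.pi_ext' fun i => LinearMap.ext_ring ?_
  show A (e i) = a ⟨0, hm⟩ • e i
  rw [← ha i, heq i ⟨0, hm⟩]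

/-- The rigidity used for the stabiliser of an isotropic plane. -/
theorem scalar_of_small (hm : 4 ≤ m) {P B : (Fin k → F) →ₗ[F] (Fin k → F)}
    {A : (Fin m → F) →ₗ[F] (Fin m → F)} (hP : ∀ y, P (P y) = P y) (hB : Function.Surjective B)
    (hd : Module.finrank F (LinearMap.range P) + 1 = m)
    {I : Submodule F (Fin m × Fin k → F)}
    (hI : ∀ b y, vt (A b) (P (B y)) - vt b (P y) ∈ I)
    (hsmall : (Module.finrank F I ≤ m ∧ ∀ w ∈ I, IsPure w → w = 0) ∨
      (Module.finrank F I + 1 ≤ m ∧ ∃ w ∈ I, ¬ IsPure w)) :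
    ∃ a : F, (∀ v, A v = a • v) ∧ ∀ y, a • P (B y) = P y := by
  classical
  have hPB : LinearMap.range (P ∘ₗ B) = LinearMap.range P := by
    rw [LinearMap.range_comp, LinearMap.range_eq_top.2 hB, Submodule.map_top]
  set C := LinearMap.range P with hC
  have hCfix : ∀ y ∈ C, P y = y := by rintro _ ⟨y, rfl⟩; exact hP y
  by_cases hA : ∃ a : F, ∀ v, A v = a • v
  · obtain ⟨a, ha⟩ := hA
    refine ⟨a, ha, fun y => ?_⟩
    by_contra hne
    set z := a • P (B y) - P y
    have hz : z ≠ 0 := sub_ne_zero.2 hne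
    have hmem : ∀ b, vt b z ∈ I := fun b => by
      have := hI b y
      convert this using 1
      funext p
      simp only [vt, z, ha, Pi.sub_apply, Pi.smul_apply, smul_eq_mul]
      ring
    rcases hsmall with ⟨-, h2⟩ | ⟨h1, -⟩
    · have := h2 _ (hmem (Pi.single ⟨0, by omega⟩ 1)) ⟨_, _, rfl⟩
      rcases vt_eq_zero this with h | h
      · simpa using congrFun h ⟨0, by omega⟩
      · exact hz h
    · have h3 := LinearMap.finrank_range_of_inj (vtL_injective (m := m) hz)
      rw [Module.finrank_fin_fun] at h3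
      have h4 := Submodule.finrank_mono
        (show LinearMap.range (vtL (m := m) z) ≤ I by rintro _ ⟨b, rfl⟩; exact hmem b)
      omega
  exfalso
  obtain ⟨b, hb0, hAb⟩ := exists_indep (by omega) A hA
  let Φ : (Fin m → F) → ((Fin k → F) →ₗ[F] (Fin m × Fin k → F)) := fun v =>
    vtR (A v) ∘ₗ (P ∘ₗ B) - vtR v ∘ₗ P
  have hΦ : ∀ v y, Φ v y = vt (A v) (P (B y)) - vt v (P y) := fun v y => rfl
  have hinj : ∀ y ∈ C, Φ b y = 0 → y = 0 := by
    intro y hy h0
    obtain ⟨ψ, hψ1, hψ⟩ := exists_dot_eq_one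
      (show b ∉ Submodule.span F {A b} from fun hmem => by
        obtain ⟨t, ht⟩ := Submodule.mem_span_singleton.1 hmem
        rcases eq_or_ne t 0 with rfl | ht0
        · exact hb0 (by rw [← ht, zero_smul])
        · exact hAb (Submodule.mem_span_singleton.2 ⟨t⁻¹, by
            conv_lhs => rw [← ht]
            rw [inv_smul_smul₀ ht0]⟩))
    have := congrArg (coR (k := k) ψ) h0
    rw [hΦ, map_sub, coR_vt, coR_vt, hψ _ (Submodule.mem_span_singleton_self _), hψ1, zero_smul,
      one_smul, zero_sub, map_zero, neg_eq_zero, hCfix y hy] at this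
    exact this
  -- the space of one slice
  set L := C.map (Φ b) with hL
  have hLI : L ≤ I := by rintro _ ⟨y, -, rfl⟩; rw [hΦ]; exact hI b y
  have hLd : Module.finrank F L + 1 = m := by
    have e := LinearMap.finrank_range_of_inj (f := Φ b ∘ₗ C.subtype) (by
      rw [injective_iff_map_eq_zero]
      exact fun y h0 => Subtype.ext (hinj _ y.2 h0))
    rw [LinearMap.range_comp, Submodule.range_subtype] at e
    rw [hL, e, hd]
  obtain ⟨b', hb'⟩ : ∃ b', b' ∉ Submodule.span F ({b, A b} : Set (Fin m → F)) := by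
    by_contra hcon
    push Not at hcon
    have h1 : Module.finrank F (Submodule.span F ({b, A b} : Set (Fin m → F))) ≤ 2 :=
      le_trans (finrank_span_le_card _) (by
        simp only [Set.toFinset_insert, Set.toFinset_singleton]
        exact Finset.card_le_two)
    rw [show Submodule.span F ({b, A b} : Set (Fin m → F)) = ⊤ from eq_top_iff.2 fun x _ => hcon x,
      finrank_top, Module.finrank_fin_fun] at h1
    omega
  -- a functional vanishing on the slice
  set U := Submodule.span F ({b, A b} : Set (Fin m → F)) with hU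
  have kill : ∀ ξ : Fin m → F, (∀ u ∈ U, ξ ⬝ᵥ u = 0) → L ≤ LinearMap.ker (coR ξ) := by
    rintro ξ hξ _ ⟨y, -, rfl⟩
    rw [LinearMap.mem_ker, hΦ, map_sub, coR_vt, coR_vt, hξ _ (Submodule.subset_span (by simp)),
      hξ _ (Submodule.subset_span (by simp)), zero_smul, zero_smul, sub_zero]
  have img : ∀ ξ : Fin m → F, (∀ u ∈ U, ξ ⬝ᵥ u = 0) →
      Module.finrank F (I.map (coR (k := k) ξ)) + Module.finrank F L ≤ Module.finrank F I := by
    intro ξ hξ
    have e := LinearMap.finrank_range_add_finrank_ker ((coR (k := k) ξ) ∘ₗ I.subtype)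
    rw [LinearMap.range_comp, Submodule.range_subtype] at e
    have : Module.finrank F L ≤ Module.finrank F (LinearMap.ker ((coR (k := k) ξ) ∘ₗ I.subtype)) := by
      let f : L →ₗ[F] LinearMap.ker ((coR (k := k) ξ) ∘ₗ I.subtype) :=
        LinearMap.codRestrict _ (Submodule.inclusion hLI) fun x => kill ξ hξ x.2
      refine LinearMap.finrank_le_finrank_of_injective (f := f) fun x y hxy => Subtype.ext ?_
      exact congrArg (fun z => z.1.1) hxy
    omega
  by_cases hAb' : A b' ∈ U ⊔ Submodule.span F {b'}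
  swap
  · obtain ⟨ξ, hξ1, hξ⟩ := exists_dot_eq_one hAb'
    have hsub : LinearMap.range (P ∘ₗ B) ≤ I.map (coR (k := k) ξ) := by
      rintro _ ⟨y, rfl⟩
      refine ⟨_, hI b' y, ?_⟩
      rw [map_sub, coR_vt, coR_vt, hξ1,
        hξ _ (Submodule.mem_sup_right (Submodule.mem_span_singleton_self b')), one_smul, zero_smul,
        sub_zero]
      rfl
    have h1 := Submodule.finrank_mono hsub
    have h2 := img ξ fun u hu => hξ u (Submodule.mem_sup_left hu)
    rw [hPB] at h1
    rcases hsmall with ⟨h3, -⟩ | ⟨h3, -⟩ <;> omega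
  obtain ⟨u, hu, w, hw, hsum⟩ := Submodule.mem_sup.1 hAb'
  obtain ⟨μ, rfl⟩ := Submodule.mem_span_singleton.1 hw
  obtain ⟨ξ, hξ1, hξ⟩ := exists_dot_eq_one hb'
  let D : (Fin k → F) →ₗ[F] (Fin k → F) := μ • (P ∘ₗ B) - P
  have hD : ∀ y, D y ∈ I.map (coR (k := k) ξ) := fun y => by
    refine ⟨_, hI b' y, ?_⟩
    rw [map_sub, coR_vt, coR_vt, hξ1, ← hsum, dotProduct_add, hξ u hu, dotProduct_smul, hξ1,
      smul_eq_mul, mul_one, zero_add, one_smul]
    rfl
  have h2 := img ξ hξ
  -- the kernel on the slice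
  have pureker : ∀ y ∈ C, D y = 0 → IsPure (Φ b y) := by
    intro y hy hy0
    rw [LinearMap.sub_apply, LinearMap.smul_apply, LinearMap.comp_apply, sub_eq_zero] at hy0
    rcases eq_or_ne μ 0 with rfl | hμ
    · rw [zero_smul] at hy0
      exact ⟨A b, P (B y), by rw [hΦ, ← hy0, vt_zero_right, sub_zero]⟩
    refine ⟨μ⁻¹ • A b - b, P y, ?_⟩
    have e : P (B y) = μ⁻¹ • P y := by rw [← hy0, inv_smul_smul₀ hμ]
    rw [hΦ, e]
    funext p
    simp only [vt, Pi.sub_apply, Pi.smul_apply, smul_eq_mul]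
    ring
  have hker : Module.finrank F C ≤
      Module.finrank F (LinearMap.ker (D ∘ₗ C.subtype)) + Module.finrank F (I.map (coR (k := k) ξ)) := by
    have e := LinearMap.finrank_range_add_finrank_ker (D ∘ₗ C.subtype)
    have : Module.finrank F (LinearMap.range (D ∘ₗ C.subtype)) ≤
        Module.finrank F (I.map (coR (k := k) ξ)) :=
      Submodule.finrank_mono (by rintro _ ⟨y, rfl⟩; exact hD y)
    omega
  rcases hsmall with ⟨hIm, hpure⟩ | ⟨hIm, w, hw, hwp⟩
  · obtain ⟨y, hy, hy0⟩ := Submodule.exists_mem_ne_zero_of_ne_bot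
      (show LinearMap.ker (D ∘ₗ C.subtype) ≠ ⊥ from fun e => by
        rw [e, finrank_bot] at hker; omega)
    refine hy0 (Subtype.ext (hinj _ y.2 (hpure _ (hLI ⟨y, y.2, rfl⟩) (pureker _ y.2 ?_))))
    exact hy
  · have hLeq : L = I := Submodule.eq_of_le_of_finrank_le hLI (by omega)
    rw [← hLeq] at hw
    obtain ⟨y, hy, rfl⟩ := hw
    refine hwp (pureker y hy ?_)
    have h0 : I.map (coR (k := k) ξ) = ⊥ := Submodule.finrank_eq_zero.1 (by omega)
    have := hD y
    rw [h0] at this
    exact this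

end Cfsg.Agent.Lib.Forms.TProd
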