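import Cfsg.Agent.Lib.Forms.TensorOrthPair
import Cfsg.Agent.Lib.Forms.TensorOrthRad
import Cfsg.Agent.Lib.Forms.TensorUnitScalar

/-!
From an element of the radical outside the product group to a long root element on two pure vectors.
-/

set_option autoImplicit false

namespace Cfsg.Agent.Lib.Forms.TProd

open Matrix Kronecker QuadraticMap Cfsg.Agent.Lib.Forms Cfsg.Geo

variable {F : Type*} [Field F] [Fintype F] {m k : ℕ}

namespace OT

variable {T : OT F m k} {M : Subgroup (GL (Fin m × Fin k) F)} {c d : Fin k → F}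

variable (T M) in
/-- Central elements of the radical in the group. -/
def Cn (c : Fin k → F) (Φ : (Fin m → F) →ₗ[F] (Fin m → F)) : Prop :=
  ∃ s ∈ M, ∀ X, (s : Matrix (Fin m × Fin k) (Fin m × Fin k) F) *ᵥ X = X + vt (Φ (T.rL c X)) c

variable (T M) in
/-- Elements of the group moving the orthogonal of `V ⊗ c` along one vector of the right space. -/
def Mid (c e : Fin k → F) (S : (Fin m → F) →ₗ[F] (Fin m → F)) : Prop :=
  ∃ s ∈ M, ∀ X, T.rL c X = 0 →
    (s : Matrix (Fin m × Fin k) (Fin m × Fin k) F) *ᵥ X = X + vt (S (T.rL e X)) c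

omit [Fintype F] in
lemma rL_left (z : Fin k → F) (a : GL (Fin m) F) (X : Fin m × Fin k → F) :
    T.rL z ((kr a (1 : GL (Fin k) F) : Matrix (Fin m × Fin k) (Fin m × Fin k) F) *ᵥ X) =
      (a : Matrix (Fin m) (Fin m) F) *ᵥ T.rL z X := by
  have h := LinearMap.congr_fun (pure_ext
    (N := T.rL z ∘ₗ Matrix.toLin' (kr a (1 : GL (Fin k) F) : Matrix (Fin m × Fin k) (Fin m × Fin k) F))
    (N' := Matrix.toLin' (a : Matrix (Fin m) (Fin m) F) ∘ₗ T.rL z) fun i y => by
      simp only [LinearMap.comp_apply, Matrix.toLin'_apply, kr_vt, Units.val_one, one_mulVec, T.rL_vt,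
        mulVec_smul]) X
  simpa only [LinearMap.comp_apply, Matrix.toLin'_apply] using h

omit [Fintype F] in
lemma rL_right {b : GL (Fin k) F} (hb : b ∈ isoGroup T.g) (z : Fin k → F)
    (X : Fin m × Fin k → F) :
    T.rL ((b : Matrix (Fin k) (Fin k) F) *ᵥ z)
      ((kr (1 : GL (Fin m) F) b : Matrix (Fin m × Fin k) (Fin m × Fin k) F) *ᵥ X) = T.rL z X := by
  funext i
  rw [T.rL_row, T.rL_row, kr_one_row, mem_isoGroup.1 hb]

omit [Fintype F] in
lemma Mid.fix {e : Fin k → F} {S : (Fin m → F) →ₗ[F] (Fin m → F)} (hec : T.g c e = 0)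
    {s : GL (Fin m × Fin k) F}
    (hs : ∀ X, T.rL c X = 0 →
      (s : Matrix (Fin m × Fin k) (Fin m × Fin k) F) *ᵥ X = X + vt (S (T.rL e X)) c) (a : Fin m → F) :
    (s : Matrix (Fin m × Fin k) (Fin m × Fin k) F) *ᵥ vt a c = vt a c := by
  rw [hs _ (T.rL_self c a), T.rL_vt, hec, zero_smul, map_zero, vt_zero_left, add_zero]

omit [Fintype F] in
lemma Mid.rad {e : Fin k → F} {S : (Fin m → F) →ₗ[F] (Fin m → F)} (hec : T.g c e = 0)
    {s : GL (Fin m × Fin k) F} (hiso : ∀ X, T.Q ((s : Matrix (Fin m × Fin k) (Fin m × Fin k) F) *ᵥ X) = T.Q X)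
    (hs : ∀ X, T.rL c X = 0 →
      (s : Matrix (Fin m × Fin k) (Fin m × Fin k) F) *ᵥ X = X + vt (S (T.rL e X)) c) : T.Rad c s :=
  ⟨hiso, Mid.fix hec hs, fun X hX => ⟨_, hs X hX⟩⟩

omit [Fintype F] in
lemma Mid.sub {e : Fin k → F} (hec : T.g c e = 0) {S S' : (Fin m → F) →ₗ[F] (Fin m → F)}
    (h : T.Mid M c e S) (h' : T.Mid M c e S') : T.Mid M c e (S - S') := by
  obtain ⟨s, hs, hsX⟩ := h
  obtain ⟨s', hs', hsX'⟩ := h'
  refine ⟨s * s'⁻¹, mul_mem hs (inv_mem hs'), fun X hX => ?_⟩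
  set Y := X - vt (S' (T.rL e X)) c with hY
  have hYc : T.rL c Y = 0 := by rw [hY, map_sub, hX, T.rL_self, sub_zero]
  have hYe : T.rL e Y = T.rL e X := by rw [hY, map_sub, T.rL_vt, hec, zero_smul, sub_zero]
  have e1 : ((s'⁻¹ : GL (Fin m × Fin k) F) : Matrix (Fin m × Fin k) (Fin m × Fin k) F) *ᵥ X = Y := by
    refine gl_mulVec_injective s' ?_
    beta_reduce
    rw [mulVec_inv_mulVec, hsX' Y hYc, hYe, hY, sub_add_cancel]
  rw [mul_mulVec', e1, hsX Y hYc, hYe, hY, LinearMap.sub_apply, sub_eq_add_neg (S _), vt_add_left,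
    ← neg_one_smul F (S' (T.rL e X)), vt_smul_left]
  module

/-- Left transvections act on the left factor. -/
lemma Mid.left (hn : 7 ≤ m * k) (hHM : T.grp ≤ M) {e : Fin k → F}
    {S : (Fin m → F) →ₗ[F] (Fin m → F)} (h : T.Mid M c e S) {a : GL (Fin m) F}
    (ha : a ∈ isoGroup T.f) :
    T.Mid M c e (Matrix.toLin' (a : Matrix (Fin m) (Fin m) F) ∘ₗ S ∘ₗ
      Matrix.toLin' ((a⁻¹ : GL (Fin m) F) : Matrix (Fin m) (Fin m) F)) := by
  obtain ⟨s, hs, hsX⟩ := h
  refine ⟨_, conj_mem hHM hs (T.left_mem_grp hn ha), fun X hX => ?_⟩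
  rw [mul_mulVec', mul_mulVec', kr_inv, inv_one, hsX _ (by rw [rL_left, hX, mulVec_zero]), rL_left,
    mulVec_add, ← mul_mulVec' (kr a 1), kr_mul, mul_inv_cancel, one_mul, kr_one, Units.val_one,
    one_mulVec, kr_vt, Units.val_one, one_mulVec]
  rfl

/-- Scaling through the right factor. -/
lemma Mid.smul (hn : 7 ≤ m * k) (hHM : T.grp ≤ M) (hcd : T.g c d = 1) {e : Fin k → F}
    (hec : T.g e c = 0) (hed : T.g e d = 0) (he : e ≠ 0) {S : (Fin m → F) →ₗ[F] (Fin m → F)}
    (h : T.Mid M c e S) {t : F} (ht : t ≠ 0) : T.Mid M c e (t • S) := by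
  obtain ⟨s, hs, hsX⟩ := h
  obtain ⟨b, hb, hbc, -, hbe⟩ := exists_iso_fix T.hgA T.hgN hcd (e := t • e) (e' := e)
    (by simp [hec]) (by simp [hed]) hec hed (smul_ne_zero ht he) he
  refine ⟨_, conj_mem hHM hs (T.right_mem_grp hn (inv_mem hb)), fun X hX => ?_⟩
  have hbc' : ((b⁻¹ : GL (Fin k) F) : Matrix (Fin k) (Fin k) F) *ᵥ c = c := by
    conv_lhs => rw [← hbc]
    rw [inv_mulVec_mulVec]
  have hbe' : ((b⁻¹ : GL (Fin k) F) : Matrix (Fin k) (Fin k) F) *ᵥ e = t • e := by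
    conv_lhs => rw [← hbe]
    rw [inv_mulVec_mulVec]
  have hc0 : T.rL c ((kr (1 : GL (Fin m) F) b : Matrix (Fin m × Fin k) (Fin m × Fin k) F) *ᵥ X) = 0 := by
    conv_lhs => rw [← hbc]
    rw [rL_right hb, hX]
  have he0 : T.rL e ((kr (1 : GL (Fin m) F) b : Matrix (Fin m × Fin k) (Fin m × Fin k) F) *ᵥ X) =
      t • T.rL e X := by
    conv_lhs => rw [← hbe]
    rw [rL_right hb]
    funext i
    rw [T.rL_row, Pi.smul_apply, T.rL_row, map_smul]
  rw [mul_mulVec', mul_mulVec', kr_inv, inv_one, inv_inv, hsX _ hc0, he0, mulVec_add, kr_vt, hbc',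
    ← mul_mulVec' (kr 1 b⁻¹), kr_mul, inv_mul_cancel, one_mul, kr_one]
  simp only [Units.val_one, one_mulVec, map_smul]
  rfl

omit [Fintype F] in
/-- Removing a central factor. -/
lemma strip (hcd : T.g c d = 1) {e : Fin k → F} {S : (Fin m → F) →ₗ[F] (Fin m → F)}
    (hec : T.g c e = 0) (hMi : ∀ g ∈ M, ∀ X, T.Q ((g : Matrix (Fin m × Fin k) (Fin m × Fin k) F) *ᵥ X) = T.Q X)
    (h : T.Mid M c e S) {E : GL (Fin m × Fin k) F}
    (hEi : ∀ X, T.Q ((E : Matrix (Fin m × Fin k) (Fin m × Fin k) F) *ᵥ X) = T.Q X)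
    (hE : ∀ X, T.rL c X = 0 →
      (E : Matrix (Fin m × Fin k) (Fin m × Fin k) F) *ᵥ X = X + vt (S (T.rL e X)) c)
    {b : GL (Fin k) F} (hb : b ∈ isoGroup T.g) (hbc : (b : Matrix (Fin k) (Fin k) F) *ᵥ c = c)
    (hbM : kr 1 b ∈ M) : kr 1 b * E * (kr 1 b)⁻¹ * E⁻¹ ∈ M := by
  obtain ⟨s, hs, hsX⟩ := h
  obtain ⟨C, hC⟩ : ∃ C, C = E⁻¹ * s := ⟨_, rfl⟩
  have htriv : ∀ X, T.rL c X = 0 → (C : Matrix (Fin m × Fin k) (Fin m × Fin k) F) *ᵥ X = X := by
    intro X hX
    refine gl_mulVec_injective E ?_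
    beta_reduce
    rw [hC, mul_mulVec', mulVec_inv_mulVec, hsX X hX, hE X hX]
  have CR : T.Rad c C := ⟨fun X => by rw [hC, mul_mulVec', ← hEi, mulVec_inv_mulVec, hMi s hs],
    fun a => htriv _ (T.rL_self c a), fun X hX => ⟨0, by rw [htriv X hX, vt_zero_left, add_zero]⟩⟩
  obtain ⟨Φ, -, hΦ⟩ := CR.central hcd htriv
  have ER := Mid.rad hec hEi hE
  set t : GL (Fin m × Fin k) F := kr 1 b with ht
  have htc : t * C = C * t := gl_ext fun X => by
    have hx : T.rL c ((t : Matrix (Fin m × Fin k) (Fin m × Fin k) F) *ᵥ X) = T.rL c X := by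
      conv_lhs => rw [← hbc]
      rw [ht, rL_right hb]
    rw [mul_mulVec', mul_mulVec', hΦ, hΦ, hx, mulVec_add, ht, kr_vt, hbc, Units.val_one, one_mulVec]
  have hEC : E * C = C * E := gl_ext fun X => by
    rw [mul_mulVec', mul_mulVec', hΦ, hΦ, ER.rL_eq, mulVec_add, ER.fix]
  have hm := mul_mem (mul_mem (mul_mem hbM hs) (inv_mem hbM)) (inv_mem hs)
  rw [show s = C * E by rw [← hEC, hC, mul_inv_cancel_left]] at hm
  have hC' : C * (t * E * t⁻¹) = t * E * t⁻¹ * C :=
    (Commute.mul_right (Commute.mul_right (htc.symm : Commute C t) (hEC.symm : Commute C E))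
      (Commute.inv_right (htc.symm : Commute C t))).eq
  rw [show t * (C * E) * t⁻¹ = C * (t * E * t⁻¹) by rw [← mul_assoc, htc]; simp only [mul_assoc],
    hC', ← hEC, _root_.mul_inv_rev] at hm
  rwa [← mul_assoc, mul_inv_cancel_right] at hm

/-- A non-scalar central element suffices. -/
theorem diag_of_central (hn : 7 ≤ m * k) (hm : 0 < m) (hk : 5 ≤ k) (hHM : T.grp ≤ M) (hc : c ≠ 0)
    {Φ : (Fin m → F) →ₗ[F] (Fin m → F)} (hΦ0 : ∀ v, T.f v (Φ v) = 0) (h : T.Cn M c Φ)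
    (hns : ¬ ∃ a : F, ∀ v, Φ v = a • v) : T.Diag M := by
  obtain ⟨a, ha, haw⟩ := exists_indep hm Φ hns
  obtain ⟨s, hs, hsX⟩ := h
  set w := Φ a with hw
  have hfaw : T.f a w = 0 := hΦ0 a
  have hfwa : T.f w a = 0 := by rw [T.f_flip, hfaw, neg_zero]
  have pol : ∀ x, T.f (Φ x) a = T.f x w := fun x => by
    have := hΦ0 (x + a)
    simp only [map_add, LinearMap.add_apply, hΦ0, zero_add, add_zero, ← hw] at this
    rw [T.f_flip (Φ x)]
    linear_combination -this + hfaw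
  set t : F := -T.c₀⁻¹ with ht
  have hf : T.f a (t • w) = 0 := by rw [map_smul, hfaw, smul_zero]
  set z := sg T.Q (vt a c) (vt (t • w) c) with hz
  set τ : GL (Fin m × Fin k) F := kr (sympT T.f a 1) 1 with hτ
  have hτm : ∀ v, (sympT T.f a 1 : Matrix (Fin m) (Fin m) F) *ᵥ v = v + T.f v a • a := fun v => by
    rw [sympT_mulVec T.hfA, one_mul]
  have key : τ * s = z * (s * τ) := gl_ext fun X => by
    have hx : T.rL c ((τ : Matrix (Fin m × Fin k) (Fin m × Fin k) F) *ᵥ X) =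
        T.rL c X + T.f (T.rL c X) a • a := by rw [hτ, rL_left, hτm]
    rw [mul_mulVec', mul_mulVec', mul_mulVec', hsX, hsX, hx, hz,
      T.sg_vt_mulVec (by rw [hf, zero_mul]), map_add (T.rL c), T.rL_self, add_zero, hx, mulVec_add,
      hτ, kr_vt, Units.val_one, one_mulVec, hτm, pol, map_add Φ, map_smul Φ, ← hw]
    simp only [map_add, map_smul, LinearMap.add_apply, LinearMap.smul_apply, smul_eq_mul,
      T.hfA.self_eq_zero, hfaw, mul_zero, add_zero, vt_add_left, vt_smul_left, ht]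
    match_scalars <;> field_simp [T.c₀_ne] <;> ring
  have hzM : z ∈ M := by
    have := mul_mem (conj_mem hHM hs (T.left_transvection_mem hn a 1)) (inv_mem hs)
    rwa [← hτ, key, show z * (s * τ) * τ⁻¹ * s⁻¹ = z by simp [mul_assoc]] at this
  obtain ⟨e, he', heS⟩ := exists_perp_not_mem (B := T.g) ![c] (Submodule.span F {c}) (by
    rw [finrank_span_singleton hc, Fintype.card_fin]; omega)
  have hec : T.g e c = 0 := he' 0
  have hce : T.g c e = 0 := by rw [T.g_flip, hec, neg_zero]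
  have he0 : e ≠ 0 := fun h => heS (by rw [h]; exact zero_mem _)
  have hce0 : c + e ≠ 0 := fun h => heS (by
    rw [eq_neg_of_add_eq_zero_right h]; exact neg_mem (Submodule.mem_span_singleton_self c))
  obtain ⟨B₁, hB₁, hB₁c⟩ := exists_iso_move T.hgA T.hgN hc hce0
  obtain ⟨B₂, hB₂, hB₂c⟩ := exists_iso_move T.hgA T.hgN hc he0
  have h0 : T.f a (t • w) * T.g c c = 0 := by rw [hf, zero_mul]
  have hS := conj_mem hHM hzM (T.right_mem_grp hn hB₁)
  have hD := conj_mem hHM hzM (T.right_mem_grp hn hB₂)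
  rw [hz, T.sg_kr_conj (one_mem _) hB₁ h0, Units.val_one, one_mulVec, one_mulVec, hB₁c] at hS
  rw [hz, T.sg_kr_conj (one_mem _) hB₂ h0, Units.val_one, one_mulVec, one_mulVec, hB₂c] at hD
  have hP : ∀ p q, LongPair T.Q (vt a p) (vt (t • w) q) := fun p q =>
    T.longPair _ _ _ _ (by rw [hf, zero_mul])
  set A := z with hA
  set B := sg T.Q (vt a c) (vt (t • w) e)
  set C := sg T.Q (vt a e) (vt (t • w) c)
  set D := sg T.Q (vt a e) (vt (t • w) e)
  rw [vt_add_right a c e, sg_add_left (hP c _) (hP e _)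
      (T.longPair a a c e (by rw [T.hfA.self_eq_zero, zero_mul])).xu,
    vt_add_right (t • w) c e, sg_add (T.pure a e) (hP e c).xu (hP e e).xu,
    sg_add (T.pure a c) (hP c c).xu (hP c e).xu] at hS
  have hpa : ∀ p q, polar T.Q (vt a p) (vt a q) = 0 := fun p q => by
    rw [T.pair, T.hfA.self_eq_zero]; ring
  have hpw : ∀ p q, polar T.Q (vt (t • w) p) (vt (t • w) q) = 0 := fun p q => by
    rw [T.pair, T.hfA.self_eq_zero]; ring
  have hwp : ∀ p q, polar T.Q (vt (t • w) p) (vt a q) = 0 := fun p q => by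
    rw [T.pair, map_smul, LinearMap.smul_apply, hfwa, smul_zero]; ring
  have hap : ∀ p q, polar T.Q (vt a p) (vt (t • w) q) = 0 := fun p q => (hP p q).xu
  have com : ∀ p q p' q', sg T.Q (vt a p) (vt (t • w) q) * sg T.Q (vt a p') (vt (t • w) q') =
      sg T.Q (vt a p') (vt (t • w) q') * sg T.Q (vt a p) (vt (t • w) q) := fun p q p' q' =>
    sg_comm (hP p q) (hP p' q') (hpa _ _) (hwp _ _) (hap _ _) (hpw _ _)
  have hBC : B * C ∈ M := by
    have e1 : C * D * (A * B) = D * A * (B * C) := by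
      have c1 : C * D = D * C := com _ _ _ _
      have c2 : C * (A * B) = A * (B * C) := by
        rw [← mul_assoc, show C * A = A * C from com _ _ _ _, mul_assoc,
          show C * B = B * C from com _ _ _ _]
      rw [c1, mul_assoc, c2, mul_assoc]
    change C * D * (A * B) ∈ M at hS
    rw [e1] at hS
    exact (M.mul_mem_cancel_left (mul_mem hD hzM)).1 hS
  have htw : t • w ∉ Submodule.span F {a} := fun h =>
    haw ((Submodule.smul_mem_iff _ (neg_ne_zero.2 (inv_ne_zero T.c₀_ne))).1 h)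
  exact diag_of_two hn hk hHM ha hf htw hc hce heS hBC

/-- An element of the radical outside the product group suffices. -/
theorem diag_of_rad (hn : 7 ≤ m * k) (hm : 2 ≤ m) (hk : 5 ≤ k)
    (heven : Even m) (hex : ¬ (Fintype.card F = 2 ∧ m = 2)) (hHM : T.grp ≤ M) (hMG : M ≤ omegaGL ⇑T.Q)
    {r : GL (Fin m × Fin k) F} (hr : r ∈ M) (hrH : r ∉ T.grp) (hcd : T.g c d = 1)
    (R : T.Rad c r) : T.Diag M := by
  classical
  have hc : c ≠ 0 := fun e => by simp [e] at hcd
  have hdc : T.g d c = -1 := by rw [T.g_flip, hcd]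
  have hMi : ∀ g ∈ M, ∀ X, T.Q ((g : Matrix (Fin m × Fin k) (Fin m × Fin k) F) *ᵥ X) = T.Q X :=
    fun g hg => mem_isometryGroup_of_omega (hMG hg)
  by_cases hcs : ∃ Φ, (∀ v, T.f v (Φ v) = 0) ∧ T.Cn M c Φ ∧ ¬ ∃ a : F, ∀ v, Φ v = a • v
  · obtain ⟨Φ, h0, hΦ, hns⟩ := hcs
    exact diag_of_central hn (by omega) hk hHM hc h0 hΦ hns
  push Not at hcs
  -- the relation coming from commutators with Siegel elements
  have comm : ∀ s ∈ M, T.Rad c s → ∀ z, T.g c z = 0 → T.g d z = 0 → ∃ l : F, ∀ v u,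
      l * T.f v u =
        T.f (T.rL d ((s : Matrix (Fin m × Fin k) (Fin m × Fin k) F) *ᵥ vt v z - vt v z)) u +
        T.f v (T.rL d ((s : Matrix (Fin m × Fin k) (Fin m × Fin k) F) *ᵥ vt u z - vt u z)) := by
    intro s hs S z hz hdz
    set w := T.sie c z with hw
    have hwM : w ∈ M := hHM (sie_mem (T := T) hn c z)
    set t := s * w * s⁻¹ * w⁻¹ with ht
    have htM : t ∈ M := mul_mem (mul_mem (mul_mem hs hwM) (inv_mem hs)) (inv_mem hwM)
    have hzc : T.g z c = 0 := by rw [T.g_flip, hz, neg_zero]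
    have hwW : ∀ a, (w : Matrix (Fin m × Fin k) (Fin m × Fin k) F) *ᵥ vt a c = vt a c := fun a => by
      rw [hw, sie_mulVec hz, T.rL_self, T.rL_vt, hz, zero_smul, vt_zero_left, vt_zero_left, add_zero,
        add_zero]
    have hwmid : ∀ X, T.rL c X = 0 →
        (w : Matrix (Fin m × Fin k) (Fin m × Fin k) F) *ᵥ X = X + vt (T.rL z X) c := fun X hX => by
      rw [hw, sie_mulVec hz, hX, vt_zero_left, add_zero]
    have hwinv : ∀ X, T.rL c X = 0 →
        T.rL c (((w⁻¹ : GL (Fin m × Fin k) F) : Matrix (Fin m × Fin k) (Fin m × Fin k) F) *ᵥ X) = 0 := by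
      intro X hX
      set Y := ((w⁻¹ : GL (Fin m × Fin k) F) : Matrix (Fin m × Fin k) (Fin m × Fin k) F) *ᵥ X
      have e : (w : Matrix (Fin m × Fin k) (Fin m × Fin k) F) *ᵥ Y = X := mulVec_inv_mulVec _ _
      rw [← e, hw, sie_mulVec hz, map_add, map_add, T.rL_self, T.rL_vt, hzc, zero_smul, add_zero,
        add_zero] at hX
      exact hX
    have hsinv : ∀ X, T.rL c X = 0 →
        T.rL c (((s⁻¹ : GL (Fin m × Fin k) F) : Matrix (Fin m × Fin k) (Fin m × Fin k) F) *ᵥ X) = 0 := by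
      intro X hX
      rw [← S.rL_eq, mulVec_inv_mulVec, hX]
    have htriv : ∀ X, T.rL c X = 0 → (t : Matrix (Fin m × Fin k) (Fin m × Fin k) F) *ᵥ X = X := by
      intro X hX
      set Y := ((s⁻¹ : GL (Fin m × Fin k) F) : Matrix (Fin m × Fin k) (Fin m × Fin k) F) *ᵥ
        (((w⁻¹ : GL (Fin m × Fin k) F) : Matrix (Fin m × Fin k) (Fin m × Fin k) F) *ᵥ X) with hY
      have hY0 : T.rL c Y = 0 := hsinv _ (hwinv _ hX)
      have hX' : X = (w : Matrix (Fin m × Fin k) (Fin m × Fin k) F) *ᵥ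
          ((s : Matrix (Fin m × Fin k) (Fin m × Fin k) F) *ᵥ Y) := by
        rw [hY, mulVec_inv_mulVec, mulVec_inv_mulVec]
      rw [ht, mul_mulVec', mul_mulVec', mul_mulVec', ← hY]
      conv_rhs => rw [hX']
      obtain ⟨p, hp⟩ := S.mid Y hY0
      rw [hwmid _ hY0, hp, mulVec_add, mulVec_add, hwW, hp, hwmid _ hY0, S.fix]
      abel
    have tR : T.Rad c t := ⟨hMi t htM, fun a => htriv _ (T.rL_self c a),
      fun X hX => ⟨0, by rw [htriv X hX, vt_zero_left, add_zero]⟩⟩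
    obtain ⟨Φ, hΦ0, hΦ⟩ := tR.central hcd htriv
    obtain ⟨l, hl⟩ := hcs Φ hΦ0 ⟨t, htM, hΦ⟩
    refine ⟨l, fun v u => ?_⟩
    set X := vt (-v) d
    have hvz : T.rL c (vt v z) = 0 := by rw [T.rL_vt, hzc, zero_smul]
    have huz : T.rL c (vt u z) = 0 := by rw [T.rL_vt, hzc, zero_smul]
    have hXc : T.rL c X = v := by rw [T.rL_vt, hdc, neg_one_smul, neg_neg]
    set q := T.rL z ((s : Matrix (Fin m × Fin k) (Fin m × Fin k) F) *ᵥ X) with hq
    set Lv := T.rL d ((s : Matrix (Fin m × Fin k) (Fin m × Fin k) F) *ᵥ vt v z - vt v z) with hLv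
    set Lu := T.rL d ((s : Matrix (Fin m × Fin k) (Fin m × Fin k) F) *ᵥ vt u z - vt u z) with hLu
    have e1 : (s : Matrix (Fin m × Fin k) (Fin m × Fin k) F) *ᵥ
        ((w : Matrix (Fin m × Fin k) (Fin m × Fin k) F) *ᵥ X) =
          (s : Matrix (Fin m × Fin k) (Fin m × Fin k) F) *ᵥ X + (vt v z + vt Lv c) := by
      rw [hw, sie_mulVec hz, hXc, T.rL_vt, hdz, zero_smul, vt_zero_left, add_zero, mulVec_add,
        S.mid_eq hcd hvz]
    have e2 : (w : Matrix (Fin m × Fin k) (Fin m × Fin k) F) *ᵥ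
        ((s : Matrix (Fin m × Fin k) (Fin m × Fin k) F) *ᵥ X) =
          (s : Matrix (Fin m × Fin k) (Fin m × Fin k) F) *ᵥ X + vt q c + vt v z := by
      rw [hw, sie_mulVec hz, S.rL_eq, hXc]
    set Z := (w : Matrix (Fin m × Fin k) (Fin m × Fin k) F) *ᵥ
      ((s : Matrix (Fin m × Fin k) (Fin m × Fin k) F) *ᵥ X)
    have e3 : (t : Matrix (Fin m × Fin k) (Fin m × Fin k) F) *ᵥ Z =
        (s : Matrix (Fin m × Fin k) (Fin m × Fin k) F) *ᵥ
          ((w : Matrix (Fin m × Fin k) (Fin m × Fin k) F) *ᵥ X) := by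
      rw [ht, mul_mulVec', mul_mulVec', mul_mulVec', inv_mulVec_mulVec, inv_mulVec_mulVec]
    have hZc : T.rL c Z = v := by
      rw [e2, map_add, map_add, T.rL_self, hvz, S.rL_eq, hXc, add_zero, add_zero]
    rw [hΦ, hZc, e1, e2, hl] at e3
    have e4 : l • v = Lv - q := by
      refine vtL_injective hc ?_
      show vt (l • v) c = vt (Lv - q) c
      funext i
      have hi := congrFun e3 i
      simp only [vt, Pi.add_apply, Pi.sub_apply] at hi ⊢
      linear_combination hi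
    have e5 : T.f q u + T.f v Lu = 0 := by
      have e := S.polar_eq X (vt u z)
      rw [S.mid_eq hcd huz, polar_add_right, T.polar_vt, T.polar_vt, ← hq, ← hLu, S.rL_eq, hXc,
        T.polar_vt, T.rL_vt, hdz, zero_smul, map_zero, LinearMap.zero_apply, mul_zero,
        ← mul_add] at e
      exact (mul_eq_zero.1 e).resolve_left T.c₀_ne
    have e6 : T.f (l • v) u = T.f (Lv - q) u := by rw [e4]
    rw [map_smul, LinearMap.smul_apply, smul_eq_mul, map_sub, LinearMap.sub_apply] at e6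
    linear_combination e6 - e5
  -- a vector with non-scalar image
  set G := Matrix.toLin' (r : Matrix (Fin m × Fin k) (Fin m × Fin k) F) with hG
  have hGa : ∀ X, G X = (r : Matrix (Fin m × Fin k) (Fin m × Fin k) F) *ᵥ X := fun X =>
    Matrix.toLin'_apply _ _
  let L : (Fin m × Fin k → F) →ₗ[F] (Fin m → F) := T.rL d ∘ₗ (G - LinearMap.id)
  have hLv : ∀ X, L X = T.rL d ((r : Matrix (Fin m × Fin k) (Fin m × Fin k) F) *ᵥ X - X) := fun X => by
    rw [← hGa]; rfl
  have hL : ∀ X, T.rL c X = 0 →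
      (r : Matrix (Fin m × Fin k) (Fin m × Fin k) F) *ᵥ X = X + vt (L X) c := fun X hX => by
    rw [hLv]; exact R.mid_eq hcd hX
  have hLc : ∀ a, L (vt a c) = 0 := fun a => by rw [hLv, R.fix, sub_self, map_zero]
  obtain ⟨i₀⟩ : Nonempty (Fin m) := ⟨⟨0, by omega⟩⟩
  obtain ⟨z, hzc, hzd, hns⟩ : ∃ z, T.g z c = 0 ∧ T.g z d = 0 ∧
      ¬ ∃ a : F, ∀ v, L (vt v z) = a • v := by
    by_contra hcon
    push Not at hcon
    let pr : (Fin k → F) →ₗ[F] (Fin k → F) :=
      LinearMap.id - (T.g.flip d).smulRight c + (T.g.flip c).smulRight d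
    have hpr : ∀ x, pr x = x - T.g x d • c + T.g x c • d := fun x => by simp [pr]
    set a₁ : Fin m → F := Pi.single i₀ 1 with ha₁
    let lam : (Fin k → F) →ₗ[F] F := LinearMap.proj i₀ ∘ₗ L ∘ₗ vtR a₁ ∘ₗ pr
    obtain ⟨z₀, hz₀⟩ := exists_rep T.hgN lam
    have hz₀c : T.g c z₀ = 0 := by
      rw [hz₀]; simp [lam, hpr, hcd, T.hgA.self_eq_zero]
    have hone : ∀ v u, T.g u c = 0 → L (vt v u) = T.g u z₀ • v := by
      intro v u hu
      obtain ⟨a, ha⟩ := hcon (pr u) (by simp [hpr, T.hgA.self_eq_zero, hdc])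
        (by simp [hpr, T.hgA.self_eq_zero, hcd])
      have hlam : T.g u z₀ = a := by
        rw [hz₀]
        show L (vt a₁ (pr u)) i₀ = a
        rw [ha, Pi.smul_apply, ha₁, Pi.single_eq_same, smul_eq_mul, mul_one]
      have hu' : u = T.g u d • c + pr u := by rw [hpr, hu, zero_smul]; abel
      rw [hlam]
      conv_lhs => rw [hu', vt_add_right, vt_smul_right, map_add, map_smul, hLc, ha, smul_zero, zero_add]
    have hLall : ∀ X, T.rL c X = 0 → L X = T.rL z₀ X := by
      intro X hX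
      rw [sum_rows X, map_sum, map_sum]
      refine Finset.sum_congr rfl fun i _ => ?_
      rw [T.rL_vt]
      refine hone _ _ ?_
      have := congrFun hX i
      rwa [T.rL_row] at this
    set w := T.sie c z₀ with hw
    have hwH := sie_mem (T := T) hn c z₀
    set t := w⁻¹ * r with ht
    have htriv : ∀ X, T.rL c X = 0 → (t : Matrix (Fin m × Fin k) (Fin m × Fin k) F) *ᵥ X = X := by
      intro X hX
      refine gl_mulVec_injective w ?_
      beta_reduce
      rw [ht, mul_mulVec', mulVec_inv_mulVec, hL X hX, hw, sie_mulVec hz₀c, hX, vt_zero_left,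
        add_zero, hLall X hX]
    have htM : t ∈ M := M.mul_mem (M.inv_mem (hHM hwH)) hr
    have tR : T.Rad c t := ⟨hMi t htM, fun a => htriv _ (T.rL_self c a),
      fun X hX => ⟨0, by rw [htriv X hX, vt_zero_left, add_zero]⟩⟩
    obtain ⟨Φ, hΦ0, hΦ⟩ := tR.central hcd htriv
    obtain ⟨l, hl⟩ := hcs Φ hΦ0 ⟨t, htM, hΦ⟩
    refine hrH ?_
    have := mul_mem hwH (show t ∈ T.grp by
      rw [show t = T.rt c l from gl_ext fun X => by rw [hΦ, T.rt_mulVec, hl]]
      exact T.rt_mem_grp hn c l)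
    rwa [ht, mul_inv_cancel_left] at this
  have hcz : T.g c z = 0 := by rw [T.g_flip, hzc, neg_zero]
  have hdz : T.g d z = 0 := by rw [T.g_flip, hzd, neg_zero]
  have hz0 : z ≠ 0 := fun e => hns ⟨0, fun v => by rw [e, vt_zero_right, map_zero, zero_smul]⟩
  set S : (Fin m → F) →ₗ[F] (Fin m → F) := L ∘ₗ vtL z with hS
  have hSv : ∀ v, S v = L (vt v z) := fun v => rfl
  have hMid : T.Mid M c z S := by
    set t := T.rt z 1 with ht
    have htM := hHM (T.rt_mem_grp hn z 1)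
    refine ⟨r * (t * r⁻¹ * t⁻¹), mul_mem hr (mul_mem (mul_mem htM (inv_mem hr)) (inv_mem htM)),
      fun X hX => ?_⟩
    set X₁ := X - vt (T.rL z X) z with hX₁
    have h1 : T.rL c X₁ = 0 := by rw [hX₁, map_sub, hX, T.rL_vt, hzc, zero_smul, sub_zero]
    have e1 : ((t⁻¹ : GL (Fin m × Fin k) F) : Matrix (Fin m × Fin k) (Fin m × Fin k) F) *ᵥ X = X₁ := by
      refine gl_mulVec_injective t ?_
      beta_reduce
      rw [mulVec_inv_mulVec, ht, T.rt_mulVec, one_smul, hX₁, map_sub, T.rL_self, sub_zero,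
        sub_add_cancel]
    set X₂ := X₁ - vt (L X₁) c with hX₂
    have e2 : ((r⁻¹ : GL (Fin m × Fin k) F) : Matrix (Fin m × Fin k) (Fin m × Fin k) F) *ᵥ X₁ = X₂ := by
      refine gl_mulVec_injective r ?_
      beta_reduce
      rw [mulVec_inv_mulVec, hX₂, mulVec_sub, hL X₁ h1, R.fix, add_sub_cancel_right]
    have e3 : (t : Matrix (Fin m × Fin k) (Fin m × Fin k) F) *ᵥ X₂ = X - vt (L X₁) c := by
      have e : T.rL z X₂ = T.rL z X := by
        rw [hX₂, map_sub, T.rL_vt, hcz, zero_smul, sub_zero, hX₁, map_sub, T.rL_self, sub_zero]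
      rw [ht, T.rt_mulVec, one_smul, e, hX₂, hX₁]
      abel
    rw [mul_mulVec', mul_mulVec', mul_mulVec', e1, e2, e3, mulVec_sub, hL X hX, R.fix, hSv, hX₁,
      map_sub, sub_eq_add_neg (L X), vt_add_left, ← neg_one_smul F (L (vt _ z)), vt_smul_left]
    module
  -- the symmetry of the map
  have hrel : ∃ l : F, ∀ v u, T.f (S v) u + T.f v (S u) = l * T.f v u := by
    obtain ⟨s, hs, hsX⟩ := hMid
    have SR := Mid.rad hcz (hMi s hs) hsX
    obtain ⟨z', hzz', hz'⟩ := exists_one_perp_span T.hgN (S := Submodule.span F {c, d}) (x := z)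
      fun h => by
        obtain ⟨x, y, e⟩ := Submodule.mem_span_pair.1 h
        rw [← e] at hzc hzd
        simp [T.hgA.self_eq_zero, hcd, hdc] at hzc hzd
        exact hz0 (by rw [← e, hzd, hzc, zero_smul, zero_smul, add_zero])
    have hcz' : T.g c z' = 0 := hz' c (Submodule.subset_span (by simp))
    have hdz' : T.g d z' = 0 := hz' d (Submodule.subset_span (by simp))
    obtain ⟨l, hl⟩ := comm s hs SR z' hcz' hdz'
    have e : ∀ v, T.rL d ((s : Matrix (Fin m × Fin k) (Fin m × Fin k) F) *ᵥ vt v z' - vt v z') =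
        -S v := fun v => by
      rw [hsX _ (by rw [T.rL_vt, T.g_flip, hcz', neg_zero, zero_smul]), add_sub_cancel_left, T.rL_vt,
        hcd, one_smul, T.rL_vt, T.g_flip, hzz', neg_one_smul, map_neg]
    refine ⟨-l, fun v u => ?_⟩
    have := hl v u
    rw [e, e, map_neg, map_neg, LinearMap.neg_apply] at this
    linear_combination this
  obtain ⟨l, hl⟩ := hrel
  have hzsp : z ∉ Submodule.span F {c} := fun h => by
    obtain ⟨x, rfl⟩ := Submodule.mem_span_singleton.1 h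
    simp [hcd] at hzd
    exact hz0 (by rw [hzd, zero_smul])
  -- a transvection moving the vector
  obtain ⟨v₂, hzv, hv₂⟩ := exists_one_perp_span T.hgN hzsp
  have hcv : T.g c v₂ = 0 := hv₂ c (Submodule.mem_span_singleton_self c)
  have hv₂c : v₂ ∉ Submodule.span F {c} := fun h => by
    obtain ⟨x, rfl⟩ := Submodule.mem_span_singleton.1 h
    simp [hzc] at hzv
  set b := sympT T.g v₂ 1 with hb
  have hbz : (b : Matrix (Fin k) (Fin k) F) *ᵥ z = z + v₂ := by
    rw [hb, sympT_mulVec T.hgA, one_mul, hzv, one_smul]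
  have hbc : (b : Matrix (Fin k) (Fin k) F) *ᵥ c = c := by
    rw [hb, sympT_mulVec T.hgA, one_mul, hcv, zero_smul, add_zero]
  have hbM : kr 1 b ∈ M := hHM (T.right_mem_grp hn (sympT_mem T.hgA v₂ 1))
  -- the differences
  have hdiff : ∀ (a : Fin m → F) (κ : F), T.Mid M c z
      ((Matrix.toLin' (sympT T.f a κ : Matrix (Fin m) (Fin m) F) ∘ₗ S ∘ₗ
        Matrix.toLin' (((sympT T.f a κ)⁻¹ : GL (Fin m) F) : Matrix (Fin m) (Fin m) F)) - S) :=
    fun a κ => Mid.sub hcz (Mid.left hn hHM hMid (sympT_mem T.hfA a κ)) hMid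
  have hτinv : ∀ (a : Fin m → F) (κ : F) (x : Fin m → F),
      (((sympT T.f a κ)⁻¹ : GL (Fin m) F) : Matrix (Fin m) (Fin m) F) *ᵥ x = x - (κ * T.f x a) • a := by
    intro a κ x
    refine gl_mulVec_injective (sympT T.f a κ) ?_
    beta_reduce
    rw [mulVec_inv_mulVec, sympT_mulVec T.hfA]
    simp [T.hfA.self_eq_zero]
  have hdx : ∀ (a : Fin m → F) (κ : F) (x : Fin m → F),
      ((Matrix.toLin' (sympT T.f a κ : Matrix (Fin m) (Fin m) F) ∘ₗ S ∘ₗ
        Matrix.toLin' (((sympT T.f a κ)⁻¹ : GL (Fin m) F) : Matrix (Fin m) (Fin m) F)) - S) x =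
      -(κ * T.f x a) • S a + (κ * T.f (S x) a - κ * κ * T.f x a * T.f (S a) a) • a := by
    intro a κ x
    simp only [LinearMap.sub_apply, LinearMap.comp_apply, Matrix.toLin'_apply, hτinv,
      sympT_mulVec T.hfA, map_sub, map_smul, LinearMap.smul_apply, smul_eq_mul]
    module
  by_cases hA : ∃ a, T.f (S a) a ≠ 0 ∧ Fintype.card F ≠ 2
  · obtain ⟨a, ha, hq⟩ := hA
    have ha0 : a ≠ 0 := fun e => ha (by rw [e, map_zero (T.f (S 0))])
    obtain ⟨s, hs0, hs1⟩ : ∃ s : F, s ≠ 0 ∧ s ≠ 1 := by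
      by_contra hcon
      push Not at hcon
      refine hq ?_
      rw [← Finset.card_univ, show (Finset.univ : Finset F) = {0, 1} from Finset.ext fun x => by
        simp only [Finset.mem_univ, Finset.mem_insert, Finset.mem_singleton, true_iff]
        exact (em (x = 0)).imp_right (hcon x)]
      simp
    set κ := (s - s * s) * T.f (S a) a with hκ
    have hκ0 : κ ≠ 0 := mul_ne_zero (fun e => hs1 (by
      have : s * (1 - s) = 0 := by linear_combination e
      exact (sub_eq_zero.1 ((mul_eq_zero.1 this).resolve_left hs0)).symm)) ha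
    have hP : T.Mid M c z (κ • (T.f.flip a).smulRight a) := by
      convert Mid.sub hcz (hdiff a s) (Mid.smul hn hHM hcd hzc hzd hz0 (hdiff a 1) hs0) using 1
      refine LinearMap.ext fun x => ?_
      rw [LinearMap.sub_apply, LinearMap.smul_apply (s : F), hdx, hdx]
      simp only [LinearMap.smul_apply, LinearMap.smulRight_apply, LinearMap.BilinForm.flip_apply, hκ]
      module
    set κ' := -(κ / T.c₀) with hκ'
    have L1 : ∀ y, T.g c y = 0 → LongPair T.Q (vt a c) (vt (κ' • a) y) := fun y hy =>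
      T.longPair _ _ _ _ (by rw [hy, mul_zero])
    have hE : ∀ X, T.rL c X = 0 →
        (sg T.Q (vt a c) (vt (κ' • a) z) : Matrix (Fin m × Fin k) (Fin m × Fin k) F) *ᵥ X =
          X + vt ((κ • (T.f.flip a).smulRight a) (T.rL z X)) c := fun X hX => by
      rw [T.sg_vt_mulVec (by rw [hcz, mul_zero]), hX]
      simp only [map_zero, LinearMap.zero_apply, mul_zero, zero_smul, add_zero, map_smul,
        LinearMap.smul_apply, LinearMap.smulRight_apply, LinearMap.BilinForm.flip_apply, smul_eq_mul, hκ',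
        vt_smul_left]
      match_scalars <;> field_simp [T.c₀_ne]
    have hm1 := strip hcd hcz hMi hP (fun X => sg_isometry X) hE (sympT_mem T.hgA v₂ 1) hbc hbM
    rw [← hb, T.sg_kr_conj (one_mem _) (sympT_mem T.hgA v₂ 1) (by rw [hcz, mul_zero]), ← hb,
      Units.val_one, one_mulVec, one_mulVec, hbc, hbz, add_comm z v₂, vt_add_right (κ' • a) v₂ z,
      sg_add (T.pure a c) (L1 v₂ hcv).xu (L1 z hcz).xu, mul_inv_cancel_right, vt_smul_left,
      ← vt_smul_right] at hm1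
    refine diag_of_one hn hHM ha0 hc (by rw [map_smul, hcv, smul_zero]) ?_ hm1
    exact fun h => hv₂c ((Submodule.smul_mem_iff _ (by
      rw [hκ']; exact neg_ne_zero.2 (div_ne_zero hκ0 T.c₀_ne))).1 h)
  push Not at hA
  have hSns : ¬ ∃ a : F, ∀ v, S v = a • v := hns
  -- the characteristic is two
  have h2 : (2 : F) = 0 := by
    by_contra h2
    have hcard : Fintype.card F ≠ 2 := by
      intro h
      haveI : Fact (Nat.Prime 2) := ⟨Nat.prime_two⟩
      haveI : CharP F 2 := charP_of_card_eq_prime h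
      exact h2 (CharP.cast_eq_zero F 2)
    have hz : ∀ a, T.f (S a) a = 0 := fun a => by
      by_contra h; exact hcard (hA a h)
    refine hSns ⟨l / 2, fun v => ?_⟩
    have hpol : ∀ u, T.f (S v) u + T.f (S u) v = 0 := fun u => by
      have := hz (v + u)
      simp only [map_add, LinearMap.add_apply, hz, zero_add, add_zero] at this
      linear_combination this
    refine sub_eq_zero.1 (T.hfN.1 _ fun u => ?_)
    have e1 := hl v u
    rw [T.f_flip v (S u)] at e1
    simp only [map_sub, map_smul, LinearMap.sub_apply, LinearMap.smul_apply, smul_eq_mul]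
    field_simp
    linear_combination e1 + hpol u
  have hneg : ∀ x : F, -x = x := fun x => by
    linear_combination (-x) * h2
  obtain ⟨a, ha0, haw⟩ := exists_indep (by omega) S hSns
  obtain ⟨v₀, hv₀w, hv₀a'⟩ := exists_one_perp_span T.hfN haw
  have hv₀a : T.f a v₀ = 0 := hv₀a' a (Submodule.mem_span_singleton_self a)
  obtain ⟨v, hwv, hav, hvsp⟩ : ∃ v, T.f (S a) v = 1 ∧ T.f a v = 0 ∧ v ∉ Submodule.span F {a} := by
    by_cases hv : v₀ ∈ Submodule.span F {a}
    swap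
    · exact ⟨v₀, hv₀w, hv₀a, hv⟩
    obtain ⟨x, hx⟩ := Submodule.mem_span_singleton.1 hv
    have he : T.f (S a) a ≠ 0 := fun h => by simp [← hx, h] at hv₀w
    have hm2 : m ≠ 2 := fun h => hex ⟨hA a he, h⟩
    obtain ⟨v', hv', hv'a⟩ := exists_perp_not_mem (B := T.f) ![a, S a] (Submodule.span F {a}) (by
      rw [finrank_span_singleton ha0, Fintype.card_fin]
      obtain ⟨j, hj⟩ := heven
      omega)
    have h0 : T.f v' a = 0 := hv' 0
    have h1 : T.f v' (S a) = 0 := hv' 1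
    refine ⟨v₀ + v', ?_, ?_, fun h => hv'a ?_⟩
    · rw [map_add, hv₀w, T.f_flip _ v', h1, neg_zero, add_zero]
    · rw [map_add, hv₀a, T.f_flip _ v', h0, neg_zero, add_zero]
    · simpa using Submodule.sub_mem _ h hv
  have hva : T.f v a = 0 := by rw [T.f_flip, hav, neg_zero]
  have hSva : T.f (S v) a = 1 := by
    have e := hl v a
    rw [hva, mul_zero, T.f_flip v (S a), hwv] at e
    linear_combination e
  set S₁ : (Fin m → F) →ₗ[F] (Fin m → F) :=
    -((T.f.flip a).smulRight v + (T.f.flip v).smulRight a) with hS₁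
  have hMid₁ : T.Mid M c z S₁ := by
    convert Mid.sub hcz (Mid.left hn hHM (hdiff a 1) (sympT_mem T.hfA v 1)) (hdiff a 1) using 1
    refine LinearMap.ext fun x => ?_
    rw [LinearMap.sub_apply, LinearMap.comp_apply, LinearMap.comp_apply, Matrix.toLin'_apply,
      Matrix.toLin'_apply, hτinv, hdx, hdx, sympT_mulVec T.hfA]
    simp only [hS₁, LinearMap.neg_apply, LinearMap.add_apply, LinearMap.smulRight_apply,
      LinearMap.BilinForm.flip_apply, map_sub, map_add, map_smul, map_neg, LinearMap.sub_apply,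
      LinearMap.smul_apply, LinearMap.neg_apply, smul_eq_mul, hva, hSva, hwv, hav]
    module
  set s' := T.c₀⁻¹ with hs'
  have L2 : T.f a v * T.g c z = 0 := by rw [hcz, mul_zero]
  have P1 : ∀ y, LongPair T.Q (vt a c) (vt (s' • v) y) := fun y =>
    T.longPair _ _ _ _ (by rw [map_smul, hav, smul_zero, zero_mul])
  have P2 : ∀ y, LongPair T.Q (vt v c) (vt (s' • a) y) := fun y =>
    T.longPair _ _ _ _ (by rw [map_smul, hva, smul_zero, zero_mul])
  have hE : ∀ X, T.rL c X = 0 →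
      ((sg T.Q (vt a c) (vt (s' • v) z) * sg T.Q (vt v c) (vt (s' • a) z) : GL (Fin m × Fin k) F) :
        Matrix (Fin m × Fin k) (Fin m × Fin k) F) *ᵥ X = X + vt (S₁ (T.rL z X)) c := fun X hX => by
    rw [mul_mulVec', T.sg_vt_mulVec (by rw [hcz, mul_zero]),
      T.sg_vt_mulVec (by rw [hcz, mul_zero]), map_sub (T.rL c), map_add (T.rL c), hX,
      map_sub (T.rL z), map_add (T.rL z)]
    simp only [map_zero, LinearMap.zero_apply, mul_zero, zero_smul, add_zero, map_smul, T.rL_vt,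
      hcz, T.hgA.self_eq_zero, smul_zero, sub_zero, LinearMap.smul_apply, smul_eq_mul,
      hS₁, LinearMap.neg_apply, LinearMap.add_apply, LinearMap.smulRight_apply, LinearMap.BilinForm.flip_apply,
      hs', vt_smul_left, ← neg_one_smul F (T.f (T.rL z X) a • v + T.f (T.rL z X) v • a), vt_add_left]
    match_scalars <;> field_simp [T.c₀_ne]
  have hm1 := strip hcd hcz hMi hMid₁ (fun X => by rw [mul_mulVec', sg_isometry, sg_isometry]) hE
    (sympT_mem T.hgA v₂ 1) hbc hbM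
  rw [← hb, ← conj_mul, T.sg_kr_conj (one_mem _) (sympT_mem T.hgA v₂ 1) (by rw [hcz, mul_zero]),
    T.sg_kr_conj (one_mem _) (sympT_mem T.hgA v₂ 1) (by rw [hcz, mul_zero]), ← hb,
    Units.val_one, one_mulVec, one_mulVec, one_mulVec, one_mulVec, hbc, hbz,
    vt_add_right (s' • v) z v₂, vt_add_right (s' • a) z v₂, sg_add (T.pure a c) (P1 z).xu (P1 v₂).xu,
    add_comm (vt (s' • a) z) (vt (s' • a) v₂), sg_add (T.pure v c) (P2 v₂).xu (P2 z).xu] at hm1
  set A₁ := sg T.Q (vt a c) (vt (s' • v) z)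
  set A₂ := sg T.Q (vt a c) (vt (s' • v) v₂) with hA₂
  set B₁ := sg T.Q (vt v c) (vt (s' • a) z)
  set B₂ := sg T.Q (vt v c) (vt (s' • a) v₂) with hB₂
  have c1 : A₁ * A₂ = A₂ * A₁ := by
    rw [← sg_add (T.pure a c) (P1 z).xu (P1 v₂).xu, add_comm, sg_add (T.pure a c) (P1 v₂).xu (P1 z).xu]
  have c2 : A₁ * B₂ = B₂ * A₁ := sg_comm (P1 z) (P2 v₂)
    (by simp [T.pair, T.hgA.self_eq_zero]) (by simp [T.pair, T.hfA.self_eq_zero])
    (by simp [T.pair, T.hfA.self_eq_zero]) (by simp [T.pair, hav])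
  have e1 : A₁ * A₂ * (B₂ * B₁) * (A₁ * B₁)⁻¹ = A₂ * B₂ := by
    rw [c1, mul_assoc A₂ A₁, ← mul_assoc A₁ B₂, c2, mul_assoc B₂ A₁, ← mul_assoc A₂,
      mul_inv_cancel_right]
  rw [e1] at hm1
  have hswap : B₂ = sg T.Q (vt a v₂) (vt (s' • v) c) := by
    have hlp : LongPair T.Q (vt (s' • a) v₂) (vt v c) := (P2 v₂).symm
    rw [hB₂, hlp.swap, ← sg_neg hlp.x0 hlp.xu, vt_smul_left s' a, sg_smul (T.pure a v₂)
      (by rw [polar_neg_right, T.pair, hav]; ring), vt_smul_left s' v]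
    congr 1
    funext p
    simp only [Pi.smul_apply, Pi.neg_apply, smul_eq_mul, hneg]
  rw [hswap] at hm1
  refine diag_of_two hn hk hHM ha0 (by rw [map_smul, hav, smul_zero]) (fun h => hvsp ?_) hc hcv hv₂c hm1
  exact (Submodule.smul_mem_iff _ (inv_ne_zero T.c₀_ne)).1 h

end OT

end Cfsg.Agent.Lib.Forms.TProd
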