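import Cfsg.Agent.Lib.Forms.TensorOrthLocate
import Cfsg.Agent.Lib.Forms.TensorOrthReduce

/-!
The stabiliser of a symplectic tensor decomposition of an orthogonal space is maximal in Ω.
-/

set_option autoImplicit false

namespace Cfsg.Agent.Lib.Forms.TProd

open Matrix Kronecker QuadraticMap Cfsg.Agent.Lib.Forms Cfsg.Geo

variable {F : Type*} [Field F] [Fintype F] {m k : ℕ}

namespace OT

variable (T : OT F m k)

/-- Ω is larger. -/
lemma exists_not_mem (hm : 2 ≤ m) (hk : 5 ≤ k) : ∃ g ∈ omegaGL ⇑T.Q, g ∉ T.grp := by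
  classical
  have hn : 7 ≤ m * k := le_trans (by norm_num) (Nat.mul_le_mul hm hk)
  set a : Fin m → F := Pi.single ⟨0, by omega⟩ 1 with ha'
  set c : Fin k → F := Pi.single ⟨0, by omega⟩ 1 with hc'
  have ha : a ≠ 0 := fun h => by simpa [ha'] using congrFun h ⟨0, by omega⟩
  have hc : c ≠ 0 := fun h => by simpa [hc'] using congrFun h ⟨0, by omega⟩
  obtain ⟨a', haa'⟩ := exists_one T.hfN ha
  obtain ⟨e, he', heS⟩ := exists_perp_not_mem (B := T.g) ![c] (Submodule.span F {c}) (by
    rw [finrank_span_singleton hc, Fintype.card_fin]; omega)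
  have hec : T.g e c = 0 := he' 0
  have hce : T.g c e = 0 := by rw [T.g_flip, hec, neg_zero]
  have he0 : e ≠ 0 := fun h => heS (by rw [h]; exact zero_mem _)
  obtain ⟨d, hcd, hd⟩ := exists_one_perp_span T.hgN (S := Submodule.span F {e}) (x := c) fun h => by
    obtain ⟨t, ht⟩ := Submodule.mem_span_singleton.1 h
    rcases eq_or_ne t 0 with rfl | ht0
    · exact hc (by rw [← ht, zero_smul])
    · exact heS (Submodule.mem_span_singleton.2 ⟨t⁻¹, by rw [← ht, inv_smul_smul₀ ht0]⟩)
  have hed : T.g e d = 0 := hd e (Submodule.mem_span_singleton_self e)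
  have hL : T.f a a * T.g c e = 0 := by rw [hce, mul_zero]
  refine ⟨sg T.Q (vt a c) (vt a e), T.sg_vt_omega hn hL, fun hmem => ?_⟩
  set g₀ := sg T.Q (vt a c) (vt a e) with hg
  obtain ⟨p, hpc⟩ := CharP.exists F
  haveI : Fact p.Prime := ⟨CharP.char_is_prime F p⟩
  obtain ⟨A, B, hAB⟩ := mem_kronecker.1 hmem.1
  have L := T.longPair a a c e hL
  have hpow : g₀ ^ p ^ 1 = 1 := by
    have hj : ∀ j : ℕ, g₀ ^ j = sg T.Q (vt a c) ((j : F) • vt a e) := by
      intro j
      induction j with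
      | zero => rw [pow_zero, Nat.cast_zero, zero_smul, sg_zero L.x0]
      | succ j ih =>
        rw [pow_succ, ih, Nat.cast_succ, add_smul, one_smul, sg_add L.x0 (by
          rw [polar_smul_right, L.xu, smul_zero]) L.xu]
    rw [pow_one, hj, CharP.cast_eq_zero F p, zero_smul, sg_zero L.x0]
  obtain ⟨A', B', hAB', hA', -⟩ := split_p (⟨0, by omega⟩ : Fin m) (⟨0, by omega⟩ : Fin k) (hAB ▸ hpow)
  set E := Matrix.toLin' (g₀ : Matrix (Fin m × Fin k) (Fin m × Fin k) F) - LinearMap.id with hE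
  have hE1 : ∀ X, E X = (T.c₀ * T.f (T.rL c X) a) • vt a e - (T.c₀ * T.f (T.rL e X) a) • vt a c :=
    fun X => by
      rw [hE, LinearMap.sub_apply, LinearMap.id_apply, Matrix.toLin'_apply, hg, T.sg_vt_mulVec hL]
      abel
  have hrk : Module.finrank F (LinearMap.range E) ≤ 2 := by
    refine (Submodule.finrank_mono (show LinearMap.range E ≤
      Submodule.span F (Set.range ![vt a e, vt a c]) from ?_)).trans
      ((finrank_range_le_card _).trans (by simp))
    rintro _ ⟨X, rfl⟩
    rw [hE1]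
    exact sub_mem (Submodule.smul_mem _ _ (Submodule.subset_span ⟨0, rfl⟩))
      (Submodule.smul_mem _ _ (Submodule.subset_span ⟨1, rfl⟩))
  have hA1 : A' = 1 := by
    by_contra h
    have := le_rk B' hA' h
    rw [← hAB', ← hAB] at this
    have : k ≤ Module.finrank F (LinearMap.range E) := this
    omega
  have hsB : ∀ b z, E (vt b z) = vt b ((B' : Matrix (Fin k) (Fin k) F) *ᵥ z - z) := fun b z => by
    rw [hE, LinearMap.sub_apply, LinearMap.id_apply, Matrix.toLin'_apply, hAB, hAB', hA1, kr_vt,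
      Units.val_one, one_mulVec]
    funext q
    simp only [vt, Pi.sub_apply]
    ring
  -- the image of `vt a' d`
  set u := (B' : Matrix (Fin k) (Fin k) F) *ᵥ d - d
  have e1 := hE1 (vt a' d)
  rw [hsB, T.rL_vt, T.rL_vt, T.g_flip d c, hcd, T.g_flip d e, hed, neg_zero, zero_smul, map_zero,
    LinearMap.zero_apply, mul_zero, zero_smul, sub_zero, map_smul, LinearMap.smul_apply,
    T.f_flip a' a, haa', smul_eq_mul, neg_one_mul, neg_neg, mul_one] at e1
  have e2 := congrArg (T.rR a) e1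
  rw [map_smul, T.rR_vt, T.rR_vt, T.hfA.self_eq_zero, zero_smul, smul_zero, T.f_flip a' a, haa',
    neg_one_smul, neg_eq_zero] at e2
  change u = 0 at e2
  rw [show (B' : Matrix (Fin k) (Fin k) F) *ᵥ d - d = 0 from e2, vt_zero_right] at e1
  rcases vt_eq_zero ((smul_eq_zero.1 e1.symm).resolve_left T.c₀_ne) with h | h
  · exact ha h
  · exact he0 h

/-- The product group is maximal in Ω. -/
theorem grp_isMaximal (hm : 2 ≤ m) (hmk : m < k) (hn : 13 ≤ m * k) (heven : Even m)
    (hex : ¬ (Fintype.card F = 2 ∧ m = 2)) :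
    Cfsg.Geo.IsMaximalIn (omegaGL ⇑T.Q) T.grp := by
  classical
  have hk5 : 5 ≤ k := by
    by_contra h
    have : m * k ≤ 3 * 4 := Nat.mul_le_mul (by omega) (by omega)
    omega
  refine isMaximalIn_of inf_le_right ?_ fun M hHM hMG g hg hgH => ?_
  · exact T.exists_not_mem hm hk5
  obtain ⟨y, hy, hyH, c, hc, hstab⟩ := exists_locate (by omega) hmk hHM hMG hg hgH
  obtain ⟨d, hcd⟩ := exists_one T.hgN hc
  obtain ⟨r, hr, hrH, R⟩ := exists_rad (by omega) (by omega) (by omega) hHM hMG hy hyH hcd hstab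
  exact omega_le_of_diag (by omega) hk5 hMG
    (diag_of_rad (by omega) hm hk5 heven hex hHM hMG hr hrH hcd R)

end OT

end Cfsg.Agent.Lib.Forms.TProd
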