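import Cfsg.Agent.Lib.Forms.TensorOrthGen

/-!
One long root element on two pure vectors with a common left factor gives all of them; a product of
two long root elements gives one.
-/

set_option autoImplicit false

namespace Cfsg.Agent.Lib.Forms.TProd

open Matrix Kronecker QuadraticMap Cfsg.Agent.Lib.Forms Cfsg.Geo

variable {F : Type*} [Field F] [Fintype F] {m k : ℕ}

namespace OT

variable {T : OT F m k} {M : Subgroup (GL (Fin m × Fin k) F)}

omit [Fintype F] in
lemma sg_add_left {x x' u : Fin m × Fin k → F} (L : LongPair T.Q x u) (L' : LongPair T.Q x' u)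
    (hx : polar T.Q x x' = 0) : sg T.Q (x + x') u = sg T.Q x' u * sg T.Q x u := by
  have hs : LongPair T.Q u (x + x') :=
    ⟨L.u0, by rw [QuadraticMap.map_add ⇑T.Q, L.x0, L'.x0, hx, add_zero, add_zero],
      by rw [polar_add_right, L.symm.xu, L'.symm.xu, add_zero]⟩
  rw [hs.swap, sg_add L.u0 L.symm.xu L'.symm.xu, _root_.mul_inv_rev, ← L.symm.swap,
    ← L'.symm.swap]

omit [Fintype F] in
/-- Conjugation by a transvection of the left factor. -/
lemma conj_mem {s : GL (Fin m × Fin k) F} (hHM : T.grp ≤ M) (hs : s ∈ M)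
    {h : GL (Fin m × Fin k) F} (hh : h ∈ T.grp) : h * s * h⁻¹ ∈ M :=
  M.mul_mem (M.mul_mem (hHM hh) hs) (M.inv_mem (hHM hh))

/-- One pair gives all pairs. -/
theorem diag_of_one (hn : 7 ≤ m * k) (hHM : T.grp ≤ M) {a : Fin m → F} {c e : Fin k → F}
    (ha : a ≠ 0) (hc : c ≠ 0) (hce : T.g c e = 0) (he : e ∉ Submodule.span F {c})
    (h : sg T.Q (vt a c) (vt a e) ∈ M) : T.Diag M := by
  intro s α β hαβ
  rcases eq_or_ne (vt s α) 0 with h0 | h0
  · rw [h0]
    have : sg T.Q 0 (vt s β) = 1 := gl_ext fun v => by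
      simp [sg_mulVec (map_zero T.Q) (polar_zero_left _ _ : polar T.Q 0 (vt s β) = 0), polar_zero_right]
    rw [this]; exact one_mem _
  have hs : s ≠ 0 := fun e => h0 (by rw [e, vt_zero_left])
  have hα : α ≠ 0 := fun e => h0 (by rw [e, vt_zero_right])
  by_cases hβ : β ∈ Submodule.span F {α}
  · obtain ⟨t, rfl⟩ := Submodule.mem_span_singleton.1 hβ
    have : sg T.Q (vt s α) (vt s (t • α)) = 1 := gl_ext fun X => by
      rw [(T.longPair s s α (t • α) (by rw [T.hfA.self_eq_zero, zero_mul])).mulVec, vt_smul_right,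
        polar_smul_right, Units.val_one, one_mulVec]
      module
    rw [this]; exact one_mem _
  obtain ⟨A, hA, hAa⟩ := exists_iso_move T.hfA T.hfN ha hs
  obtain ⟨B, hB, hBc, hBe⟩ := exists_iso_perp T.hgA T.hgN hce hαβ hc hα he hβ
  have := conj_mem hHM h (T.kr_mem_grp hn hA hB)
  rwa [T.sg_kr_conj hA hB (by rw [T.hfA.self_eq_zero, zero_mul]), hAa, hBc, hBe] at this

/-- A symmetrised pair gives a single one. -/
theorem diag_of_two (hn : 7 ≤ m * k) (hk : 5 ≤ k) (hHM : T.grp ≤ M) {a w : Fin m → F}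
    {c e : Fin k → F} (ha : a ≠ 0) (haw : T.f a w = 0) (hw : w ∉ Submodule.span F {a})
    (hc : c ≠ 0) (hce : T.g c e = 0) (he : e ∉ Submodule.span F {c})
    (h : sg T.Q (vt a c) (vt w e) * sg T.Q (vt a e) (vt w c) ∈ M) : T.Diag M := by
  classical
  have hec : T.g e c = 0 := by rw [T.g_flip, hce, neg_zero]
  -- the right configuration
  obtain ⟨u, heu, hcu'⟩ := exists_one_perp_span T.hgN he
  have hcu : T.g c u = 0 := hcu' c (Submodule.mem_span_singleton_self c)
  obtain ⟨v, hv, hvc⟩ := exists_perp_not_mem (B := T.g) ![c, e, u] (Submodule.span F {c}) (by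
    rw [finrank_span_singleton hc, Fintype.card_fin]; omega)
  have hvc' : T.g v c = 0 := hv 0
  have hve : T.g v e = 0 := hv 1
  have hvu : T.g v u = 0 := hv 2
  have hcv : T.g c v = 0 := by rw [T.g_flip, hvc', neg_zero]
  have hev : T.g e v = 0 := by rw [T.g_flip, hve, neg_zero]
  have huv : T.g u v = 0 := by rw [T.g_flip, hvu, neg_zero]
  have hu0 : u ≠ 0 := fun h => by simp [h] at heu
  have hvu' : v ∉ Submodule.span F {u} := fun h => by
    obtain ⟨t, rfl⟩ := Submodule.mem_span_singleton.1 h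
    rw [map_smul, heu, smul_eq_mul, mul_one] at hev
    exact hvc (by rw [hev, zero_smul]; exact zero_mem _)
  -- the left configuration
  have hwa : T.f w a = 0 := by rw [T.f_flip, haw, neg_zero]
  have haW : a ∉ Submodule.span F {w} := fun h => by
    obtain ⟨t, ht⟩ := Submodule.mem_span_singleton.1 h
    rcases eq_or_ne t 0 with rfl | ht0
    · exact ha (by rw [← ht, zero_smul])
    · exact hw (Submodule.mem_span_singleton.2 ⟨t⁻¹, by rw [← ht, inv_smul_smul₀ ht0]⟩)
  obtain ⟨d, had, hwd'⟩ := exists_one_perp_span T.hfN haW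
  have hwd : T.f w d = 0 := hwd' w (Submodule.mem_span_singleton_self w)
  obtain ⟨w', hww', hw''⟩ := exists_one_perp_span T.hfN (S := Submodule.span F {a, d}) (x := w)
    fun h => by
      obtain ⟨x, y, rfl⟩ := Submodule.mem_span_pair.1 h
      simp [T.hfA.self_eq_zero, had] at haw
      exact hw (by rw [haw, zero_smul, add_zero]; exact Submodule.smul_mem _ _ (Submodule.mem_span_singleton_self a))
  have haw' : T.f a w' = 0 := hw'' a (Submodule.subset_span (by simp))
  have hdw' : T.f d w' = 0 := hw'' d (Submodule.subset_span (by simp))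
  have hw'a : T.f w' a = 0 := by rw [T.f_flip, haw', neg_zero]
  have hd0 : d ≠ 0 := fun h => by simp [h] at had
  have hw'd : w' ∉ Submodule.span F {d} := fun h => by
    obtain ⟨t, rfl⟩ := Submodule.mem_span_singleton.1 h
    simp [hwd] at hww'
  obtain ⟨A, hA, hAa, hAw⟩ := exists_iso_perp T.hfA T.hfN haw hdw' ha hd0 hw hw'd
  obtain ⟨B, hB, hBc, hBe⟩ := exists_iso_perp T.hgA T.hgN hce huv hc hu0 he hvu'
  -- the second element
  have hR' := conj_mem hHM h (T.kr_mem_grp hn hA hB)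
  rw [← conj_mul, T.sg_kr_conj hA hB (by rw [haw, zero_mul]),
    T.sg_kr_conj hA hB (by rw [haw, zero_mul]), hAa, hAw, hBc, hBe] at hR'
  set R' := sg T.Q (vt d u) (vt w' v) * sg T.Q (vt d v) (vt w' u) with hR'def
  have hi : ∀ X, T.Q ((R' : Matrix (Fin m × Fin k) (Fin m × Fin k) F) *ᵥ X) = T.Q X := fun X => by
    rw [hR'def, mul_mulVec', sg_isometry, sg_isometry]
  have l1 : T.f d w' * T.g u v = 0 := by rw [hdw', zero_mul]
  have l2 : T.f d w' * T.g v u = 0 := by rw [hdw', zero_mul]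
  have i1 : (R' : Matrix (Fin m × Fin k) (Fin m × Fin k) F) *ᵥ vt a c = vt a c := by
    rw [hR'def, mul_mulVec', T.sg_vt_mulVec l2, T.rL_vt, T.rL_vt, hcu, hcv]
    simp [T.sg_vt_mulVec l1, T.rL_vt, hcu, hcv]
  have i2 : (R' : Matrix (Fin m × Fin k) (Fin m × Fin k) F) *ᵥ vt w c = vt w c := by
    rw [hR'def, mul_mulVec', T.sg_vt_mulVec l2, T.rL_vt, T.rL_vt, hcu, hcv]
    simp [T.sg_vt_mulVec l1, T.rL_vt, hcu, hcv]
  have i3 : (R' : Matrix (Fin m × Fin k) (Fin m × Fin k) F) *ᵥ vt w e =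
      vt w e + vt (-T.c₀ • d) v := by
    rw [hR'def, mul_mulVec', T.sg_vt_mulVec l2, T.rL_vt, T.rL_vt, hev, heu]
    simp [T.sg_vt_mulVec l1, T.rL_vt, hev, heu, hvu, hwd, hww', vt_smul_left, T.hgA.self_eq_zero,
      sub_eq_add_neg]
    rw [← neg_smul, ← neg_smul, vt_smul_left]
  have i4 : (R' : Matrix (Fin m × Fin k) (Fin m × Fin k) F) *ᵥ vt a e =
      vt a e + vt (T.c₀ • w') v := by
    rw [hR'def, mul_mulVec', T.sg_vt_mulVec l2, T.rL_vt, T.rL_vt, hev, heu]
    simp [T.sg_vt_mulVec l1, T.rL_vt, hev, heu, hvu, had, haw', vt_smul_left]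
  have L₁ : T.f a w * T.g c e = 0 := by rw [haw, zero_mul]
  have L₂ : T.f a w * T.g e c = 0 := by rw [haw, zero_mul]
  have hm := mul_mem (mul_mem hR' h) (inv_mem hR')
  rw [← conj_mul, sg_conj hi (T.pure a c) (T.longPair a w c e L₁).xu,
    sg_conj hi (T.pure a e) (T.longPair a w e c L₂).xu, i1, i2, i3, i4,
    sg_add (T.pure a c) (T.longPair a w c e L₁).xu
      (T.longPair a (-T.c₀ • d) c v (by rw [hcv, mul_zero])).xu,
    sg_add_left (T.longPair a w e c L₂) (T.longPair _ w v c (by rw [hvc', mul_zero]))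
      (T.longPair a _ e v (by rw [hev, mul_zero])).xu] at hm
  set T₁ := sg T.Q (vt a c) (vt (-T.c₀ • d) v) with hT₁
  set T₂ := sg T.Q (vt (T.c₀ • w') v) (vt w c) with hT₂
  set R₁ := sg T.Q (vt a c) (vt w e)
  set R₂ := sg T.Q (vt a e) (vt w c)
  have c1 : T₁ * R₂ = R₂ * T₁ := sg_comm (T.longPair a _ c v (by rw [hcv, mul_zero]))
    (T.longPair a w e c L₂) (by rw [T.pair, T.hfA.self_eq_zero]; ring)
    (by rw [T.pair, hwa]; ring) (by rw [T.pair, hev]; ring) (by rw [T.pair, hcv]; ring)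
  have c2 : T₂ * R₂ = R₂ * T₂ := sg_comm (T.longPair _ w v c (by rw [hvc', mul_zero]))
    (T.longPair a w e c L₂) (by rw [T.pair, hev]; ring) (by rw [T.pair, hcv]; ring)
    (by rw [T.pair, hec]; ring) (by rw [T.pair, T.hgA.self_eq_zero]; ring)
  have hT : T₁ * T₂ ∈ M := by
    refine (M.mul_mem_cancel_left h).1 ?_
    rw [show R₁ * R₂ * (T₁ * T₂) = R₁ * T₁ * (T₂ * R₂) by
      rw [c2, mul_assoc R₁, ← mul_assoc R₂, ← c1]; simp only [mul_assoc]]
    exact hm
  -- move `d` by a left transvection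
  have hm2 := conj_mem hHM hT (T.left_transvection_mem hn a 1)
  have hsd : (sympT T.f a 1 : Matrix (Fin m) (Fin m) F) *ᵥ (-T.c₀ • d) = -T.c₀ • d + T.c₀ • a := by
    rw [sympT_mulVec T.hfA, one_mul, map_smul, LinearMap.smul_apply, T.f_flip d a, had, smul_eq_mul]
    module
  have hsa : (sympT T.f a 1 : Matrix (Fin m) (Fin m) F) *ᵥ a = a := by
    simp [sympT_mulVec T.hfA, T.hfA.self_eq_zero]
  have hsw : (sympT T.f a 1 : Matrix (Fin m) (Fin m) F) *ᵥ w = w := by
    simp [sympT_mulVec T.hfA, hwa]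
  have hsw' : (sympT T.f a 1 : Matrix (Fin m) (Fin m) F) *ᵥ (T.c₀ • w') = T.c₀ • w' := by
    simp [sympT_mulVec T.hfA, hw'a]
  rw [← conj_mul, hT₁, hT₂, T.sg_kr_conj (sympT_mem T.hfA a 1) (one_mem _) (by rw [hcv, mul_zero]),
    T.sg_kr_conj (sympT_mem T.hfA a 1) (one_mem _) (by rw [hvc', mul_zero]), Units.val_one,
    one_mulVec, one_mulVec, hsd, hsa, hsw, hsw', vt_add_left,
    sg_add (T.pure a c) (T.longPair a _ c v (by rw [hcv, mul_zero])).xu
      (T.longPair a _ c v (by rw [hcv, mul_zero])).xu, ← hT₁, ← hT₂] at hm2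
  set U := sg T.Q (vt a c) (vt (T.c₀ • a) v) with hU
  have c3 : U * T₂ = T₂ * U := sg_comm (T.longPair a _ c v (by rw [hcv, mul_zero]))
    (T.longPair _ w v c (by rw [hvc', mul_zero])) (by rw [T.pair, hvc']; ring)
    (by rw [T.pair, T.hgA.self_eq_zero]; ring) (by rw [T.pair, T.hgA.self_eq_zero]; ring)
    (by rw [T.pair, hcv]; ring)
  rw [mul_assoc, c3, ← mul_assoc] at hm2
  have hUM : U ∈ M := (M.mul_mem_cancel_left hT).1 hm2
  refine diag_of_one hn hHM ha hc (e := T.c₀ • v) (by rw [map_smul, hcv, smul_zero])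
    (fun hh => hvc ((Submodule.smul_mem_iff _ T.c₀_ne).1 hh)) ?_
  rwa [vt_smul_right, ← vt_smul_left]

end OT

end Cfsg.Agent.Lib.Forms.TProd
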