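import Cfsg.Agent.Lib.Forms.TensorPowerOver
import Cfsg.Agent.Lib.Forms.TensorFrameMain

/-!
Root data of a symplectic factor of rank two or four in characteristic two.
-/

set_option autoImplicit false

namespace Cfsg.Agent.Lib.Forms

open Matrix Cfsg.Geo

variable {F : Type*} [Field F] {k : ℕ}

/-- The matrix of `x ↦ f(x,u) v + f(x,v) u`. -/
noncomputable def pairMat {f : (Fin k → F) → (Fin k → F) → F} (S : Sesq (RingHom.id F) f)
    (u v : Fin k → F) : Matrix (Fin k) (Fin k) F :=
  LinearMap.toMatrix' ({ toFun := fun x => f x u • v + f x v • u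
                         map_add' := fun x y => by rw [S.add_left, S.add_left]; module
                         map_smul' := fun c x => by
                           rw [S.smul_left, S.smul_left, RingHom.id_apply]; module } :
    (Fin k → F) →ₗ[F] (Fin k → F))

lemma pairMat_mulVec {f : (Fin k → F) → (Fin k → F) → F} (S : Sesq (RingHom.id F) f)
    (u v x : Fin k → F) : pairMat S u v *ᵥ x = f x u • v + f x v • u := by
  simp [pairMat, LinearMap.toMatrix'_mulVec]

/-- The matrix of `x ↦ f(x,u) u`. -/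
noncomputable def selfMat {f : (Fin k → F) → (Fin k → F) → F} (S : Sesq (RingHom.id F) f)
    (u : Fin k → F) : Matrix (Fin k) (Fin k) F :=
  LinearMap.toMatrix' ({ toFun := fun x => f x u • u
                         map_add' := fun x y => by rw [S.add_left]; module
                         map_smul' := fun c x => by
                           rw [S.smul_left, RingHom.id_apply]; module } :
    (Fin k → F) →ₗ[F] (Fin k → F))

lemma selfMat_mulVec {f : (Fin k → F) → (Fin k → F) → F} (S : Sesq (RingHom.id F) f)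
    (u x : Fin k → F) : selfMat S u *ᵥ x = f x u • u := by
  simp [selfMat, LinearMap.toMatrix'_mulVec]

variable [CharP F 2] {f : (Fin k → F) → (Fin k → F) → F}

lemma symm_of_alt (hf : IsSymplecticForm f) (x y : Fin k → F) : f x y = f y x := by
  have h2 : (2 : F) = 0 := CharP.cast_eq_zero F 2
  rw [hf.skew]; linear_combination (-(f y x)) * h2

/-- Root data for rank two. -/
theorem exists_rootData_two (hk : k = 2) (hf : IsSymplecticForm f) :
    ∃ (e d : Fin k → F) (R : Set (Matrix (Fin k) (Fin k) F)) (E : Matrix (Fin k) (Fin k) F)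
      (h : GL (Fin k) F), f e d = 1 ∧ RootData f R E h ∧ (∀ x, E *ᵥ x = f x e • e) := by
  subst hk
  have S : Sesq (RingHom.id F) f :=
    ⟨hf.bilinear.add_left, hf.bilinear.smul_left, hf.bilinear.add_right, hf.bilinear.smul_right⟩
  have h2 : (2 : F) = 0 := CharP.cast_eq_zero F 2
  have hsymm := symm_of_alt hf
  have hsep : ∀ x, (∀ y, f x y = 0) → x = 0 := fun x hx => by
    by_contra h0; obtain ⟨y, hy⟩ := (hf.nondegenerate x h0).2; exact hy (hx y)
  set e : Fin 2 → F := Pi.single 0 1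
  have he0 : e ≠ 0 := by simp [e]
  obtain ⟨d', hd'⟩ := (hf.nondegenerate e he0).2
  obtain ⟨d, hed⟩ : ∃ d, f e d = 1 :=
    ⟨(f e d')⁻¹ • d', by rw [S.smul_right, RingHom.id_apply, inv_mul_cancel₀ hd']⟩
  obtain ⟨h, hh, hhx⟩ := exists_alt_transv S hsep hf.skew hf.alternating (e + d)
  set E := selfMat S e with hE
  have hEx : ∀ x, E *ᵥ x = f x e • e := selfMat_mulVec S e
  refine ⟨e, d, {A | A.trace = 0}, E, h, hed, ?_, hEx⟩
  have htr : E.trace = 0 := by
    have h0 := hf.alternating e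
    have hsum : e = e 0 • Pi.single 0 1 + e 1 • Pi.single 1 1 := by
      funext i; fin_cases i <;> simp
    conv at h0 => lhs; arg 1; rw [hsum]
    rw [S.add_left, S.smul_left, S.smul_left] at h0
    rw [Matrix.trace, Fin.sum_univ_two]
    have hdiag : ∀ a, E a a = f (Pi.single a 1) e * e a := fun a => by
      have := congrFun (hEx (Pi.single a 1)) a
      simpa using this
    simp only [Matrix.diag, hdiag]
    linear_combination h0
  refine ⟨fun a μ _ _ A hA => ?_, htr, Matrix.ext_iff_mulVec.2 fun x => ?_, fun u v => ?_,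
    fun A hA => ?_, hh, ?_⟩
  · show Matrix.trace _ = 0
    rw [Matrix.trace_units_conj]; exact hA
  · rw [← mulVec_mulVec, hEx, hEx, S.smul_left, hf.alternating, mul_zero, zero_smul, zero_mulVec]
  · rw [hEx, hEx, S.smul_left, S.smul_right, RingHom.id_apply, hsymm e v]; ring
  · have hA' : A 0 0 + A 1 1 = 0 := by simpa [Matrix.trace, Fin.sum_univ_two] using hA
    have hE' : E 0 0 + E 1 1 = 0 := by simpa [Matrix.trace, Fin.sum_univ_two] using htr
    refine ⟨E 0 1 * A 1 0 + A 0 1 * E 1 0, ?_⟩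
    ext a b
    fin_cases a <;> fin_cases b <;>
      simp [Matrix.mul_apply, Fin.sum_univ_two]
    · linear_combination (E 0 0 * A 0 0) * h2
    · linear_combination A 0 1 * hE' + E 0 1 * hA'
    · linear_combination A 1 0 * hE' + E 1 0 * hA'
    · linear_combination (E 1 1 * A 1 1) * h2
  · refine ⟨e, ?_⟩
    have hhe : (h : Matrix (Fin 2) (Fin 2) F) *ᵥ e = d := by
      rw [hhx, S.add_right, hf.alternating, hed, zero_add, one_smul, ← add_assoc, ← two_smul F, h2,
        zero_smul, zero_add]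
    have hconj : ((h : Matrix (Fin 2) (Fin 2) F) * E * (h⁻¹ : GL (Fin 2) F).val + E) *ᵥ e = d := by
      rw [add_mulVec, ← mulVec_mulVec, ← mulVec_mulVec, hEx, hEx, hf.alternating, zero_smul, add_zero,
        mulVec_smul, ← hh, mulVec_mulVec, ← Units.val_mul, mul_inv_cancel, Units.val_one, one_mulVec,
        hhe, hed, one_smul]
    rw [hconj, LinearIndependent.pair_iff]
    intro a b hab
    have h1 := congrArg (fun x => f x d) hab
    have h3 := congrArg (fun x => f x e) hab
    simp only [S.add_left, S.smul_left, S.zero_left, hf.alternating, hed, hsymm d e] at h1 h3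
    exact ⟨by linear_combination h1, by linear_combination h3⟩

/-- A symplectic basis of four vectors, from rank three on. -/
theorem exists_four (hk : 3 ≤ k) (hf : IsSymplecticForm f) :
    ∃ e₁ e₂ d₁ d₂ : Fin k → F, LinearIndependent F ![e₁, e₂, d₁, d₂] ∧ f e₁ d₁ = 1 ∧ f e₂ d₂ = 1 ∧
      f e₁ e₂ = 0 ∧ f e₁ d₂ = 0 ∧ f d₁ e₂ = 0 ∧ f d₁ d₂ = 0 := by
  have S : Sesq (RingHom.id F) f :=
    ⟨hf.bilinear.add_left, hf.bilinear.smul_left, hf.bilinear.add_right, hf.bilinear.smul_right⟩
  have h2 : (2 : F) = 0 := CharP.cast_eq_zero F 2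
  have hsymm := symm_of_alt hf
  set e : Fin k → F := Pi.single ⟨0, by omega⟩ 1
  have he0 : e ≠ 0 := by simp [e]
  obtain ⟨d', hd'⟩ := (hf.nondegenerate e he0).2
  obtain ⟨d, hed⟩ : ∃ d, f e d = 1 :=
    ⟨(f e d')⁻¹ • d', by rw [S.smul_right, RingHom.id_apply, inv_mul_cancel₀ hd']⟩
  obtain ⟨z, hz⟩ : ∃ z, z ∉ Submodule.span F (Set.range ![e, d]) := by
    by_contra hcon
    push Not at hcon
    have := Submodule.finrank_mono (show (⊤ : Submodule F (Fin k → F)) ≤
      Submodule.span F (Set.range ![e, d]) from fun x _ => hcon x)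
    have hle := this.trans (finrank_range_le_card _)
    simp at hle
    omega
  set e₂ := z + f z d • e + f z e • d with he₂
  have a1 : f e e₂ = 0 := by
    rw [he₂, S.add_right, S.add_right, S.smul_right, S.smul_right, RingHom.id_apply, RingHom.id_apply,
      hf.alternating, hed, hsymm z e]
    linear_combination (f e z) * h2
  have a2 : f d e₂ = 0 := by
    rw [he₂, S.add_right, S.add_right, S.smul_right, S.smul_right, RingHom.id_apply, RingHom.id_apply,
      hf.alternating, hsymm d e, hed, hsymm z d]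
    linear_combination (f d z) * h2
  have he₂0 : e₂ ≠ 0 := fun h0 => hz (by
    have hz' : z = -(f z d • e) - f z e • d := by linear_combination (norm := module) h0
    rw [hz']
    exact sub_mem (neg_mem (Submodule.smul_mem _ _ (Submodule.subset_span ⟨0, rfl⟩)))
      (Submodule.smul_mem _ _ (Submodule.subset_span ⟨1, rfl⟩)))
  obtain ⟨w', hw'⟩ := (hf.nondegenerate e₂ he₂0).2
  obtain ⟨w, hw⟩ : ∃ w, f e₂ w = 1 :=
    ⟨(f e₂ w')⁻¹ • w', by rw [S.smul_right, RingHom.id_apply, inv_mul_cancel₀ hw']⟩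
  set d₂ := w + f w d • e + f w e • d with hd₂
  have b1 : f e d₂ = 0 := by
    rw [hd₂, S.add_right, S.add_right, S.smul_right, S.smul_right, RingHom.id_apply, RingHom.id_apply,
      hf.alternating, hed, hsymm w e]
    linear_combination (f e w) * h2
  have b2 : f d d₂ = 0 := by
    rw [hd₂, S.add_right, S.add_right, S.smul_right, S.smul_right, RingHom.id_apply, RingHom.id_apply,
      hf.alternating, hsymm d e, hed, hsymm w d]
    linear_combination (f d w) * h2
  have b3 : f e₂ d₂ = 1 := by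
    rw [hd₂, S.add_right, S.add_right, S.smul_right, S.smul_right, hw, hsymm e₂ e, hsymm e₂ d, a1, a2]
    simp
  refine ⟨e, e₂, d, d₂, ?_, hed, b3, a1, b1, a2, b2⟩
  rw [Fintype.linearIndependent_iff]
  intro g hg
  simp only [Fin.sum_univ_four, cons_val_zero, cons_val_one, cons_val_two, cons_val_three, head_cons,
    tail_cons] at hg
  have c := fun y => congrArg (fun x => f x y) hg
  have c0 := c d; have c1 := c d₂; have c2 := c e; have c3 := c e₂
  simp [S.add_left, S.smul_left, S.zero_left, hf.alternating, hed, b3, a1, b1, a2, b2,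
    hsymm e₂ e, hsymm e₂ d, hsymm d₂ e, hsymm d₂ d, hsymm d e, hsymm d₂ e₂] at c0 c1 c2 c3
  intro i; fin_cases i <;> assumption

lemma eq_four (hk : 3 ≤ k) (hk4 : k ≤ 4) (hf : IsSymplecticForm f) : k = 4 := by
  obtain ⟨e₁, e₂, d₁, d₂, hli, -⟩ := exists_four hk hf
  have := hli.fintype_card_le_finrank
  simp at this
  omega

/-- Root data for rank four. -/
theorem exists_rootData_four (hk : k = 4) (hf : IsSymplecticForm f) :
    ∃ (e₁ e₂ d₁ d₂ : Fin k → F) (R : Set (Matrix (Fin k) (Fin k) F))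
      (E : Matrix (Fin k) (Fin k) F) (h : GL (Fin k) F), f e₁ d₁ = 1 ∧ f e₂ d₂ = 1 ∧
      f e₁ e₂ = 0 ∧ f e₁ d₂ = 0 ∧ f d₁ e₂ = 0 ∧ f d₁ d₂ = 0 ∧ RootData f R E h ∧
      (∀ x, E *ᵥ x = f x e₁ • e₂ + f x e₂ • e₁) := by
  obtain ⟨e₁, e₂, d₁, d₂, hli, p1, p2, p3, p4, p5, p6⟩ := exists_four (by omega) hf
  have S : Sesq (RingHom.id F) f :=
    ⟨hf.bilinear.add_left, hf.bilinear.smul_left, hf.bilinear.add_right, hf.bilinear.smul_right⟩
  have h2 : (2 : F) = 0 := CharP.cast_eq_zero F 2
  have hsymm := symm_of_alt hf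
  have hsep : ∀ x, (∀ y, f x y = 0) → x = 0 := fun x hx => by
    by_contra h0; obtain ⟨y, hy⟩ := (hf.nondegenerate x h0).2; exact hy (hx y)
  have hexp : ∀ a, a = f a d₁ • e₁ + f a d₂ • e₂ + f a e₁ • d₁ + f a e₂ • d₂ := by
    intro a
    have hsp : Submodule.span F (Set.range ![e₁, e₂, d₁, d₂]) = ⊤ :=
      Submodule.eq_top_of_finrank_eq (by rw [finrank_span_eq_card hli]; simp [hk])
    obtain ⟨g, hg⟩ := (Submodule.mem_span_range_iff_exists_fun F).1
      (hsp ▸ Submodule.mem_top : a ∈ Submodule.span F (Set.range ![e₁, e₂, d₁, d₂]))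
    simp only [Fin.sum_univ_four, cons_val_zero, cons_val_one, cons_val_two, cons_val_three, head_cons,
      tail_cons] at hg
    simp [← hg, S.add_left, S.smul_left, hf.alternating, p1, p2, p3, p4, p5, p6,
      hsymm e₂ e₁, hsymm e₂ d₁, hsymm d₂ e₁, hsymm d₂ d₁, hsymm d₁ e₁, hsymm d₂ e₂]
  have hpar : ∀ a b, f a b = f a d₁ * f b e₁ + f a d₂ * f b e₂ + f a e₁ * f b d₁ + f a e₂ * f b d₂ := by
    intro a b
    conv_lhs => rw [hexp a]
    simp only [S.add_left, S.smul_left, hsymm e₁ b, hsymm e₂ b, hsymm d₁ b, hsymm d₂ b]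
  set E := pairMat S e₁ e₂ with hE
  have hEx : ∀ x, E *ᵥ x = f x e₁ • e₂ + f x e₂ • e₁ := pairMat_mulVec S e₁ e₂
  obtain ⟨h, hh, hhx⟩ := exists_alt_transv S hsep hf.skew hf.alternating (e₁ + d₁)
  refine ⟨e₁, e₂, d₁, d₂, {A | ∃ u v, f u v = 0 ∧ ∀ x, A *ᵥ x = f x u • v + f x v • u}, E, h,
    p1, p2, p3, p4, p5, p6, ⟨?_, ⟨e₁, e₂, p3, hEx⟩, ?_, ?_, ?_, hh, ?_⟩, hEx⟩
  · rintro a μ hμ ha A ⟨u, v, huv, hA⟩
    refine ⟨μ⁻¹ • ((a : Matrix (Fin k) (Fin k) F) *ᵥ u), (a : Matrix (Fin k) (Fin k) F) *ᵥ v, ?_, fun x => ?_⟩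
    · rw [S.smul_left, ha, huv, mul_zero, mul_zero]
    · obtain ⟨y, rfl⟩ : ∃ y, (a : Matrix (Fin k) (Fin k) F) *ᵥ y = x :=
        ⟨(a⁻¹ : GL (Fin k) F).val *ᵥ x, by
          rw [mulVec_mulVec, ← Units.val_mul, mul_inv_cancel, Units.val_one, one_mulVec]⟩
      rw [mulVec_mulVec, mul_assoc, ← Units.val_mul, inv_mul_cancel, Units.val_one, mul_one,
        ← mulVec_mulVec, hA, mulVec_add, mulVec_smul, mulVec_smul, S.smul_right, RingHom.id_apply, ha, ha,
        smul_smul, inv_mul_cancel_left₀ hμ, mul_comm μ (f y v), mul_assoc, mul_inv_cancel₀ hμ, mul_one]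
  · refine Matrix.ext_iff_mulVec.2 fun x => ?_
    rw [← mulVec_mulVec, hEx, hEx]
    simp [S.add_left, S.smul_left, hf.alternating, p3, hsymm e₂ e₁]
  · intro u v
    rw [hEx, hEx, S.add_left, S.smul_left, S.smul_left, S.add_right, S.smul_right, S.smul_right,
      RingHom.id_apply, RingHom.id_apply, hsymm e₂ v, hsymm e₁ v]
    ring
  · rintro A ⟨u, v, huv, hA⟩
    refine ⟨f u e₁ * f v e₂ + f u e₂ * f v e₁, Matrix.ext_iff_mulVec.2 fun x => sub_eq_zero.1 (hsep _ fun y => ?_)⟩
    rw [add_mulVec, ← mulVec_mulVec, ← mulVec_mulVec, Matrix.smul_mulVec, one_mulVec, hA, hEx, hA, hEx]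
    simp only [sub_eq_add_neg, ← neg_smul, S.add_left, S.smul_left]
    rw [hpar u v] at huv
    rw [hsymm e₁ u, hsymm e₂ u, hsymm e₁ v, hsymm e₂ v, hsymm e₁ y, hsymm e₂ y, hpar u y, hpar v y,
      hpar x u, hpar x v, hpar x y]
    linear_combination (norm := (ring_nf; simp [CharTwo.two_eq_zero]))
      (f x e₁ * f y e₂ + f x e₂ * f y e₁) * huv
  · refine ⟨e₁, ?_⟩
    have hhe : (h : Matrix (Fin k) (Fin k) F) *ᵥ e₁ = d₁ := by
      rw [hhx, S.add_right, hf.alternating, p1, zero_add, one_smul, ← add_assoc, ← two_smul F, h2,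
        zero_smul, zero_add]
    have hhe2 : (h : Matrix (Fin k) (Fin k) F) *ᵥ e₂ = e₂ := by
      rw [hhx, S.add_right, hsymm e₂ e₁, hsymm e₂ d₁, p3, p5, add_zero, zero_smul, add_zero]
    have hconj : ((h : Matrix (Fin k) (Fin k) F) * E * (h⁻¹ : GL (Fin k) F).val + E) *ᵥ e₁ = e₂ := by
      rw [add_mulVec, ← mulVec_mulVec, ← mulVec_mulVec, hEx, hEx, mulVec_add, mulVec_smul, mulVec_smul,
        ← hh _ e₁, ← hh _ e₂, mulVec_mulVec, ← Units.val_mul, mul_inv_cancel, Units.val_one, one_mulVec,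
        hhe, hhe2, p1, p3, hf.alternating]
      simp
    rw [hconj]
    rw [LinearIndependent.pair_iff]
    intro a b hab
    have h1 := congrArg (fun x => f x d₁) hab
    have h3 := congrArg (fun x => f x d₂) hab
    simp only [S.add_left, S.smul_left, S.zero_left, p1, p2, p4, hsymm e₂ d₁, p5] at h1 h3
    exact ⟨by linear_combination h1, by linear_combination h3⟩

end Cfsg.Agent.Lib.Forms
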