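import Cfsg.Agent.Lib.Forms.TensorFrameData
import Cfsg.Agent.Lib.Forms.OrthRoot
import Cfsg.Agent.Lib.Forms.QuadHyp

/-!
Tensor powers of a symplectic form in characteristic two: the stabiliser normalises the space spanned by the
one-factor operators of a small invariant set, and so does a further element of Ω.
-/

set_option autoImplicit false

namespace Cfsg.Agent.Lib.Forms

open Matrix Cfsg.Geo Cfsg.Agent.Lib.Classical.QuadOmega
open scoped commutatorElement

variable {F : Type*} [Field F] {ι : Type} [Fintype ι] [DecidableEq ι] {k t : ℕ}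

/-- The coordinate vector of a product. -/
def pureT (xs : Fin t → Fin k → F) : (Fin t → Fin k) → F := fun a => ∏ i, xs i (a i)

lemma pureT_update (xs : Fin t → Fin k → F) (i : Fin t) (u : Fin k → F) (a : Fin t → Fin k) :
    pureT (Function.update xs i u) a = u (a i) * ∏ l ∈ Finset.univ.erase i, xs l (a l) := by
  rw [pureT, ← Finset.mul_prod_erase _ _ (Finset.mem_univ i), Function.update_self]
  exact congrArg _ (Finset.prod_congr rfl fun l hl => by
    rw [Function.update_of_ne (Finset.ne_of_mem_erase hl)])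

lemma pureT_update_add (xs : Fin t → Fin k → F) (i : Fin t) (u v : Fin k → F) :
    pureT (Function.update xs i (u + v)) =
      pureT (Function.update xs i u) + pureT (Function.update xs i v) := by
  funext a; simp [pureT_update, add_mul]

lemma pureT_update_smul (xs : Fin t → Fin k → F) (i : Fin t) (c : F) (u : Fin k → F) :
    pureT (Function.update xs i (c • u)) = c • pureT (Function.update xs i u) := by
  funext a; simp [pureT_update, mul_assoc]

lemma pureT_update_zero (xs : Fin t → Fin k → F) (i : Fin t) :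
    pureT (Function.update xs i 0) = 0 := by
  funext a; simp [pureT_update]

lemma pureT_single (a : Fin t → Fin k) :
    pureT (fun i => Pi.single (a i) (1 : F)) = Pi.single a 1 := by
  funext b
  rcases eq_or_ne b a with rfl | h
  · simp [pureT]
  · obtain ⟨i, hi⟩ := Function.ne_iff.1 h
    rw [Pi.single_eq_of_ne h]
    exact Finset.prod_eq_zero (Finset.mem_univ i) (by simp [hi])

/-- Linear maps agreeing on products agree. -/
lemma pureT_ext {W : Type*} [AddCommGroup W] [Module F W] {f g : ((Fin t → Fin k) → F) →ₗ[F] W}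
    (h : ∀ xs, f (pureT xs) = g (pureT xs)) : f = g := by
  refine (Pi.basisFun F (Fin t → Fin k)).ext fun a => ?_
  rw [Pi.basisFun_apply, ← pureT_single]
  exact h _

/-- An operator in one factor. -/
def opT (i : Fin t) : Matrix (Fin k) (Fin k) F →ₗ[F] Module.End F ((Fin t → Fin k) → F) where
  toFun A :=
    { toFun := fun x a => ∑ b, A (a i) b * x (Function.update a i b)
      map_add' := fun x y => by funext a; simp [mul_add, Finset.sum_add_distrib]
      map_smul' := fun c x => by
        funext a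
        simp only [Pi.smul_apply, smul_eq_mul, RingHom.id_apply, Finset.mul_sum]
        exact Finset.sum_congr rfl fun b _ => by ring }
  map_add' A B := LinearMap.ext fun x => funext fun a => by
    simp [add_mul, Finset.sum_add_distrib]
  map_smul' c A := LinearMap.ext fun x => funext fun a => by
    simp [Finset.mul_sum, mul_assoc]

lemma opT_pure (i : Fin t) (A : Matrix (Fin k) (Fin k) F) (xs : Fin t → Fin k → F) :
    opT i A (pureT xs) = pureT (Function.update xs i (A *ᵥ xs i)) := by
  funext a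
  rw [pureT_update, Matrix.mulVec, dotProduct, Finset.sum_mul]
  show ∑ b, A (a i) b * pureT xs (Function.update a i b) = _
  refine Finset.sum_congr rfl fun b _ => ?_
  rw [mul_assoc, pureT, ← Finset.mul_prod_erase _ _ (Finset.mem_univ i), Function.update_self]
  congr 2
  exact Finset.prod_congr rfl fun l hl => by rw [Function.update_of_ne (Finset.ne_of_mem_erase hl)]

lemma opT_mul (i : Fin t) (A B : Matrix (Fin k) (Fin k) F) :
    opT i A * opT i B = opT i (A * B) := pureT_ext fun xs => by
  rw [Module.End.mul_apply, opT_pure, opT_pure, opT_pure, Function.update_self,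
    Function.update_idem, mulVec_mulVec]

lemma opT_comm {i j : Fin t} (hij : i ≠ j) (A B : Matrix (Fin k) (Fin k) F) :
    opT i A * opT j B = opT j B * opT i A := pureT_ext fun xs => by
  rw [Module.End.mul_apply, Module.End.mul_apply, opT_pure, opT_pure, opT_pure, opT_pure,
    Function.update_of_ne hij, Function.update_of_ne hij.symm, Function.update_comm hij]

lemma opT_one (i : Fin t) : opT i (1 : Matrix (Fin k) (Fin k) F) = 1 := pureT_ext fun xs => by
  rw [opT_pure, one_mulVec, Function.update_eq_self, Module.End.one_apply]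

/-- The span of the one-factor operators of `R`. -/
def opSpan (R : Set (Matrix (Fin k) (Fin k) F)) :
    Submodule F (Module.End F ((Fin t → Fin k) → F)) :=
  Submodule.span F {M | ∃ (i : Fin t), ∃ A ∈ R, M = opT i A}

/-- The elements normalising a space of operators. -/
noncomputable def opNorm {X : Type*} [AddCommGroup X] [Module F X] [FiniteDimensional F X]
    (c : GL ι F →* (Module.End F X)ˣ) (L : Submodule F (Module.End F X)) : Subgroup (GL ι F) where
  carrier := {g | L.map (LinearMap.mulLeftRight F ((c g : Module.End F X), ((c g)⁻¹ : _ˣ).val)) = L}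
  mul_mem' {a b} ha hb := by
    show Submodule.map _ L = L
    have e : LinearMap.mulLeftRight F ((c (a * b) : Module.End F X), ((c (a * b))⁻¹ : _ˣ).val) =
        LinearMap.mulLeftRight F ((c a : Module.End F X), ((c a)⁻¹ : _ˣ).val) ∘ₗ
          LinearMap.mulLeftRight F ((c b : Module.End F X), ((c b)⁻¹ : _ˣ).val) :=
      LinearMap.ext fun M => by
        simp only [LinearMap.comp_apply, LinearMap.mulLeftRight_apply, map_mul, _root_.mul_inv_rev,
          Units.val_mul, mul_assoc]
    rw [e, Submodule.map_comp, hb, ha]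
  one_mem' := by
    show Submodule.map _ L = L
    have e : LinearMap.mulLeftRight F ((c 1 : Module.End F X), ((c 1)⁻¹ : _ˣ).val) = LinearMap.id :=
      LinearMap.ext fun M => by simp [LinearMap.mulLeftRight_apply]
    rw [e, Submodule.map_id]
  inv_mem' {a} ha := by
    show Submodule.map _ L = L
    conv_lhs => rw [← ha]
    rw [← Submodule.map_comp]
    have e : LinearMap.mulLeftRight F ((c a⁻¹ : Module.End F X), ((c a⁻¹)⁻¹ : _ˣ).val) ∘ₗ
        LinearMap.mulLeftRight F ((c a : Module.End F X), ((c a)⁻¹ : _ˣ).val) = LinearMap.id :=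
      LinearMap.ext fun M => by
        simp [LinearMap.mulLeftRight_apply, mul_assoc]
    rw [e, Submodule.map_id]

lemma mem_opNorm {X : Type*} [AddCommGroup X] [Module F X] [FiniteDimensional F X]
    (c : GL ι F →* (Module.End F X)ˣ) (S : Set (Module.End F X)) {g : GL ι F}
    (h : ∀ M ∈ S, (c g : Module.End F X) * M * ((c g)⁻¹ : _ˣ).val ∈ Submodule.span F S) :
    g ∈ opNorm c (Submodule.span F S) := by
  set φ := LinearMap.mulLeftRight F ((c g : Module.End F X), ((c g)⁻¹ : _ˣ).val) with hφ
  have hinj : Function.Injective φ := fun M M' e => by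
    simp only [hφ, LinearMap.mulLeftRight_apply] at e
    exact (Units.mul_right_inj _).1 ((Units.mul_left_inj _).1 e)
  refine Submodule.eq_of_le_of_finrank_eq ?_ (Submodule.equivMapOfInjective _ hinj _).finrank_eq.symm
  rw [Submodule.map_span, Submodule.span_le]
  rintro _ ⟨M, hM, rfl⟩
  simpa [hφ, LinearMap.mulLeftRight_apply] using h M hM

/-- The coordinates of a tensor decomposition. -/
noncomputable def powerEquiv (e : ι ≃ (Fin t → Fin k)) (P : GL ι F) :
    ((Fin t → Fin k) → F) ≃ₗ[F] (ι → F) :=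
  LinearEquiv.ofLinear ((P : Matrix ι ι F).mulVecLin ∘ₗ LinearMap.funLeft F F e)
    (LinearMap.funLeft F F e.symm ∘ₗ ((P⁻¹ : GL ι F) : Matrix ι ι F).mulVecLin)
    (LinearMap.ext fun x => by
      have : ((((P⁻¹ : GL ι F) : Matrix ι ι F) *ᵥ x) ∘ ⇑e.symm) ∘ ⇑e = ((P⁻¹ : GL ι F) : Matrix ι ι F) *ᵥ x := by
        funext i; simp
      show (P : Matrix ι ι F) *ᵥ (((((P⁻¹ : GL ι F) : Matrix ι ι F) *ᵥ x) ∘ ⇑e.symm) ∘ ⇑e) = x
      rw [this, mulVec_mulVec, ← Units.val_mul, mul_inv_cancel, Units.val_one, one_mulVec])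
    (LinearMap.ext fun x => by
      show (((P⁻¹ : GL ι F) : Matrix ι ι F) *ᵥ ((P : Matrix ι ι F) *ᵥ (x ∘ ⇑e))) ∘ ⇑e.symm = x
      rw [mulVec_mulVec, ← Units.val_mul, inv_mul_cancel, Units.val_one, one_mulVec]
      funext i; simp)

lemma powerEquiv_apply (e : ι ≃ (Fin t → Fin k)) (P : GL ι F) (x : (Fin t → Fin k) → F) :
    powerEquiv e P x = (P : Matrix ι ι F) *ᵥ (x ∘ e) := rfl

/-- Transport of a matrix to the coordinates. -/
noncomputable def toEndX (Φ : ((Fin t → Fin k) → F) ≃ₗ[F] (ι → F)) :
    GL ι F →* (Module.End F ((Fin t → Fin k) → F))ˣ :=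
  MonoidHom.toHomUnits
    { toFun := fun g => Φ.symm.toLinearMap ∘ₗ (g : Matrix ι ι F).mulVecLin ∘ₗ Φ.toLinearMap
      map_one' := LinearMap.ext fun x => by simp
      map_mul' := fun a b => LinearMap.ext fun x => by simp [Module.End.mul_apply, mulVec_mulVec] }

lemma toEndX_apply (Φ : ((Fin t → Fin k) → F) ≃ₗ[F] (ι → F)) (g : GL ι F) (x : (Fin t → Fin k) → F) :
    (toEndX Φ g).val x = Φ.symm ((g : Matrix ι ι F) *ᵥ Φ x) := rfl

/-- Transport back. -/
noncomputable def ofEndX (Φ : ((Fin t → Fin k) → F) ≃ₗ[F] (ι → F)) :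
    (Module.End F ((Fin t → Fin k) → F))ˣ →* GL ι F :=
  Units.map
    { toFun := fun M => LinearMap.toMatrix' (Φ.toLinearMap ∘ₗ M ∘ₗ Φ.symm.toLinearMap)
      map_one' := Matrix.ext_iff_mulVec.2 fun x => by simp [LinearMap.toMatrix'_mulVec]
      map_mul' := fun A B => Matrix.ext_iff_mulVec.2 fun x => by
        simp [LinearMap.toMatrix'_mulVec, ← mulVec_mulVec, Module.End.mul_apply] }

lemma ofEndX_mulVec (Φ : ((Fin t → Fin k) → F) ≃ₗ[F] (ι → F))
    (u : (Module.End F ((Fin t → Fin k) → F))ˣ) (x : (Fin t → Fin k) → F) :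
    (ofEndX Φ u : Matrix ι ι F) *ᵥ Φ x = Φ (u.val x) := by
  simp [ofEndX, LinearMap.toMatrix'_mulVec]

lemma toEndX_ofEndX (Φ : ((Fin t → Fin k) → F) ≃ₗ[F] (ι → F))
    (u : (Module.End F ((Fin t → Fin k) → F))ˣ) : toEndX Φ (ofEndX Φ u) = u :=
  Units.ext (LinearMap.ext fun x => by rw [toEndX_apply, ofEndX_mulVec, LinearEquiv.symm_apply_apply])

/-- Factors permuted and moved one by one. -/
def WreathForm (Φ : ((Fin t → Fin k) → F) ≃ₗ[F] (ι → F)) (g : GL ι F) : Prop :=
  ∃ (σ : Equiv.Perm (Fin t)) (gs : Fin t → GL (Fin k) F), ∀ xs,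
    (g : Matrix ι ι F) *ᵥ Φ (pureT xs) =
      Φ (pureT fun i => (gs i : Matrix (Fin k) (Fin k) F) *ᵥ xs (σ i))

lemma wreath_form (e : ι ≃ (Fin t → Fin k)) (P : GL ι F) {g : GL ι F}
    (hg : g ∈ tensorWreathSubgroup k t e P) : WreathForm (powerEquiv e P) g := by
  obtain ⟨_, ⟨w, hw, rfl⟩, rfl⟩ := hg
  suffices h : ∃ (σ : Equiv.Perm (Fin t)) (gs : Fin t → GL (Fin k) F), ∀ xs,
      (w : Matrix (Fin t → Fin k) (Fin t → Fin k) F) *ᵥ pureT xs =
        pureT fun i => (gs i : Matrix (Fin k) (Fin k) F) *ᵥ xs (σ i) by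
    obtain ⟨σ, gs, h⟩ := h
    refine ⟨σ, gs, fun xs => ?_⟩
    rw [powerEquiv_apply, powerEquiv_apply, ← h]
    change ((P * glReindex e.symm w * P⁻¹ : GL ι F) : Matrix ι ι F) *ᵥ _ = _
    rw [mulVec_mulVec, ← Units.val_mul, inv_mul_cancel_right, Units.val_mul, ← mulVec_mulVec]
    congr 1
    have e1 : ((glReindex e.symm w : GL ι F) : Matrix ι ι F) =
        (w : Matrix (Fin t → Fin k) (Fin t → Fin k) F).submatrix e e := by
      show Matrix.reindexAlgEquiv F F e.symm (w : Matrix (Fin t → Fin k) (Fin t → Fin k) F) = _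
      rw [Matrix.reindexAlgEquiv_apply, Matrix.reindex_apply]
      simp
    rw [e1, Matrix.submatrix_mulVec_equiv, Function.comp_assoc, Equiv.self_comp_symm, Function.comp_id]
  induction hw using Subgroup.closure_induction with
  | mem w hw =>
    rcases hw with ⟨gs, hgs⟩ | ⟨σ, hσ⟩
    · refine ⟨1, gs, fun xs => ?_⟩
      funext x
      simp only [Equiv.Perm.one_apply, pureT, Matrix.mulVec, dotProduct, hgs, ← Finset.prod_mul_distrib]
      exact (Fintype.prod_sum fun i b => (gs i : Matrix (Fin k) (Fin k) F) (x i) b * xs i b).symm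
    · refine ⟨σ.symm, fun _ => 1, fun xs => ?_⟩
      funext x
      simp only [Units.val_one, one_mulVec]
      simp only [Matrix.mulVec, dotProduct, hσ, ite_mul, one_mul, zero_mul,
        Finset.sum_ite_eq', Finset.mem_univ, if_true, pureT]
      exact Fintype.prod_equiv σ _ _ fun i => by simp
  | one => exact ⟨1, fun _ => 1, fun xs => by simp⟩
  | mul a b _ _ ha hb =>
    obtain ⟨σ, as, has⟩ := ha
    obtain ⟨τ, bs, hbs⟩ := hb
    refine ⟨σ.trans τ, fun i => as i * bs (σ i), fun xs => ?_⟩
    rw [Units.val_mul, ← mulVec_mulVec, hbs, has]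
    simp [mulVec_mulVec]
  | inv a _ ha =>
    obtain ⟨σ, as, has⟩ := ha
    refine ⟨σ.symm, fun i => (as (σ.symm i))⁻¹, fun xs => ?_⟩
    have h := has fun i => ((as (σ.symm i))⁻¹ : GL (Fin k) F).val *ᵥ xs (σ.symm i)
    simp only [Equiv.symm_apply_apply, mulVec_mulVec, ← Units.val_mul, mul_inv_cancel, Units.val_one,
      one_mulVec] at h
    rw [← h, mulVec_mulVec, ← Units.val_mul, inv_mul_cancel, Units.val_one, one_mulVec]

lemma exists_minor {v w : Fin k → F} (h : LinearIndependent F ![v, w]) :
    ∃ a c, v a * w c - w a * v c ≠ 0 := by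
  by_contra hcon
  push Not at hcon
  have hv : v ≠ 0 := by simpa using h.ne_zero 0
  obtain ⟨a, ha⟩ := Function.ne_iff.1 hv
  rw [LinearIndependent.pair_iff' hv] at h
  refine h (w a / v a) (funext fun c => ?_)
  rw [Pi.smul_apply, smul_eq_mul, div_mul_eq_mul_div, div_eq_iff (by simpa using ha)]
  linear_combination -hcon a c

/-- Two products differing independently in two factors do not sum to a product. -/
lemma sum_ne_pureT {i j : Fin t} (hij : i ≠ j) {xs : Fin t → Fin k → F} (hne : ∀ l, xs l ≠ 0)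
    {x' y' : Fin k → F} (hx : LinearIndependent F ![xs i, x']) (hy : LinearIndependent F ![xs j, y'])
    (zs : Fin t → Fin k → F) :
    pureT xs + pureT (Function.update (Function.update xs j y') i x') ≠ pureT zs := by
  intro hall
  have hb : ∀ l, ∃ a, xs l a ≠ 0 := fun l => by simpa using Function.ne_iff.1 (hne l)
  choose b hb using hb
  let R := (Finset.univ.erase i).erase j
  have hsplit : ∀ (z : Fin t → Fin k → F) (a c : Fin k),
      pureT z (Function.update (Function.update b j c) i a) = z i a * z j c * ∏ l ∈ R, z l (b l) := by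
    intro z a c
    rw [pureT, ← Finset.mul_prod_erase _ _ (Finset.mem_univ i),
      ← Finset.mul_prod_erase _ _ (Finset.mem_erase.2 ⟨hij.symm, Finset.mem_univ j⟩),
      Function.update_self, Function.update_of_ne hij.symm, Function.update_self, mul_assoc]
    congr 2
    exact Finset.prod_congr rfl fun l hl => by
      simp only [R, Finset.mem_erase] at hl
      rw [Function.update_of_ne hl.2.1, Function.update_of_ne hl.1]
  have hK : ∏ l ∈ R, xs l (b l) ≠ 0 := Finset.prod_ne_zero_iff.2 fun l _ => hb l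
  have hR : ∏ l ∈ R, Function.update (Function.update xs j y') i x' l (b l) = ∏ l ∈ R, xs l (b l) :=
    Finset.prod_congr rfl fun l hl => by
      simp only [R, Finset.mem_erase] at hl
      rw [Function.update_of_ne hl.2.1, Function.update_of_ne hl.1]
  have key : ∀ a c, (xs i a * xs j c + x' a * y' c) * (∏ l ∈ R, xs l (b l)) =
      zs i a * zs j c * ∏ l ∈ R, zs l (b l) := fun a c => by
    have h := congrFun hall (Function.update (Function.update b j c) i a)
    rw [Pi.add_apply, hsplit, hsplit, hsplit, hR, Function.update_self, Function.update_of_ne hij.symm,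
      Function.update_self] at h
    linear_combination h
  obtain ⟨a, c, h1⟩ := exists_minor hx
  obtain ⟨a', c', h2⟩ := exists_minor hy
  have h3 : (∏ l ∈ R, xs l (b l)) ^ 2 *
      ((xs i a * x' c - x' a * xs i c) * (xs j a' * y' c' - y' a' * xs j c')) = 0 := by
    set K := ∏ l ∈ R, xs l (b l)
    set Z := ∏ l ∈ R, zs l (b l)
    linear_combination ((xs i c * xs j c' + x' c * y' c') * K) * key a a'
      + (zs i a * zs j a' * Z) * key c c' - ((xs i c * xs j a' + x' c * y' a') * K) * key a c'
      - (zs i a * zs j c' * Z) * key c a'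
  exact mul_ne_zero (pow_ne_zero 2 hK) (mul_ne_zero h1 h2) h3

/-- Data for the overgroup. -/
structure RootData (f : (Fin k → F) → (Fin k → F) → F) (R : Set (Matrix (Fin k) (Fin k) F))
    (E : Matrix (Fin k) (Fin k) F) (h : GL (Fin k) F) : Prop where
  conj_mem : ∀ (a : GL (Fin k) F) (μ : F), μ ≠ 0 →
    (∀ u v, f ((a : Matrix (Fin k) (Fin k) F) *ᵥ u) ((a : Matrix (Fin k) (Fin k) F) *ᵥ v) = μ * f u v) →
    ∀ A ∈ R, (a : Matrix (Fin k) (Fin k) F) * A * (a⁻¹ : GL (Fin k) F).val ∈ R
  mem : E ∈ R
  sq : E * E = 0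
  adj : ∀ u v, f (E *ᵥ u) v = f u (E *ᵥ v)
  anti : ∀ A ∈ R, ∃ s : F, E * A + A * E = s • 1
  iso : ∀ u v, f ((h : Matrix (Fin k) (Fin k) F) *ᵥ u) ((h : Matrix (Fin k) (Fin k) F) *ᵥ v) = f u v
  moved : ∃ x, LinearIndependent F
    ![x, ((h : Matrix (Fin k) (Fin k) F) * E * (h⁻¹ : GL (Fin k) F).val + E) *ᵥ x]

/-- The overgroup of the stabiliser of a tensor power. -/
theorem power_overgroup [Fintype F] [CharP F 2] {Q : QuadraticForm F (ι → F)} (hQ : Good Q)
    (Φ : ((Fin t → Fin k) → F) ≃ₗ[F] (ι → F)) {f : (Fin k → F) → (Fin k → F) → F}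
    (hf : Cfsg.Geo.IsSymplecticForm f) {c : F} (hc : c ≠ 0)
    (hpol : ∀ xs ys, QuadraticMap.polar ⇑Q (Φ (pureT xs)) (Φ (pureT ys)) = c * ∏ i, f (xs i) (ys i))
    (hQ0 : ∀ xs, Q (Φ (pureT xs)) = 0)
    (Tg : Subgroup (GL ι F)) (hT : ∀ g ∈ Tg, WreathForm Φ g)
    {R : Set (Matrix (Fin k) (Fin k) F)} {E : Matrix (Fin k) (Fin k) F} {h : GL (Fin k) F}
    (D : RootData f R E h) {i j : Fin t} (hij : i ≠ j)
    (hdiag : (∃ l, l ≠ i ∧ l ≠ j) ∨ ∀ x, f x (E *ᵥ x) = 0)
    (U W Pp Rr : Fin t → Fin k → F) (hU : E *ᵥ U i = 0) (hUW : ∏ l, f (U l) (W l) = 0)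
    (hWW : ∏ l, f (Function.update W i (E *ᵥ W i) l) (W l) = 0)
    (hPW : ∏ l, f (Pp l) (Function.update W i (E *ᵥ W i) l) ≠ 0)
    (hUR : ∏ l, f (U l) (Rr l) ≠ 0) (hPU : ∏ l, f (Pp l) (U l) = 0)
    (hfar : ∃ l₁ l₂, l₁ ≠ l₂ ∧ f (Pp l₁) (Rr l₁) = 0 ∧ f (Pp l₂) (Rr l₂) = 0) :
    ∃ K : Subgroup (GL ι F), Tg ⊓ omegaGL ⇑Q < K ∧ K < omegaGL ⇑Q := by
  classical
  have h2 : (2 : F) = 0 := CharP.cast_eq_zero F 2
  have hneg : ∀ z : F, -z = z := fun z => by linear_combination (-z) * h2
  let B : LinearMap.BilinForm F ((Fin t → Fin k) → F) := Q.polarBilin.compl₁₂ Φ.toLinearMap Φ.toLinearMap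
  have hB : ∀ x y, B x y = QuadraticMap.polar ⇑Q (Φ x) (Φ y) := fun x y => rfl
  have hBp : ∀ xs ys, B (pureT xs) (pureT ys) = c * ∏ l, f (xs l) (ys l) := fun xs ys => hpol xs ys
  have hBs : ∀ x y, B x y = B y x := fun x y => by rw [hB, hB, QuadraticMap.polar_comm]
  have hBext : ∀ B' : LinearMap.BilinForm F ((Fin t → Fin k) → F),
      (∀ xs ys, B' (pureT xs) (pureT ys) = B (pureT xs) (pureT ys)) → B' = B := fun B' hh =>
    pureT_ext fun xs => pureT_ext fun ys => hh xs ys
  -- isometry from the values on products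
  have hisom : ∀ u : (Module.End F ((Fin t → Fin k) → F))ˣ,
      (∀ x y, B (u.val x) (u.val y) = B x y) → (∀ xs, Q (Φ (u.val (pureT xs))) = 0) →
      ofEndX Φ u ∈ Cfsg.isometryGroup F ⇑Q := by
    intro u hu h0
    have hall : ∀ x, Q (Φ (u.val x)) = Q (Φ x) := by
      intro x
      rw [pi_eq_sum_univ' x]
      induction (Finset.univ : Finset (Fin t → Fin k)) using Finset.induction_on with
      | empty => simp
      | insert a s ha ih =>
        rw [Finset.sum_insert ha]
        simp only [map_add]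
        rw [QuadraticMap.map_add ⇑Q, QuadraticMap.map_add ⇑Q, ← hB, ← hB, hu, ih]
        congr 2
        simp only [map_smul, QuadraticMap.map_smul, ← pureT_single, h0, hQ0]
    intro v _
    obtain ⟨x, rfl⟩ := Φ.surjective v
    show Q ((ofEndX Φ u : Matrix ι ι F) *ᵥ Φ x) = Q (Φ x)
    rw [ofEndX_mulVec, hall]
  -- one-factor isometries
  let opU : Fin t → GL (Fin k) F →* (Module.End F ((Fin t → Fin k) → F))ˣ := fun l =>
    Units.map { toFun := fun A => opT l A, map_one' := opT_one l,
                map_mul' := fun A A' => (opT_mul l A A').symm }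
  have hopU : ∀ l a, (opU l a).val = opT l (a : Matrix (Fin k) (Fin k) F) := fun l a => rfl
  have hopUiso : ∀ l, ofEndX Φ (opU l h) ∈ Cfsg.isometryGroup F ⇑Q := fun l => by
    refine hisom _ (fun x y => ?_) (fun xs => by rw [hopU, opT_pure, hQ0])
    have := hBext (B.compl₁₂ (opU l h).val (opU l h).val) fun xs ys => by
      rw [LinearMap.compl₁₂_apply, hopU, opT_pure, opT_pure, hBp, hBp]
      congr 1
      refine Finset.prod_congr rfl fun m _ => ?_
      rcases eq_or_ne m l with rfl | hm
      · simp [D.iso]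
      · simp [Function.update_of_ne hm]
    exact LinearMap.congr_fun (LinearMap.congr_fun this x) y
  have hadj : ∀ l x y, B (opT l E x) y = B x (opT l E y) := fun l x y => by
    have := (pureT_ext (f := B.compl₁₂ (opT l E) LinearMap.id) (g := B.compl₁₂ LinearMap.id (opT l E))
      fun xs => pureT_ext fun ys => by
      simp only [LinearMap.compl₁₂_apply, LinearMap.id_apply, opT_pure]
      show B _ _ = B _ _
      rw [hBp, hBp]
      congr 1
      refine Finset.prod_congr rfl fun m _ => ?_
      rcases eq_or_ne m l with rfl | hm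
      · simp [D.adj]
      · simp [Function.update_of_ne hm])
    exact LinearMap.congr_fun (LinearMap.congr_fun this x) y
  set H := opT i E * opT j E with hH
  have hEE : ∀ l : Fin t, opT l E * opT l E = 0 := fun l => by rw [opT_mul, D.sq, map_zero]
  have hHadj : ∀ x y, B (H x) y = B x (H y) := fun x y => by
    have hc' := LinearMap.congr_fun (opT_comm hij E E) y
    simp only [Module.End.mul_apply] at hc'
    rw [hH]
    simp only [Module.End.mul_apply]
    rw [hadj, hadj, hc']
  have hHH : H * H = 0 := by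
    rw [hH, mul_assoc, ← mul_assoc (opT j E), opT_comm hij.symm, mul_assoc (opT i E) (opT j E),
      hEE, mul_zero, mul_zero]
  have hendd : ∀ M : Module.End F ((Fin t → Fin k) → F), M + M = 0 := fun M => by
    rw [← two_smul F, h2, zero_smul]
  let g₀ : (Module.End F ((Fin t → Fin k) → F))ˣ :=
    ⟨1 + H, 1 + H, by rw [mul_add, mul_one, add_mul, one_mul, hHH, add_zero, add_assoc, hendd, add_zero],
      by rw [mul_add, mul_one, add_mul, one_mul, hHH, add_zero, add_assoc, hendd, add_zero]⟩
  have hg₀iso : ofEndX Φ g₀ ∈ Cfsg.isometryGroup F ⇑Q := by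
    refine hisom _ (fun x y => ?_) fun xs => ?_
    · show B (x + H x) (y + H y) = B x y
      have hz : B (H x) (H y) = 0 := by
        rw [hHadj, ← Module.End.mul_apply, hHH]; simp
      rw [map_add, map_add, LinearMap.add_apply, LinearMap.add_apply, hz, hHadj]
      linear_combination B x (H y) * h2
    · show Q (Φ (pureT xs + H (pureT xs))) = 0
      rw [map_add, QuadraticMap.map_add ⇑Q, ← hB, hH, Module.End.mul_apply, opT_pure, opT_pure, hQ0, hQ0,
        hBp, zero_add, zero_add, mul_eq_zero]
      right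
      rw [Finset.prod_eq_zero_iff]
      rcases hdiag with ⟨l, hli, hlj⟩ | hd
      · refine ⟨l, Finset.mem_univ l, ?_⟩
        rw [Function.update_of_ne hli, Function.update_of_ne hlj, hf.alternating]
      · refine ⟨i, Finset.mem_univ i, ?_⟩
        rw [Function.update_self, Function.update_of_ne hij, hd]
  let S : Set (Module.End F ((Fin t → Fin k) → F)) := {M | ∃ l, ∃ A ∈ R, M = opT l A}
  let N := opNorm (toEndX Φ) (Submodule.span F S)
  have hgen : ∀ l A, A ∈ R → opT l A ∈ Submodule.span F S := fun l A hA =>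
    Submodule.subset_span ⟨l, A, hA, rfl⟩
  have hwreath : ∀ g ∈ Tg, g ∈ Cfsg.isometryGroup F ⇑Q → g ∈ N := by
    intro g hg hgi
    obtain ⟨σ, gs, hgs⟩ := hT g hg
    have hgQ : ∀ v, Q ((g : Matrix ι ι F) *ᵥ v) = Q v := fun v => hgi v 0
    have hgB : ∀ v w, QuadraticMap.polar ⇑Q ((g : Matrix ι ι F) *ᵥ v) ((g : Matrix ι ι F) *ᵥ w) =
        QuadraticMap.polar ⇑Q v w := fun v w => by
      simp only [QuadraticMap.polar]
      rw [← mulVec_add, hgQ, hgQ, hgQ]
    have hgX : ∀ xs, (toEndX Φ g).val (pureT xs) =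
        pureT fun l => (gs l : Matrix (Fin k) (Fin k) F) *ᵥ xs (σ l) := fun xs => by
      rw [toEndX_apply, hgs, LinearEquiv.symm_apply_apply]
    obtain ⟨l₁, l₂, -, -, -⟩ := hfar
    refine mem_opNorm _ S ?_
    rintro _ ⟨l, A, hA, rfl⟩
    set m := σ.symm l with hm
    have hσm : σ m = l := σ.apply_symm_apply l
    obtain ⟨μ, hμ, hsim⟩ : ∃ μ : F, μ ≠ 0 ∧ ∀ u v, f ((gs m : Matrix (Fin k) (Fin k) F) *ᵥ u)
        ((gs m : Matrix (Fin k) (Fin k) F) *ᵥ v) = μ * f u v := by
      have hall : ∀ p, f (U p) (Rr p) ≠ 0 := fun p => Finset.prod_ne_zero_iff.1 hUR p (Finset.mem_univ p)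
      set K := ∏ p ∈ Finset.univ.erase m, f ((gs p : Matrix (Fin k) (Fin k) F) *ᵥ U (σ p))
        ((gs p : Matrix (Fin k) (Fin k) F) *ᵥ Rr (σ p)) with hK
      set L₀ := ∏ p ∈ Finset.univ.erase l, f (U p) (Rr p) with hL
      have hL0 : L₀ ≠ 0 := Finset.prod_ne_zero_iff.2 fun p _ => hall p
      have hkey : ∀ u v, f ((gs m : Matrix (Fin k) (Fin k) F) *ᵥ u)
          ((gs m : Matrix (Fin k) (Fin k) F) *ᵥ v) * K = f u v * L₀ := by
        intro u v
        have e := hgB (Φ (pureT (Function.update U l u))) (Φ (pureT (Function.update Rr l v)))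
        rw [hgs, hgs, hpol, hpol] at e
        have e' := mul_left_cancel₀ hc e
        rw [← Finset.mul_prod_erase _ _ (Finset.mem_univ m), ← Finset.mul_prod_erase _ _ (Finset.mem_univ l),
          hσm, Function.update_self, Function.update_self] at e'
        have e1 : ∀ p ∈ Finset.univ.erase m, σ p ≠ l := fun p hp hpl =>
          Finset.ne_of_mem_erase hp (σ.injective (hpl.trans hσm.symm))
        rw [Finset.prod_congr rfl fun p hp => by
            rw [Function.update_of_ne (e1 p hp), Function.update_of_ne (e1 p hp)],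
          Finset.prod_congr rfl fun p (hp : p ∈ Finset.univ.erase l) => by
            rw [Function.update_of_ne (Finset.ne_of_mem_erase hp),
              Function.update_of_ne (Finset.ne_of_mem_erase hp)]] at e'
        exact e'
      have hK0 : K ≠ 0 := fun h0 => mul_ne_zero (hall l) hL0 (by rw [← hkey, h0, mul_zero])
      exact ⟨L₀ / K, div_ne_zero hL0 hK0, fun u v => by
        rw [div_mul_eq_mul_div, eq_div_iff hK0, hkey, mul_comm]⟩
    have hconj : (toEndX Φ g).val * opT l A =
        opT m ((gs m : Matrix (Fin k) (Fin k) F) * A * ((gs m)⁻¹ : GL (Fin k) F).val) * (toEndX Φ g).val :=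
      pureT_ext fun xs => by
        rw [Module.End.mul_apply, Module.End.mul_apply, opT_pure, hgX, hgX, opT_pure]
        congr 1
        funext p
        rcases eq_or_ne p m with rfl | hp
        · rw [Function.update_self, hσm, Function.update_self, mulVec_mulVec, mulVec_mulVec, mul_assoc,
            ← Units.val_mul, inv_mul_cancel, Units.val_one, mul_one]
        · rw [Function.update_of_ne hp,
            Function.update_of_ne (fun e => hp (σ.injective (e.trans hσm.symm)))]
    rw [hconj, Units.mul_inv_cancel_right]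
    exact hgen m _ (D.conj_mem _ μ hμ hsim A hA)
  have hg₀N : ofEndX Φ g₀ ∈ N := by
    refine mem_opNorm _ S ?_
    rintro _ ⟨l, A, hA, rfl⟩
    rw [toEndX_ofEndX]
    show (1 + H) * opT l A * (1 + H) ∈ _
    have aux : ∀ a b : Fin t, a ≠ b → (1 + opT a E * opT b E) * opT a A * (1 + opT a E * opT b E) ∈
        Submodule.span F S := fun a b hab => by
      obtain ⟨s, hs⟩ := D.anti A hA
      have e1 : opT a E * opT b E * opT a A + opT a A * (opT a E * opT b E) = s • opT b E := by
        rw [mul_assoc, opT_comm hab.symm, ← mul_assoc, ← mul_assoc, opT_mul, opT_mul, ← add_mul, ← map_add,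
          hs, map_smul, opT_one, smul_mul_assoc, one_mul]
      have e2 : opT a E * opT b E * opT a A * (opT a E * opT b E) = 0 := by
        rw [show opT a E * opT b E * opT a A * (opT a E * opT b E) =
            opT a E * opT a A * opT a E * (opT b E * opT b E) by
          simp only [mul_assoc]
          rw [← mul_assoc (opT b E) (opT a A), opT_comm hab.symm, mul_assoc,
            ← mul_assoc (opT b E) (opT a E), opT_comm hab.symm, mul_assoc], hEE, mul_zero]
      have e3 : (1 + opT a E * opT b E) * opT a A * (1 + opT a E * opT b E) =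
          opT a A + s • opT b E := by
        rw [← e1, mul_add, mul_one, add_mul, add_mul, one_mul, e2, add_zero]
        abel
      rw [e3]
      exact add_mem (hgen a A hA) (Submodule.smul_mem _ _ (hgen b E D.mem))
    rcases eq_or_ne l i with rfl | hli
    · exact aux l j hij
    rcases eq_or_ne l j with rfl | hlj
    · rw [hH, opT_comm hij]
      exact aux l i hij.symm
    have : H * opT l A = opT l A * H := by
      rw [hH, mul_assoc, opT_comm hlj.symm, ← mul_assoc, opT_comm hli.symm, mul_assoc]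
    rw [add_mul, one_mul, this, ← mul_one_add, mul_assoc]
    have hsq : (1 + H) * (1 + H) = 1 := g₀.val_inv
    rw [hsq, mul_one]
    exact hgen l A hA
  have huN : ofEndX Φ (opU i h) ∈ N := by
    refine mem_opNorm _ S ?_
    rintro _ ⟨l, A, hA, rfl⟩
    rw [toEndX_ofEndX, ← map_inv, hopU, hopU]
    rcases eq_or_ne l i with rfl | hli
    · rw [opT_mul, opT_mul]
      exact hgen l _ (D.conj_mem h 1 one_ne_zero (by simpa using D.iso) A hA)
    · rw [opT_comm hli.symm, mul_assoc, opT_mul, ← Units.val_mul, mul_inv_cancel, Units.val_one,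
        opT_one, mul_one]
      exact hgen l A hA
  set g := ofEndX Φ (opU i h) * ofEndX Φ g₀ * (ofEndX Φ (opU i h))⁻¹ * (ofEndX Φ g₀)⁻¹ with hg
  have hgΩ : g ∈ omegaGL ⇑Q :=
    ⟨⁅(⟨_, hopUiso i⟩ : ↥(Cfsg.isometryGroup F ⇑Q)), ⟨_, hg₀iso⟩⁆,
      Subgroup.commutator_mem_commutator (Subgroup.mem_top _) (Subgroup.mem_top _),
      by simp [hg, commutatorElement_def]⟩
  refine ⟨N ⊓ omegaGL ⇑Q, lt_of_le_of_ne ?_ fun eq => ?_, lt_of_le_of_ne inf_le_right fun eq => ?_⟩
  · rintro w ⟨hw, hwΩ⟩
    refine ⟨hwreath w hw ?_, hwΩ⟩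
    obtain ⟨⟨w, hwi⟩, -, rfl⟩ := hwΩ
    exact hwi
  · have hgT : g ∈ Tg ⊓ omegaGL ⇑Q := by
      rw [eq]; exact Subgroup.mem_inf.2 ⟨N.mul_mem (N.mul_mem (N.mul_mem huN hg₀N) (N.inv_mem huN)) (N.inv_mem hg₀N), hgΩ⟩
    obtain ⟨σ, gs, hgs⟩ := hT g hgT.1
    obtain ⟨x, hx⟩ := D.moved
    obtain ⟨y, hy⟩ : ∃ y, E *ᵥ y ≠ 0 := ⟨W i, fun h0 => by
      have := Finset.prod_ne_zero_iff.1 hPW i (Finset.mem_univ i)
      rw [Function.update_self, h0] at this
      exact this (by have := hf.bilinear.smul_right 0 (Pp i) 0; simpa using this)⟩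
    set E' := (h : Matrix (Fin k) (Fin k) F) * E * (h⁻¹ : GL (Fin k) F).val with hE'
    have hval : (toEndX Φ g).val = 1 + opT i (E' + E) * opT j E := by
      rw [hg]
      simp only [map_mul, map_inv, toEndX_ofEndX, Units.val_mul]
      have c1 : (opU i h).val * H * ((opU i h)⁻¹).val = opT i E' * opT j E := by
        rw [← map_inv, hopU, hopU, hH, ← mul_assoc, opT_mul, mul_assoc, opT_comm hij.symm, ← mul_assoc,
          opT_mul]
      show (opU i h).val * (1 + H) * ((opU i h)⁻¹).val * (1 + H) = _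
      rw [show (opU i h).val * (1 + H) * ((opU i h)⁻¹).val = 1 + opT i E' * opT j E by
        rw [mul_add, mul_one, add_mul, ← Units.val_mul, mul_inv_cancel, Units.val_one, c1]]
      rw [hH, map_add, add_mul (opT i E'), mul_add, mul_one, add_mul]
      have c2 : opT i E' * opT j E * (opT i E * opT j E) = 0 := by
        rw [mul_assoc, ← mul_assoc (opT j E), opT_comm hij.symm, mul_assoc (opT i E), hEE, mul_zero, mul_zero]
      rw [c2, add_zero, one_mul]
      abel
    have hyE : LinearIndependent F ![y, E *ᵥ y] := by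
      rw [LinearIndependent.pair_iff]
      intro a b hab
      have := congrArg (fun v => E *ᵥ v) hab
      simp only [mulVec_add, mulVec_smul, mulVec_mulVec, D.sq, zero_mulVec, smul_zero, add_zero,
        mulVec_zero, smul_eq_zero] at this
      have ha := this.resolve_right hy
      rw [ha, zero_smul, zero_add, smul_eq_zero] at hab
      exact ⟨ha, hab.resolve_right hy⟩
    let xs : Fin t → Fin k → F := Function.update (Function.update (fun _ => x) j y) i x
    have hxi : xs i = x := Function.update_self _ _ _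
    have hxj : xs j = y := by simp [xs, Function.update_of_ne hij.symm]
    have hx0 : x ≠ 0 := by simpa using hx.ne_zero 0
    have hne : ∀ l, xs l ≠ 0 := fun l => by
      simp only [xs, Function.update_apply]
      split_ifs
      exacts [hx0, by simpa using hyE.ne_zero 0, hx0]
    refine sum_ne_pureT hij hne (x' := (E' + E) *ᵥ x) (y' := E *ᵥ y) (by rw [hxi]; exact hx)
      (by rw [hxj]; exact hyE) (fun l => (gs l : Matrix (Fin k) (Fin k) F) *ᵥ xs (σ l)) ?_
    have e := toEndX_apply Φ g (pureT xs)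
    rw [hgs, LinearEquiv.symm_apply_apply, hval, LinearMap.add_apply, Module.End.one_apply,
      Module.End.mul_apply, opT_pure, opT_pure, Function.update_of_ne hij, hxi, hxj] at e
    exact e
  · set M := opT i E
    set W' := Function.update W i (E *ᵥ W i) with hW'
    set u := pureT U
    set w := pureT W
    set w' := pureT W'
    have hMu : M u = 0 := by rw [opT_pure, hU, pureT_update_zero]
    have hMw : M w = w' := opT_pure _ _ _
    have huw : QuadraticMap.polar ⇑Q (Φ u) (Φ w) = 0 := by rw [hpol, hUW, mul_zero]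
    set x := sg Q (Φ u) (Φ w) with hx
    have hxΩ : x ∈ N ⊓ omegaGL ⇑Q := by rw [eq]; exact sg_mem_omegaGL hQ (hQ0 U) huw
    have hxv : ∀ z, (toEndX Φ x).val z = z + B z u • w + B z w • u := fun z => by
      rw [toEndX_apply, hx, sg_mulVec (hQ0 U) huw, hQ0 W, zero_mul, zero_smul, sub_zero]
      simp only [map_sub, map_add, map_smul, LinearEquiv.symm_apply_apply]
      rw [sub_eq_add_neg, ← neg_smul, hneg]
      rfl
    let T : Module.End F ((Fin t → Fin k) → F) := (B.flip w').smulRight u + (B.flip u).smulRight w'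
    have hT' : ∀ z, T z = B z w' • u + B z u • w' := fun z => rfl
    have hBuu : B u u = 0 := by
      rw [hB, QuadraticMap.polar_self, nsmul_eq_mul, hQ0, mul_zero]
    have hBuw : B u w' = 0 := by rw [← hMw, ← hadj, hMu]; simp
    have hBww : B w w' = 0 := by rw [hBs, hBp, hWW, mul_zero]
    have hBwu : B w u = 0 := by rw [hBs, hB, huw]
    have hxM : (toEndX Φ x).val * M = (M + T) * (toEndX Φ x).val := LinearMap.ext fun z => by
      simp only [Module.End.mul_apply, LinearMap.add_apply, hxv, hT']
      have a1 : B (M z) u = 0 := by rw [hadj, hMu]; simp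
      have a2 : B (M z) w = B z w' := by rw [hadj, hMw]
      rw [a1, a2]
      simp only [map_add, map_smul, hMu, hMw, LinearMap.add_apply, LinearMap.smul_apply, smul_eq_mul,
        hBuu, hBuw, hBww, hBwu]
      have hvv : ∀ v : (Fin t → Fin k) → F, v + v = 0 := fun v => by rw [← two_smul F, h2, zero_smul]
      linear_combination (norm := module) -hvv (B z u • w')
    have hTmem : T ∈ Submodule.span F S := by
      have hin : LinearMap.mulLeftRight F ((toEndX Φ x).val, ((toEndX Φ x)⁻¹ : _ˣ).val) M ∈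
          Submodule.span F S := by
        have hN : Submodule.map (LinearMap.mulLeftRight F ((toEndX Φ x).val, ((toEndX Φ x)⁻¹ : _ˣ).val))
            (Submodule.span F S) = Submodule.span F S := hxΩ.1
        have hh := Submodule.mem_map_of_mem
          (f := LinearMap.mulLeftRight F ((toEndX Φ x).val, ((toEndX Φ x)⁻¹ : _ˣ).val)) (hgen i E D.mem)
        rwa [hN] at hh
      rw [LinearMap.mulLeftRight_apply, hxM, Units.mul_inv_cancel_right] at hin
      have h' := sub_mem hin (show M ∈ Submodule.span F S from hgen i E D.mem)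
      rwa [add_sub_cancel_left] at h'
    have hzero : ∀ M' ∈ Submodule.span F S, B (M' (pureT Pp)) (pureT Rr) = 0 := by
      intro M' hM'
      induction hM' using Submodule.span_induction with
      | mem M' hM' =>
        obtain ⟨l, A, -, rfl⟩ := hM'
        obtain ⟨l₁, l₂, h12, e1, e2⟩ := hfar
        rw [opT_pure, hBp, mul_eq_zero]
        right
        rw [Finset.prod_eq_zero_iff]
        rcases eq_or_ne l₁ l with rfl | hl
        · exact ⟨l₂, Finset.mem_univ _, by rw [Function.update_of_ne h12.symm, e2]⟩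
        · exact ⟨l₁, Finset.mem_univ _, by rw [Function.update_of_ne hl, e1]⟩
      | zero => simp
      | add a b _ _ ha hb => simp [ha, hb]
      | smul a b _ hb => simp [hb]
    have hfin := hzero T hTmem
    rw [hT', map_add, map_smul, map_smul, LinearMap.add_apply, LinearMap.smul_apply, LinearMap.smul_apply,
      smul_eq_mul, smul_eq_mul, hBp Pp W', hBp Pp U, hPU, mul_zero, zero_mul, add_zero, hBp U Rr] at hfin
    exact mul_ne_zero (mul_ne_zero hc hPW) (mul_ne_zero hc hUR) hfin

end Cfsg.Agent.Lib.Forms
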