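import Cfsg.Agent.Lib.Forms.LinExtBasic
import Cfsg.Prelude.Def_GeometricClasses

/-!
Tensor products of two column spaces: pure vectors, their preservers, and the rank of a unipotent
Kronecker product.
-/

set_option autoImplicit false

namespace Cfsg.Agent.Lib.Forms.TProd

open Matrix Kronecker Cfsg.Agent.Lib.Forms

variable {F : Type*} [Field F] {m k : ℕ}

/-- The rows of a vector of the product. -/
def row (x : Fin m × Fin k → F) (i : Fin m) : Fin k → F := fun j => x (i, j)

/-- A pure vector. -/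
def vt (v : Fin m → F) (z : Fin k → F) : Fin m × Fin k → F := fun p => v p.1 * z p.2

lemma row_vt (v : Fin m → F) (z : Fin k → F) (i : Fin m) : row (vt v z) i = v i • z := rfl

lemma row_ext {x y : Fin m × Fin k → F} (h : ∀ i, row x i = row y i) : x = y :=
  funext fun p => congrFun (h p.1) p.2

lemma row_add (x y : Fin m × Fin k → F) (i : Fin m) : row (x + y) i = row x i + row y i := rfl

lemma row_sub (x y : Fin m × Fin k → F) (i : Fin m) : row (x - y) i = row x i - row y i := rfl

lemma row_smul (c : F) (x : Fin m × Fin k → F) (i : Fin m) : row (c • x) i = c • row x i := rfl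

lemma row_zero (i : Fin m) : row (0 : Fin m × Fin k → F) i = 0 := rfl

lemma row_sum {κ : Type*} (s : Finset κ) (x : κ → Fin m × Fin k → F) (i : Fin m) :
    row (∑ a ∈ s, x a) i = ∑ a ∈ s, row (x a) i := by
  ext j; simp [row, Finset.sum_apply]

lemma vt_add_left (v w : Fin m → F) (z : Fin k → F) : vt (v + w) z = vt v z + vt w z :=
  funext fun p => add_mul _ _ _

lemma vt_add_right (v : Fin m → F) (z y : Fin k → F) : vt v (z + y) = vt v z + vt v y :=
  funext fun p => mul_add _ _ _

lemma vt_smul_left (c : F) (v : Fin m → F) (z : Fin k → F) : vt (c • v) z = c • vt v z :=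
  funext fun p => by simp [vt, mul_assoc]

lemma vt_smul_right (c : F) (v : Fin m → F) (z : Fin k → F) : vt v (c • z) = c • vt v z :=
  funext fun p => by simp [vt]; ring

lemma vt_zero_left (z : Fin k → F) : vt (0 : Fin m → F) z = 0 := funext fun p => by simp [vt]

lemma vt_zero_right (v : Fin m → F) : vt v (0 : Fin k → F) = 0 := funext fun p => by simp [vt]

/-- Tensoring with a fixed left vector. -/
def vtR (v : Fin m → F) : (Fin k → F) →ₗ[F] (Fin m × Fin k → F) where
  toFun := vt v
  map_add' := vt_add_right v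
  map_smul' c z := vt_smul_right c v z

/-- Tensoring with a fixed right vector. -/
def vtL (z : Fin k → F) : (Fin m → F) →ₗ[F] (Fin m × Fin k → F) where
  toFun v := vt v z
  map_add' v w := vt_add_left v w z
  map_smul' c v := vt_smul_left c v z

lemma vt_eq_zero {v : Fin m → F} {z : Fin k → F} (h : vt v z = 0) : v = 0 ∨ z = 0 := by
  by_contra hc
  push Not at hc
  obtain ⟨i, hi⟩ := Function.ne_iff.1 hc.1
  obtain ⟨j, hj⟩ := Function.ne_iff.1 hc.2
  exact mul_ne_zero hi hj (congrFun h (i, j))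

lemma vtR_injective {v : Fin m → F} (hv : v ≠ 0) : Function.Injective (vtR (k := k) v) :=
  (injective_iff_map_eq_zero _).2 fun z hz => (vt_eq_zero hz).resolve_left hv

lemma vtL_injective {z : Fin k → F} (hz : z ≠ 0) : Function.Injective (vtL (m := m) z) :=
  (injective_iff_map_eq_zero _).2 fun v hv => (vt_eq_zero hv).resolve_right hz

lemma sum_rows (x : Fin m × Fin k → F) : x = ∑ i, vt (Pi.single i 1) (row x i) := by
  refine row_ext fun l => ?_
  rw [row_sum, Finset.sum_eq_single l (fun i _ hi => ?_) (by simp)]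
  · simp [row_vt]
  · simp [row_vt, hi.symm]

lemma vt_single (i : Fin m) (j : Fin k) :
    vt (Pi.single i (1 : F)) (Pi.single j 1) = Pi.single (i, j) 1 := by
  funext p
  obtain ⟨a, b⟩ := p
  by_cases h : a = i <;> by_cases h' : b = j <;> simp [vt, h, h', Pi.single_apply, Prod.ext_iff]

lemma vt_dot_vt (w : Fin m → F) (φ : Fin k → F) (u : Fin m → F) (f : Fin k → F) :
    vt w φ ⬝ᵥ vt u f = (w ⬝ᵥ u) * (φ ⬝ᵥ f) := by
  simp only [dotProduct, vt, Fintype.sum_prod_type, Finset.sum_mul_sum]
  exact Finset.sum_congr rfl fun i _ => Finset.sum_congr rfl fun j _ => by ring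

/-- The vectors with all rows in a subspace. -/
def W (U : Submodule F (Fin k → F)) : Submodule F (Fin m × Fin k → F) where
  carrier := {x | ∀ i, row x i ∈ U}
  zero_mem' i := U.zero_mem
  add_mem' hx hy i := U.add_mem (hx i) (hy i)
  smul_mem' c _ hx i := U.smul_mem c (hx i)

lemma mem_W {U : Submodule F (Fin k → F)} {x : Fin m × Fin k → F} :
    x ∈ W U ↔ ∀ i, row x i ∈ U := Iff.rfl

lemma vt_mem_W {U : Submodule F (Fin k → F)} (v : Fin m → F) {z : Fin k → F} (hz : z ∈ U) :
    vt v z ∈ W U := fun i => by rw [row_vt]; exact U.smul_mem _ hz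

lemma mem_of_vt_mem_W {U : Submodule F (Fin k → F)} {v : Fin m → F} (hv : v ≠ 0) {z : Fin k → F}
    (h : vt v z ∈ W U) : z ∈ U := by
  obtain ⟨i, hi⟩ := Function.ne_iff.1 hv
  have := h i
  rw [row_vt] at this
  exact (Submodule.smul_mem_iff U hi).1 this

/-- The Kronecker product of two invertible matrices. -/
def kr (a : GL (Fin m) F) (b : GL (Fin k) F) : GL (Fin m × Fin k) F :=
  ⟨(a : Matrix (Fin m) (Fin m) F) ⊗ₖ (b : Matrix (Fin k) (Fin k) F),
    ((a⁻¹ : GL (Fin m) F) : Matrix (Fin m) (Fin m) F) ⊗ₖ ((b⁻¹ : GL (Fin k) F) : Matrix (Fin k) (Fin k) F),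
    by rw [← mul_kronecker_mul, ← Units.val_mul, ← Units.val_mul]; simp,
    by rw [← mul_kronecker_mul, ← Units.val_mul, ← Units.val_mul]; simp⟩

lemma row_kr (a : GL (Fin m) F) (b : GL (Fin k) F) (x : Fin m × Fin k → F) (i : Fin m) :
    row ((kr a b : Matrix (Fin m × Fin k) (Fin m × Fin k) F) *ᵥ x) i =
      ∑ l, (a : Matrix (Fin m) (Fin m) F) i l • ((b : Matrix (Fin k) (Fin k) F) *ᵥ row x l) := by
  funext j
  simp [row, kr, Matrix.mulVec, dotProduct, Fintype.sum_prod_type, kroneckerMap_apply,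
    Finset.sum_apply, Finset.mul_sum, mul_assoc]

lemma kr_vt (a : GL (Fin m) F) (b : GL (Fin k) F) (v : Fin m → F) (z : Fin k → F) :
    (kr a b : Matrix (Fin m × Fin k) (Fin m × Fin k) F) *ᵥ vt v z =
      vt ((a : Matrix (Fin m) (Fin m) F) *ᵥ v) ((b : Matrix (Fin k) (Fin k) F) *ᵥ z) := by
  refine row_ext fun i => ?_
  rw [row_kr, row_vt]
  simp only [row_vt, mulVec_smul, smul_smul, ← Finset.sum_smul]
  rfl

lemma kr_one_row (b : GL (Fin k) F) (x : Fin m × Fin k → F) (i : Fin m) :
    row ((kr (1 : GL (Fin m) F) b : Matrix (Fin m × Fin k) (Fin m × Fin k) F) *ᵥ x) i = (b : Matrix (Fin k) (Fin k) F) *ᵥ row x i := by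
  rw [row_kr, Finset.sum_eq_single i (fun l _ hl => ?_) (by simp)]
  · simp
  · simp [one_apply_ne hl.symm]

lemma kr_mul (a a' : GL (Fin m) F) (b b' : GL (Fin k) F) :
    kr a b * kr a' b' = kr (a * a') (b * b') := by
  refine Units.ext ?_
  simp [kr, mul_kronecker_mul]

lemma kr_one : kr (1 : GL (Fin m) F) (1 : GL (Fin k) F) = 1 := Units.ext (by simp [kr])

lemma kr_pow (a : GL (Fin m) F) (b : GL (Fin k) F) (e : ℕ) :
    kr a b ^ e = kr (a ^ e) (b ^ e) := by
  induction e with
  | zero => simp [kr_one]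
  | succ e ih => rw [pow_succ, ih, kr_mul, pow_succ, pow_succ]

lemma kr_inv (a : GL (Fin m) F) (b : GL (Fin k) F) : (kr a b)⁻¹ = kr a⁻¹ b⁻¹ :=
  inv_eq_of_mul_eq_one_right (by rw [kr_mul, mul_inv_cancel, mul_inv_cancel, kr_one])

lemma mem_kronecker {g : GL (Fin m × Fin k) F} :
    g ∈ Cfsg.Geo.kroneckerSubgroup m k F ↔ ∃ a b, g = kr a b :=
  ⟨fun ⟨a, b, h⟩ => ⟨a, b, Units.ext h⟩, fun ⟨a, b, h⟩ => ⟨a, b, by rw [h]; rfl⟩⟩

lemma det_kr (a : GL (Fin m) F) (b : GL (Fin k) F) :
    (kr a b : Matrix (Fin m × Fin k) (Fin m × Fin k) F).det =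
      (a : Matrix (Fin m) (Fin m) F).det ^ k * (b : Matrix (Fin k) (Fin k) F).det ^ m := by
  show ((a : Matrix (Fin m) (Fin m) F) ⊗ₖ (b : Matrix (Fin k) (Fin k) F)).det = _
  rw [det_kronecker]
  simp

/-- An injective map cannot land among the multiples of a vector in too small a space. -/
lemma pure_line {f : (Fin k → F) →ₗ[F] (Fin m × Fin k → F)} (hf : Function.Injective f)
    (hmk : m < k) (hp : ∀ z, ∃ v y, f z = vt v y) :
    ∃ v, v ≠ 0 ∧ ∀ z, ∃ y, f z = vt v y := by
  classical
  choose v y hvy using hp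
  obtain ⟨z₀, hz₀⟩ : ∃ z₀ : Fin k → F, z₀ ≠ 0 :=
    ⟨Pi.single ⟨0, by omega⟩ 1, fun e => by simpa using congrFun e ⟨0, by omega⟩⟩
  have nz : ∀ z, z ≠ 0 → v z ≠ 0 ∧ y z ≠ 0 := fun z hz => by
    constructor <;> intro e <;> refine hz (hf ?_) <;> rw [hvy, map_zero, e]
    · exact vt_zero_left _
    · exact vt_zero_right _
  -- two pure vectors with pure sum share a factor
  have dep : ∀ z z', (∃ c : F, v z' = c • v z) ∨ z' = 0 ∨ z = 0 ∨ ∃ c : F, y z' = c • y z := by
    intro z z'
    by_contra hc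
    push Not at hc
    obtain ⟨h1, hz', hz, h2⟩ := hc
    have l1 : LinearIndependent F ![v z, v z'] :=
      linearIndependent_fin2.2 ⟨(nz z' hz').1, fun c e => by
        rcases eq_or_ne c 0 with rfl | hc0
        · exact (nz z hz).1 (by simpa using e.symm)
        · exact h1 c⁻¹ (by simp at e; rw [← e, inv_smul_smul₀ hc0])⟩
    have l2 : LinearIndependent F ![y z, y z'] :=
      linearIndependent_fin2.2 ⟨(nz z' hz').2, fun c e => by
        rcases eq_or_ne c 0 with rfl | hc0
        · exact (nz z hz).2 (by simpa using e.symm)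
        · exact h2 c⁻¹ (by simp at e; rw [← e, inv_smul_smul₀ hc0])⟩
    have hsum : ∀ i, row (vt (v z) (y z) + vt (v z') (y z')) i = v (z + z') i • y (z + z') :=
      fun i => by rw [← hvy, ← hvy, ← map_add, hvy, row_vt]
    simp only [row_add, row_vt] at hsum
    obtain ⟨i, hi⟩ := Function.ne_iff.1 (nz z hz).1
    have hall : ∀ l, v z' l * v z i - v z' i * v z l = 0 := by
      intro l
      have e1 := hsum i
      have e2 := hsum l
      have e3 : (v z i * v (z + z') l - v z l * v (z + z') i) • y z +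
          (v z' i * v (z + z') l - v z' l * v (z + z') i) • y z' = 0 := by
        have : v (z + z') l • (v z i • y z + v z' i • y z') -
            v (z + z') i • (v z l • y z + v z' l • y z') = 0 := by
          rw [e1, e2, smul_smul, smul_smul, mul_comm, sub_self]
        rw [← this]
        module
      obtain ⟨a, b⟩ := LinearIndependent.pair_iff.1 l2 _ _ e3
      rcases eq_or_ne (v (z + z') i) 0 with h0 | h0
      · exfalso
        rw [h0, zero_smul] at e1
        exact hi (LinearIndependent.pair_iff.1 l2 _ _ e1).1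
      · refine (mul_left_inj' h0).1 ?_
        rw [zero_mul]
        linear_combination v z' i * a - v z i * b
    refine h1 (v z' i / v z i) (funext fun l => ?_)
    have := hall l
    simp only [Pi.smul_apply, smul_eq_mul]
    have hi' : v z i ≠ 0 := hi
    rw [div_mul_eq_mul_div, eq_div_iff hi']
    linear_combination this
  refine ⟨v z₀, (nz z₀ hz₀).1, ?_⟩
  by_contra hcon
  push Not at hcon
  obtain ⟨z₁, hz₁⟩ := hcon
  have hv1 : ∀ c : F, v z₁ ≠ c • v z₀ := fun c e => hz₁ (c • y z₁)
    (by rw [hvy, e, vt_smul_left, vt_smul_right])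
  have hz1 : z₁ ≠ 0 := fun e => hz₁ 0 (by rw [e, map_zero, vt_zero_right])
  obtain ⟨c₁, hc₁⟩ := (((dep z₀ z₁).resolve_left fun ⟨c, e⟩ => hv1 c e).resolve_left
    hz1).resolve_left hz₀
  have hc10 : c₁ ≠ 0 := fun e => (nz z₁ hz1).2 (by rw [hc₁, e, zero_smul])
  have hsub : ∀ z, f z ∈ LinearMap.range (vtL (m := m) (y z₀)) := by
    intro z
    rcases eq_or_ne z 0 with rfl | hz
    · rw [map_zero]; exact zero_mem _
    suffices ∃ c : F, y z = c • y z₀ by
      obtain ⟨c, hc⟩ := this
      exact ⟨c • v z, by rw [hvy, hc]; exact (vt_smul_left _ _ _).trans (vt_smul_right _ _ _).symm⟩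
    rcases dep z₀ z with ⟨c, hc⟩ | h | h | h
    · rcases dep z₁ z with ⟨d, hd⟩ | h | h | ⟨d, hd⟩
      · exfalso
        have hd0 : d ≠ 0 := fun e => (nz z hz).1 (by rw [hd, e, zero_smul])
        exact hv1 (d⁻¹ * c) (by rw [mul_smul, ← hc, hd, inv_smul_smul₀ hd0])
      · exact absurd h hz
      · exact absurd h hz1
      · exact ⟨d * c₁, by rw [hd, hc₁, smul_smul]⟩
    · exact absurd h hz
    · exact absurd h hz₀
    · exact h
  have h1 := LinearMap.finrank_range_of_inj hf
  have h2 := Submodule.finrank_mono (s := LinearMap.range f) (t := LinearMap.range (vtL (y z₀)))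
    (by rintro _ ⟨z, rfl⟩; exact hsub z)
  have h3 := LinearMap.finrank_range_le (vtL (m := m) (F := F) (y z₀))
  rw [h1, Module.finrank_fin_fun] at h2
  rw [Module.finrank_fin_fun] at h3
  omega

end Cfsg.Agent.Lib.Forms.TProd
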