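import Cfsg.Agent.Lib.Forms.TensorProdSylow

/-!
Maps preserving pure vectors, and the decomposition of a good element.
-/

set_option autoImplicit false

namespace Cfsg.Agent.Lib.Forms.TProd

open Matrix Kronecker Cfsg.Agent.Lib.Forms

variable {F : Type*} [Field F] {m k : ℕ}

lemma exists_gl {n : ℕ} (L : (Fin n → F) →ₗ[F] (Fin n → F)) (hL : Function.Injective L) :
    ∃ g : GL (Fin n) F, ∀ x, (g : Matrix (Fin n) (Fin n) F) *ᵥ x = L x := by
  have h : IsUnit (LinearMap.toMatrix' L) :=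
    Matrix.mulVec_injective_iff_isUnit.1 fun x y e => hL (by
      rwa [← Matrix.toLin'_apply, ← Matrix.toLin'_apply, Matrix.toLin'_toMatrix'] at e)
  refine ⟨h.unit, fun x => ?_⟩
  rw [IsUnit.unit_spec, ← Matrix.toLin'_apply, Matrix.toLin'_toMatrix']

/-- A coordinate of the left factor. -/
noncomputable def coL (ψ : Fin k → F) : (Fin m × Fin k → F) →ₗ[F] (Fin m → F) where
  toFun x i := ψ ⬝ᵥ row x i
  map_add' x y := funext fun i => by simp [row_add, dotProduct_add]
  map_smul' c x := funext fun i => by simp [row_smul, dotProduct_smul]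

/-- A coordinate of the right factor. -/
noncomputable def coR (ψ : Fin m → F) : (Fin m × Fin k → F) →ₗ[F] (Fin k → F) where
  toFun x := ∑ i, ψ i • row x i
  map_add' x y := by simp [row_add, Finset.sum_add_distrib]
  map_smul' c x := by simp [row_smul, Finset.smul_sum, smul_comm c]

lemma coL_vt (ψ : Fin k → F) (v : Fin m → F) (z : Fin k → F) :
    coL ψ (vt v z) = (ψ ⬝ᵥ z) • v := funext fun i => by
  simp [coL, row_vt, dotProduct_smul, mul_comm]

lemma coR_vt (ψ : Fin m → F) (v : Fin m → F) (z : Fin k → F) :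
    coR ψ (vt v z) = (ψ ⬝ᵥ v) • z := by
  show ∑ i, ψ i • row (vt v z) i = _
  simp [row_vt, smul_smul, ← Finset.sum_smul, dotProduct]

/-- A map preserving pure vectors lies in the product group. -/
theorem mem_of_pure (hmk : m < k) (g : GL (Fin m × Fin k) F)
    (h : ∀ v z, ∃ w y, (g : Matrix (Fin m × Fin k) (Fin m × Fin k) F) *ᵥ vt v z = vt w y) :
    g ∈ Cfsg.Geo.kroneckerSubgroup m k F := by
  classical
  rcases Nat.eq_zero_or_pos m with rfl | hm
  · exact mem_kronecker.2 ⟨1, 1, Units.ext (Subsingleton.elim _ _)⟩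
  set G := Matrix.toLin' (g : Matrix (Fin m × Fin k) (Fin m × Fin k) F) with hG
  have hGi : Function.Injective G := fun x y e => gl_mulVec_injective g (by simpa [hG] using e)
  have hline : ∀ v : Fin m → F, v ≠ 0 → ∃ α, α ≠ 0 ∧ ∀ z, ∃ y, G (vt v z) = vt α y := fun v hv =>
    pure_line (f := G ∘ₗ vtR v) (hGi.comp (vtR_injective hv)) hmk fun z => by
      show ∃ w y, G (vt v z) = vt w y
      simpa [hG] using h v z
  let e : Fin m → Fin m → F := fun i => Pi.single i 1
  have he : ∀ i, e i ≠ 0 := fun i h0 => by simpa [e] using congrFun h0 i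
  choose α hα0 hα using fun i => hline (e i) (he i)
  have hψ : ∀ i, ∃ ψ : Fin m → F, ψ ⬝ᵥ α i = 1 := fun i => by
    obtain ⟨ψ, h1, -⟩ := exists_dot_eq_one (p := ⊥) (x := α i) (by simpa using hα0 i)
    exact ⟨ψ, h1⟩
  choose ψ hψ using hψ
  let β : Fin m → (Fin k → F) →ₗ[F] (Fin k → F) := fun i => coR (ψ i) ∘ₗ G ∘ₗ vtR (e i)
  have hβ : ∀ i z, G (vt (e i) z) = vt (α i) (β i z) := fun i z => by
    obtain ⟨y, hy⟩ := hα i z
    rw [hy]
    congr 1
    show y = coR (ψ i) (G (vt (e i) z))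
    rw [hy, coR_vt, hψ, one_smul]
  have hβi : ∀ i, Function.Injective (β i) := fun i => (injective_iff_map_eq_zero _).2 fun z hz =>
    vtR_injective (he i) (hGi (by
      show G (vt (e i) z) = G (vtR (e i) 0)
      rw [hβ, hz, vt_zero_right, map_zero, map_zero]))
  set i₀ : Fin m := ⟨0, hm⟩
  have hrel : ∀ i, ∃ c : F, ∀ z, β i z = c • β i₀ z := by
    intro i
    rcases eq_or_ne i i₀ with rfl | hi
    · exact ⟨1, fun z => (one_smul _ _).symm⟩
    have hs : e i + e i₀ ≠ 0 := fun h0 => by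
      simpa [e, Pi.single_apply, hi.symm] using congrFun h0 i
    obtain ⟨γ, hγ0, hγ⟩ := hline _ hs
    have hind : ∀ c : F, α i ≠ c • α i₀ := by
      intro c hc
      obtain ⟨z, hz⟩ := (LinearMap.injective_iff_surjective.1 (hβi i₀))
        (c • β i (Pi.single ⟨0, by omega⟩ 1))
      have h1 : G (vt (e i) (Pi.single ⟨0, by omega⟩ 1)) = G (vt (e i₀) z) := by
        rw [hβ, hβ, hz, hc, vt_smul_left, vt_smul_right]
      have h2 := congrFun (hGi h1) (i, ⟨0, by omega⟩)
      simp [vt, e, Pi.single_apply, hi] at h2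
    obtain ⟨j, l, hjl⟩ : ∃ j l, α i j * α i₀ l - α i l * α i₀ j ≠ 0 := by
      by_contra hcon
      push Not at hcon
      obtain ⟨l, hl⟩ := Function.ne_iff.1 (hα0 i₀)
      refine hind (α i l / α i₀ l) (funext fun j => ?_)
      rw [Pi.smul_apply, smul_eq_mul, div_mul_eq_mul_div, eq_div_iff hl]
      linear_combination hcon j l
    -- the rows `j` and `l` of a pure image
    have key : ∀ z, ∃ u : Fin k → F, ∃ a b : F, β i z = a • u ∧ β i₀ z = b • u := by
      intro z
      obtain ⟨y, hy⟩ := hγ z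
      rw [vt_add_left, map_add, hβ, hβ] at hy
      have e1 := congrArg (fun x => row x j) hy
      have e2 := congrArg (fun x => row x l) hy
      simp only [row_add, row_vt] at e1 e2
      refine ⟨y, (γ j * α i₀ l - γ l * α i₀ j) / (α i j * α i₀ l - α i l * α i₀ j),
        (γ l * α i j - γ j * α i l) / (α i j * α i₀ l - α i l * α i₀ j), ?_, ?_⟩
      · rw [div_eq_inv_mul, mul_smul, eq_inv_smul_iff₀ hjl, sub_smul, sub_smul, mul_smul, mul_smul,
          mul_smul, mul_smul, smul_comm (γ j), smul_comm (γ l), ← e1, ← e2]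
        module
      · rw [div_eq_inv_mul, mul_smul, eq_inv_smul_iff₀ hjl, sub_smul, sub_smul, mul_smul, mul_smul,
          mul_smul, mul_smul, smul_comm (γ l), smul_comm (γ j), ← e1, ← e2]
        module
    let E := LinearEquiv.ofInjectiveEndo (β i₀) (hβi i₀)
    obtain ⟨c, hc⟩ : ∃ c : F, ∀ w : Fin k → F, (β i ∘ₗ E.symm.toLinearMap) w = c • w := by
      refine (LinearMap.exists_eq_smul_id_of_forall_notLinearIndependent
        (f := β i ∘ₗ E.symm.toLinearMap) fun w hw => ?_).imp fun c hc w => by rw [hc]; rfl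
      obtain ⟨u, a, b, h1, h2⟩ := key (E.symm w)
      have hw' : β i₀ (E.symm w) = w := E.apply_symm_apply w
      rw [hw'] at h2
      rw [LinearIndependent.pair_iff] at hw
      obtain ⟨ha, hb⟩ := hw a (-b) (by
        simp only [LinearMap.comp_apply, LinearEquiv.coe_coe, h1]
        nth_rw 1 [h2]
        module)
      rw [neg_eq_zero] at hb
      rw [hb, zero_smul] at h2
      have := hw 1 0 (by rw [h2]; simp)
      exact one_ne_zero this.1
    refine ⟨c, fun z => ?_⟩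
    have := hc (E z)
    rwa [LinearMap.comp_apply, LinearEquiv.coe_coe, E.symm_apply_apply] at this
  choose c hc using hrel
  obtain ⟨B, hB⟩ := exists_gl (β i₀) (hβi i₀)
  let A0 : Matrix (Fin m) (Fin m) F := Matrix.of fun l i => c i * α i l
  have hA0 : ∀ i z, G (vt (e i) z) = vt (A0 *ᵥ e i) ((B : Matrix (Fin k) (Fin k) F) *ᵥ z) := by
    intro i z
    rw [hβ, hc, hB, vt_smul_right, ← vt_smul_left]
    congr 1
    funext l
    simp [e, A0]
  have hkron : (g : Matrix (Fin m × Fin k) (Fin m × Fin k) F) =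
      A0 ⊗ₖ (B : Matrix (Fin k) (Fin k) F) := by
    refine Matrix.ext_iff_mulVec.2 fun x => ?_
    rw [sum_rows x, mulVec_sum, mulVec_sum]
    refine Finset.sum_congr rfl fun i _ => ?_
    rw [kron_vt, ← hA0, hG, Matrix.toLin'_apply]
  have hdet : A0.det ≠ 0 := fun h0 => by
    have := (Matrix.isUnit_iff_isUnit_det _).1 g.isUnit
    rw [hkron, det_kronecker, h0] at this
    simp [zero_pow (show k ≠ 0 by omega)] at this
  exact ⟨Matrix.GeneralLinearGroup.mkOfDetNeZero A0 hdet, B, hkron⟩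

/-- A good element is a product element times an element acting trivially on `W U` and its
quotient. -/
theorem exists_factor [Finite F] {U : Submodule F (Fin k → F)} (hU : U ≠ ⊥) (hU' : U ≠ ⊤)
    {y : GL (Fin m × Fin k) F} (hy : GoodElt y U) :
    ∃ A B, (∀ x ∈ W U, (((kr A B)⁻¹ * y : GL (Fin m × Fin k) F) :
        Matrix (Fin m × Fin k) (Fin m × Fin k) F) *ᵥ x = x) ∧
      ∀ x, (((kr A B)⁻¹ * y : GL (Fin m × Fin k) F) :
        Matrix (Fin m × Fin k) (Fin m × Fin k) F) *ᵥ x - x ∈ W U := by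
  classical
  rcases Nat.eq_zero_or_pos m with rfl | hm
  · exact ⟨1, 1, fun x _ => row_ext fun i => i.elim0, fun x i => i.elim0⟩
  set Y := Matrix.toLin' (y : Matrix (Fin m × Fin k) (Fin m × Fin k) F) with hY
  have hYi : Function.Injective Y := fun x z e => gl_mulVec_injective y (by simpa [hY] using e)
  have hYW : ∀ x ∈ W U, Y x ∈ W U := fun x hx => by simpa [hY] using hy.1 x hx
  have hYW' : ∀ x, Y x ∈ W U → x ∈ W U := fun x hx => by
    have hs : y ∈ Cfsg.Geo.subspaceStabilizer (W U) := mem_subspaceStabilizer.2 hy.1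
    have := mem_subspaceStabilizer.1 (inv_mem hs) _ hx
    rwa [hY, Matrix.toLin'_apply, inv_mulVec_mulVec] at this
  set Ann : Set (Fin k → F) := {φ | ∀ u ∈ U, φ ⬝ᵥ u = 0}
  -- the basic equation
  have eqn : ∀ f ∈ U, ∀ φ ∈ Ann, ∃ T : (Fin k → F) →ₗ[F] (Fin k → F), ∀ x i,
      row (Y (vt (fun l => φ ⬝ᵥ row x l) f)) i = T (row (Y x) i) := by
    intro f hf φ hφ
    obtain ⟨b, hb⟩ := hy.2 f hf φ hφ
    refine ⟨Matrix.toLin' (b : Matrix (Fin k) (Fin k) F) - LinearMap.id, fun x i => ?_⟩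
    have h1 := congrArg (fun g : GL (Fin m × Fin k) F =>
      (g : Matrix (Fin m × Fin k) (Fin m × Fin k) F) *ᵥ Y x) hb
    simp only [mul_mulVec', hY, Matrix.toLin'_apply, inv_mulVec_mulVec] at h1
    have h2 : (kr (1 : GL (Fin m) F) (tv f φ) : Matrix (Fin m × Fin k) (Fin m × Fin k) F) *ᵥ x =
        x + vt (fun l => φ ⬝ᵥ row x l) f :=
      row_ext fun l => by rw [kr_one_row, tv_mulVec (hφ f hf), row_add, row_vt]
    rw [h2, mulVec_add] at h1
    have h3 := congrArg (fun z => row z i) h1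
    simp only [row_add, kr_one_row] at h3
    simp only [hY, Matrix.toLin'_apply, LinearMap.sub_apply, LinearMap.id_apply]
    rw [← h3]
    abel
  obtain ⟨z₀, hz₀⟩ : ∃ z, z ∉ U := exists_notMem_of_ne_top hU'
  obtain ⟨φ₀, hφ₀1, hφ₀⟩ := exists_dot_eq_one hz₀
  -- images of pure vectors of `W U`
  have line : ∀ f ∈ U, f ≠ 0 → ∃ f', f' ∈ U ∧ f' ≠ 0 ∧ ∀ w, ∃ u, Y (vt w f) = vt u f' := by
    intro f hf hf0
    obtain ⟨T, hT⟩ := eqn f hf φ₀ hφ₀
    have hin : ∀ w i, row (Y (vt w f)) i ∈ LinearMap.range T := by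
      intro w i
      have := hT (vt w z₀) i
      rw [show (fun l => φ₀ ⬝ᵥ row (vt w z₀) l) = w from funext fun l => by
        rw [row_vt, dotProduct_smul, hφ₀1, smul_eq_mul, mul_one]] at this
      exact ⟨_, this.symm⟩
    let Θ : (Fin m → LinearMap.range T) →ₗ[F] (Fin m × Fin k → F) :=
      { toFun := fun q p => (q p.1 : Fin k → F) p.2
        map_add' := fun _ _ => rfl
        map_smul' := fun _ _ => rfl }
    have hΘ : Function.Injective Θ := fun q q' e => funext fun i => Subtype.ext (funext fun j =>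
      congrFun e (i, j))
    have hsurj : ∀ r ∈ LinearMap.range T, ∀ i, vt (Pi.single i 1) r ∈
        LinearMap.range (Y ∘ₗ vtL f) := by
      rintro _ ⟨r, rfl⟩ i
      obtain ⟨x, hx⟩ := LinearMap.injective_iff_surjective.1 hYi (vt (Pi.single i 1) r)
      refine ⟨fun l => φ₀ ⬝ᵥ row x l, row_ext fun j => ?_⟩
      rw [LinearMap.comp_apply]
      refine (hT x j).trans ?_
      rw [hx, row_vt, row_vt, map_smul]
    have hle : LinearMap.range Θ ≤ LinearMap.range (Y ∘ₗ vtL f) := by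
      rintro _ ⟨q, rfl⟩
      rw [sum_rows (Θ q)]
      exact Submodule.sum_mem _ fun i _ => hsurj _ (q i).2 i
    have h1 := Submodule.finrank_mono hle
    rw [LinearMap.finrank_range_of_inj hΘ, Module.finrank_pi_fintype, Finset.sum_const,
      Finset.card_univ, Fintype.card_fin, smul_eq_mul] at h1
    have h2 := LinearMap.finrank_range_le (Y ∘ₗ vtL (m := m) f)
    rw [Module.finrank_fin_fun] at h2
    have h3 : Module.finrank F (LinearMap.range T) ≤ 1 :=
      Nat.le_of_mul_le_mul_left (by rw [mul_one]; exact h1.trans h2) hm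
    obtain ⟨i, hi⟩ : ∃ i, row (Y (vt (Pi.single ⟨0, hm⟩ 1) f)) i ≠ 0 := by
      by_contra hcon
      push Not at hcon
      have : Y (vt (Pi.single ⟨0, hm⟩ 1) f) = Y 0 := by rw [map_zero]; exact row_ext hcon
      rcases vt_eq_zero (hYi this) with h | h
      · simpa using congrFun h ⟨0, hm⟩
      · exact hf0 h
    refine ⟨row (Y (vt (Pi.single ⟨0, hm⟩ 1) f)) i, hYW _ (vt_mem_W _ hf) i, hi, fun w => ?_⟩
    have key : ∀ l, ∃ t : F, row (Y (vt w f)) l = t • row (Y (vt (Pi.single ⟨0, hm⟩ 1) f)) i := by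
      intro l
      have hspan : LinearMap.range T = F ∙ row (Y (vt (Pi.single ⟨0, hm⟩ 1) f)) i := by
        refine (Submodule.eq_of_le_of_finrank_le ?_ ?_).symm
        · rw [Submodule.span_singleton_le_iff_mem]; exact hin _ _
        · rw [finrank_span_singleton hi]; exact h3
      obtain ⟨t, ht⟩ := Submodule.mem_span_singleton.1 (hspan ▸ hin w l)
      exact ⟨t, ht.symm⟩
    choose u hu using key
    exact ⟨u, row_ext fun l => by rw [row_vt, hu]⟩
  obtain ⟨f₀, hf₀, hf₀0⟩ := U.exists_mem_ne_zero_of_ne_bot hU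
  obtain ⟨g₀, hg₀U, hg₀, hline₀⟩ := line f₀ hf₀ hf₀0
  obtain ⟨χ₀, hχ₀, -⟩ := exists_dot_eq_one (p := ⊥) (x := g₀) (by simpa using hg₀)
  set α := coL χ₀ ∘ₗ Y ∘ₗ vtL (m := m) f₀ with hαdef
  have hα : ∀ w, Y (vt w f₀) = vt (α w) g₀ := fun w => by
    obtain ⟨u, hu⟩ := hline₀ w
    rw [hu]
    congr 1
    show u = coL χ₀ (Y (vt w f₀))
    rw [hu, coL_vt, hχ₀, one_smul]
  have hαi : Function.Injective α := (injective_iff_map_eq_zero _).2 fun w hw =>
    vtL_injective hf₀0 (hYi (by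
      show Y (vt w f₀) = Y (vtL f₀ 0)
      rw [hα, hw, vt_zero_left, map_zero, map_zero]))
  set w₀ : Fin m → F := Pi.single ⟨0, hm⟩ 1
  have hw₀ : α w₀ ≠ 0 := fun e => by
    have : w₀ = 0 := hαi (by rw [e, map_zero])
    simpa [w₀] using congrFun this ⟨0, hm⟩
  obtain ⟨ψ₀, hψ₀, -⟩ := exists_dot_eq_one (p := ⊥) (x := α w₀) (by simpa using hw₀)
  set β := coR ψ₀ ∘ₗ Y ∘ₗ vtR (k := k) w₀ with hβdef
  have hβ0 : β f₀ = g₀ := by
    show coR ψ₀ (Y (vt w₀ f₀)) = g₀
    rw [hα, coR_vt, hψ₀, one_smul]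
  have onW : ∀ f ∈ U, ∀ w, Y (vt w f) = vt (α w) (β f) := by
    intro f hf w
    suffices ∃ g, ∀ w, Y (vt w f) = vt (α w) g by
      obtain ⟨g, hg⟩ := this
      rw [hg, show β f = g by
        show coR ψ₀ (Y (vt w₀ f)) = g
        rw [hg, coR_vt, hψ₀, one_smul]]
    by_cases hdep : ∃ t : F, f = t • f₀
    · obtain ⟨t, rfl⟩ := hdep
      exact ⟨t • g₀, fun w => by rw [vt_smul_right, map_smul, hα, vt_smul_right]⟩
    push Not at hdep
    have hf0 : f ≠ 0 := fun e => hdep 0 (by rw [e, zero_smul])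
    obtain ⟨g, -, hg, hg'⟩ := line f hf hf0
    have hgind : ∀ t : F, g ≠ t • g₀ := by
      intro t ht
      obtain ⟨u, hu⟩ := hg' w₀
      obtain ⟨w', hw'⟩ := LinearMap.injective_iff_surjective.1 hαi (t • u)
      have h1 : Y (vt w₀ f) = Y (vt w' f₀) := by
        rw [hu, ht, hα, hw', vt_smul_left, vt_smul_right]
      have h2 := congrArg (fun x => row x ⟨0, hm⟩) (hYi h1)
      simp only [row_vt, w₀, Pi.single_eq_same, one_smul] at h2
      exact hdep _ h2
    have hfs : f + f₀ ≠ 0 := fun e => hdep (-1) (by rw [neg_one_smul]; exact eq_neg_of_add_eq_zero_left e)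
    obtain ⟨s, -, hs, hs'⟩ := line (f + f₀) (U.add_mem hf hf₀) hfs
    have hli : LinearIndependent F ![g, g₀] :=
      linearIndependent_fin2.2 ⟨hg₀, fun t e => hgind t e.symm⟩
    obtain ⟨u₀, hu₀⟩ := hg' w₀
    obtain ⟨r₀, hr₀⟩ := hs' w₀
    rw [vt_add_right, map_add, hu₀, hα] at hr₀
    obtain ⟨i, hi⟩ := Function.ne_iff.1 hw₀
    have h0 := congrArg (fun x => row x i) hr₀
    simp only [row_add, row_vt] at h0
    have hri : r₀ i ≠ 0 := fun e => by
      rw [e, zero_smul] at h0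
      exact hi (LinearIndependent.pair_iff.1 hli _ _ h0).2
    obtain ⟨a, b, hsab, hb⟩ : ∃ a b : F, s = a • g + b • g₀ ∧ b ≠ 0 := by
      refine ⟨u₀ i / r₀ i, α w₀ i / r₀ i, ?_, div_ne_zero hi hri⟩
      rw [div_eq_inv_mul, div_eq_inv_mul, mul_smul, mul_smul, ← smul_add, h0, inv_smul_smul₀ hri]
    refine ⟨(a / b) • g, fun w => ?_⟩
    obtain ⟨u, hu⟩ := hg' w
    obtain ⟨r, hr⟩ := hs' w
    rw [vt_add_right, map_add, hu, hα, hsab] at hr
    rw [hu]
    refine row_ext fun l => ?_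
    have h1 := congrArg (fun x => row x l) hr
    simp only [row_add, row_vt] at h1
    have h2 : (u l - r l * a) • g + (α w l - r l * b) • g₀ = 0 := by
      rw [sub_smul, sub_smul, sub_add_sub_comm, h1]
      module
    obtain ⟨e1, e2⟩ := LinearIndependent.pair_iff.1 hli _ _ h2
    rw [row_vt, row_vt, smul_smul]
    congr 1
    rw [sub_eq_zero] at e1 e2
    rw [e1, e2]
    field_simp
  have hβU : ∀ f ∈ U, β f ∈ U := fun f hf => by
    refine mem_of_vt_mem_W hw₀ ?_
    rw [← onW f hf w₀]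
    exact hYW _ (vt_mem_W _ hf)
  -- the quotient
  have sep : ∀ r, (∀ φ ∈ Ann, ∀ T : (Fin k → F) →ₗ[F] (Fin k → F),
      (∀ x i, row (Y (vt (fun l => φ ⬝ᵥ row x l) f₀)) i = T (row (Y x) i)) → T r = 0) → r ∈ U := by
    intro r hr
    obtain ⟨x, hx⟩ := LinearMap.injective_iff_surjective.1 hYi (vt w₀ r)
    refine mem_of_vt_mem_W (v := w₀) (fun e => by simpa [w₀] using congrFun e ⟨0, hm⟩) ?_
    rw [← hx]
    refine hYW _ fun l => ?_
    by_contra hl
    obtain ⟨φ, hφ1, hφ⟩ := exists_dot_eq_one hl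
    obtain ⟨T, hT⟩ := eqn f₀ hf₀ φ hφ
    have h0 : Y (vt (fun l => φ ⬝ᵥ row x l) f₀) = 0 := row_ext fun i => by
      rw [hT, hx, row_vt, map_smul, hr φ hφ T hT, smul_zero, row_zero]
    have h1 := (vt_eq_zero ((injective_iff_map_eq_zero _).1 hYi _ h0)).resolve_right hf₀0
    exact one_ne_zero (hφ1.symm.trans (congrFun h1 l))
  have tbeta : ∀ φ ∈ Ann, ∀ T : (Fin k → F) →ₗ[F] (Fin k → F),
      (∀ x i, row (Y (vt (fun l => φ ⬝ᵥ row x l) f₀)) i = T (row (Y x) i)) →
      ∀ w z i, T (row (Y (vt w z)) i) = (φ ⬝ᵥ z * α w i) • g₀ := by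
    intro φ _ T hT w z i
    rw [← hT, show (fun l => φ ⬝ᵥ row (vt w z) l) = (φ ⬝ᵥ z) • w from funext fun l => by
      rw [row_vt, dotProduct_smul, Pi.smul_apply, smul_eq_mul, smul_eq_mul, mul_comm],
      hα, map_smul, row_vt, Pi.smul_apply, smul_eq_mul]
  have hTβ : ∀ φ ∈ Ann, ∀ T : (Fin k → F) →ₗ[F] (Fin k → F),
      (∀ x i, row (Y (vt (fun l => φ ⬝ᵥ row x l) f₀)) i = T (row (Y x) i)) →
      ∀ z, T (β z) = (φ ⬝ᵥ z) • g₀ := by
    intro φ hφ T hT z
    show T (∑ i, ψ₀ i • row (Y (vt w₀ z)) i) = _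
    rw [map_sum]
    simp only [map_smul, tbeta φ hφ T hT, smul_smul, ← Finset.sum_smul]
    congr 1
    calc ∑ i, ψ₀ i * (φ ⬝ᵥ z * α w₀ i) = φ ⬝ᵥ z * ∑ i, ψ₀ i * α w₀ i := by
          rw [Finset.mul_sum]
          exact Finset.sum_congr rfl fun i _ => by ring
      _ = φ ⬝ᵥ z := by rw [show ∑ i, ψ₀ i * α w₀ i = ψ₀ ⬝ᵥ α w₀ from rfl, hψ₀, mul_one]
  have quot : ∀ w z i, row (Y (vt w z)) i - α w i • β z ∈ U := fun w z i => sep _ fun φ hφ T hT => by
    rw [map_sub, map_smul, tbeta φ hφ T hT, hTβ φ hφ T hT, smul_smul, mul_comm, sub_self]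
  have hβi : Function.Injective β := by
    refine (injective_iff_map_eq_zero _).2 fun z hz => ?_
    have hzU : z ∈ U := by
      by_contra hcon
      obtain ⟨φ, hφ1, hφ⟩ := exists_dot_eq_one hcon
      obtain ⟨T, hT⟩ := eqn f₀ hf₀ φ hφ
      have := hTβ φ hφ T hT z
      rw [hz, map_zero, hφ1, one_smul] at this
      exact hg₀ this.symm
    refine vtR_injective (v := w₀) (fun e => by simpa [w₀] using congrFun e ⟨0, hm⟩) (hYi ?_)
    show Y (vt w₀ z) = Y (vtR w₀ 0)
    rw [onW z hzU, hz, vt_zero_right, map_zero, map_zero]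
  obtain ⟨A, hA⟩ := exists_gl α hαi
  obtain ⟨B, hB⟩ := exists_gl β hβi
  have hkrW : kr A B ∈ Cfsg.Geo.subspaceStabilizer (W (m := m) U) := by
    refine mem_subspaceStabilizer.2 fun x hx i => ?_
    rw [row_kr]
    exact U.sum_mem fun l _ => U.smul_mem _ (by rw [hB]; exact hβU _ (hx l))
  refine ⟨A, B, fun x hx => ?_, fun x => ?_⟩
  · rw [mul_mulVec']
    have : Y x = (kr A B : Matrix (Fin m × Fin k) (Fin m × Fin k) F) *ᵥ x := by
      rw [sum_rows x, map_sum, mulVec_sum]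
      exact Finset.sum_congr rfl fun i _ => by rw [onW _ (hx i), kr_vt, hA, hB]
    rw [← Matrix.toLin'_apply (y : Matrix (Fin m × Fin k) (Fin m × Fin k) F), ← hY, this,
      inv_mulVec_mulVec]
  · have h : (y : Matrix (Fin m × Fin k) (Fin m × Fin k) F) *ᵥ x -
        (kr A B : Matrix (Fin m × Fin k) (Fin m × Fin k) F) *ᵥ x ∈ W U := by
      rw [sum_rows x, mulVec_sum, mulVec_sum, ← Finset.sum_sub_distrib]
      refine Submodule.sum_mem _ fun i _ l => ?_
      rw [row_sub, kr_vt, hA, hB, row_vt, ← Matrix.toLin'_apply]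
      exact quot _ _ l
    have := mem_subspaceStabilizer.1 (inv_mem hkrW) _ h
    rwa [mulVec_sub, inv_mulVec_mulVec, ← mul_mulVec'] at this

end Cfsg.Agent.Lib.Forms.TProd
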