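import Cfsg.Agent.Lib.Forms.TensorProdFactor

/-!
A square-zero element outside the product group yields a transvection with pure centre and axis.
-/

set_option autoImplicit false

namespace Cfsg.Agent.Lib.Forms.TProd

open Matrix Kronecker Cfsg.Agent.Lib.Forms

variable {F : Type*} [Field F] [Finite F] {m k : ℕ}

/-- A row, linearly. -/
def rowL (b : Fin m) : (Fin m × Fin k → F) →ₗ[F] (Fin k → F) where
  toFun x := row x b
  map_add' _ _ := rfl
  map_smul' _ _ := rfl

/-- A matrix unit of the left factor. -/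
def unitL (a b : Fin m) : (Fin m × Fin k → F) →ₗ[F] (Fin m × Fin k → F) :=
  vtR (Pi.single a 1) ∘ₗ rowL b

omit [Finite F] in
lemma unitL_apply (a b : Fin m) (x : Fin m × Fin k → F) :
    unitL a b x = vt (Pi.single a 1) (row x b) := rfl

omit [Finite F] in
lemma row_vt_single (a l : Fin m) (z : Fin k → F) :
    row (vt (Pi.single a (1 : F)) z) l = if l = a then z else 0 := by
  rw [row_vt]
  by_cases h : l = a <;> simp [h]

omit [Finite F] in
lemma unitL_vt (a b c : Fin m) (z : Fin k → F) :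
    unitL a b (vt (Pi.single c (1 : F)) z) = if b = c then vt (Pi.single a 1) z else 0 := by
  rw [unitL_apply, row_vt_single]
  split
  · rfl
  · exact vt_zero_right _

omit [Finite F] in
lemma unitL_unitL {a b c : Fin m} (hba : b ≠ a) (d : Fin m) (x : Fin m × Fin k → F) :
    unitL c b (unitL a d x) = 0 := by
  rw [unitL_apply a d, unitL_vt, if_neg hba]

omit [Finite F] in
lemma pure_ext {V : Type*} [AddCommGroup V] [Module F V]
    {N N' : (Fin m × Fin k → F) →ₗ[F] V}
    (h : ∀ c z, N (vt (Pi.single c (1 : F)) z) = N' (vt (Pi.single c 1) z)) : N = N' :=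
  LinearMap.ext fun x => by rw [sum_rows x, map_sum, map_sum]; simp only [h]

omit [Finite F] in
lemma kr_tv_one_mulVec {u ψ : Fin m → F} (h : ψ ⬝ᵥ u = 0) (x : Fin m × Fin k → F) :
    (kr (tv u ψ) (1 : GL (Fin k) F) : Matrix (Fin m × Fin k) (Fin m × Fin k) F) *ᵥ x =
      x + vt u (coR ψ x) := by
  show Matrix.toLin' ((kr (tv u ψ) (1 : GL (Fin k) F) : GL (Fin m × Fin k) F) :
    Matrix (Fin m × Fin k) (Fin m × Fin k) F) x = _
  refine LinearMap.congr_fun (pure_ext (N' := LinearMap.id + vtR u ∘ₗ coR ψ) fun c z => ?_) x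
  show _ = vt (Pi.single c 1) z + vt u (coR ψ (vt (Pi.single c 1) z))
  rw [Matrix.toLin'_apply, kr_vt, tv_mulVec h, coR_vt, vt_add_left, vt_smul_left, vt_smul_right,
    Units.val_one, one_mulVec]

omit [Finite F] in
lemma kr_one_tv_mulVec {f ψ : Fin k → F} (h : ψ ⬝ᵥ f = 0) (x : Fin m × Fin k → F) :
    (kr (1 : GL (Fin m) F) (tv f ψ) : Matrix (Fin m × Fin k) (Fin m × Fin k) F) *ᵥ x =
      x + vt (coL ψ x) f :=
  row_ext fun i => by
    rw [kr_one_row, tv_mulVec h, row_add, row_vt]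
    rfl

omit [Finite F] in
lemma coR_single (b : Fin m) (x : Fin m × Fin k → F) : coR (Pi.single b (1 : F)) x = row x b := by
  show ∑ i, (Pi.single b (1 : F) : Fin m → F) i • row x i = _
  rw [Finset.sum_eq_single b (fun i _ hi => by simp [hi]) (by simp)]
  simp

omit [Finite F] in
lemma coR_neg (ψ : Fin m → F) (x : Fin m × Fin k → F) : coR (-ψ) x = -coR ψ x := by
  show ∑ i, (-ψ) i • row x i = -∑ i, ψ i • row x i
  simp

variable {U : Submodule F (Fin k → F)} {M : Subgroup (GL (Fin m × Fin k) F)}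
  {N : (Fin m × Fin k → F) →ₗ[F] (Fin m × Fin k → F)}

/-- The square-zero maps between `W U` and its quotient that give elements of `M`. -/
def Nil (U : Submodule F (Fin k → F)) (M : Subgroup (GL (Fin m × Fin k) F))
    (N : (Fin m × Fin k → F) →ₗ[F] (Fin m × Fin k → F)) : Prop :=
  (∀ x, N x ∈ W U) ∧ (∀ x ∈ W U, N x = 0) ∧ uni N ∈ M

lemma Nil.sq (h : Nil U M N) : ∀ v, N (N v) = 0 := fun v => h.2.1 _ (h.1 v)

lemma Nil.sub {N' : (Fin m × Fin k → F) →ₗ[F] (Fin m × Fin k → F)} (h : Nil U M N)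
    (h' : Nil U M N') : Nil U M (N - N') := by
  refine ⟨fun x => (W U).sub_mem (h.1 x) (h'.1 x), fun x hx => by simp [h.2.1 x hx, h'.2.1 x hx], ?_⟩
  have e : uni (-N') = (uni N')⁻¹ := (inv_eq_of_mul_eq_one_right (by
    rw [← uni_add h'.sq (fun v => by simp [h'.sq]) (fun v => by simp [h'.sq])
      (fun v => by simp [h'.sq]), add_neg_cancel, uni_zero])).symm
  rw [sub_eq_add_neg, uni_add h.sq (fun v => by simp [h'.sq])
    (fun v => by simp [h.2.1 _ (h'.1 v)]) (fun v => by simp [h'.2.1 _ (h.1 v)]), e]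
  exact M.mul_mem h.2.2 (M.inv_mem h'.2.2)

lemma Nil.conj (h : Nil U M N) {g : GL (Fin m × Fin k) F} (hg : g ∈ M)
    (hgW : g ∈ Cfsg.Geo.subspaceStabilizer (W U)) :
    Nil U M (Matrix.toLin' (g : Matrix (Fin m × Fin k) (Fin m × Fin k) F) ∘ₗ N ∘ₗ
      Matrix.toLin' ((g⁻¹ : GL (Fin m × Fin k) F) : Matrix (Fin m × Fin k) (Fin m × Fin k) F)) := by
  refine ⟨fun x => ?_, fun x hx => ?_, ?_⟩
  · simpa using mem_subspaceStabilizer.1 hgW _ (h.1 _)
  · rw [LinearMap.comp_apply, LinearMap.comp_apply, Matrix.toLin'_apply, Matrix.toLin'_apply,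
      h.2.1 _ (mem_subspaceStabilizer.1 (inv_mem hgW) _ hx), mulVec_zero]
  · have := M.mul_mem (M.mul_mem hg h.2.2) (M.inv_mem hg)
    convert this using 1
    refine gl_ext fun x => ?_
    rw [uni_mulVec fun v => by simp [inv_mulVec_mulVec, h.sq], mul_mulVec', mul_mulVec',
      uni_mulVec h.sq, mulVec_add, mulVec_inv_mulVec]
    simp

lemma kr_left_stab (a : GL (Fin m) F) :
    kr a (1 : GL (Fin k) F) ∈ Cfsg.Geo.subspaceStabilizer (W (m := m) U) := by
  refine mem_subspaceStabilizer.2 fun x hx i => ?_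
  rw [row_kr]
  exact U.sum_mem fun l _ => U.smul_mem _ (by simpa using hx l)

variable (hM : prodGroup m k F ≤ M)
include hM

/-- Conjugation by an elementary element of the left factor. -/
lemma Nil.delta (h : Nil U M N) {a b : Fin m} (hab : a ≠ b) (s : F) :
    Nil U M (s • (unitL a b ∘ₗ N) - s • (N ∘ₗ unitL a b) -
      (s * s) • (unitL a b ∘ₗ N ∘ₗ unitL a b)) := by
  have hd : (s • Pi.single b (1 : F)) ⬝ᵥ Pi.single a (1 : F) = 0 := by simp [hab.symm]
  have hd' : (-(s • Pi.single b (1 : F))) ⬝ᵥ Pi.single a (1 : F) = 0 := by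
    rw [neg_dotProduct, hd, neg_zero]
  have hd'' : ((-s) • Pi.single b (1 : F)) ⬝ᵥ Pi.single a (1 : F) = 0 := by simp [hab.symm]
  have := (h.conj (hM (kr_tv_one_mem (Pi.single a 1) (s • Pi.single b 1))) (kr_left_stab _)).sub h
  convert this using 1
  refine LinearMap.ext fun x => ?_
  have e1 : ∀ (t : F) (y : Fin m × Fin k → F),
      vt (Pi.single a (1 : F)) (coR (t • Pi.single b (1 : F)) y) = t • unitL a b y := fun t y => by
    rw [show coR (t • Pi.single b (1 : F)) y = t • row y b by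
      rw [← coR_single b y]
      show ∑ i, (t • Pi.single b (1 : F) : Fin m → F) i • row y i =
        t • ∑ i, (Pi.single b (1 : F) : Fin m → F) i • row y i
      rw [Finset.smul_sum]
      simp [smul_smul], vt_smul_right]
    rfl
  simp only [LinearMap.sub_apply, LinearMap.smul_apply, LinearMap.comp_apply, kr_inv, tv_inv hd,
    inv_one, Matrix.toLin'_apply, kr_tv_one_mulVec hd, kr_tv_one_mulVec hd'', ← neg_smul, e1,
    map_add, map_smul]
  module

omit hM in
lemma det_torus {a b : Fin m} (hab : a ≠ b) {u : F} (hu : u ≠ 0) :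
    (Matrix.diagonal fun i => if i = a then u else if i = b then u⁻¹ else (1 : F)).det = 1 := by
  rw [det_diagonal, Finset.prod_eq_mul a b hab (fun c _ hc => by simp [hc.1, hc.2]) (by simp)
    (by simp)]
  simp [hab.symm, mul_inv_cancel₀ hu]

/-- Conjugation by a torus element of the left factor, on pure vectors. -/
lemma Nil.torus (h : Nil U M N) {a b : Fin m} (hab : a ≠ b) {u : F} (hu : u ≠ 0) :
    ∃ N', Nil U M N' ∧ ∀ c z, ∀ i,
      row (N' (vt (Pi.single c (1 : F)) z)) i =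
        ((if i = a then u else if i = b then u⁻¹ else 1) *
            (if c = a then u else if c = b then u⁻¹ else 1)⁻¹ - 1) •
          row (N (vt (Pi.single c (1 : F)) z)) i := by
  classical
  set d : Fin m → F := fun i => if i = a then u else if i = b then u⁻¹ else 1 with hd
  have hdet : (Matrix.diagonal d).det ≠ 0 := by rw [hd, det_torus hab hu]; exact one_ne_zero
  set A := Matrix.GeneralLinearGroup.mkOfDetNeZero (Matrix.diagonal d) hdet with hA
  have hd0 : ∀ i, d i ≠ 0 := fun i => by simp only [hd]; split_ifs <;> simp [hu]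
  have hAmem : kr A (1 : GL (Fin k) F) ∈ M :=
    hM (kr_mem (by rw [hA]; exact det_torus hab hu) (by simp))
  refine ⟨_, (h.conj hAmem (kr_left_stab _)).sub h, fun c z i => ?_⟩
  have hinv : ((A⁻¹ : GL (Fin m) F) : Matrix (Fin m) (Fin m) F) *ᵥ Pi.single c 1 =
      (d c)⁻¹ • Pi.single c 1 := by
    refine gl_mulVec_injective A ?_
    simp only [mulVec_inv_mulVec, mulVec_smul]
    funext l
    show _ = ((d c)⁻¹ • (Matrix.diagonal d *ᵥ Pi.single c 1)) l
    rw [Pi.smul_apply, mulVec_diagonal]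
    by_cases hl : l = c
    · subst hl; simp [hd0]
    · simp [hl]
  simp only [LinearMap.sub_apply, LinearMap.comp_apply, kr_inv, inv_one, Matrix.toLin'_apply,
    kr_vt, hinv, Units.val_one, one_mulVec, vt_smul_left, map_smul, mulVec_smul, row_sub, row_smul]
  rw [row_kr, Finset.sum_eq_single i (fun l _ hl => ?_) (by simp)]
  · simp only [Units.val_one, one_mulVec, smul_smul, sub_smul, one_smul, hA]
    congr 2
    simp [mul_comm, hd]
  · simp [hA, hl.symm]

/-- Only two coordinates: an off-diagonal block can be isolated. -/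
lemma Nil.two (hq : m = 2 → ∃ u : F, u ≠ 0 ∧ u ≠ 1) (h : Nil U M N) {a b : Fin m} (hab : a ≠ b)
    (hm : m = 2) :
    ∃ c : F, c ≠ 0 ∧ Nil U M (c • (unitL a b ∘ₗ N ∘ₗ unitL a b)) := by
  classical
  have hall : ∀ i : Fin m, i = a ∨ i = b := fun i => by
    subst hm
    omega
  by_cases hu : ∃ u : F, u ≠ 0 ∧ u * u ≠ 1
  · obtain ⟨u, hu0, hu1⟩ := hu
    obtain ⟨N₁, h₁, e₁⟩ := h.torus hM hab hu0
    set N₂ := (1 : F) • (unitL a b ∘ₗ N₁) - (1 : F) • (N₁ ∘ₗ unitL a b) -
      ((1 : F) * 1) • (unitL a b ∘ₗ N₁ ∘ₗ unitL a b) with hN₂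
    have h₂ : Nil U M N₂ := h₁.delta hM hab 1
    obtain ⟨N₃, h₃, e₃⟩ := h₂.torus hM hab hu0
    refine ⟨(1 - u * u) * (u⁻¹ * u⁻¹ - 1), mul_ne_zero (sub_ne_zero.2 (Ne.symm hu1))
      (sub_ne_zero.2 fun e => hu1 (by rw [← mul_inv, inv_eq_one] at e; exact e)), ?_⟩
    convert h₃ using 1
    have ea : ∀ z, N₁ (vt (Pi.single a (1 : F)) z) = vt (Pi.single b 1)
        ((u⁻¹ * u⁻¹ - 1) • row (N (vt (Pi.single a (1 : F)) z)) b) := fun z => row_ext fun i => by
      rw [e₁, row_vt_single]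
      rcases hall i with rfl | rfl <;> simp [hab, hab.symm, hu0]
    have eb : ∀ z, row (N₁ (vt (Pi.single b (1 : F)) z)) b = 0 := fun z => by
      rw [e₁]
      simp [hab.symm, hu0]
    refine pure_ext fun c z => row_ext fun i => ?_
    rw [e₃]
    simp only [hN₂, LinearMap.sub_apply, LinearMap.smul_apply, LinearMap.comp_apply, one_smul,
      mul_one, row_sub, row_smul]
    rcases hall c with rfl | rfl
    · simp only [unitL_vt, if_neg hab.symm, map_zero, row_zero, ea]
      rcases hall i with rfl | rfl <;> simp [hab, hab.symm, hu0, row_vt_single, row_zero]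
    · simp only [unitL_vt, if_true, ea, unitL_apply a c (N₁ _), eb, vt_zero_right, row_zero]
      rw [unitL_apply]
      rcases hall i with rfl | rfl <;> simp [hab, hab.symm, hu0, row_vt_single, smul_smul] <;>
        match_scalars <;> field_simp <;> ring
  · push Not at hu
    obtain ⟨u, hu0, hu1⟩ := hq hm
    have h2 : (2 : F) ≠ 0 := by
      intro h2
      refine hu1 ?_
      have : (u - 1) * (u - 1) = 0 := by linear_combination hu u hu0 + (1 - u) * h2
      exact sub_eq_zero.1 (mul_self_eq_zero.1 this)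
    refine ⟨(-2 : F), neg_ne_zero.2 h2, ?_⟩
    have h0 : Nil U M 0 := by
      have := h.sub h
      rwa [sub_self] at this
    convert (h.delta hM hab 1).sub (h0.sub (h.delta hM hab (-1))) using 1
    module

/-- A non-uniform element gives one with range in a single coordinate. -/
theorem Nil.exists_single (hq : m = 2 → ∃ u : F, u ≠ 0 ∧ u ≠ 1) (h : Nil U M N) (hm : 2 ≤ m)
    (hne : ∀ T : (Fin k → F) →ₗ[F] (Fin k → F), ∃ x i, row (N x) i ≠ T (row x i)) :
    ∃ a N', Nil U M N' ∧ N' ≠ 0 ∧ (∀ x, ∃ z, N' x = vt (Pi.single a 1) z) ∧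
      ∀ z, N' (vt (Pi.single a 1) z) = 0 := by
  classical
  by_cases hdiag : ∀ a b z, a ≠ b → row (N (vt (Pi.single a (1 : F)) z)) b = 0
  · set T : Fin m → (Fin k → F) →ₗ[F] (Fin k → F) := fun i => rowL i ∘ₗ N ∘ₗ vtR (Pi.single i 1)
      with hT
    have hN : ∀ c z, N (vt (Pi.single c (1 : F)) z) = vt (Pi.single c 1) (T c z) := fun c z =>
      row_ext fun i => by
        rw [row_vt_single]
        split_ifs with hi
        · subst hi; rfl
        · exact hdiag c i z (Ne.symm hi)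
    obtain ⟨i, l, hil⟩ : ∃ i l, T i ≠ T l := by
      by_contra hcon
      push Not at hcon
      obtain ⟨x, i, hx⟩ := hne (T ⟨0, by omega⟩)
      refine hx ?_
      conv_lhs => rw [sum_rows x, map_sum, row_sum]
      rw [Finset.sum_eq_single i (fun l _ hl => by rw [hN, row_vt_single, if_neg (Ne.symm hl)])
        (by simp), hN, row_vt_single, if_pos rfl, hcon i ⟨0, by omega⟩]
    have hne : i ≠ l := fun e => hil (by rw [e])
    set N' := (1 : F) • (unitL i l ∘ₗ N) - (1 : F) • (N ∘ₗ unitL i l) -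
      ((1 : F) * 1) • (unitL i l ∘ₗ N ∘ₗ unitL i l) with hN'
    have e : ∀ c z, N' (vt (Pi.single c (1 : F)) z) =
        vt (Pi.single i 1) (if l = c then T l z - T i z else 0) := by
      intro c z
      simp only [hN', LinearMap.sub_apply, LinearMap.smul_apply, LinearMap.comp_apply, one_smul,
        mul_one, hN, unitL_vt]
      by_cases hc : l = c
      · subst hc
        simp only [if_true, hN, unitL_vt, if_neg (Ne.symm hne), sub_zero]
        exact (map_sub (vtR _) _ _).symm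
      · simp [if_neg hc, vt_zero_right]
    refine ⟨i, N', h.delta hM hne 1, fun e0 => hil (LinearMap.ext fun z => ?_), fun x => ?_,
      fun z => by rw [e, if_neg (Ne.symm hne), vt_zero_right]⟩
    · have := e l z
      rw [e0, if_pos rfl, LinearMap.zero_apply] at this
      exact (sub_eq_zero.1 ((vtR_injective (v := Pi.single i (1 : F)) (by simp)) (by
        rw [map_zero]; exact this.symm))).symm
    · exact ⟨_, by rw [sum_rows x, map_sum]; simp only [e]; exact (map_sum (vtR _) _ _).symm⟩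
  push Not at hdiag
  obtain ⟨a, b, z₀, hab, hz₀⟩ := hdiag
  rcases eq_or_lt_of_le hm with hm2 | hm3
  · obtain ⟨c, hc, hc'⟩ := h.two hM hq hab hm2.symm
    refine ⟨a, _, hc', fun e0 => ?_, fun x => ⟨c • row (N (unitL a b x)) b, ?_⟩, fun z => ?_⟩
    · have := LinearMap.congr_fun e0 (vt (Pi.single b (1 : F)) z₀)
      rw [LinearMap.smul_apply, LinearMap.comp_apply, LinearMap.comp_apply, unitL_vt, if_pos rfl,
        LinearMap.zero_apply, unitL_apply, smul_eq_zero] at this
      exact hz₀ ((vt_eq_zero (this.resolve_left hc)).resolve_left (by simp))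
    · rw [LinearMap.smul_apply, vt_smul_right]; rfl
    · rw [LinearMap.smul_apply, LinearMap.comp_apply, LinearMap.comp_apply, unitL_vt,
        if_neg hab.symm, map_zero, map_zero, smul_zero]
  obtain ⟨c, hca, hcb⟩ : ∃ c : Fin m, c ≠ a ∧ c ≠ b := by
    by_contra hcon
    push Not at hcon
    have h' : (Finset.univ : Finset (Fin m)) ⊆ {a, b} := fun x _ => by
      by_cases hx : x = a
      · simp [hx]
      · simp [hcon x hx]
    have := Finset.card_le_card h'
    have := Finset.card_le_two (a := a) (b := b)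
    simp only [Finset.card_univ, Fintype.card_fin] at *
    omega
  set e := unitL (F := F) (k := k) a b
  set e' := unitL (F := F) (k := k) a c
  set N₂ := -(e' ∘ₗ N ∘ₗ e) - e ∘ₗ N ∘ₗ e' with hN₂
  have hmem : Nil U M N₂ := by
    convert (h.delta hM hab 1).delta hM (Ne.symm hca) 1 using 1
    refine LinearMap.ext fun x => ?_
    simp only [hN₂, e, e', LinearMap.sub_apply, LinearMap.neg_apply, LinearMap.smul_apply,
      LinearMap.comp_apply, one_smul, mul_one, map_sub, map_neg, map_zero,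
      unitL_unitL hab.symm, unitL_unitL hca]
    abel
  refine ⟨a, N₂, hmem, fun e0 => ?_,
    fun x => ⟨-row (N (e x)) c - row (N (e' x)) b, ?_⟩, fun z => ?_⟩
  · have := LinearMap.congr_fun e0 (vt (Pi.single c (1 : F)) z₀)
    simp only [hN₂, e, e', LinearMap.sub_apply, LinearMap.neg_apply, LinearMap.comp_apply,
      unitL_vt, if_neg (Ne.symm hcb), if_true, map_zero, neg_zero, zero_sub, neg_eq_zero,
      LinearMap.zero_apply] at this
    exact hz₀ ((vt_eq_zero this).resolve_left (by simp))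
  · rw [show vt (Pi.single a (1 : F)) (-row (N (e x)) c - row (N (e' x)) b) =
      -vt (Pi.single a (1 : F)) (row (N (e x)) c) - vt (Pi.single a (1 : F)) (row (N (e' x)) b) from by
        rw [show ∀ z : Fin k → F, vt (Pi.single a (1 : F)) z = vtR (Pi.single a 1) z from fun _ => rfl,
          map_sub, map_neg]
        rfl]
    rfl
  · simp [hN₂, e, e', unitL_vt, hca, hab.symm]

/-- A non-uniform element gives a transvection with pure centre and axis. -/
theorem Nil.exists_pair (hq : m = 2 → ∃ u : F, u ≠ 0 ∧ u ≠ 1) (h : Nil U M N) (hm : 2 ≤ m)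
    (hne : ∀ T : (Fin k → F) →ₗ[F] (Fin k → F), ∃ x i, row (N x) i ≠ T (row x i)) :
    ∃ a l : Fin m, ∃ f φ : Fin k → F, a ≠ l ∧ f ≠ 0 ∧ φ ≠ 0 ∧ φ ⬝ᵥ f = 0 ∧
      tv (vt (Pi.single a 1) f) (vt (Pi.single l 1) φ) ∈ M := by
  classical
  obtain ⟨a, N₁, h₁, hne₁, hr, hk₁⟩ := h.exists_single hM hq hm hne
  obtain ⟨x₀, hx₀⟩ : ∃ x, N₁ x ≠ 0 := by
    by_contra hcon
    push Not at hcon
    exact hne₁ (LinearMap.ext hcon)
  set L := rowL a ∘ₗ N₁ with hL
  have hNL : ∀ x, N₁ x = vt (Pi.single a 1) (L x) := fun x => by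
    obtain ⟨z, hz⟩ := hr x
    rw [hz, show L x = z by show row (N₁ x) a = z; rw [hz, row_vt_single, if_pos rfl]]
  have hLU : ∀ x, L x ∈ U := fun x => h₁.1 x a
  have hL0 : L x₀ ≠ 0 := fun e => hx₀ (by rw [hNL, e, vt_zero_right])
  -- rank one
  obtain ⟨f, χ, hf, hfU, N₂, h₂, hN₂, hne₂, hk₂⟩ : ∃ f : Fin k → F, ∃ χ : Fin m × Fin k → F,
      f ≠ 0 ∧ f ∈ U ∧ ∃ N₂, Nil U M N₂ ∧
        (∀ x, N₂ x = (χ ⬝ᵥ x) • vt (Pi.single a 1) f) ∧ χ ≠ 0 ∧
        ∀ z, N₂ (vt (Pi.single a 1) z) = 0 := by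
    have toVec : ∀ g : (Fin m × Fin k → F) →ₗ[F] F,
        ∃ χ : Fin m × Fin k → F, ∀ x, χ ⬝ᵥ x = g x := fun g =>
      ⟨(dotProductEquiv F _).symm g, fun x =>
        LinearMap.congr_fun ((dotProductEquiv F _).apply_symm_apply g) x⟩
    by_cases hspan : ∀ x, L x ∈ Submodule.span F {L x₀}
    · obtain ⟨ψ, hψ, -⟩ := exists_dot_eq_one (p := ⊥) (x := L x₀) (by simpa using hL0)
      obtain ⟨χ, hχ⟩ := toVec (dotProductEquiv F (Fin k) ψ ∘ₗ L)
      refine ⟨L x₀, χ, hL0, hLU _, N₁, h₁, fun x => ?_, fun e => ?_, hk₁⟩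
      · obtain ⟨t, ht⟩ := Submodule.mem_span_singleton.1 (hspan x)
        rw [hχ, hNL, ← vt_smul_right]
        congr 1
        simp [← ht, dotProduct_smul, hψ]
      · have := hχ x₀
        rw [e, zero_dotProduct] at this
        exact zero_ne_one (this.trans (by simpa using hψ))
    push Not at hspan
    obtain ⟨x₁, hx₁⟩ := hspan
    have hx₁0 : L x₁ ≠ 0 := fun e => hx₁ (by rw [e]; exact zero_mem _)
    have hni : L x₀ ∉ Submodule.span F {L x₁} := by
      intro hmem
      obtain ⟨t, ht⟩ := Submodule.mem_span_singleton.1 hmem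
      refine hx₁ (Submodule.mem_span_singleton.2 ⟨t⁻¹, ?_⟩)
      rw [← ht, inv_smul_smul₀ fun e => hL0 (by rw [← ht, e, zero_smul])]
    obtain ⟨ψ, hψ₀, hψ₁⟩ := exists_dot_eq_one hni
    have hd : ψ ⬝ᵥ L x₁ = 0 := hψ₁ _ (Submodule.mem_span_singleton_self _)
    have hd' : (-ψ) ⬝ᵥ L x₁ = 0 := by rw [neg_dotProduct, hd, neg_zero]
    have hstab : kr (1 : GL (Fin m) F) (tv (L x₁) ψ) ∈ Cfsg.Geo.subspaceStabilizer (W U) :=
      mem_subspaceStabilizer.2 fun x hx i => by
        rw [kr_one_row, tv_mulVec hd]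
        exact U.add_mem (hx i) (U.smul_mem _ (hLU _))
    set N₂ := Matrix.toLin' ((kr (1 : GL (Fin m) F) (tv (L x₁) ψ)) :
        Matrix (Fin m × Fin k) (Fin m × Fin k) F) ∘ₗ N₁ ∘ₗ
      Matrix.toLin' (((kr (1 : GL (Fin m) F) (tv (L x₁) ψ))⁻¹ : GL (Fin m × Fin k) F) :
        Matrix (Fin m × Fin k) (Fin m × Fin k) F) - N₁ with hN₂
    obtain ⟨χ, hχ⟩ := toVec (dotProductEquiv F (Fin k) ψ ∘ₗ L)
    have e : ∀ x, N₂ x = (χ ⬝ᵥ x) • vt (Pi.single a 1) (L x₁) := by
      intro x
      have h1 : N₁ (vt (coL (-ψ) x) (L x₁)) = 0 := h₁.2.1 _ (vt_mem_W _ (hLU _))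
      simp only [hN₂, LinearMap.sub_apply, LinearMap.comp_apply, Matrix.toLin'_apply, kr_inv,
        inv_one, tv_inv hd, kr_one_tv_mulVec hd', map_add, h1, add_zero, hχ, hNL x, kr_vt,
        Units.val_one, one_mulVec, tv_mulVec hd, vt_add_right, vt_smul_right, add_sub_cancel_left]
      simp
    refine ⟨L x₁, χ, hx₁0, hLU _, N₂, (h₁.conj (hM (kr_one_tv_mem _ _)) hstab).sub h₁, e,
      fun e0 => ?_, fun z => ?_⟩
    · have := hχ x₀
      rw [e0, zero_dotProduct] at this
      exact zero_ne_one (this.trans (by simpa using hψ₀))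
    · have hz : L (vt (Pi.single a 1) z) = 0 := by
        show row (N₁ _) a = 0
        rw [hk₁, row_zero]
      rw [e, hχ, LinearMap.comp_apply, hz, map_zero, zero_smul]
  have hva : vt (Pi.single a (1 : F)) f ≠ 0 := fun e => (vt_eq_zero e).elim (by simp) hf
  have hdot : ∀ z i, χ ⬝ᵥ vt (Pi.single i (1 : F)) z = row χ i ⬝ᵥ z := fun z i => by
    conv_lhs => rw [sum_rows χ, sum_dotProduct]
    rw [Finset.sum_eq_single i (fun l _ hl => by
      simp only [dotProduct, vt, Fintype.sum_prod_type]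
      refine Finset.sum_eq_zero fun p _ => ?_
      by_cases hp : p = i
      · subst hp; simp [hl.symm]
      · simp [hp]) (by simp)]
    simp [dotProduct, vt, row, Fintype.sum_prod_type, Pi.single_apply]
  have hχa : row χ a = 0 := dotProduct_eq _ _ fun z => by
    have := hN₂ (vt (Pi.single a 1) z)
    rw [hk₂, eq_comm, smul_eq_zero] at this
    rw [← hdot, this.resolve_right hva, zero_dotProduct]
  have hχf : ∀ i, row χ i ⬝ᵥ f = 0 := fun i => by
    have := hN₂ (vt (Pi.single i 1) f)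
    rw [h₂.2.1 _ (vt_mem_W _ hfU), eq_comm, smul_eq_zero] at this
    rw [← hdot]
    exact this.resolve_right hva
  have hd : χ ⬝ᵥ vt (Pi.single a (1 : F)) f = 0 := by rw [hdot]; exact hχf a
  have htv : tv (vt (Pi.single a 1) f) χ ∈ M := by
    convert h₂.2.2 using 1
    exact gl_ext fun x => by rw [tv_mulVec hd, uni_mulVec h₂.sq, hN₂]
  obtain ⟨i, hi⟩ : ∃ i, row χ i ≠ 0 := by
    by_contra hcon
    push Not at hcon
    exact hne₂ (row_ext hcon)
  have hia : i ≠ a := fun e => hi (e ▸ hχa)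
  by_cases hone : ∀ l, l ≠ i → row χ l = 0
  · refine ⟨a, i, f, row χ i, hia.symm, hf, hi, hχf i, ?_⟩
    convert htv using 2
    refine row_ext fun l => ?_
    rw [row_vt_single]
    split_ifs with hl
    · rw [hl]
    · exact (hone l hl).symm
  push Not at hone
  obtain ⟨l, hli, hl⟩ := hone
  have hla : l ≠ a := fun e => hl (e ▸ hχa)
  have hd1 : Pi.single l (1 : F) ⬝ᵥ Pi.single i (1 : F) = 0 := by simp [hli]
  have hmem := hM (kr_tv_one_mem (k := k) (Pi.single i (1 : F)) (Pi.single l 1))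
  have h' := M.mul_mem (M.mul_mem hmem htv) (M.inv_mem hmem)
  rw [tv_conj _ hd, kr_vt, tv_mulVec hd1, Units.val_one, one_mulVec] at h'
  simp only [dotProduct_single, mul_one, Pi.single_apply, if_neg (Ne.symm hla), zero_smul,
    add_zero] at h'
  have hχ' : χ ᵥ* (((kr (tv (Pi.single i (1 : F)) (Pi.single l 1)) (1 : GL (Fin k) F))⁻¹ :
      GL (Fin m × Fin k) F) : Matrix (Fin m × Fin k) (Fin m × Fin k) F) =
        χ - vt (Pi.single l 1) (row χ i) := by
    refine dotProduct_eq _ _ fun x => ?_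
    rw [← dotProduct_mulVec, kr_inv, tv_inv hd1, inv_one,
      kr_tv_one_mulVec (by rw [neg_dotProduct, hd1, neg_zero]), dotProduct_add, sub_dotProduct,
      hdot, sub_eq_add_neg]
    congr 1
    conv_rhs => rw [sum_rows x, dotProduct_sum, Finset.sum_eq_single l (fun t _ ht => by
      rw [vt_dot_vt]
      simp [ht.symm]) (by simp)]
    rw [vt_dot_vt]
    simp [coR_neg, coR_single]
  rw [hχ'] at h'
  have hd2 : (χ - vt (Pi.single l 1) (row χ i)) ⬝ᵥ vt (Pi.single a (1 : F)) f = 0 := by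
    rw [sub_dotProduct, hd, vt_dot_vt]; simp [hla]
  have := M.mul_mem htv (M.inv_mem h')
  rw [tv_inv hd2, tv_add hd (by rw [neg_dotProduct, hd2, neg_zero]), ← sub_eq_add_neg, sub_sub_cancel] at this
  exact ⟨a, l, f, row χ i, hla.symm, hf, hi, hχf i, this⟩

end Cfsg.Agent.Lib.Forms.TProd
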