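import Cfsg.Agent.Lib.Forms.TensorProdBasic

/-!
Unipotent elements and small p-subgroups of a Kronecker product group.
-/

set_option autoImplicit false

namespace Cfsg.Agent.Lib.Forms.TProd

open Matrix Kronecker Cfsg.Agent.Lib.Forms

variable {F : Type*} [Field F] {m k : ℕ}

/-- The rank of the displacement of a matrix. -/
noncomputable def rk (g : GL (Fin m × Fin k) F) : ℕ :=
  Module.finrank F (LinearMap.range
    (Matrix.toLin' (g : Matrix (Fin m × Fin k) (Fin m × Fin k) F) - LinearMap.id))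

lemma rk_conj (g s : GL (Fin m × Fin k) F) : rk (g * s * g⁻¹) = rk s := by
  unfold rk
  rw [show Matrix.toLin' ((g * s * g⁻¹ : GL (Fin m × Fin k) F) : Matrix (Fin m × Fin k) (Fin m × Fin k) F) - (LinearMap.id : (Fin m × Fin k → F) →ₗ[F] _) =
      Matrix.toLin' (g : Matrix (Fin m × Fin k) (Fin m × Fin k) F) ∘ₗ
        (Matrix.toLin' (s : Matrix (Fin m × Fin k) (Fin m × Fin k) F) - LinearMap.id) ∘ₗ
          Matrix.toLin' ((g⁻¹ : GL (Fin m × Fin k) F) : Matrix (Fin m × Fin k) (Fin m × Fin k) F) from LinearMap.ext fun x => by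
    simp only [LinearMap.sub_apply, LinearMap.comp_apply, Matrix.toLin'_apply, LinearMap.id_apply,
      mul_mulVec', mulVec_sub, mulVec_inv_mulVec]]
  rw [LinearMap.range_comp, LinearMap.range_comp_of_range_eq_top _ (LinearMap.range_eq_top.2
    fun x => ⟨(g : Matrix _ _ F) *ᵥ x, by rw [Matrix.toLin'_apply, inv_mulVec_mulVec]⟩),
    finrank_map_gl]

lemma kron_vt (A : Matrix (Fin m) (Fin m) F) (B : Matrix (Fin k) (Fin k) F) (v : Fin m → F)
    (z : Fin k → F) : (A ⊗ₖ B) *ᵥ vt v z = vt (A *ᵥ v) (B *ᵥ z) := by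
  funext p
  simp only [vt, Matrix.mulVec, dotProduct, Fintype.sum_prod_type, kroneckerMap_apply,
    Finset.sum_mul_sum]
  exact Finset.sum_congr rfl fun i _ => Finset.sum_congr rfl fun j _ => by ring

/-- A unipotent product with non-trivial left factor has large displacement. -/
lemma le_rk {p : ℕ} [Fact p.Prime] [CharP F p] {a : GL (Fin m) F} (b : GL (Fin k) F) {e : ℕ}
    (ha : a ^ p ^ e = 1) (ha1 : a ≠ 1) : k ≤ rk (kr a b) := by
  classical
  set N : Matrix (Fin m) (Fin m) F := (a : Matrix (Fin m) (Fin m) F) - 1 with hN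
  haveI : Nonempty (Fin m) := by
    by_contra h
    haveI := not_nonempty_iff.1 h
    exact ha1 (Units.ext (Subsingleton.elim _ _))
  have hnil : ∃ j, N ^ j = 0 := ⟨p ^ e, by
    haveI : CharP (Matrix (Fin m) (Fin m) F) p := inferInstance
    rw [hN, sub_pow_char_pow_of_commute _ _ (Commute.one_right _), one_pow, ← Units.val_pow_eq_pow_val,
      ha, Units.val_one, sub_self]⟩
  set j := Nat.find hnil with hj
  have hj2 : 2 ≤ j := by
    by_contra hlt
    have : N ^ 1 = 0 := pow_eq_zero_of_le (by omega) (Nat.find_spec hnil)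
    rw [pow_one] at this
    exact ha1 (Units.ext (by rw [Units.val_one]; exact sub_eq_zero.1 this))
  obtain ⟨w, hw⟩ : ∃ w, N ^ (j - 1) *ᵥ w ≠ 0 := by
    by_contra hcon
    push Not at hcon
    exact Nat.find_min hnil (show j - 1 < j by omega)
      (Matrix.ext_iff_mulVec.2 fun w => by rw [hcon w, zero_mulVec])
  set v := N ^ (j - 2) *ᵥ w with hv
  have h1 : N *ᵥ v = N ^ (j - 1) *ᵥ w := by
    rw [hv, mulVec_mulVec, ← pow_succ', show j - 2 + 1 = j - 1 by omega]
  have h2 : N *ᵥ (N *ᵥ v) = 0 := by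
    rw [h1, mulVec_mulVec, ← pow_succ', show j - 1 + 1 = j by omega, Nat.find_spec hnil, zero_mulVec]
  have hav : (a : Matrix (Fin m) (Fin m) F) *ᵥ v = v + N *ᵥ v := by
    rw [hN, sub_mulVec, one_mulVec]; abel
  let Φ : (Fin k → F) →ₗ[F] (Fin m × Fin k → F) :=
    (Matrix.toLin' (kr a b : Matrix (Fin m × Fin k) (Fin m × Fin k) F) - LinearMap.id) ∘ₗ vtR v
  have hΦ : Function.Injective Φ := by
    rw [injective_iff_map_eq_zero]
    intro z hz
    have hz' : vt (v + N *ᵥ v) ((b : Matrix (Fin k) (Fin k) F) *ᵥ z) = vt v z := by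
      have := hz
      simp only [Φ, LinearMap.comp_apply, LinearMap.sub_apply, Matrix.toLin'_apply,
        LinearMap.id_apply, sub_eq_zero] at this
      rw [show vtR v z = vt v z from rfl, kr_vt, hav] at this
      exact this
    have hN' := congrArg (fun x => (N ⊗ₖ (1 : Matrix (Fin k) (Fin k) F)) *ᵥ x) hz'
    simp only [kron_vt, mulVec_add, h2, add_zero, one_mulVec] at hN'
    have hbz : (b : Matrix (Fin k) (Fin k) F) *ᵥ z = z :=
      vtR_injective (F := F) (by rw [h1]; exact hw) hN'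
    rw [hbz, vt_add_left, add_eq_left] at hz'
    exact (vt_eq_zero hz').resolve_left (by rw [h1]; exact hw)
  have := LinearMap.finrank_range_of_inj hΦ
  rw [Module.finrank_fin_fun] at this
  refine le_trans this.ge ?_
  exact Submodule.finrank_mono (LinearMap.range_comp_le_range _ _)

/-- Scalars as invertible matrices. -/
def sc (n : ℕ) (d : Fˣ) : GL (Fin n) F := Units.map (Matrix.scalar (Fin n)).toMonoidHom d

lemma sc_val (n : ℕ) (d : Fˣ) : (sc n d : Matrix (Fin n) (Fin n) F) = (d : F) • 1 := by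
  ext i j
  by_cases h : i = j <;> simp [sc, h]

lemma kr_sc (d : Fˣ) : kr (sc m d⁻¹) (sc k d) = 1 := Units.ext <| by
  show (sc m d⁻¹ : Matrix (Fin m) (Fin m) F) ⊗ₖ (sc k d : Matrix (Fin k) (Fin k) F) = _
  simp [sc_val, smul_kronecker, kronecker_smul, smul_smul]

lemma sc_pow (n : ℕ) (d : Fˣ) (i : ℕ) : sc n d ^ i = sc n (d ^ i) := by
  simp [sc]

lemma kr_eq_one {a : GL (Fin m) F} {b : GL (Fin k) F} (i₀ : Fin m) (j₀ : Fin k)
    (h : kr a b = 1) : ∃ c : Fˣ, a = sc m c⁻¹ ∧ b = sc k c := by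
  have e : ∀ i l j j', (a : Matrix (Fin m) (Fin m) F) i l * (b : Matrix (Fin k) (Fin k) F) j j' =
      if (i, j) = (l, j') then 1 else 0 := fun i l j j' => by
    have := congrFun (congrFun (congrArg
      (fun g : GL (Fin m × Fin k) F => (g : Matrix (Fin m × Fin k) (Fin m × Fin k) F)) h) (i, j))
      (l, j')
    simpa [kr, one_apply, kroneckerMap_apply] using this
  have hne : (b : Matrix (Fin k) (Fin k) F) j₀ j₀ ≠ 0 := fun h0 => by
    have := e i₀ i₀ j₀ j₀; rw [h0, mul_zero, if_pos rfl] at this; exact zero_ne_one this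
  refine ⟨Units.mk0 _ hne, Units.ext ?_, Units.ext ?_⟩ <;> rw [sc_val] <;> ext i l
  · have := e i l j₀ j₀
    rw [Matrix.smul_apply, smul_eq_mul, Units.val_inv_eq_inv_val, Units.val_mk0,
      eq_inv_mul_iff_mul_eq₀ hne, mul_comm, this]
    simp [one_apply]
  · have h1 := e i₀ i₀ j₀ j₀
    have h2 := e i₀ i₀ i l
    simp only [if_pos rfl] at h1
    rw [Matrix.smul_apply, smul_eq_mul, Units.val_mk0]
    have ha0 : (a : Matrix (Fin m) (Fin m) F) i₀ i₀ ≠ 0 := left_ne_zero_of_mul_eq_one h1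
    refine mul_left_cancel₀ ha0 ?_
    rw [h2, ← mul_assoc, h1]
    simp [one_apply]

/-- A p-element of the product is the product of p-elements. -/
lemma split_p [Finite F] {p : ℕ} [Fact p.Prime] [CharP F p] {a : GL (Fin m) F} {b : GL (Fin k) F}
    (i₀ : Fin m) (j₀ : Fin k) {e : ℕ} (h : kr a b ^ p ^ e = 1) :
    ∃ a' b', kr a b = kr a' b' ∧ a' ^ p ^ e = 1 ∧ b' ^ p ^ e = 1 := by
  rw [kr_pow] at h
  obtain ⟨c, hca, hcb⟩ := kr_eq_one i₀ j₀ h
  obtain ⟨d, hd⟩ := Finite.injective_iff_surjective.1 (iterateFrobenius F p e).injective (c : F)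
  rw [iterateFrobenius_def] at hd
  have hd0 : d ≠ 0 := fun h0 => c.ne_zero (by
    rw [← hd, h0, zero_pow (pow_ne_zero _ (Fact.out : p.Prime).ne_zero)])
  set u : Fˣ := Units.mk0 d hd0
  have hu : u ^ p ^ e = c := Units.ext (by simpa [u] using hd)
  have hc : ∀ (n : ℕ) (x : Fˣ) (g : GL (Fin n) F), Commute (sc n x) g := fun n x g =>
    Units.ext (by simp [sc_val, Units.val_mul, smul_mul_assoc, mul_smul_comm])
  refine ⟨sc m u * a, sc k u⁻¹ * b, ?_, ?_, ?_⟩
  · rw [← kr_mul]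
    have := kr_sc (m := m) (k := k) u⁻¹
    rw [inv_inv] at this
    rw [this, one_mul]
  · rw [(hc m u a).mul_pow, sc_pow, hu, hca]
    exact Units.ext (by simp [sc_val, Units.val_mul, smul_mul_assoc, mul_smul_comm, smul_smul])
  · rw [(hc k u⁻¹ b).mul_pow, sc_pow, inv_pow, hu, hcb]
    exact Units.ext (by simp [sc_val, Units.val_mul, smul_mul_assoc, mul_smul_comm, smul_smul])

lemma tv_pow {ι : Type} [Fintype ι] [DecidableEq ι] {a φ : ι → F} (h : φ ⬝ᵥ a = 0) (n : ℕ) :
    tv a φ ^ n = tv a (n • φ) := by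
  induction n with
  | zero => simp [tv_zero_right]
  | succ n ih => rw [pow_succ, ih, tv_add (by rw [← Nat.cast_smul_eq_nsmul F, smul_dotProduct, h, smul_zero]) h, succ_nsmul]

lemma uni_add {ι : Type} [Fintype ι] [DecidableEq ι] {N N' : (ι → F) →ₗ[F] (ι → F)}
    (h : ∀ v, N (N v) = 0) (h' : ∀ v, N' (N' v) = 0) (h₁ : ∀ v, N (N' v) = 0)
    (h₂ : ∀ v, N' (N v) = 0) : uni (N + N') = uni N * uni N' := by
  refine gl_ext fun v => ?_
  rw [mul_mulVec', uni_mulVec h', uni_mulVec h, uni_mulVec fun w => by simp [h, h', h₁, h₂]]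
  simp only [map_add, h₁, LinearMap.add_apply]
  abel

lemma uni_zero {ι : Type} [Fintype ι] [DecidableEq ι] :
    uni (0 : (ι → F) →ₗ[F] (ι → F)) = 1 :=
  gl_ext fun v => by rw [uni_mulVec fun _ => rfl]; simp

/-- The root group of a subspace. -/
def rootGroup (U : Submodule F (Fin k → F)) : Subgroup (GL (Fin m × Fin k) F) where
  carrier := {g | ∃ T : (Fin k → F) →ₗ[F] (Fin k → F), (∀ z, T z ∈ U) ∧ (∀ z ∈ U, T z = 0) ∧
    g = kr 1 (uni T)}
  one_mem' := ⟨0, fun _ => U.zero_mem, fun _ _ => rfl, by rw [uni_zero, kr_one]⟩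
  mul_mem' := by
    rintro _ _ ⟨T, h1, h2, rfl⟩ ⟨T', h1', h2', rfl⟩
    refine ⟨T + T', fun z => U.add_mem (h1 z) (h1' z), fun z hz => by simp [h2 z hz, h2' z hz], ?_⟩
    rw [kr_mul, mul_one, uni_add (fun v => h2 _ (h1 v)) (fun v => h2' _ (h1' v))
      (fun v => h2 _ (h1' v)) fun v => h2' _ (h1 v)]
  inv_mem' := by
    rintro _ ⟨T, h1, h2, rfl⟩
    refine ⟨-T, fun z => U.neg_mem (h1 z), fun z hz => by simp [h2 z hz], inv_eq_of_mul_eq_one_right ?_⟩
    rw [kr_mul, mul_one, ← uni_add (fun v => h2 _ (h1 v)) (fun v => by simp [h2 _ (h1 v)])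
      (fun v => by simp [h2 _ (h1 v)]) fun v => by simp [h2 _ (h1 v)], add_neg_cancel, uni_zero,
      kr_one]

lemma rootGroup_isPGroup {p : ℕ} [Fact p.Prime] [CharP F p] (U : Submodule F (Fin k → F)) :
    IsPGroup p (rootGroup (m := m) U) := by
  rintro ⟨_, T, h1, h2, rfl⟩
  refine ⟨1, Subtype.ext ?_⟩
  have key : ∀ n : ℕ, uni T ^ n = uni (n • T) := by
    intro n
    induction n with
    | zero => simp [uni_zero]
    | succ n ih =>
      have hz : ∀ v, T (T v) = 0 := fun v => h2 _ (h1 v)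
      rw [pow_succ, ih, succ_nsmul, uni_add (fun v => by simp [← Nat.cast_smul_eq_nsmul F, hz]) hz (fun v => by simp [← Nat.cast_smul_eq_nsmul F, hz])
        fun v => by simp [← Nat.cast_smul_eq_nsmul F, hz]]
  rw [pow_one, SubmonoidClass.coe_pow, OneMemClass.coe_one, kr_pow, one_pow, key,
    ← Nat.cast_smul_eq_nsmul F p T, CharP.cast_eq_zero F p, zero_smul, uni_zero, kr_one]

lemma rootGroup_tv {U : Submodule F (Fin k → F)} {f φ : Fin k → F} (hf : f ∈ U)
    (hφ : ∀ u ∈ U, φ ⬝ᵥ u = 0) : kr (1 : GL (Fin m) F) (tv f φ) ∈ rootGroup (m := m) U := by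
  refine ⟨(dotProductEquiv F (Fin k) φ).smulRight f, fun z => U.smul_mem _ hf,
    fun z hz => by simp [hφ z hz], ?_⟩
  congr 1
  refine gl_ext fun z => ?_
  rw [tv_mulVec (hφ f hf), uni_mulVec fun v => by simp [hφ f hf]]
  simp

/-- The root group of a pure vector. -/
def pairGroup (a : Fin m → F) (c : Fin k → F) : Subgroup (GL (Fin m × Fin k) F) where
  carrier := {g | ∃ ψ φ, ψ ⬝ᵥ a = 0 ∧ φ ⬝ᵥ c = 0 ∧ g = kr (tv a ψ) (tv c φ)}
  one_mem' := ⟨0, 0, zero_dotProduct _, zero_dotProduct _, by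
    rw [tv_zero_right, tv_zero_right, kr_one]⟩
  mul_mem' := by
    rintro _ _ ⟨ψ, φ, h1, h2, rfl⟩ ⟨ψ', φ', h1', h2', rfl⟩
    exact ⟨ψ + ψ', φ + φ', by rw [add_dotProduct, h1, h1', add_zero],
      by rw [add_dotProduct, h2, h2', add_zero], by rw [kr_mul, tv_add h1 h1', tv_add h2 h2']⟩
  inv_mem' := by
    rintro _ ⟨ψ, φ, h1, h2, rfl⟩
    exact ⟨-ψ, -φ, by simp [h1], by simp [h2], by rw [kr_inv, tv_inv h1, tv_inv h2]⟩

lemma pairGroup_isPGroup {p : ℕ} [Fact p.Prime] [CharP F p] (a : Fin m → F) (c : Fin k → F) :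
    IsPGroup p (pairGroup a c) := by
  rintro ⟨_, ψ, φ, h1, h2, rfl⟩
  refine ⟨1, Subtype.ext ?_⟩
  rw [pow_one, SubmonoidClass.coe_pow, OneMemClass.coe_one, kr_pow, tv_pow h1, tv_pow h2,
    ← Nat.cast_smul_eq_nsmul F p ψ, ← Nat.cast_smul_eq_nsmul F p φ, CharP.cast_eq_zero F p,
    zero_smul, zero_smul, tv_zero_right, tv_zero_right, kr_one]

/-- The fixed vectors of the root group of a pure vector. -/
lemma pairGroup_fixed {a : Fin m → F} {c : Fin k → F} (ha : a ≠ 0) (hc : c ≠ 0)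
    {x : Fin m × Fin k → F}
    (h : ∀ g ∈ pairGroup a c, (g : Matrix (Fin m × Fin k) (Fin m × Fin k) F) *ᵥ x = x) :
    ∃ t : F, x = t • vt a c := by
  have hrow : ∀ i, row x i ∈ Submodule.span F {c} := by
    intro i
    by_contra hcon
    obtain ⟨φ, hφ1, hφ⟩ := exists_dot_eq_one hcon
    have hφc := hφ c (Submodule.mem_span_singleton_self c)
    have := congrArg (fun y => row y i) (h _ ⟨0, φ, zero_dotProduct _, hφc, rfl⟩)
    simp only [tv_zero_right, kr_one_row, tv_mulVec hφc, hφ1, one_smul, add_eq_left] at this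
    exact hc this
  choose w hw using fun i => Submodule.mem_span_singleton.1 (hrow i)
  have hx : x = vt w c := row_ext fun i => by rw [row_vt, hw]
  have hwa : w ∈ Submodule.span F {a} := by
    by_contra hcon
    obtain ⟨ψ, hψ1, hψ⟩ := exists_dot_eq_one hcon
    have hψa := hψ a (Submodule.mem_span_singleton_self a)
    have := h _ ⟨ψ, 0, hψa, zero_dotProduct _, rfl⟩
    rw [hx, kr_vt, tv_zero_right, Units.val_one, one_mulVec, tv_mulVec hψa, hψ1, one_smul] at this
    have := vtL_injective hc this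
    rw [add_eq_left] at this
    rw [this, dotProduct_zero] at hψa
    refine hcon ?_
    have h0 : vt (w + a) c = vt w c := by assumption
    exfalso
    exact ha this
  obtain ⟨t, ht⟩ := Submodule.mem_span_singleton.1 hwa
  exact ⟨t, by rw [hx, ← ht, vt_smul_left]⟩

end Cfsg.Agent.Lib.Forms.TProd
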