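import Cfsg.Agent.Lib.Forms.BlockCountLinear

/-!
The Kronecker subgroup with a two-dimensional factor over two elements is not maximal.
-/

set_option autoImplicit false

namespace Cfsg.Agent.Lib.Forms

open Matrix Cfsg.Geo Kronecker

variable {F : Type*} [Field F]

/-- The element of order three of `GL₂(2)`. -/
def omegaTwo (F : Type*) [Field F] : Matrix (Fin 2) (Fin 2) F := !![0, 1; 1, 1]

/-- Its inverse in characteristic two. -/
def omegaTwoInv (F : Type*) [Field F] : Matrix (Fin 2) (Fin 2) F := !![1, 1; 1, 0]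

variable [Fintype F]

lemma omegaTwo_mul_inv (hq : Fintype.card F = 2) : omegaTwo F * omegaTwoInv F = 1 := by
  ext i j
  fin_cases i <;> fin_cases j <;>
    simp [omegaTwo, omegaTwoInv, Matrix.mul_apply, Fin.sum_univ_two, one_add_one_eq_two,
      two_eq_zero_of_card_two hq]

lemma omegaTwoInv_mul (hq : Fintype.card F = 2) : omegaTwoInv F * omegaTwo F = 1 :=
  mul_eq_one_comm.1 (omegaTwo_mul_inv hq)

lemma omegaTwo_normal (hq : Fintype.card F = 2) (a : Matrix (Fin 2) (Fin 2) F) (ha : a.det ≠ 0) :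
    a * omegaTwo F = omegaTwo F * a ∨ a * omegaTwo F = omegaTwoInv F * a := by
  rw [Matrix.eta_fin_two a] at ha ⊢
  rw [Matrix.det_fin_two_of] at ha
  rcases field_two_cases hq (a 0 0) with h1 | h1 <;> rcases field_two_cases hq (a 0 1) with h2 | h2 <;>
    rcases field_two_cases hq (a 1 0) with h3 | h3 <;>
    rcases field_two_cases hq (a 1 1) with h4 | h4 <;>
    simp_all [omegaTwo, omegaTwoInv, one_add_one_eq_two, two_eq_zero_of_card_two hq]

theorem exists_between_kronecker (hq : Fintype.card F = 2) (n : ℕ) (hn : 2 ≤ n) :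
    ∃ K : Subgroup (GL (Fin 2 × Fin n) F), kroneckerSubgroup 2 n F < K ∧ K < ⊤ := by
  classical
  let U : GL (Fin 2 × Fin n) F :=
    ⟨omegaTwo F ⊗ₖ (1 : Matrix (Fin n) (Fin n) F), omegaTwoInv F ⊗ₖ (1 : Matrix (Fin n) (Fin n) F),
      by rw [← mul_kronecker_mul, omegaTwo_mul_inv hq, one_mul, one_kronecker_one],
      by rw [← mul_kronecker_mul, omegaTwoInv_mul hq, one_mul, one_kronecker_one]⟩
  let K := Subgroup.normalizer ({U, U⁻¹} : Set (GL (Fin 2 × Fin n) F))
  have hmem : ∀ g : GL (Fin 2 × Fin n) F, g * U = U * g ∨ g * U = U⁻¹ * g → g ∈ K := by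
    intro g hg
    have himg : ∀ h ∈ ({U, U⁻¹} : Set (GL (Fin 2 × Fin n) F)), g * h * g⁻¹ ∈ ({U, U⁻¹} : Set _) := by
      have h1 : g * U * g⁻¹ = U ∨ g * U * g⁻¹ = U⁻¹ :=
        hg.imp (fun e => by rw [e, mul_inv_cancel_right]) (fun e => by rw [e, mul_inv_cancel_right])
      rintro h hh
      rcases hh with rfl | hh
      · simpa using h1
      · rw [Set.mem_singleton_iff] at hh
        subst hh
        have e2 : g * U⁻¹ * g⁻¹ = (g * U * g⁻¹)⁻¹ := by group
        rw [e2]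
        rcases h1 with e | e <;> simp [e]
    rw [Subgroup.mem_set_normalizer_iff]
    intro h
    refine ⟨fun hh => himg h hh, fun hh => ?_⟩
    have hfin : ({U, U⁻¹} : Set (GL (Fin 2 × Fin n) F)).Finite := Set.toFinite _
    haveI := hfin.to_subtype
    obtain ⟨⟨x, hx⟩, hxh⟩ := (Finite.injective_iff_surjective
      (f := fun h : ({U, U⁻¹} : Set (GL (Fin 2 × Fin n) F)) =>
        (⟨g * h * g⁻¹, himg _ h.2⟩ : ({U, U⁻¹} : Set (GL (Fin 2 × Fin n) F))))).1
      (fun x y hxy => Subtype.ext (by simpa using congrArg Subtype.val hxy)) ⟨g * h * g⁻¹, hh⟩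
    have hxe : x = h := by simpa using congrArg Subtype.val hxh
    exact hxe ▸ hx
  let E : Matrix (Fin n) (Fin n) F := Matrix.diagonal (fun j => if j.val = 0 then 1 else 0)
  let E' : Matrix (Fin n) (Fin n) F := Matrix.diagonal (fun j => if j.val = 0 then 0 else 1)
  have hEE : E * E = E ∧ E' * E' = E' ∧ E * E' = 0 ∧ E' * E = 0 ∧ E + E' = 1 := by
    refine ⟨?_, ?_, ?_, ?_, ?_⟩ <;> ext i j <;> rcases eq_or_ne i j with rfl | hij <;>
      by_cases hi : i.val = 0 <;>
      simp [E, E', Matrix.diagonal_mul_diagonal, Matrix.diagonal_apply, Matrix.one_apply, *]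
  obtain ⟨h1, h2, h3, h4, h5⟩ := hEE
  let g : GL (Fin 2 × Fin n) F :=
    ⟨omegaTwo F ⊗ₖ E + (1 : Matrix (Fin 2) (Fin 2) F) ⊗ₖ E',
      omegaTwoInv F ⊗ₖ E + (1 : Matrix (Fin 2) (Fin 2) F) ⊗ₖ E',
      by simp only [add_mul, mul_add, ← mul_kronecker_mul, h1, h2, h3, h4, kronecker_zero, add_zero,
           zero_add, one_mul, omegaTwo_mul_inv hq, ← kronecker_add, h5, one_kronecker_one],
      by simp only [add_mul, mul_add, ← mul_kronecker_mul, h1, h2, h3, h4, kronecker_zero, add_zero,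
           zero_add, one_mul, omegaTwoInv_mul hq, ← kronecker_add, h5, one_kronecker_one]⟩
  refine ⟨K, lt_of_le_not_ge ?_ (fun hle => ?_), lt_of_le_not_ge le_top (fun hle => ?_)⟩
  · rintro x ⟨a, b, hx⟩
    refine hmem x ((omegaTwo_normal hq (a : Matrix (Fin 2) (Fin 2) F) ?_).imp ?_ ?_)
    · exact ((Matrix.isUnit_iff_isUnit_det _).1 a.isUnit).ne_zero
    all_goals
      intro e
      apply Units.ext
      rw [Units.val_mul, Units.val_mul, hx]
      show _ * (omegaTwo F ⊗ₖ (1 : Matrix (Fin n) (Fin n) F)) = (_ ⊗ₖ (1 : Matrix (Fin n) (Fin n) F)) * _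
      rw [← mul_kronecker_mul, ← mul_kronecker_mul, e, mul_one, one_mul]
  · have hg : g ∈ K := hmem g (Or.inl (Units.ext (by
      show (omegaTwo F ⊗ₖ E + (1 : Matrix (Fin 2) (Fin 2) F) ⊗ₖ E') * (omegaTwo F ⊗ₖ (1 : Matrix (Fin n) (Fin n) F)) =
        (omegaTwo F ⊗ₖ (1 : Matrix (Fin n) (Fin n) F)) * (omegaTwo F ⊗ₖ E + (1 : Matrix (Fin 2) (Fin 2) F) ⊗ₖ E')
      simp only [add_mul, mul_add, ← mul_kronecker_mul, mul_one, one_mul])))
    obtain ⟨a, b, hab⟩ := hle hg
    let j0 : Fin n := ⟨0, by omega⟩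
    let j1 : Fin n := ⟨1, by omega⟩
    have e1 := congrFun (congrFun hab (0, j0)) (0, j0)
    have e2 := congrFun (congrFun hab (0, j1)) (0, j1)
    have e3 := congrFun (congrFun hab (0, j0)) (1, j0)
    simp [g, E, E', omegaTwo, j0, j1, kroneckerMap_apply] at e1 e2 e3
    rcases e1 with e1 | e1
    · rw [e1, zero_mul] at e2; exact zero_ne_one e2.symm
    · rw [e1, mul_zero] at e3; exact zero_ne_one e3.symm
  · let j0 : Fin n := ⟨0, by omega⟩
    let j1 : Fin n := ⟨1, by omega⟩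
    let T : GL (Fin 2 × Fin n) F := tv (Pi.single (0, j0) 1) (Pi.single (0, j1) 1)
    have hd : (Pi.single (0, j1) (1 : F) : Fin 2 × Fin n → F) ⬝ᵥ Pi.single (0, j0) 1 = 0 := by
      simp [j0, j1]
    have hTK : T ∈ K := hle (Subgroup.mem_top T)
    have hT : T * U * T⁻¹ ∈ ({U, U⁻¹} : Set (GL (Fin 2 × Fin n) F)) :=
      ((Subgroup.mem_set_normalizer_iff.1 hTK) U).1 (Set.mem_insert _ _)
    rw [Set.mem_insert_iff, Set.mem_singleton_iff] at hT
    rcases hT with e | e <;>
      rw [mul_inv_eq_iff_eq_mul] at e <;>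
      [have := congrArg (fun M : GL (Fin 2 × Fin n) F =>
          (M : Matrix (Fin 2 × Fin n) (Fin 2 × Fin n) F) (0, j0) (1, j1)) e;
        have := congrArg (fun M : GL (Fin 2 × Fin n) F =>
          (M : Matrix (Fin 2 × Fin n) (Fin 2 × Fin n) F) (0, j0) (0, j0)) e] <;>
      simp [Units.val_mul, T, tv_val hd, tvMat, U, Matrix.mul_apply, Matrix.add_apply,
        vecMulVec_apply, Fintype.sum_prod_type, Fin.sum_univ_two, kroneckerMap_apply, omegaTwo,
        omegaTwoInv, Matrix.one_apply, j0, j1, Pi.single_apply, Prod.ext_iff] at this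

end Cfsg.Agent.Lib.Forms
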