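import Cfsg.Agent.Lib.Forms.TensorProdRed
import Cfsg.Agent.Lib.Forms.UnitarySiegel

/-!
The tensor product of two Hermitian forms.
-/

set_option autoImplicit false

namespace Cfsg.Agent.Lib.Forms.TProd

open Matrix Kronecker Cfsg.Agent.Lib.Forms Cfsg.Geo

variable {F : Type*} [Field F] {m k : ℕ}

/-- Two Hermitian forms and their product. -/
structure UT (F : Type*) [Field F] (m k : ℕ) where
  σ : F ≃+* F
  f : (Fin m → F) → (Fin m → F) → F
  g : (Fin k → F) → (Fin k → F) → F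
  h : (Fin m × Fin k → F) → (Fin m × Fin k → F) → F
  c₀ : F
  Hf : IsUnitaryForm σ f
  Hg : IsUnitaryForm σ g
  Hh : IsUnitaryForm σ h
  c₀_ne : c₀ ≠ 0
  pair : ∀ v z w y, h (vt v z) (vt w y) = c₀ * f v w * g z y

namespace UT

variable (T : UT F m k)

/-- The product group inside the special unitary group. -/
def grp : Subgroup (GL (Fin m × Fin k) F) :=
  kroneckerSubgroup m k F ⊓ (isoH T.h ⊓ specialLinear (Fin m × Fin k) F)

/-- The left coordinate along a vector of the right space. -/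
noncomputable def rL (z : Fin k → F) : (Fin m × Fin k → F) →ₗ[F] (Fin m → F) :=
  coL (hv T.g z)

lemma rL_vt (z : Fin k → F) (v : Fin m → F) (y : Fin k → F) :
    T.rL z (vt v y) = T.g y z • v := by
  rw [rL, coL_vt, hv_dot T.Hg]

lemma rL_row (z : Fin k → F) (x : Fin m × Fin k → F) (i : Fin m) :
    T.rL z x i = T.g (row x i) z := by
  show hv T.g z ⬝ᵥ row x i = _
  rw [hv_dot T.Hg]

/-- The form as a linear functional of its first argument. -/
def funL (y : Fin m × Fin k → F) : (Fin m × Fin k → F) →ₗ[F] F where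
  toFun x := T.h x y
  map_add' a b := T.Hh.add_left a b y
  map_smul' c a := T.Hh.smul_left c a y

/-- The left form as a linear functional of its first argument. -/
def funF (y : Fin m → F) : (Fin m → F) →ₗ[F] F where
  toFun x := T.f x y
  map_add' a b := T.Hf.add_left a b y
  map_smul' c a := T.Hf.smul_left c a y

lemma h_vt (X : Fin m × Fin k → F) (v : Fin m → F) (z : Fin k → F) :
    T.h X (vt v z) = T.c₀ * T.f (T.rL z X) v :=
  LinearMap.congr_fun (pure_ext (N := T.funL (vt v z)) (N' := T.c₀ • (T.funF v ∘ₗ T.rL z))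
    fun i y => by
      show T.h (vt (Pi.single i 1) y) (vt v z) = T.c₀ * T.f (T.rL z (vt (Pi.single i 1) y)) v
      rw [T.pair, T.rL_vt, T.Hf.smul_left]
      ring) X

lemma vt_h (X : Fin m × Fin k → F) (v : Fin m → F) (z : Fin k → F) :
    T.h (vt v z) X = T.σ (T.c₀ * T.f (T.rL z X) v) := by
  rw [T.Hh.herm, T.h_vt]

lemma σ_c₀ [Finite F] [NeZero m] [NeZero k] : T.σ T.c₀ = T.c₀ := by
  obtain ⟨v, hv'⟩ : ∃ v, T.f v v ≠ 0 := by
    obtain ⟨x, -, hx⟩ := exists_anisotropic T.Hf (W := ⊤)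
      (fun w _ hw => by
        obtain ⟨⟨a, ha⟩, b, hb⟩ := T.Hf.nondegenerate w hw
        exact ⟨⟨a, trivial, ha⟩, b, trivial, hb⟩) top_ne_bot
    exact ⟨x, hx⟩
  obtain ⟨z, hz⟩ : ∃ z, T.g z z ≠ 0 := by
    obtain ⟨x, -, hx⟩ := exists_anisotropic T.Hg (W := ⊤)
      (fun w _ hw => by
        obtain ⟨⟨a, ha⟩, b, hb⟩ := T.Hg.nondegenerate w hw
        exact ⟨⟨a, trivial, ha⟩, b, trivial, hb⟩) top_ne_bot
    exact ⟨x, hx⟩
  have := T.Hh.herm (vt v z) (vt v z)
  rw [T.pair, map_mul, map_mul, herm_self_fixed T.Hf, herm_self_fixed T.Hg] at this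
  exact (mul_right_cancel₀ (mul_ne_zero hv' hz) (by linear_combination this)).symm

lemma ext_h {x y : Fin m × Fin k → F} (hxy : ∀ v z, T.h x (vt v z) = T.h y (vt v z)) : x = y := by
  by_contra hne
  obtain ⟨w, hw⟩ := (T.Hh.nondegenerate (x - y) (sub_ne_zero.2 hne)).2
  refine hw ?_
  rw [sum_rows w]
  refine Finset.sum_induction _ (fun u => T.h (x - y) u = 0) (fun a b ha hb => ?_) ?_ fun i _ => ?_
  · rw [herm_add_right T.Hh, ha, hb, add_zero]
  · exact herm_zero_right T.Hh _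
  · rw [sub_eq_add_neg, T.Hh.add_left, herm_neg_left T.Hh, hxy, add_neg_cancel]

lemma kr_iso {a : GL (Fin m) F} {b : GL (Fin k) F} {μ ν : F} (hμν : μ * ν = 1)
    (ha : ∀ v w, T.f ((a : Matrix (Fin m) (Fin m) F) *ᵥ v) ((a : Matrix (Fin m) (Fin m) F) *ᵥ w) =
      μ * T.f v w)
    (hb : ∀ z y, T.g ((b : Matrix (Fin k) (Fin k) F) *ᵥ z) ((b : Matrix (Fin k) (Fin k) F) *ᵥ y) =
      ν * T.g z y) :
    kr a b ∈ isoH T.h := by
  set K := Matrix.toLin' (kr a b : Matrix (Fin m × Fin k) (Fin m × Fin k) F) with hK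
  have hp : ∀ v z w y, T.h (K (vt v z)) (K (vt w y)) = T.h (vt v z) (vt w y) := fun v z w y => by
    rw [hK, Matrix.toLin'_apply, Matrix.toLin'_apply, kr_vt, kr_vt, T.pair, T.pair, ha, hb]
    linear_combination (T.c₀ * T.f v w * T.g z y) * hμν
  have hp2 : ∀ X w y, T.h (K X) (K (vt w y)) = T.h X (vt w y) := fun X w y =>
    LinearMap.congr_fun (pure_ext (N := T.funL (K (vt w y)) ∘ₗ K) (N' := T.funL (vt w y))
      fun i z => hp _ z w y) X
  intro X Y
  have h3 : ∀ Y, T.h (K Y) (K X) = T.h Y X := fun Y => by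
    refine LinearMap.congr_fun (pure_ext (N := T.funL (K X) ∘ₗ K) (N' := T.funL X) fun i z => ?_) Y
    show T.h (K (vt (Pi.single i 1) z)) (K X) = T.h (vt (Pi.single i 1) z) X
    rw [T.Hh.herm, hp2, ← T.Hh.herm]
  have := h3 Y
  rw [← Matrix.toLin'_apply (kr a b : Matrix (Fin m × Fin k) (Fin m × Fin k) F),
    ← Matrix.toLin'_apply (kr a b : Matrix (Fin m × Fin k) (Fin m × Fin k) F), ← hK,
    T.Hh.herm, this, ← T.Hh.herm]

lemma kr_mem_grp {a : GL (Fin m) F} {b : GL (Fin k) F}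
    (ha : a ∈ isoH T.f ⊓ specialLinear (Fin m) F) (hb : b ∈ isoH T.g ⊓ specialLinear (Fin k) F) :
    kr a b ∈ T.grp := by
  refine ⟨mem_kronecker.2 ⟨a, b, rfl⟩, T.kr_iso (one_mul 1) (fun v w => ?_) (fun z y => ?_), ?_⟩
  · rw [ha.1, one_mul]
  · rw [hb.1, one_mul]
  · show kr a b ∈ specialLinear _ F
    rw [mem_specialLinear, det_kr, det_of_mem ha.2, det_of_mem hb.2, one_pow, one_pow, one_mul]

lemma exists_hyp {c : Fin k → F} (hc : T.g c c = 0) (hc0 : c ≠ 0) :
    ∃ d, HypPair T.g c d := by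
  obtain ⟨x, hx⟩ := (T.Hg.nondegenerate c hc0).2
  obtain ⟨r, hr⟩ := exists_isotropic_translate T.Hg hc hx
  have e : T.g c (x + r • c) = T.g c x := by
    rw [herm_add_right T.Hg, herm_smul_right T.Hg, hc, mul_zero, add_zero]
  refine ⟨(T.σ (T.g c x))⁻¹ • (x + r • c), hc, ?_, ?_⟩
  · rw [smul_inner T.Hg, hr, mul_zero]
  · rw [herm_smul_right T.Hg, e, map_inv₀, T.Hg.involutive, inv_mul_cancel₀ hx]

end UT

end Cfsg.Agent.Lib.Forms.TProd
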