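import Cfsg.Agent.Lib.Forms.TensorUnitBasic

/-!
A subgroup containing all transvections with pure isotropic centres contains the special unitary
group of the product form.
-/

set_option autoImplicit false

namespace Cfsg.Agent.Lib.Forms.TProd

open Matrix Kronecker Cfsg.Agent.Lib.Forms Cfsg.Geo

variable {F : Type*} [Field F] [Finite F] {m k : ℕ}

namespace UT

variable (T : UT F m k) {M : Subgroup (GL (Fin m × Fin k) F)}

/-- All transvections with this centre are in the group. -/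
def Cen (M : Subgroup (GL (Fin m × Fin k) F)) (v : Fin m × Fin k → F) : Prop :=
  T.h v v = 0 ∧ ∀ l : F, l + T.σ l = 0 → tv v (l • hv T.h v) ∈ M

variable {T}

omit [Finite F] in
lemma Cen.smul {v : Fin m × Fin k → F} (h : T.Cen M v) (t : F) : T.Cen M (t • v) := by
  refine ⟨by rw [smul_inner T.Hh, h.1, mul_zero], fun l hl => ?_⟩
  rw [hv_smul T.Hh, tv_smul_center _ (by
    rw [smul_dotProduct, smul_dotProduct, hv_dot T.Hh, h.1, smul_zero, smul_zero]), smul_smul,
    smul_smul]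
  refine h.2 _ ?_
  rw [map_mul, map_mul, T.Hh.involutive]
  linear_combination (t * T.σ t) * hl

omit [Finite F] in
lemma Cen.map {v : Fin m × Fin k → F} (h : T.Cen M v) {g : GL (Fin m × Fin k) F} (hg : g ∈ M)
    (hgi : g ∈ isoH T.h) :
    T.Cen M ((g : Matrix (Fin m × Fin k) (Fin m × Fin k) F) *ᵥ v) := by
  refine ⟨by rw [hgi, h.1], fun l hl => ?_⟩
  have hgv : T.h ((g : Matrix (Fin m × Fin k) (Fin m × Fin k) F) *ᵥ v)
      ((g : Matrix (Fin m × Fin k) (Fin m × Fin k) F) *ᵥ v) = 0 := by rw [hgi, h.1]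
  have := M.mul_mem (M.mul_mem hg (h.2 l hl)) (M.inv_mem hg)
  convert this using 1
  refine gl_ext fun x => ?_
  have e : T.h x ((g : Matrix (Fin m × Fin k) (Fin m × Fin k) F) *ᵥ v) =
      T.h (((g⁻¹ : GL (Fin m × Fin k) F) : Matrix (Fin m × Fin k) (Fin m × Fin k) F) *ᵥ x) v := by
    conv_lhs => rw [← mulVec_inv_mulVec g x]
    rw [hgi]
  rw [utv_mulVec T.Hh hgv, mul_mulVec', mul_mulVec', utv_mulVec T.Hh h.1, mulVec_add,
    mulVec_inv_mulVec, mulVec_smul, e]

omit [Finite F] in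
/-- Two centres give the centres of their hyperbolic line. -/
lemma Cen.add {v w : Fin m × Fin k → F} (hv' : T.Cen M v) (hw : T.Cen M w) (hne : T.h v w ≠ 0)
    (hsum : T.h (v + w) (v + w) = 0) : T.Cen M (v + w) := by
  have hl : (T.h v w)⁻¹ + T.σ (T.h v w)⁻¹ = 0 := by
    rw [T.Hh.add_left, herm_add_right T.Hh, herm_add_right T.Hh, hv'.1, hw.1, T.Hh.herm w v,
      zero_add, add_zero] at hsum
    have h2 : T.σ (T.h v w) ≠ 0 := by simpa using hne
    rw [map_inv₀]
    field_simp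
    linear_combination hsum
  have := hv'.map (hw.2 _ hl) (fun x y => utv_isometry T.Hh hw.1 hl x y)
  rwa [utv_mulVec T.Hh hw.1, inv_mul_cancel₀ hne, one_smul] at this

omit [Finite F] in
lemma exists_aniso_perp [NeZero m] (hk : 5 ≤ k) {c d z : Fin k → F} (P : HypPair T.g c d)
    (hzc : T.g z c = 0) (hzd : T.g z d = 0) :
    ∃ y, T.g y y ≠ 0 ∧ T.g y c = 0 ∧ T.g y d = 0 ∧ T.g y z = 0 := by
  by_contra hcon
  push Not at hcon
  have hmem : ∀ y ∈ perp T.Hg ![c, d, z], T.g y c = 0 ∧ T.g y d = 0 ∧ T.g y z = 0 :=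
    fun y hy => ⟨hy 0, hy 1, hy 2⟩
  have hzero : ∀ y ∈ perp T.Hg ![c, d, z], T.g y y = 0 := fun y hy => by
    by_contra h0
    obtain ⟨h1, h2, h3⟩ := hmem y hy
    exact hcon y h0 h1 h2 h3
  obtain ⟨r, hr⟩ := exists_trace_ne_zero T.Hg
  have hTI : ∀ x ∈ perp T.Hg ![c, d, z], ∀ y ∈ perp T.Hg ![c, d, z], T.g x y = 0 := by
    intro x hx y hy
    by_contra hxy
    have := hzero _ (add_mem (Submodule.smul_mem _ (r / T.g x y) hx) hy)
    simp only [T.Hg.add_left, T.Hg.smul_left, herm_add_right T.Hg, herm_smul_right T.Hg,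
      hzero x hx, hzero y hy, T.Hg.herm y x, mul_zero, add_zero, zero_add, map_div₀] at this
    have hσ : T.σ (T.g x y) ≠ 0 := by simpa using hxy
    field_simp at this
    exact hr (by linear_combination this)
  have hle : perp T.Hg ![c, d, z] ≤ Submodule.span F {z} := by
    intro y hy
    have hs := mem_span_of_perp T.Hg (u := ![c, d, z]) fun x hx => hTI x hx y hy
    obtain ⟨a, ha⟩ := (Submodule.mem_span_range_iff_exists_fun F).1 hs
    simp [Fin.sum_univ_three] at ha
    obtain ⟨h1, h2, -⟩ := hmem y hy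
    have e1 : a 1 = 0 := by
      simpa [← ha, T.Hg.add_left, T.Hg.smul_left, P.uu, P.vu T.Hg, hzc] using h1
    have e0 : a 0 = 0 := by
      simpa [← ha, T.Hg.add_left, T.Hg.smul_left, P.vv, P.uv, hzd] using h2
    refine Submodule.mem_span_singleton.2 ⟨a 2, ?_⟩
    rw [← ha, e0, e1]
    simp
  have h1 := Submodule.finrank_mono hle
  have h2 := finrank_perp T.Hg ![c, d, z]
  have h3 : Module.finrank F (Submodule.span F ({z} : Set (Fin k → F))) ≤ 1 := by
    simpa using finrank_span_le_card (R := F) ({z} : Set (Fin k → F))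
  rw [Fintype.card_fin] at h2
  omega

lemma span_rest [NeZero m] (hk : 5 ≤ k) {c d : Fin k → F} (P : HypPair T.g c d) {z : Fin k → F}
    (hzc : T.g z c = 0) (hzd : T.g z d = 0) :
    z ∈ Submodule.span F {y | T.g y y = 0 ∧ T.g y c = 0 ∧ T.g y d = 0} := by
  set S := Submodule.span F {y | T.g y y = 0 ∧ T.g y c = 0 ∧ T.g y d = 0}
  suffices ∀ z, T.g z c = 0 → T.g z d = 0 → T.g z z ≠ 0 → z ∈ S by
    by_cases hz : T.g z z = 0
    · exact Submodule.subset_span ⟨hz, hzc, hzd⟩
    · exact this z hzc hzd hz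
  intro z hzc hzd hz
  obtain ⟨y, hy, hyc, hyd, hyz⟩ := exists_aniso_perp hk P hzc hzd
  obtain ⟨θ, hθ⟩ := exists_norm_eq T.Hg (a := -T.g z z / T.g y y)
    (by rw [map_div₀, map_neg, herm_self_fixed T.Hg, herm_self_fixed T.Hg])
  obtain ⟨x, hx⟩ : ∃ x : F, T.σ x ≠ x := by
    by_contra hcon; push Not at hcon
    exact T.Hg.ne_refl (RingEquiv.ext hcon)
  have hx0 : x ≠ 0 := fun e => hx (by rw [e, map_zero])
  have hθ0 : θ ≠ 0 := fun e => hz (by
    rw [e, zero_mul, eq_comm, div_eq_zero_iff, neg_eq_zero] at hθ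
    exact hθ.resolve_right hy)
  have mem : ∀ t : F, t * T.σ t = -T.g z z / T.g y y → z + t • y ∈ S := by
    intro t ht
    refine Submodule.subset_span ⟨?_, ?_, ?_⟩
    · rw [T.Hg.add_left, T.Hg.smul_left, herm_add_right T.Hg, herm_add_right T.Hg,
        herm_smul_right T.Hg, herm_smul_right T.Hg, hyz, eq_zero_of_herm_self T.Hg hyz]
      field_simp at ht
      linear_combination ht
    · rw [T.Hg.add_left, T.Hg.smul_left, hzc, hyc, mul_zero, add_zero]
    · rw [T.Hg.add_left, T.Hg.smul_left, hzd, hyd, mul_zero, add_zero]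
  have m1 := mem θ hθ
  have m2 := mem (θ * (T.σ x / x)) (by
    rw [map_mul, map_div₀, T.Hg.involutive, ← hθ]
    have : T.σ x ≠ 0 := by simpa using hx0
    field_simp)
  have hyS : y ∈ S := by
    have h3 := S.sub_mem m1 m2
    rw [add_sub_add_left_eq_sub, ← sub_smul] at h3
    refine (Submodule.smul_mem_iff S ?_).1 h3
    intro e
    refine hx ?_
    have e2 : θ * (1 - T.σ x / x) = 0 := by linear_combination e
    have e' := (mul_eq_zero.1 e2).resolve_left hθ0
    rw [sub_eq_zero, eq_div_iff hx0, one_mul] at e'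
    exact e'.symm
  simpa using S.sub_mem m1 (S.smul_mem θ hyS)

/-- Pure vectors with isotropic right factor are centres. -/
lemma cen_right [NeZero m] [NeZero k] (hk : 5 ≤ k) (hm : 2 ≤ m)
    (hO : ∀ a c, T.f a a = 0 → T.g c c = 0 → T.Cen M (vt a c)) (u : Fin m → F) {c : Fin k → F}
    (hc : T.g c c = 0) : T.Cen M (vt u c) := by
  by_cases hu : T.f u u = 0
  · exact hO u c hu hc
  rcases eq_or_ne c 0 with rfl | hc0
  · exact hO 0 0 (herm_zero_left T.Hf _) hc |> fun h => by rwa [vt_zero_right] at h ⊢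
  obtain ⟨a, ha, hua⟩ : ∃ a, T.f a a = 0 ∧ T.f a u ≠ 0 := by
    by_contra hcon
    push Not at hcon
    refine hu (?_ : T.funF u u = 0)
    have hle := span_isotropic_perp T.Hf (![] : Fin 0 → _)
      (by rw [Fintype.card_fin]; omega)
    have : u ∈ LinearMap.ker (T.funF u) :=
      (Submodule.span_le.2 fun v hv' => hcon v hv'.2) (hle fun i => i.elim0)
    exact this
  obtain ⟨t, ht⟩ := exists_isotropic_translate T.Hf ha hua
  set b := u + t • a
  set a' := (-t) • a
  have hab : u = a' + b := by simp only [a', b]; module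
  have hna : T.f a' a' = 0 := by rw [smul_inner T.Hf, ha, mul_zero]
  have ht0 : t ≠ 0 := fun e => hu (by simpa [b, e] using ht)
  have hne : T.f a' b ≠ 0 := by
    rw [T.Hf.smul_left, herm_add_right T.Hf, herm_smul_right T.Hf, ha, mul_zero, add_zero]
    exact mul_ne_zero (neg_ne_zero.2 ht0) hua
  obtain ⟨d, P⟩ := T.exists_hyp hc hc0
  -- admissible right factors
  set ν₀ := T.c₀ * T.f a' b
  have hν₀ : ν₀ ≠ 0 := mul_ne_zero T.c₀_ne hne
  let Adm : (Fin k → F) → Prop := fun E =>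
    T.g E E = 0 ∧ ν₀ * T.g c E ≠ 0 ∧ ν₀ * T.g c E + T.σ (ν₀ * T.g c E) = 0
  have step : ∀ X E, Adm E → T.Cen M (vt a' c + vt b X) → T.h (vt a' c + vt b X) (vt a' c + vt b X) = 0
      → T.Cen M (vt a' c + vt b (X + E)) ∧
        T.h (vt a' c + vt b (X + E)) (vt a' c + vt b (X + E)) = 0 := by
    intro X E hE hX hX0
    have e : T.h (vt a' c + vt b X) (vt b E) = ν₀ * T.g c E := by
      rw [T.Hh.add_left, T.pair, T.pair, show T.f b b = 0 from ht, mul_zero, zero_mul, add_zero]
    have e0 : T.h (vt b E) (vt b E) = 0 := by rw [T.pair, hE.1, mul_zero]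
    have hsum : T.h (vt a' c + vt b X + vt b E) (vt a' c + vt b X + vt b E) = 0 := by
      rw [T.Hh.add_left, herm_add_right T.Hh (vt a' c + vt b X) (vt a' c + vt b X) (vt b E),
        herm_add_right T.Hh (vt b E) (vt a' c + vt b X) (vt b E),
        T.Hh.herm (vt b E) (vt a' c + vt b X), e, hX0, e0, zero_add, add_zero]
      exact hE.2.2
    rw [vt_add_right, ← add_assoc]
    exact ⟨hX.add (hO b E ht hE.1) (by rw [e]; exact hE.2.1) hsum, hsum⟩
  obtain ⟨g₂, hg₂, hg₂c, hg₂d, -⟩ := exists_aniso_perp hk P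
    (herm_zero_left T.Hg c) (herm_zero_left T.Hg d)
  obtain ⟨κ, hκ0, hκ⟩ := exists_skew T.Hg
  set ν := T.σ (κ / ν₀) with hν
  have hν0 : ν ≠ 0 := by simp [ν, hκ0, hν₀]
  obtain ⟨y, hy⟩ := exists_trace_eq T.Hg (a := (T.σ ν + ν) / T.g g₂ g₂) (by
    rw [map_div₀, map_add, T.Hg.involutive, herm_self_fixed T.Hg, add_comm])
  let Ev : F → F → (Fin k → F) := fun r x => ν • d + r • g₂ + x • c
  have hEv : ∀ r x, T.g (Ev r x) (Ev r x) =
      r * T.σ r * T.g g₂ g₂ + (x * T.σ ν + ν * T.σ x) := by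
    intro r x
    simp only [Ev, T.Hg.add_left, T.Hg.smul_left, herm_add_right T.Hg, herm_smul_right T.Hg, P.uu,
      P.vv, P.uv, P.vu T.Hg, hg₂c, hg₂d, eq_zero_of_herm_self T.Hg hg₂c,
      eq_zero_of_herm_self T.Hg hg₂d]
    ring
  have hadm : ∀ r x, T.g (Ev r x) (Ev r x) = 0 → Adm (Ev r x) ∧ Adm (-Ev r x) := by
    intro r x h0
    have e : ν₀ * T.g c (Ev r x) = κ := by
      simp only [Ev, herm_add_right T.Hg, herm_smul_right T.Hg, P.uu, P.uv,
        eq_zero_of_herm_self T.Hg hg₂c, hν, T.Hg.involutive]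
      field_simp
      ring
    have e' : ν₀ * T.g c (-Ev r x) = -κ := by rw [herm_neg_right T.Hg, mul_neg, e]
    refine ⟨⟨h0, by rw [e]; exact hκ0, by rw [e]; exact hκ⟩, ?_, ?_, ?_⟩
    · rw [herm_neg_left T.Hg, herm_neg_right T.Hg, neg_neg, h0]
    · rw [e']; exact neg_ne_zero.2 hκ0
    · rw [e', map_neg]; linear_combination -hκ
  have pick : ∀ r, ∃ x, T.g (Ev r x) (Ev r x) = 0 := by
    intro r
    obtain ⟨x, hx⟩ := exists_trace_eq T.Hg (a := -(r * T.σ r * T.g g₂ g₂))
      (by rw [map_neg, map_mul, map_mul, T.Hg.involutive, herm_self_fixed T.Hg]; ring)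
    refine ⟨x / T.σ ν, ?_⟩
    have : T.σ ν ≠ 0 := by simpa using hν0
    rw [hEv, map_div₀, div_mul_cancel₀ _ this, show T.σ (T.σ ν) = ν from T.Hg.involutive ν,
      mul_div_cancel₀ _ hν0]
    linear_combination hx
  obtain ⟨x₀, hx₀⟩ := pick 0
  obtain ⟨x₁, hx₁⟩ := pick y
  obtain ⟨x₂, hx₂⟩ := pick 1
  have hx₃ : T.g (Ev (y + 1) (x₁ + x₂ - x₀ - 1)) (Ev (y + 1) (x₁ + x₂ - x₀ - 1)) = 0 := by
    rw [hEv] at hx₀ hx₁ hx₂ ⊢
    rw [map_zero] at hx₀
    rw [map_one] at hx₂
    field_simp at hy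
    simp only [map_add, map_sub, map_one]
    linear_combination hx₁ + hx₂ - hx₀ + hy
  have h0 : T.Cen M (vt a' c + vt b 0) := by
    rw [vt_zero_right, add_zero]; exact hO a' c hna hc
  have h0' : T.h (vt a' c + vt b 0) (vt a' c + vt b 0) = 0 := h0.1
  obtain ⟨q1, q1'⟩ := step _ _ (hadm _ _ hx₁).1 h0 h0'
  obtain ⟨q2, q2'⟩ := step _ _ (hadm _ _ hx₂).1 q1 q1'
  obtain ⟨q3, q3'⟩ := step _ _ (hadm _ _ hx₃).2 q2 q2'
  obtain ⟨q4, -⟩ := step _ _ (hadm _ _ hx₀).2 q3 q3'
  rw [hab, vt_add_left]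
  convert q4 using 2
  congr 1
  simp only [Ev]
  module

/-- All isotropic vectors are centres. -/
lemma cen_all [NeZero m] [NeZero k] (hk : 5 ≤ k) (hm : 2 ≤ m)
    (hO : ∀ a c, T.f a a = 0 → T.g c c = 0 → T.Cen M (vt a c)) {v : Fin m × Fin k → F}
    (hv' : T.h v v = 0) : T.Cen M v := by
  have hR := fun u => @cen_right F _ _ m k T M _ _ hk hm hO u
  rcases eq_or_ne v 0 with rfl | hv0
  · simpa [vt_zero_left] using hR 0 (c := 0) (herm_zero_left T.Hg _)
  obtain ⟨c, hc, hcv⟩ : ∃ c, T.g c c = 0 ∧ T.rL c v ≠ 0 := by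
    by_contra hcon
    push Not at hcon
    refine hv0 (row_ext fun i => ?_)
    by_contra hi
    obtain ⟨z, hz⟩ := (T.Hg.nondegenerate _ hi).2
    refine hz (eq_zero_of_herm_self T.Hg ?_)
    let S : Submodule F (Fin k → F) := LinearMap.ker
      ({ toFun := fun x => T.g x (row v i)
         map_add' := fun a b => T.Hg.add_left a b _
         map_smul' := fun r a => T.Hg.smul_left r a _ } : (Fin k → F) →ₗ[F] F)
    have hle := span_isotropic_perp T.Hg (![] : Fin 0 → _) (by rw [Fintype.card_fin]; omega)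
    have : z ∈ S := (Submodule.span_le.2 fun c hc => by
      have h1 := congrFun (hcon c hc.2) i
      rw [T.rL_row] at h1
      exact eq_zero_of_herm_self T.Hg h1) (hle fun i => i.elim0)
    exact this
  have hc0 : c ≠ 0 := fun e => hcv (funext fun i => by
    rw [T.rL_row, e, herm_zero_right T.Hg]; rfl)
  obtain ⟨d, P⟩ := T.exists_hyp hc hc0
  obtain ⟨κ, hκ0, hκ⟩ := exists_skew T.Hh
  -- removing a centre
  have back : ∀ x w, T.Cen M w → T.h x x = 0 → T.h x w ≠ 0 → T.h x w + T.σ (T.h x w) = 0 →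
      T.Cen M (x + w) → T.Cen M x := by
    intro x w hw hx hne hsk hxw
    have e : x = x + w + (-1 : F) • w := by module
    rw [e]
    refine hxw.add (hw.smul _) ?_ (by rw [← e]; exact hx)
    rw [herm_smul_right T.Hh, T.Hh.add_left, hw.1, add_zero, map_neg, map_one, neg_one_mul]
    exact neg_ne_zero.2 hne
  have iso_add : ∀ x w, T.Cen M w → T.h x x = 0 → T.h x w + T.σ (T.h x w) = 0 →
      T.h (x + w) (x + w) = 0 := by
    intro x w hw hx hsk
    rw [T.Hh.add_left, herm_add_right T.Hh, herm_add_right T.Hh, T.Hh.herm w x, hw.1, hx, zero_add,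
      add_zero]
    exact hsk
  set q := T.rL c v
  -- the plane
  have plane : ∀ p, T.h (vt p c + vt q d) (vt p c + vt q d) = 0 → T.Cen M (vt p c + vt q d) := by
    intro p hp
    have e : ∀ p, T.h (vt p c) (vt q d) = T.c₀ * T.f p q := fun p => by
      rw [T.pair, P.uv, mul_one]
    have easy : ∀ p, T.f p q ≠ 0 → T.h (vt p c + vt q d) (vt p c + vt q d) = 0 →
        T.Cen M (vt p c + vt q d) := fun p hpq hp =>
      (hR p hc).add (hR q P.vv) (by rw [e]; exact mul_ne_zero T.c₀_ne hpq) hp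
    by_cases hpq : T.f p q = 0
    swap
    · exact easy p hpq hp
    obtain ⟨u₀, hu₀⟩ := (T.Hf.nondegenerate q hcv).2
    set u := T.σ (κ / (T.c₀ * T.f q u₀)) • u₀
    have hx : T.h (vt p c + vt q d) (vt u c) = κ := by
      rw [T.Hh.add_left, T.pair, T.pair, P.uu, mul_zero, zero_add, P.vu T.Hg, mul_one,
        herm_smul_right T.Hf, T.Hf.involutive]
      field_simp [T.c₀_ne]
    have hsum : vt p c + vt q d + vt u c = vt (p + u) c + vt q d := by rw [vt_add_left]; abel
    refine back _ _ (hR u hc) hp (by rw [hx]; exact hκ0) (by rw [hx]; exact hκ) ?_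
    rw [hsum]
    refine easy _ ?_ (by rw [← hsum]; exact iso_add _ _ (hR u hc) hp (by rw [hx]; exact hκ))
    rw [T.Hf.add_left, hpq, zero_add]
    intro e0
    have : T.f q u = 0 := eq_zero_of_herm_self T.Hf e0
    rw [herm_smul_right T.Hf, T.Hf.involutive] at this
    simp [hκ0, T.c₀_ne, hu₀] at this
  let Pr : (Fin m × Fin k → F) → Prop := fun w => T.rL c w = 0 ∧
    ∀ p, T.h (vt p c + vt q d + w) (vt p c + vt q d + w) = 0 → T.Cen M (vt p c + vt q d + w)
  let G : (Fin m × Fin k → F) → Prop := fun δ => ∀ w, Pr w → Pr (w + δ)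
  have hG : ∀ u g, T.g g g = 0 ∧ T.g g c = 0 ∧ T.g g d = 0 → T.f q u ≠ 0 → G (vt u g) := by
    rintro u g ⟨hg, hgc, hgd⟩ hqu w ⟨hwc, hw⟩
    refine ⟨by rw [map_add, hwc, T.rL_vt, hgc, zero_smul, add_zero], fun p hp => ?_⟩
    set X := vt p c + vt q d + (w + vt u g)
    set B := T.c₀ * T.f q u
    have hB : B ≠ 0 := mul_ne_zero T.c₀_ne hqu
    obtain ⟨x, hx⟩ : ∃ x, T.σ x * B = κ - T.h X (vt u g) :=
      ⟨T.σ ((κ - T.h X (vt u g)) / B), by rw [T.Hh.involutive, div_mul_cancel₀ _ hB]⟩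
    set E := (g + x • c)
    have hE : T.g E E = 0 := by
      simp only [E, T.Hg.add_left, T.Hg.smul_left, herm_add_right T.Hg, herm_smul_right T.Hg, hg,
        hgc, eq_zero_of_herm_self T.Hg hgc, P.uu, mul_zero, add_zero]
    have hXc : T.h X (vt u c) = B := by
      rw [T.h_vt, map_add, map_add, map_add, T.rL_vt, T.rL_vt, hwc, T.rL_vt, hgc, P.uu, P.vu T.Hg,
        zero_smul, one_smul, zero_smul, zero_add, zero_add, add_zero]
    have hXE : T.h X (vt (-u) E) = -κ := by
      rw [show vt (-u) E = (-1 : F) • (vt u g + x • vt u c) by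
        rw [← neg_one_smul F u, vt_smul_left]
        simp only [E, vt_add_right, vt_smul_right], herm_smul_right T.Hh, herm_add_right T.Hh,
        herm_smul_right T.Hh, hXc, map_neg, map_one]
      linear_combination -hx
    have hsk : -κ + T.σ (-κ) = 0 := by rw [map_neg]; linear_combination -hκ
    refine back X _ (hR (-u) hE) hp (by rw [hXE]; exact neg_ne_zero.2 hκ0)
      (by rw [hXE]; exact hsk) ?_
    have e : X + vt (-u) E = vt (p + (-x) • u) c + vt q d + w := by
      simp only [X, E, vt_add_left, vt_add_right, vt_smul_left, vt_smul_right]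
      rw [← neg_one_smul F u, vt_smul_left, vt_smul_left]
      module
    rw [e]
    exact hw _ (by rw [← e]; exact iso_add _ _ (hR (-u) hE) hp (by rw [hXE]; exact hsk))
  have hGg : ∀ u g, T.g g g = 0 ∧ T.g g c = 0 ∧ T.g g d = 0 → G (vt u g) := by
    intro u g hg
    by_cases hqu : T.f q u = 0
    swap
    · exact hG u g hg hqu
    obtain ⟨u', hu'⟩ := (T.Hf.nondegenerate q hcv).2
    have h1 := hG (u - u') g hg (by rw [herm_sub_right T.Hf, hqu, zero_sub]; exact neg_ne_zero.2 hu')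
    have h2 := hG u' g hg hu'
    intro w hw
    rw [show w + vt u g = w + vt (u - u') g + vt u' g by
      rw [add_assoc, ← vt_add_left, sub_add_cancel]]
    exact h2 _ (h1 w hw)
  have hGz : ∀ z, T.g z c = 0 → T.g z d = 0 → ∀ u, G (vt u z) := by
    intro z hzc hzd
    have := span_rest hk P hzc hzd
    clear hzc hzd
    induction this using Submodule.span_induction with
    | mem g hg => exact fun u => hGg u g hg
    | zero => intro u w hw; rwa [vt_zero_right, add_zero]
    | add g g' _ _ h h' => intro u w hw; rw [vt_add_right, ← add_assoc]; exact h' u _ (h u w hw)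
    | smul r g _ h => intro u; rw [vt_smul_right, ← vt_smul_left]; exact h _
  -- decompose
  set pr : Fin m → Fin k → F := fun i =>
    row v i + (-(T.g (row v i) d)) • c + (-(T.g (row v i) c)) • d
  have hpr : ∀ i, T.g (pr i) c = 0 ∧ T.g (pr i) d = 0 := fun i => by
    simp [pr, T.Hg.add_left, T.Hg.smul_left, herm_neg_left T.Hg, P.uu, P.vv, P.uv, P.vu T.Hg]
  have hdec : v = vt (T.rL d v) c + vt q d + ∑ i, vt (Pi.single i (1 : F)) (pr i) :=
    row_ext fun l => by
      rw [row_add, row_add, row_sum, Finset.sum_eq_single l (fun i _ hi => by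
        rw [row_vt_single, if_neg (Ne.symm hi)]) (by simp), row_vt_single, if_pos rfl, row_vt,
        row_vt, T.rL_row, show q l = T.g (row v l) c from T.rL_row c v l]
      simp only [pr]
      module
  have hsum : Pr (∑ i, vt (Pi.single i (1 : F)) (pr i)) := by
    have : G (∑ i, vt (Pi.single i (1 : F)) (pr i)) :=
      Finset.sum_induction _ G (fun a b ha hb w hw => by rw [← add_assoc]; exact hb _ (ha w hw))
        (fun w hw => by rwa [add_zero]) fun i _ => hGz _ (hpr i).1 (hpr i).2 _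
    simpa using this 0 ⟨map_zero _, fun p hp => by
      rw [add_zero] at hp ⊢; exact plane p hp⟩
  rw [hdec] at hv' ⊢
  exact hsum.2 _ hv'

/-- The special unitary group. -/
theorem su_le [NeZero m] [NeZero k] (hk : 5 ≤ k) (hm : 2 ≤ m)
    (hO : ∀ a c, T.f a a = 0 → T.g c c = 0 → T.Cen M (vt a c)) :
    isoH T.h ⊓ specialLinear (Fin m × Fin k) F ≤ M := by
  rw [← utvGroup_eq T.Hh (Or.inr (by
    rw [Fintype.card_prod, Fintype.card_fin, Fintype.card_fin]; nlinarith))]
  refine (Subgroup.closure_le _).2 ?_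
  rintro _ ⟨v, l, hv', hl, rfl⟩
  exact (cen_all hk hm hO hv').2 l hl

end UT

end Cfsg.Agent.Lib.Forms.TProd
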