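import Cfsg.Agent.Lib.Forms.TensorUnitRoot
import Cfsg.Agent.Lib.PGroupFrattini

/-!
A maximal subgroup of the root group of a totally isotropic plane contains a root element.
-/

set_option autoImplicit false

namespace Cfsg.Agent.Lib.Forms.TProd

open Matrix Kronecker Cfsg.Agent.Lib.Forms Cfsg.Geo

variable {F : Type*} [Field F] [Finite F] {m k : ℕ}

/-- An additive map from a quadratic extension of the prime field is a trace. -/
lemma exists_trace_form {σ : F ≃+* F} (hinv : ∀ x, σ (σ x) = x) (hne : σ ≠ RingEquiv.refl F)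
    {p : ℕ} [CharP F p] (hfix : ∀ u : F, σ u = u → ∃ j : ℕ, (j : F) = u) (L : F →+ ZMod p) :
    ∃ θ : F, ∀ s, (ZMod.castHom dvd_rfl F (L s) : F) = θ * s + σ (θ * s) := by
  obtain ⟨ε, hε⟩ : ∃ x : F, σ x ≠ x := by
    by_contra hcon; push Not at hcon
    exact hne (RingEquiv.ext hcon)
  set ι := ZMod.castHom (m := p) dvd_rfl F with hι
  have hιfix : ∀ a, σ (ι a) = ι a := fun a => RingHom.congr_fun
    (RingHom.ext_zmod (σ.toRingHom.comp ι) ι) a
  have hd : ε - σ ε ≠ 0 := sub_ne_zero.2 (Ne.symm hε)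
  have hd' : σ ε - ε ≠ 0 := sub_ne_zero.2 hε
  set θ := (ι (L ε) - ι (L 1) * σ ε) / (ε - σ ε) with hθ
  have e1 : θ + σ θ = ι (L 1) := by
    rw [hθ, map_div₀, map_sub, map_sub, map_mul, hιfix, hιfix, hinv]
    field_simp
    ring
  have e2 : θ * ε + σ (θ * ε) = ι (L ε) := by
    rw [map_mul, hθ, map_div₀, map_sub, map_sub, map_mul, hιfix, hιfix, hinv]
    field_simp
    ring
  refine ⟨θ, fun s => ?_⟩
  set w := (s - σ s) / (ε - σ ε) with hw
  have hwfix : σ w = w := by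
    rw [hw, map_div₀, map_sub, map_sub, hinv, hinv]
    field_simp
    ring
  obtain ⟨j, hj⟩ := hfix w hwfix
  obtain ⟨i, hi⟩ := hfix (s - w * ε) (by
    rw [map_sub, map_mul, hwfix, hw]
    field_simp
    ring)
  have hs : s = i • (1 : F) + j • ε := by
    rw [nsmul_eq_mul, nsmul_eq_mul, hi, hj]; ring
  rw [hs, map_add, map_nsmul, map_nsmul, map_add, map_nsmul, map_nsmul, ← e1, ← e2]
  simp only [nsmul_eq_mul, map_add, map_mul, map_natCast, mul_one]
  ring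

namespace UT

variable {T : UT F m k}

/-- Root elements on the plane of two vectors. -/
theorem exists_root_mem {p : ℕ} [Fact p.Prime] [CharP F p] {p₁ p₂ : Fin k → F}
    (h₁ : T.g p₁ p₁ = 0) (h₂ : T.g p₂ p₂ = 0) (h₁₂ : T.g p₁ p₂ = 0)
    (hind : ∀ s : F, p₁ + s • p₂ ≠ 0) (hp₂ : p₂ ≠ 0)
    {U : Subgroup (GL (Fin m × Fin k) F)} (hUc : IsMulCommutative U) (hUp : IsPGroup p U)
    (hU : ∀ s t : F, ∀ l, l + T.σ l = 0 → T.rt (t • p₁ + s • p₂) l ∈ U)
    {U₀ : Subgroup U} (hU₀ : IsCoatom U₀) :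
    ∃ c l, T.Root c l ∧ ∃ h : T.rt c l ∈ U, (⟨_, h⟩ : U) ∈ U₀ := by
  classical
  haveI : U₀.Normal := ⟨fun a ha b => by
    have : b * a * b⁻¹ = a := by
      rw [Subtype.ext (show ((b * a : U) : GL (Fin m × Fin k) F) = (a * b : U) from
        hUc.1.1 b a |> congrArg Subtype.val), mul_inv_cancel_right]
    rwa [this]⟩
  have hidx : U₀.index = p := (PGroupFrattini.coatom_index hUp hU₀).2
  have hcardQ : Nat.card (U ⧸ U₀) = p := hidx
  have hcyc : IsCyclic (U ⧸ U₀) := isCyclic_of_prime_card hcardQ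
  obtain ⟨χ, hχ⟩ : ∃ χ : Additive U →+ ZMod p, ∀ u, χ (Additive.ofMul u) = 0 ↔ u ∈ U₀ := by
    obtain ⟨e⟩ : Nonempty (Multiplicative (ZMod p) ≃* U ⧸ U₀) :=
      ⟨(AddEquiv.toMultiplicative (ZMod.ringEquivCongr hcardQ.symm).toAddEquiv).trans
        (zmodCyclicMulEquiv hcyc)⟩
    refine ⟨MonoidHom.toAdditiveRight (e.symm.toMonoidHom.comp (QuotientGroup.mk' U₀)),
      fun u => ?_⟩
    show Multiplicative.toAdd (e.symm (QuotientGroup.mk' U₀ u)) = 0 ↔ u ∈ U₀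
    rw [toAdd_eq_zero, EmbeddingLike.map_eq_one_iff, QuotientGroup.mk'_apply,
      QuotientGroup.eq_one_iff]
  by_contra hcon
  have hno : ∀ c l, T.Root c l → ∀ h : T.rt c l ∈ U, χ (Additive.ofMul ⟨_, h⟩) ≠ 0 :=
    fun c l R h e => hcon ⟨c, l, R, h, (hχ _).1 e⟩
  obtain ⟨l₀, hl₀, hl₀s⟩ := exists_skew T.Hg
  have hm1 : ∀ u, T.σ u = u → u * l₀ + T.σ (u * l₀) = 0 := fun u hu => by
    rw [map_mul, hu, ← mul_add, hl₀s, mul_zero]
  have hA : ∀ u, T.σ u = u → T.rt p₁ (u * l₀) ∈ U := fun u hu => by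
    simpa using hU 0 1 (u * l₀) (hm1 u hu)
  have hB : ∀ u, T.σ u = u → T.rt p₂ (u * l₀) ∈ U := fun u hu => by
    simpa using hU 1 0 (u * l₀) (hm1 u hu)
  have hadd : ∀ c l l', T.g c c = 0 → T.rt c (l + l') = T.rt c l * T.rt c l' := fun c l l' hc => by
    rw [rt, rt, rt, kr_mul, one_mul, tv_add (hv_smul_dot_self T.Hg hc l)
      (hv_smul_dot_self T.Hg hc l'), add_smul]
  -- the fixed field is the prime field
  let Fx := {u : F // T.σ u = u}
  let f : Fx → ZMod p := fun u => χ (Additive.ofMul ⟨_, hA u u.2⟩)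
  have hf : Function.Injective f := by
    rintro ⟨u, hu⟩ ⟨u', hu'⟩ e
    by_contra hne
    have hne' : u - u' ≠ 0 := sub_ne_zero.2 fun h => hne (Subtype.ext h)
    have hd : T.σ (u - u') = u - u' := by rw [map_sub, hu, hu']
    refine hno p₁ ((u - u') * l₀) ⟨h₁, fun h => hind 0 (by rw [h, zero_smul, add_zero]),
      hm1 _ hd, mul_ne_zero hne' hl₀⟩ (hA _ hd) ?_
    have : (⟨_, hA u hu⟩ : U) = ⟨_, hA _ hd⟩ * ⟨_, hA u' hu'⟩ := Subtype.ext (by
      show T.rt p₁ (u * l₀) = T.rt p₁ ((u - u') * l₀) * T.rt p₁ (u' * l₀)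
      rw [← hadd _ _ _ h₁]; ring_nf)
    have e' : χ (Additive.ofMul (⟨_, hA u hu⟩ : U)) = χ (Additive.ofMul (⟨_, hA u' hu'⟩ : U)) := e
    rwa [this, ofMul_mul, map_add, add_eq_right] at e'
  let ι := ZMod.castHom (m := p) dvd_rfl F
  have hιfix : ∀ a, T.σ (ι a) = ι a := fun a => RingHom.congr_fun
    (RingHom.ext_zmod (T.σ.toRingHom.comp ι) ι) a
  have hfix : ∀ u : F, T.σ u = u → ∃ j : ℕ, (j : F) = u := by
    let g : ZMod p → Fx := fun a => ⟨ι a, hιfix a⟩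
    have hg : Function.Injective g := fun a b e => ι.injective (congrArg Subtype.val e)
    haveI : Finite Fx := inferInstance
    intro u hu
    have hbij : Function.Bijective (f ∘ g) := Finite.injective_iff_bijective.1 (hf.comp hg)
    obtain ⟨a, ha⟩ := hbij.2 (f ⟨u, hu⟩)
    refine ⟨a.val, ?_⟩
    have := congrArg Subtype.val (hf ha)
    rw [← map_natCast ι, ZMod.natCast_zmod_val]
    exact this
  have h21 : T.g p₂ p₁ = 0 := eq_zero_of_herm_self T.Hg h₁₂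
  have hv0 : ∀ s, T.g (p₁ + s • p₂) (p₁ + s • p₂) = 0 := fun s => by
    rw [T.Hg.add_left, T.Hg.smul_left, herm_add_right T.Hg, herm_add_right T.Hg,
      herm_smul_right T.Hg, herm_smul_right T.Hg, h₁, h₂, h₁₂, h21]
    ring
  have hnorm : ∀ s, T.σ (s * T.σ s) = s * T.σ s := fun s => by
    rw [map_mul, T.Hg.involutive, mul_comm]
  have hV : ∀ s, T.rt (p₁ + s • p₂) l₀ ∈ U := fun s => by simpa using hU s 1 l₀ hl₀s
  have hA1 := hA 1 (map_one _)
  let Q : F → U := fun s => ⟨_, hV s⟩ / ⟨_, hA1⟩ / ⟨_, hB _ (hnorm s)⟩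
  have hQ : ∀ s (x : Fin m × Fin k → F),
      (((Q s : U) : GL (Fin m × Fin k) F) : Matrix (Fin m × Fin k) (Fin m × Fin k) F) *ᵥ x =
        x + vt (l₀ • T.σ s • T.rL p₂ x) p₁ + vt (l₀ • s • T.rL p₁ x) p₂ := by
    intro s x
    have inv' : ∀ c l, T.g c c = 0 → (T.rt c l)⁻¹ = T.rt c (-l) := fun c l hc => by
      rw [rt, rt, kr_inv, inv_one, tv_inv (hv_smul_dot_self T.Hg hc l), neg_smul]
    simp only [Q, div_eq_mul_inv, Subgroup.coe_mul, Subgroup.coe_inv, inv' _ _ h₁, inv' _ _ h₂, mul_mulVec',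
      rt_mulVec h₁, rt_mulVec h₂, rt_mulVec (hv0 s), map_add, T.rL_vt, h₁, h₂, h₁₂, h21,
      zero_smul, smul_zero, add_zero, mul_one, one_mul]
    funext q
    simp only [vt, Pi.add_apply, Pi.smul_apply, smul_eq_mul, T.rL_row, herm_add_right T.Hg,
      herm_smul_right T.Hg]
    ring_nf
    simp only [h₁, h₂, h₁₂, h21]
    ring
  have hQadd : ∀ s t, Q (s + t) = Q s * Q t := fun s t => Subtype.ext (gl_ext fun x => by
    rw [Subgroup.coe_mul, mul_mulVec', hQ t x, hQ, hQ s]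
    simp only [map_add, T.rL_vt, h₁, h₂, h₁₂, h21, zero_smul, add_zero]
    funext q
    simp only [vt, Pi.add_apply, Pi.smul_apply, smul_eq_mul]
    ring)
  let L : F →+ ZMod p :=
    { toFun := fun s => χ (Additive.ofMul (Q s))
      map_zero' := by
        have h := hQadd 0 0
        rw [add_zero, left_eq_mul] at h
        rw [h, ofMul_one, map_zero]
      map_add' := fun s t => by rw [hQadd, ofMul_mul, map_add] }
  obtain ⟨θ, hθ⟩ := exists_trace_form T.Hg.involutive T.Hg.ne_refl hfix L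
  set a := ι (χ (Additive.ofMul ⟨_, hA1⟩)) with ha
  set d := ι (χ (Additive.ofMul ⟨_, hB 1 (map_one _)⟩)) with hd
  have hd0 : d ≠ 0 := fun e => hno p₂ (1 * l₀) ⟨h₂, hp₂, hm1 1 (map_one _),
    by rw [one_mul]; exact hl₀⟩ (hB 1 (map_one _)) (ι.injective (by rw [map_zero]; exact e))
  have haσ : T.σ a = a := hιfix _
  have hdσ : T.σ d = d := hιfix _
  have hnat : ∀ (j : ℕ) (h : T.rt p₂ ((j : F) * l₀) ∈ U),
      ι (χ (Additive.ofMul ⟨_, h⟩)) = (j : F) * d := by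
    intro j h
    have e : (⟨_, h⟩ : U) = ⟨_, hB 1 (map_one _)⟩ ^ j := Subtype.ext (by
      rw [SubmonoidClass.coe_pow]
      simp only [rt]
      rw [kr_pow, one_pow, tv_pow (hv_smul_dot_self T.Hg h₂ _),
        ← Nat.cast_smul_eq_nsmul F, smul_smul, one_mul])
    rw [e, ofMul_pow, map_nsmul, map_nsmul, nsmul_eq_mul, hd]
  obtain ⟨t, ht⟩ := exists_norm_eq T.Hg (a := (θ * T.σ θ / d - a) / d)
    (by rw [map_div₀, map_sub, map_div₀, hnorm, haσ, hdσ])
  set s := t - T.σ θ / d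
  obtain ⟨j, hj⟩ := hfix _ (hnorm s)
  refine hno _ l₀ ⟨hv0 s, hind s, hl₀s, hl₀⟩ (hV s) (ι.injective ?_)
  have e : (⟨_, hV s⟩ : U) = Q s * ⟨_, hB _ (hnorm s)⟩ * ⟨_, hA1⟩ := by
    simp only [Q, div_mul_cancel]
  have hBm : T.rt p₂ ((j : F) * l₀) ∈ U := by rw [hj]; exact hB _ (hnorm s)
  have hBj := hnat j hBm
  have eB : (⟨_, hB _ (hnorm s)⟩ : U) = ⟨_, hBm⟩ :=
    Subtype.ext (by show T.rt p₂ _ = T.rt p₂ _; rw [hj])
  rw [map_zero, e, ofMul_mul, ofMul_mul, map_add, map_add, map_add, map_add, eB, hBj,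
    show ι (χ (Additive.ofMul (Q s))) = θ * s + T.σ (θ * s) from hθ s, hj, ← ha]
  simp only [s, map_sub, map_mul, map_div₀, T.Hg.involutive, hdσ]
  field_simp at ht ⊢
  linear_combination ht

end UT

end Cfsg.Agent.Lib.Forms.TProd
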