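import Cfsg.Agent.Lib.Forms.TensorUnitHyper
import Cfsg.Agent.Lib.Forms.TensorUnitScalar
import Cfsg.Agent.Lib.LocalP2.CoatomFixed
import Mathlib.GroupTheory.Transfer

/-!
An overgroup of the stabiliser of a unitary tensor decomposition has an element outside it mapping
some `V ⊗ c` to itself.
-/

set_option autoImplicit false

namespace Cfsg.Agent.Lib.Forms.TProd

open Matrix Kronecker Cfsg.Agent.Lib.Forms Cfsg.Geo

variable {F : Type*} [Field F] [Finite F] {m k : ℕ}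

namespace UT

variable {T : UT F m k} {M : Subgroup (GL (Fin m × Fin k) F)}

/-- Elements moving all vectors only within a subspace. -/
def moveIn (S : Submodule F (Fin m × Fin k → F)) : Subgroup (GL (Fin m × Fin k) F) where
  carrier := {z | ∀ x, (z : Matrix (Fin m × Fin k) (Fin m × Fin k) F) *ᵥ x - x ∈ S}
  one_mem' := fun x => by simp
  mul_mem' := fun {a b} ha hb x => by
    have := S.add_mem (ha ((b : Matrix (Fin m × Fin k) (Fin m × Fin k) F) *ᵥ x)) (hb x)
    rwa [sub_add_sub_cancel, ← mul_mulVec'] at this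
  inv_mem' := fun {a} ha x => by
    have := S.neg_mem (ha (((a⁻¹ : GL (Fin m × Fin k) F) : Matrix (Fin m × Fin k) (Fin m × Fin k) F) *ᵥ x))
    rwa [mulVec_inv_mulVec, neg_sub] at this

omit [Finite F] in
lemma right_iso [Finite F] [NeZero m] {B : GL (Fin k) F}
    (h : kr (1 : GL (Fin m) F) B ∈ isoH T.h) (x y : Fin k → F) :
    T.g ((B : Matrix (Fin k) (Fin k) F) *ᵥ x) ((B : Matrix (Fin k) (Fin k) F) *ᵥ y) = T.g x y := by
  obtain ⟨b, -, hb⟩ := exists_anisotropic T.Hf (W := ⊤)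
    (fun w _ hw => by
      obtain ⟨⟨a, ha⟩, b, hb⟩ := T.Hf.nondegenerate w hw
      exact ⟨⟨a, trivial, ha⟩, b, trivial, hb⟩) top_ne_bot
  have := h (vt b x) (vt b y)
  rw [kr_vt, kr_vt, Units.val_one, one_mulVec, T.pair, T.pair] at this
  exact mul_left_cancel₀ (mul_ne_zero T.c₀_ne hb) this

/-- If nothing conjugates root elements into the product group, pure vectors go to pure vectors. -/
lemma all_pure_of_iso [NeZero m] (hno : T.NoOut M) (hHM : T.grp ≤ M) (hk : 4 ≤ k)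
    {g : GL (Fin m × Fin k) F} (hg : g ∈ M)
    (h : ∀ a c, T.g c c = 0 → IsPure ((g : Matrix (Fin m × Fin k) (Fin m × Fin k) F) *ᵥ vt a c))
    (a : Fin m → F) (z : Fin k → F) :
    ∃ w y, (g : Matrix (Fin m × Fin k) (Fin m × Fin k) F) *ᵥ vt a z = vt w y := by
  let S : Submodule F (Fin k → F) :=
    { carrier := {z | IsPure ((g : Matrix (Fin m × Fin k) (Fin m × Fin k) F) *ᵥ vt a z)}
      zero_mem' := ⟨0, 0, by rw [vt_zero_right, mulVec_zero, vt_zero_left]⟩
      add_mem' := fun {x y} hx hy => by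
        obtain ⟨v₁, y₁, e₁⟩ := hx
        obtain ⟨v₂, y₂, e₂⟩ := hy
        obtain ⟨A, B, -, e⟩ := pure_of_hasRoot hno hHM (by omega) hg a (x + y)
          (T.hasRoot_of_rows ![y₁, y₂] (by omega) fun i => by
            rw [vt_add_right, mulVec_add, e₁, e₂, row_add, row_vt, row_vt]
            exact add_mem (Submodule.smul_mem _ _ (Submodule.subset_span ⟨0, rfl⟩))
              (Submodule.smul_mem _ _ (Submodule.subset_span ⟨1, rfl⟩)))
        exact ⟨_, _, e⟩
      smul_mem' := fun t x hx => by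
        obtain ⟨v₁, y₁, e₁⟩ := hx
        exact ⟨t • v₁, y₁, by rw [vt_smul_right, mulVec_smul, e₁, vt_smul_left]⟩ }
  have hle := span_isotropic_perp T.Hg (![] : Fin 0 → Fin k → F) (by rw [Fintype.card_fin]; omega)
  exact (Submodule.span_le (p := S)).2 (fun c hc => h a c hc.2) (hle fun i => i.elim0)

set_option maxHeartbeats 800000 in
/-- The group moving into the small space lies in the product group. -/
lemma small_group_le [NeZero m] (hno : T.NoOut M) {p : ℕ} [Fact p.Prime] [CharP F p]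
    {κ : F} (hκ : κ + T.σ κ = 0) (hκ0 : κ ≠ 0)
    {p₁ p₂ d : Fin k → F} (hp₁ : T.g p₁ p₁ = 0) (hp₁0 : p₁ ≠ 0) (hp₂ : T.g p₂ p₂ = 0)
    (hp₂0 : p₂ ≠ 0) (h12 : T.g p₁ p₂ = 0) (PH : HypPair T.g p₁ d) (h2d : T.g p₂ d = 0)
    (hind : ∀ t : F, p₁ + t • p₂ ≠ 0) {π : Submodule F (Fin k → F)}
    {K U : Subgroup (GL (Fin m × Fin k) F)} (hU : U = T.grp ⊓ K) (hKM : K ≤ M)
    (hstruct : ∀ z ∈ U, ∃ B : GL (Fin k) F, z = kr 1 B ∧
      (∀ y, (B : Matrix (Fin k) (Fin k) F) *ᵥ y - y ∈ π) ∧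
      ∀ v ∈ π, (B : Matrix (Fin k) (Fin k) F) *ᵥ v = v)
    (hroot : ∀ (s t l : F), l + T.σ l = 0 → T.rt (t • p₁ + s • p₂) l ∈ U) :
    K ≤ T.grp := by
  classical
  subst hU
  set U := T.grp ⊓ K with hU
  have hpow : ∀ z ∈ U, z ^ p = 1 := by
    intro z hz
    obtain ⟨B, rfl, hB1, hB2⟩ := hstruct z hz
    rw [kr_pow, one_pow]
    have : ∀ (j : ℕ) y, ((B ^ j : GL (Fin k) F) : Matrix (Fin k) (Fin k) F) *ᵥ y =
        y + j • ((B : Matrix (Fin k) (Fin k) F) *ᵥ y - y) := by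
      intro j
      induction j with
      | zero => intro y; simp
      | succ j ih =>
        intro y
        rw [pow_succ', mul_mulVec', ih, mulVec_add, mulVec_smul, hB2 _ (hB1 y), succ_nsmul]
        abel
    rw [show B ^ p = 1 from gl_ext fun y => by
      rw [this, ← Nat.cast_smul_eq_nsmul F, CharP.cast_eq_zero F p, zero_smul, add_zero,
        Units.val_one, one_mulVec], kr_one]
  have hUc : IsMulCommutative U := ⟨⟨fun ⟨a, ha⟩ ⟨b, hb⟩ => Subtype.ext (by
    obtain ⟨A, rfl, hA1, hA2⟩ := hstruct a ha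
    obtain ⟨B, rfl, hB1, hB2⟩ := hstruct b hb
    show kr 1 A * kr 1 B = kr 1 B * kr 1 A
    rw [kr_mul, kr_mul, show A * B = B * A from gl_ext fun y => by
      have e1 := hA2 _ (hB1 y)
      have e2 := hB2 _ (hA1 y)
      rw [mulVec_sub] at e1 e2
      rw [mul_mulVec', mul_mulVec']
      linear_combination (norm := module) e1 - e2])⟩⟩
  have hUp : IsPGroup p U := fun z => ⟨1, Subtype.ext (by
    rw [pow_one, SubmonoidClass.coe_pow, OneMemClass.coe_one, hpow z z.2])⟩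
  have hp₁U : T.rt p₁ κ ∈ U := by simpa using hroot 0 1 κ hκ
  have hp₂U : T.rt p₂ κ ∈ U := by simpa using hroot 1 0 κ hκ
  have R₁ : T.Root p₁ κ := ⟨hp₁, hp₁0, hκ, hκ0⟩
  have hUm := maximal_in (p := p) hno hKM (S := U) le_rfl (fun Q h1 h2 _ => le_antisymm h2 h1) R₁
    hp₁U
  -- transfer
  have hUK : U ≤ K := inf_le_right
  obtain ⟨Sy, hSy⟩ := (hUp.of_equiv (Subgroup.subgroupOfEquivOfLe hUK).symm).exists_le_sylow
  have hSyU : (Sy : Subgroup K) = U.subgroupOf K := le_antisymm (fun x hx => by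
    show (x : GL (Fin m × Fin k) F) ∈ U
    rw [← hUm ((Sy : Subgroup K).map K.subtype) (fun y hy => ⟨⟨y, hUK hy⟩, hSy hy, rfl⟩)
      (Subgroup.map_subtype_le _) (Sy.2.map _)]
    exact ⟨x, hx, rfl⟩) hSy
  have hNC : Subgroup.normalizer ((Sy : Subgroup K) : Set K) ≤
      Subgroup.centralizer ((Sy : Subgroup K) : Set K) := by
    intro y hy
    rw [hSyU] at hy ⊢
    have h1 := (Subgroup.mem_normalizer_iff.1 hy ⟨_, hUK hp₁U⟩).1 hp₁U
    have hyU : (y : GL (Fin m × Fin k) F) ∈ U :=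
      ⟨hno y (hKM y.2) p₁ κ R₁ (show (y : GL (Fin m × Fin k) F) * _ * _ ∈ T.grp from h1.1), y.2⟩
    exact Subgroup.mem_centralizer_iff.2 fun x hx => Subtype.ext
      (congrArg (Subtype.val (p := fun g => g ∈ U)) (hUc.1.1 ⟨(x : GL (Fin m × Fin k) F), hx⟩
        ⟨(y : GL (Fin m × Fin k) F), hyU⟩))
  obtain ⟨N, hNn, hcompl, hNp⟩ : ∃ N : Subgroup K, N.Normal ∧ N.IsComplement' (Sy : Subgroup K) ∧
      ¬ p ∣ Nat.card N :=
    ⟨_, MonoidHom.normal_ker _, MonoidHom.ker_transferSylow_isComplement' Sy hNC,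
      MonoidHom.not_dvd_card_ker_transferSylow Sy hNC⟩
  set Nm := N.map K.subtype with hNm
  have hcop : (Nat.card Nm).Coprime p := by
    rw [Subgroup.card_map_of_injective K.subtype_injective]
    exact ((Fact.out : p.Prime).coprime_iff_not_dvd.2 hNp).symm
  have hnorm : U ≤ Subgroup.normalizer (Nm : Set (GL (Fin m × Fin k) F)) := by
    intro u hu
    rw [Subgroup.mem_normalizer_iff]
    intro x
    constructor
    · rintro ⟨x', hx', rfl⟩
      exact ⟨⟨u, hUK hu⟩ * x' * ⟨u, hUK hu⟩⁻¹, hNn.conj_mem _ hx' _, rfl⟩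
    · rintro ⟨x', hx', e⟩
      refine ⟨⟨u, hUK hu⟩⁻¹ * x' * ⟨u, hUK hu⟩, by
        simpa using hNn.conj_mem _ hx' ⟨u, hUK hu⟩⁻¹, ?_⟩
      simp only [Subgroup.coe_subtype, Subgroup.coe_mul, Subgroup.coe_inv] at e ⊢
      rw [e]; group
  have hcard : p ^ 2 ≤ Nat.card U := by
    obtain ⟨n, hn⟩ := IsPGroup.iff_card.1 hUp
    by_contra hlt
    rw [hn] at hlt
    have hn1 : n ≤ 1 := by
      by_contra h
      exact hlt (Nat.pow_le_pow_right (Fact.out : p.Prime).pos (by omega))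
    have hne : T.rt p₁ κ ≠ 1 := fun e => by
      obtain ⟨x, hx⟩ : ∃ x : Fin m × Fin k → F, T.rL p₁ x ≠ 0 := ⟨vt (Pi.single 0 1) d, by
        rw [T.rL_vt, PH.vu T.Hg, one_smul]
        exact fun h => by simpa using congrFun h 0⟩
      have := rt_mulVec hp₁ κ x
      rw [e, Units.val_one, one_mulVec, left_eq_add] at this
      rcases vt_eq_zero this with h | h
      · exact hx ((smul_eq_zero.1 h).resolve_left hκ0)
      · exact hp₁0 h
    have hd2 : Nat.card (Subgroup.zpowers (T.rt p₁ κ)) = p := by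
      rw [Nat.card_zpowers, orderOf_eq_prime (rt_pow_p hp₁ κ) hne]
    have heq : Subgroup.zpowers (T.rt p₁ κ) = U :=
      Subgroup.eq_of_le_of_card_ge (Subgroup.zpowers_le.2 hp₁U) (by
        rw [hn, hd2]; exact (Nat.pow_le_pow_right (Fact.out : p.Prime).pos hn1).trans (pow_one p).le)
    obtain ⟨x, hx₂⟩ : ∃ x, T.g x p₂ ≠ 0 ∧ T.g x p₁ = 0 := by
      obtain ⟨x, hx⟩ := (T.Hg.nondegenerate p₂ hp₂0).1
      refine ⟨x + (-(T.g x p₁)) • d, ?_, ?_⟩
      · rw [T.Hg.add_left, T.Hg.smul_left, eq_zero_of_herm_self T.Hg h2d, mul_zero, add_zero]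
        exact hx
      · rw [T.Hg.add_left, T.Hg.smul_left, PH.vu T.Hg, mul_one, add_neg_cancel]
    have hfix : T.rt p₂ κ ∈ fixVec (vt (Pi.single 0 1 : Fin m → F) x) :=
      (Subgroup.zpowers_le (H := fixVec (vt (Pi.single 0 1 : Fin m → F) x))).2
        (rt_fix hp₁ κ (by rw [T.rL_vt, hx₂.2, zero_smul])) (heq.ge hp₂U)
    have := hfix
    change (T.rt p₂ κ : Matrix (Fin m × Fin k) (Fin m × Fin k) F) *ᵥ _ = _ at this
    rw [rt_mulVec hp₂, add_eq_left, T.rL_vt, smul_smul] at this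
    rcases vt_eq_zero this with h | h
    · simpa [hκ0, hx₂.1] using congrFun h 0
    · exact hp₂0 h
  have hNbot : Nm = ⊥ := by
    refine LocalP2.eq_bot_of_coatom_fixed ⟨hUc, hpow⟩ hcard hnorm hcop fun U₀ hU₀ hco => ?_
    obtain ⟨c, l, R, hcl, hmem⟩ := exists_root_mem (T := T) hp₁ hp₂ h12 hind hp₂0 hUc hUp hroot hco
    rw [eq_bot_iff]
    rintro _ ⟨⟨⟨y, hy⟩, hyN, rfl⟩, hyc⟩
    have hcom := Subgroup.mem_centralizer_iff.1 hyc (T.rt c l) hmem
    have hyU : y ∈ U := ⟨hno y (hKM hy) c l R (by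
      rw [show y * T.rt c l = T.rt c l * y from hcom.symm, mul_inv_cancel_right]
      exact R.mem_grp), hy⟩
    have : (⟨y, hy⟩ : K) ∈ N ⊓ (Sy : Subgroup K) := ⟨hyN, by rw [hSyU]; exact hyU⟩
    rw [hcompl.disjoint.eq_bot] at this
    rw [Subgroup.mem_bot] at this ⊢
    exact congrArg Subtype.val this
  have hN0 : N = ⊥ := (Subgroup.map_eq_bot_iff_of_injective _ K.subtype_injective).1 hNbot
  have htop : (Sy : Subgroup K) = ⊤ := by
    have h := hcompl
    rw [hN0] at h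
    exact Subgroup.isComplement'_bot_left.1 h
  intro x hx
  have : (⟨x, hx⟩ : K) ∈ (Sy : Subgroup K) := by rw [htop]; trivial
  rw [hSyU] at this
  exact this.1

set_option maxHeartbeats 800000 in
/-- The contradiction in the critical case. -/
lemma false_of_noOut [NeZero m] (hm : 4 ≤ m) (hk : k = m + 1) (hno : T.NoOut M) (hHM : T.grp ≤ M)
    {g : GL (Fin m × Fin k) F} (hg : g ∈ M) (hgH : g ∉ T.grp) {a₀ : Fin m → F} {c₀ : Fin k → F}
    (hc₀ : T.g c₀ c₀ = 0)
    (hbad : ¬ IsPure ((g : Matrix (Fin m × Fin k) (Fin m × Fin k) F) *ᵥ vt a₀ c₀)) : False := by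
  classical
  obtain ⟨p, hpc⟩ := CharP.exists F
  haveI : Fact p.Prime := ⟨CharP.char_is_prime F p⟩
  have hc0 : c₀ ≠ 0 := fun e => hbad ⟨0, 0, by rw [e, vt_zero_right, mulVec_zero, vt_zero_left]⟩
  obtain ⟨κ, hκ0, hκ⟩ := exists_skew T.Hg
  have R₀ : T.Root c₀ κ := ⟨hc₀, hc0, hκ, hκ0⟩
  set G := Matrix.toLin' (g : Matrix (Fin m × Fin k) (Fin m × Fin k) F) with hG
  have hGi : Function.Injective G := fun x y e => gl_mulVec_injective g (by simpa [hG] using e)
  let Lw : (Fin m → F) →ₗ[F] (Fin m × Fin k → F) := G ∘ₗ vtL c₀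
  have hLw : ∀ a, Lw a = (g : Matrix (Fin m × Fin k) (Fin m × Fin k) F) *ᵥ vt a c₀ := fun a =>
    Matrix.toLin'_apply _ _
  -- the first vector of the plane
  obtain ⟨p₁, hp₁, hp₁0, hpick⟩ : ∃ p₁, T.g p₁ p₁ = 0 ∧ p₁ ≠ 0 ∧
      ((∃ a, a ≠ 0 ∧ ∃ v, Lw a = vt v p₁) ∨ ∀ a, IsPure (Lw a) → a = 0) := by
    by_cases h : ∃ a, a ≠ 0 ∧ IsPure (Lw a)
    · obtain ⟨a, ha, v, y, e⟩ := h
      obtain ⟨A, B, hAB, e'⟩ := pure_of_hasRoot hno hHM (by omega) hg a c₀ (by
        rw [← hLw, e]; exact T.hasRoot_vt (by omega) v y)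
      refine ⟨_, kr_right_iso hAB.2.1 hc₀, fun h0 => hc0 (gl_mulVec_injective B (by
        simpa using h0)), Or.inl ⟨a, ha, _, (hLw a).trans e'⟩⟩
    · exact ⟨c₀, hc₀, hc0, Or.inr fun a ha => by_contra fun h0 => h ⟨a, h0, ha⟩⟩
  obtain ⟨d, PH⟩ := T.exists_hyp hp₁ hp₁0
  obtain ⟨p₂, hp₂S, hp₂0, hp₂⟩ := exists_iso_of_two T.Hg (S := perp T.Hg ![p₁, d]) (by
    have := finrank_perp T.Hg ![p₁, d]
    rw [Fintype.card_fin] at this
    omega)
  have h21 : T.g p₂ p₁ = 0 := hp₂S 0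
  have h2d : T.g p₂ d = 0 := hp₂S 1
  have h12 : T.g p₁ p₂ = 0 := eq_zero_of_herm_self T.Hg h21
  have hind : ∀ t : F, p₁ + t • p₂ ≠ 0 := fun t e => by
    have := congrArg (fun y => T.g y d) e
    simp [T.Hg.add_left, T.Hg.smul_left, PH.uv, h2d, herm_zero_left T.Hg] at this
  set π := Submodule.span F ({p₁, p₂} : Set (Fin k → F)) with hπ
  have hπd : Module.finrank F π = 2 := by
    have h := finrank_span_eq_card (R := F) (b := ![p₁, p₂]) (LinearIndependent.pair_iff.2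
      fun s t e => by
        have e1 := congrArg (fun y => T.g y d) e
        simp [T.Hg.add_left, T.Hg.smul_left, PH.uv, h2d, herm_zero_left T.Hg] at e1
        subst e1
        simp only [zero_smul, zero_add, smul_eq_zero] at e
        exact ⟨rfl, e.resolve_right hp₂0⟩)
    rw [Fintype.card_fin] at h
    rw [hπ]
    rwa [Matrix.range_cons_cons_empty] at h
  have hTI : ∀ u ∈ π, ∀ v ∈ π, T.g u v = 0 := by
    intro u hu v hv'
    obtain ⟨s, t, rfl⟩ := Submodule.mem_span_pair.1 hu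
    obtain ⟨s', t', rfl⟩ := Submodule.mem_span_pair.1 hv'
    simp [T.Hg.add_left, T.Hg.smul_left, herm_add_right T.Hg, herm_smul_right T.Hg, hp₁, hp₂, h12,
      h21]
  obtain ⟨C, hC⟩ := Submodule.exists_isCompl π
  let P : (Fin k → F) →ₗ[F] (Fin k → F) := C.projection π hC.symm
  have hPker : ∀ y, P y = 0 ↔ y ∈ π := fun y => Submodule.projection_apply_eq_zero_iff _
  have hPmem : ∀ y, P y ∈ C := fun y => (C.projectionOnto π hC.symm y).2
  have hPP : ∀ y, P (P y) = P y := fun y =>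
    Submodule.projection_apply_left hC.symm ⟨P y, hPmem y⟩
  have hPsub : ∀ y, y - P y ∈ π := fun y => (hPker _).1 (by rw [map_sub, hPP, sub_self])
  have hPd : Module.finrank F (LinearMap.range P) + 1 = m := by
    have e := LinearMap.finrank_range_add_finrank_ker P
    rw [show LinearMap.ker P = π from Submodule.ext fun y => hPker y, hπd,
      Module.finrank_fin_fun] at e
    omega
  -- the small space
  set I := LinearMap.range (mapRows P ∘ₗ Lw) with hI
  have hpure : ∀ a, IsPure (mapRows P (Lw a)) → IsPure (Lw a) := by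
    rintro a ⟨v, y, e⟩
    obtain ⟨A, B, -, e'⟩ := pure_of_hasRoot hno hHM (by omega) hg a c₀
      (T.hasRoot_of_rows ![y, p₁, p₂] (by omega) fun i => by
        rw [← hLw, ← sub_add_cancel (row (Lw a) i) (P (row (Lw a) i))]
        refine add_mem (Submodule.span_mono (fun u hu => ?_) (hPsub _)) ?_
        · rcases hu with rfl | rfl
          · exact ⟨1, rfl⟩
          · exact ⟨2, rfl⟩
        · rw [← row_mapRows, e, row_vt]
          exact Submodule.smul_mem _ _ (Submodule.subset_span ⟨0, rfl⟩))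
    exact ⟨_, _, (hLw a).trans e'⟩
  have hnp : ¬ IsPure (mapRows P (Lw a₀)) := fun h => hbad (hLw a₀ ▸ hpure a₀ h)
  have hsmall : (Module.finrank F I ≤ m ∧ ∀ w ∈ I, IsPure w → w = 0) ∨
      (Module.finrank F I + 1 ≤ m ∧ ∃ w ∈ I, ¬ IsPure w) := by
    have e := LinearMap.finrank_range_add_finrank_ker (mapRows P ∘ₗ Lw)
    rw [Module.finrank_fin_fun, ← hI] at e
    rcases hpick with ⟨a, ha, v, e'⟩ | hnone
    · have : LinearMap.ker (mapRows P ∘ₗ Lw) ≠ ⊥ := fun h0 => ha (by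
        have hmem : a ∈ LinearMap.ker (mapRows P ∘ₗ Lw) := by
          rw [LinearMap.mem_ker, LinearMap.comp_apply, e', mapRows_vt,
            (hPker p₁).2 (Submodule.subset_span (by simp)), vt_zero_right]
        rw [h0] at hmem
        exact (Submodule.mem_bot F).1 hmem)
      have := Submodule.one_le_finrank_iff.2 this
      exact Or.inr ⟨by omega, _, ⟨a₀, rfl⟩, hnp⟩
    · refine Or.inl ⟨by omega, ?_⟩
      rintro _ ⟨a, rfl⟩ h
      rw [LinearMap.comp_apply] at h ⊢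
      rw [hnone a (hpure a h), map_zero, map_zero]
  set S := LinearMap.range Lw ⊔ W π with hS
  have hPS : ∀ x ∈ S, mapRows P x ∈ I := by
    intro x hx
    obtain ⟨_, ⟨a, rfl⟩, w, hw, rfl⟩ := Submodule.mem_sup.1 hx
    refine ⟨a, ?_⟩
    rw [LinearMap.comp_apply, map_add, left_eq_add]
    exact row_ext fun i => by rw [row_mapRows, row_zero, (hPker _).2 (hw i)]
  set K := M ⊓ moveIn S with hK
  set U := T.grp ⊓ K with hU
  -- the structure of the product part
  have hstruct : ∀ z ∈ U, ∃ B : GL (Fin k) F, z = kr 1 B ∧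
      (∀ y, (B : Matrix (Fin k) (Fin k) F) *ᵥ y - y ∈ π) ∧
      ∀ v ∈ π, (B : Matrix (Fin k) (Fin k) F) *ᵥ v = v := by
    intro z hz
    obtain ⟨A, B, rfl⟩ := mem_kronecker.1 hz.1.1
    obtain ⟨a, hA, hB⟩ := scalar_of_small hm (P := P) (A := Matrix.toLin' (A : Matrix (Fin m) (Fin m) F))
      (B := Matrix.toLin' (B : Matrix (Fin k) (Fin k) F)) hPP
      (fun y => ⟨((B⁻¹ : GL (Fin k) F) : Matrix (Fin k) (Fin k) F) *ᵥ y, by
        rw [Matrix.toLin'_apply, mulVec_inv_mulVec]⟩) hPd (I := I) (fun b y => by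
        have := hPS _ (hz.2.2 (vt b y))
        rwa [map_sub, kr_vt, mapRows_vt, mapRows_vt, ← Matrix.toLin'_apply
          (A : Matrix (Fin m) (Fin m) F), ← Matrix.toLin'_apply (B : Matrix (Fin k) (Fin k) F)] at this)
      hsmall
    simp only [Matrix.toLin'_apply] at hA hB
    have ha : a ≠ 0 := fun e => by
      have := gl_mulVec_injective A (show (A : Matrix (Fin m) (Fin m) F) *ᵥ (Pi.single 0 1 : Fin m → F)
        = (A : Matrix (Fin m) (Fin m) F) *ᵥ 0 by rw [mulVec_zero, hA, e, zero_smul])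
      simpa using congrFun this 0
    set B₀ : GL (Fin k) F := sc k (Units.mk0 a ha) * B
    have hB₀ : ∀ y, (B₀ : Matrix (Fin k) (Fin k) F) *ᵥ y = a • ((B : Matrix (Fin k) (Fin k) F) *ᵥ y) :=
      fun y => by simp [B₀, sc_val, smul_mulVec]
    have hA1 : sc m (Units.mk0 a ha)⁻¹ * A = 1 := gl_ext fun v => by
      rw [mul_mulVec', hA, sc_val, smul_mulVec, one_mulVec, Units.val_inv_eq_inv_val, Units.val_mk0,
        inv_smul_smul₀ ha, Units.val_one, one_mulVec]
    have hz1 : kr A B = kr 1 B₀ := by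
      rw [← hA1, ← kr_mul, kr_sc, one_mul]
    have hmem : ∀ y, (B₀ : Matrix (Fin k) (Fin k) F) *ᵥ y - y ∈ π := fun y => (hPker _).1 (by
      rw [map_sub, hB₀, map_smul, hB, sub_self])
    have hiso := fun x y => right_iso (T := T) (B := B₀) (hz1 ▸ hz.1.2.1) x y
    refine ⟨B₀, hz1, hmem, fun v hv' => ?_⟩
    by_contra hne
    obtain ⟨x, hx⟩ := (T.Hg.nondegenerate _ (sub_ne_zero.2 hne)).2
    refine hx ?_
    have h1 := hTI _ (hmem v) _ (hmem x)
    have h2 := hTI v hv' _ (hmem x)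
    simp only [sub_eq_add_neg, T.Hg.add_left, herm_neg_left T.Hg, herm_add_right T.Hg,
      herm_neg_right T.Hg] at h1 h2 ⊢
    rw [hiso] at h1
    linear_combination -h1 - h2
  have hroot : ∀ (s t l : F), l + T.σ l = 0 → T.rt (t • p₁ + s • p₂) l ∈ U := by
    intro s t l hl
    have hv' : t • p₁ + s • p₂ ∈ π := Submodule.mem_span_pair.2 ⟨t, s, rfl⟩
    have hi := hTI _ hv' _ hv'
    have hmv : T.rt (t • p₁ + s • p₂) l ∈ moveIn S := fun x => by
      rw [rt_mulVec hi, add_sub_cancel_left]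
      exact Submodule.mem_sup_right (vt_mem_W _ hv')
    rcases eq_or_ne l 0 with rfl | hl0
    · have e : T.rt (t • p₁ + s • p₂) (0 : F) = 1 := by
        rw [rt, zero_smul, tv_zero_right, kr_one]
      rw [e]; exact one_mem _
    rcases eq_or_ne (t • p₁ + s • p₂) 0 with h0 | h0
    · have e : T.rt (t • p₁ + s • p₂) l = 1 := gl_ext fun x => by
        rw [rt_mulVec hi, h0, vt_zero_right, add_zero, Units.val_one, one_mulVec]
      rw [e]; exact one_mem _
    have R : T.Root (t • p₁ + s • p₂) l := ⟨hi, h0, hl, hl0⟩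
    exact ⟨R.mem_grp, hHM R.mem_grp, hmv⟩
  have hle := small_group_le (p := p) hno hκ hκ0 hp₁ hp₁0 hp₂ hp₂0 h12 PH h2d hind hU
    (inf_le_left : K ≤ M) hstruct hroot
  -- the conjugate root element
  have hr' : g * T.rt c₀ κ * g⁻¹ ∈ K := by
    refine ⟨M.mul_mem (M.mul_mem hg (hHM R₀.mem_grp)) (M.inv_mem hg), fun x => ?_⟩
    rw [mul_mulVec', mul_mulVec', rt_mulVec hc₀, mulVec_add, mulVec_inv_mulVec,
      add_sub_cancel_left]
    exact Submodule.mem_sup_left ⟨_, hLw _⟩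
  exact hgH (hno g hg c₀ κ R₀ (hle hr'))

/-- An overgroup has a new element fixing some `V ⊗ c`. -/
theorem exists_locate (hm : 2 ≤ m) (hmk : m < k) (hn : 13 ≤ m * k) (hHM : T.grp ≤ M)
    (hMG : M ≤ isoH T.h ⊓ specialLinear (Fin m × Fin k) F) {g : GL (Fin m × Fin k) F}
    (hg : g ∈ M) (hgH : g ∉ T.grp) :
    ∃ y ∈ M, y ∉ T.grp ∧ ∃ c, c ≠ 0 ∧ T.g c c = 0 ∧
      ∀ a, ∃ a', (y : Matrix (Fin m × Fin k) (Fin m × Fin k) F) *ᵥ vt a c = vt a' c := by
  classical
  haveI : NeZero m := ⟨by omega⟩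
  haveI : NeZero k := ⟨by omega⟩
  have hk5 : 5 ≤ k := by
    by_contra h
    have : m * k ≤ 3 * 4 := Nat.mul_le_mul (by omega) (by omega)
    omega
  obtain ⟨p, hpc⟩ := CharP.exists F
  haveI : Fact p.Prime := ⟨CharP.char_is_prime F p⟩
  by_cases hno : T.NoOut M
  · exfalso
    by_cases hall : ∀ a c, T.g c c = 0 → IsPure ((g : Matrix (Fin m × Fin k) (Fin m × Fin k) F) *ᵥ vt a c)
    · exact hgH ⟨mem_of_pure hmk g (all_pure_of_iso hno hHM (by omega) hg hall), hMG hg⟩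
    push Not at hall
    obtain ⟨a₀, c₀, hc₀, hbad⟩ := hall
    refine false_of_noOut ?_ ?_ hno hHM hg hgH hc₀ hbad
    rotate_left
    · by_contra hne
      refine hbad ?_
      obtain ⟨A, B, -, e⟩ := pure_of_hasRoot hno hHM (by omega) hg a₀ c₀
        (T.hasRoot_of_rows (row ((g : Matrix (Fin m × Fin k) (Fin m × Fin k) F) *ᵥ vt a₀ c₀))
          (by omega) fun i => Submodule.subset_span ⟨i, rfl⟩)
      exact ⟨_, _, e⟩
    · by_contra h
      refine hbad ?_
      obtain ⟨A, B, -, e⟩ := pure_of_hasRoot hno hHM (by omega) hg a₀ c₀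
        (T.hasRoot_of_rows (row ((g : Matrix (Fin m × Fin k) (Fin m × Fin k) F) *ᵥ vt a₀ c₀))
          (by omega) fun i => Submodule.subset_span ⟨i, rfl⟩)
      exact ⟨_, _, e⟩
  simp only [NoOut, not_forall] at hno
  obtain ⟨y, hy, c, l, R, hconj, hyH⟩ := hno
  set s := y * T.rt c l * y⁻¹ with hs
  have hrk : rk s ≤ m := by
    rw [hs, rk_conj]
    exact rk_root (hv_smul_dot_self T.Hg R.iso l)
  obtain ⟨A, B, hAB⟩ := mem_kronecker.1 hconj.1
  obtain ⟨j₀, -⟩ := Function.ne_iff.1 R.ne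
  have hpow : s ^ p ^ 1 = 1 := by
    rw [hs, pow_one, conj_pow, rt_pow_p R.iso, mul_one, mul_inv_cancel]
  obtain ⟨A', B', hAB', hA', -⟩ := split_p (⟨0, by omega⟩ : Fin m) j₀ (hAB ▸ hpow)
  have hA1 : A' = 1 := by
    by_contra h
    have := le_rk B' hA' h
    rw [← hAB', ← hAB] at this
    omega
  set E := Matrix.toLin' (s : Matrix (Fin m × Fin k) (Fin m × Fin k) F) - LinearMap.id with hE
  have hsB : ∀ a z, E (vt a z) = vt a ((B' : Matrix (Fin k) (Fin k) F) *ᵥ z - z) := fun a z => by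
    rw [hE, LinearMap.sub_apply, LinearMap.id_apply, Matrix.toLin'_apply, hAB, hAB', hA1, kr_vt,
      Units.val_one, one_mulVec]
    funext q
    simp only [vt, Pi.sub_apply]
    ring
  have hRy : ∀ a, (y : Matrix (Fin m × Fin k) (Fin m × Fin k) F) *ᵥ vt a c ∈ LinearMap.range E := by
    intro a
    obtain ⟨d, PH⟩ := T.exists_hyp R.iso R.ne
    refine ⟨(y : Matrix (Fin m × Fin k) (Fin m × Fin k) F) *ᵥ vt (l⁻¹ • a) d, ?_⟩
    rw [hE, LinearMap.sub_apply, LinearMap.id_apply, Matrix.toLin'_apply, hs, mul_mulVec',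
      mul_mulVec', inv_mulVec_mulVec, rt_mulVec R.iso, mulVec_add, T.rL_vt, PH.vu T.Hg, one_smul,
      smul_inv_smul₀ R.l_ne, add_sub_cancel_left]
  obtain ⟨z, hz⟩ : ∃ z, (B' : Matrix (Fin k) (Fin k) F) *ᵥ z - z ≠ 0 := by
    by_contra hcon
    push Not at hcon
    obtain ⟨x, hx⟩ := hRy (Pi.single 0 1)
    have h0 : E = 0 := pure_ext fun i z => by rw [hsB, hcon, vt_zero_right]; rfl
    rw [h0, LinearMap.zero_apply] at hx
    have := gl_mulVec_injective y (hx.symm.trans (mulVec_zero _).symm)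
    rcases vt_eq_zero this with h | h
    · simpa using congrFun h 0
    · exact R.ne h
  set u := (B' : Matrix (Fin k) (Fin k) F) *ᵥ z - z
  have hle : LinearMap.range (vtL (m := m) u) ≤ LinearMap.range E := by
    rintro _ ⟨a, rfl⟩
    exact ⟨vt a z, hsB a z⟩
  have hd := LinearMap.finrank_range_of_inj (vtL_injective (m := m) hz)
  rw [Module.finrank_fin_fun] at hd
  have hdE : Module.finrank F (LinearMap.range E) = rk s := rfl
  have heq : LinearMap.range (vtL (m := m) u) = LinearMap.range E :=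
    Submodule.eq_of_le_of_finrank_le hle (by omega)
  have himg : ∀ a, ∃ a', (y : Matrix (Fin m × Fin k) (Fin m × Fin k) F) *ᵥ vt a c = vt a' u := by
    intro a
    have h := hRy a
    rw [← heq] at h
    obtain ⟨a', ha'⟩ := h
    exact ⟨a', ha'.symm⟩
  -- the image vector is isotropic
  choose φ hφ using himg
  let Φ : (Fin m → F) →ₗ[F] (Fin m → F) :=
    { toFun := φ
      map_add' := fun a b => vtL_injective hz (by
        show vt (φ (a + b)) u = vt (φ a + φ b) u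
        rw [← hφ, vt_add_left, vt_add_left, mulVec_add, hφ, hφ])
      map_smul' := fun t a => vtL_injective hz (by
        show vt (φ (t • a)) u = vt (t • φ a) u
        rw [← hφ, vt_smul_left, vt_smul_left, mulVec_smul, hφ]) }
  have hΦ : Function.Injective Φ := fun a b e => vtL_injective R.ne (gl_mulVec_injective y (by
    show _ *ᵥ vt a c = _ *ᵥ vt b c
    rw [hφ, hφ]; exact congrArg (fun w => vt w u) e))
  obtain ⟨b, -, hb⟩ := exists_anisotropic T.Hf (W := ⊤)
    (fun w _ hw => by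
      obtain ⟨⟨a, ha⟩, b, hb⟩ := T.Hf.nondegenerate w hw
      exact ⟨⟨a, trivial, ha⟩, b, trivial, hb⟩) top_ne_bot
  obtain ⟨a, ha⟩ := (LinearMap.injective_iff_surjective.1 hΦ) b
  have hu : T.g u u = 0 := by
    have h := (hMG hy).1 (vt a c) (vt a c)
    rw [hφ, T.pair, T.pair, R.iso, mul_zero, show φ a = b from ha] at h
    simpa [hb, T.c₀_ne] using h
  obtain ⟨B₁, hB₁, t, ht, e⟩ := T.exists_move hu hz R.iso R.ne
  refine ⟨kr 1 B₁ * y, mul_mem (hHM (T.kr_mem_grp (one_mem _) hB₁)) hy, fun h => hyH ?_, c, R.ne,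
    R.iso, fun a => ⟨t • φ a, ?_⟩⟩
  · have := mul_mem (inv_mem (T.kr_mem_grp (one_mem _) hB₁)) h
    rwa [inv_mul_cancel_left] at this
  · rw [mul_mulVec', hφ, kr_vt, Units.val_one, one_mulVec, e, vt_smul_right, vt_smul_left]

end UT

end Cfsg.Agent.Lib.Forms.TProd
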