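import Cfsg.Agent.Lib.Forms.TensorUnitRad
import Cfsg.Agent.Lib.Forms.TensorUnitGen

/-!
A non-scalar central element yields all transvections with pure isotropic centres.
-/

set_option autoImplicit false

namespace Cfsg.Agent.Lib.Forms.TProd

open Matrix Kronecker Cfsg.Agent.Lib.Forms Cfsg.Geo

variable {F : Type*} [Field F] [Finite F] {m k : ℕ}

omit [Finite F] in
/-- Transitivity on isotropic lines. -/
lemma exists_line_map {n : ℕ} {σ : F ≃+* F} {g : (Fin n → F) → (Fin n → F) → F}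
    (H : IsUnitaryForm σ g) {c c' : Fin n → F} (hc : g c c = 0) (hc0 : c ≠ 0)
    (hc' : g c' c' = 0) (hc0' : c' ≠ 0) :
    ∃ B ∈ isoH g ⊓ specialLinear (Fin n) F, ∃ t : F, t ≠ 0 ∧
      (B : Matrix (Fin n) (Fin n) F) *ᵥ c = t • c' := by
  have step : ∀ c c', g c c = 0 → g c' c' = 0 → g c c' ≠ 0 →
      ∃ B ∈ isoH g ⊓ specialLinear (Fin n) F, ∃ t : F, t ≠ 0 ∧
        (B : Matrix (Fin n) (Fin n) F) *ᵥ c = t • c' := by
    intro c c' hc hc' hne
    have P : HypPair g ((g c' c)⁻¹ • c') c :=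
      ⟨by rw [smul_inner H, hc', mul_zero], hc, by
        rw [H.smul_left, inv_mul_cancel₀ fun e => hne (eq_zero_of_herm_self H e)]⟩
    obtain ⟨κ, hκ0, hκ⟩ := exists_skew H
    obtain ⟨B, hB, -, e, -⟩ := P.exists_monomial H hκ0 hκ
    refine ⟨B, utvGroup_le H hB, κ * (g c' c)⁻¹, mul_ne_zero hκ0
      (inv_ne_zero fun e => hne (eq_zero_of_herm_self H e)), ?_⟩
    rw [e, smul_smul]
  by_cases hne : g c c' = 0
  swap
  · exact step c c' hc hc' hne
  obtain ⟨x, hxc, hxc'⟩ : ∃ x, g c x ≠ 0 ∧ g c' x ≠ 0 := by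
    obtain ⟨x, hx⟩ := (H.nondegenerate c hc0).2
    obtain ⟨y, hy⟩ := (H.nondegenerate c' hc0').2
    by_cases h1 : g c' x = 0
    · by_cases h2 : g c y = 0
      · exact ⟨x + y, by rw [herm_add_right H, h2, add_zero]; exact hx,
          by rw [herm_add_right H, h1, zero_add]; exact hy⟩
      · exact ⟨y, h2, hy⟩
    · exact ⟨x, hx, h1⟩
  obtain ⟨r, hr⟩ := exists_isotropic_translate H hc hxc
  obtain ⟨B₁, hB₁, t₁, ht₁, e₁⟩ := step c (x + r • c) hc hr (by
    rw [herm_add_right H, herm_smul_right H, hc, mul_zero, add_zero]; exact hxc)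
  obtain ⟨B₂, hB₂, t₂, ht₂, e₂⟩ := step (x + r • c) c' hr hc' (by
    rw [H.add_left, H.smul_left, hne, mul_zero, add_zero]
    exact fun e => hxc' (eq_zero_of_herm_self H e))
  refine ⟨B₂ * B₁, mul_mem hB₂ hB₁, t₁ * t₂, mul_ne_zero ht₁ ht₂, ?_⟩
  rw [mul_mulVec', e₁, mulVec_smul, e₂, smul_smul]

namespace UT

variable {T : UT F m k} {M : Subgroup (GL (Fin m × Fin k) F)} {c d : Fin k → F}

variable (T) in
/-- The rank one map of a vector. -/
noncomputable def proj₁ (a : Fin m → F) : (Fin m → F) →ₗ[F] (Fin m → F) := (T.funF a).smulRight a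

omit [Finite F] in
lemma proj₁_apply (a x : Fin m → F) : T.proj₁ a x = T.f x a • a := rfl

omit [Finite F] in
lemma Cn.sub {Φ Ψ : (Fin m → F) →ₗ[F] (Fin m → F)} (hc : T.g c c = 0) (h₁ : T.Cn M c Φ)
    (h₂ : T.Cn M c Ψ) : T.Cn M c (Φ - Ψ) := by
  obtain ⟨g, hg, e₁⟩ := h₁
  obtain ⟨g', hg', e₂⟩ := h₂
  refine ⟨g * g'⁻¹, M.mul_mem hg (M.inv_mem hg'), fun X => ?_⟩
  set Y := ((g'⁻¹ : GL (Fin m × Fin k) F) : Matrix (Fin m × Fin k) (Fin m × Fin k) F) *ᵥ X
  have hY : X = Y + vt (Ψ (T.rL c Y)) c := by rw [← e₂, mulVec_inv_mulVec]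
  have hc' : T.rL c X = T.rL c Y := by rw [hY, map_add, rL_self hc, add_zero]
  rw [mul_mulVec', e₁]
  conv_rhs => rw [hY]
  rw [← hY, hc', LinearMap.sub_apply]
  conv_rhs => rw [hY]
  funext q
  simp only [vt, Pi.add_apply, Pi.sub_apply]
  ring

omit [Finite F] in
lemma Cn.conj [Finite F] (hHM : T.grp ≤ M) {Φ : (Fin m → F) →ₗ[F] (Fin m → F)} (h : T.Cn M c Φ)
    {A : GL (Fin m) F} (hA : A ∈ isoH T.f ⊓ specialLinear (Fin m) F) :
    T.Cn M c (Matrix.toLin' (A : Matrix (Fin m) (Fin m) F) ∘ₗ Φ ∘ₗ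
      Matrix.toLin' ((A⁻¹ : GL (Fin m) F) : Matrix (Fin m) (Fin m) F)) := by
  obtain ⟨g, hg, e⟩ := h
  have hk' := hHM (T.kr_mem_grp hA (one_mem (isoH T.g ⊓ specialLinear (Fin k) F)))
  refine ⟨kr A 1 * g * (kr A 1)⁻¹, M.mul_mem (M.mul_mem hk' hg) (M.inv_mem hk'), fun X => ?_⟩
  set Y := (((kr A (1 : GL (Fin k) F))⁻¹ : GL (Fin m × Fin k) F) :
    Matrix (Fin m × Fin k) (Fin m × Fin k) F) *ᵥ X
  have hX : (kr A (1 : GL (Fin k) F) : Matrix (Fin m × Fin k) (Fin m × Fin k) F) *ᵥ Y = X :=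
    mulVec_inv_mulVec _ _
  have hY : T.rL c Y = ((A⁻¹ : GL (Fin m) F) : Matrix (Fin m) (Fin m) F) *ᵥ T.rL c X := by
    have e1 : T.rL c X = (A : Matrix (Fin m) (Fin m) F) *ᵥ T.rL c Y := by
      rw [← hX]
      exact LinearMap.congr_fun (pure_ext (N := T.rL c ∘ₗ Matrix.toLin'
          (kr A (1 : GL (Fin k) F) : Matrix (Fin m × Fin k) (Fin m × Fin k) F))
        (N' := Matrix.toLin' (A : Matrix (Fin m) (Fin m) F) ∘ₗ T.rL c) fun i z => by
          simp only [LinearMap.comp_apply, Matrix.toLin'_apply, kr_vt, Units.val_one, one_mulVec,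
            T.rL_vt, mulVec_smul]) Y
    rw [e1, inv_mulVec_mulVec]
  rw [mul_mulVec', mul_mulVec', e, mulVec_add, hX, kr_vt, hY]
  simp

omit [Finite F] in
lemma Cn.torus_sq [Finite F] (hHM : T.grp ≤ M) (hP : HypPair T.g c d)
    {Φ : (Fin m → F) →ₗ[F] (Fin m → F)} (h : T.Cn M c Φ) {u : F} (hu : T.σ u = u) (hu0 : u ≠ 0) :
    T.Cn M c ((u * u) • Φ) := by
  obtain ⟨κ, hκ0, hκ⟩ := exists_skew T.Hg
  have hκu : u * κ + T.σ (u * κ) = 0 := by rw [map_mul, hu, ← mul_add, hκ, mul_zero]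
  obtain ⟨t₁, ht₁, -, e₁v, e₁u⟩ := hP.exists_monomial T.Hg (mul_ne_zero hu0 hκ0) hκu
  obtain ⟨t₂, ht₂, -, e₂v, e₂u⟩ := hP.exists_monomial T.Hg hκ0 hκ
  have hB : t₁ * t₂ ∈ isoH T.g ⊓ specialLinear (Fin k) F :=
    mul_mem (utvGroup_le T.Hg ht₁) (utvGroup_le T.Hg ht₂)
  set B := t₁ * t₂
  have hBc : (B : Matrix (Fin k) (Fin k) F) *ᵥ c = (-u) • c := by
    rw [mul_mulVec', e₂u, mulVec_smul, e₁v, smul_smul]
    congr 1
    field_simp
  obtain ⟨g, hg, e⟩ := h
  have hk' := hHM (T.kr_mem_grp (one_mem (isoH T.f ⊓ specialLinear (Fin m) F)) hB)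
  refine ⟨kr 1 B * g * (kr 1 B)⁻¹, M.mul_mem (M.mul_mem hk' hg) (M.inv_mem hk'), fun X => ?_⟩
  set Y := (((kr (1 : GL (Fin m) F) B)⁻¹ : GL (Fin m × Fin k) F) :
    Matrix (Fin m × Fin k) (Fin m × Fin k) F) *ᵥ X
  have hX : (kr (1 : GL (Fin m) F) B : Matrix (Fin m × Fin k) (Fin m × Fin k) F) *ᵥ Y = X :=
    mulVec_inv_mulVec _ _
  have hY : T.rL c X = (-u)⁻¹ • T.rL c Y := by
    funext i
    have e1 := hB.1 (row Y i) c
    rw [hBc, herm_smul_right T.Hg, map_neg, hu] at e1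
    rw [Pi.smul_apply, T.rL_row, T.rL_row, ← hX, kr_one_row, smul_eq_mul, ← e1,
      inv_mul_cancel_left₀ (neg_ne_zero.2 hu0)]
  rw [mul_mulVec', mul_mulVec', e, mulVec_add, hX, kr_vt, Units.val_one, one_mulVec, hBc,
    vt_smul_right, LinearMap.smul_apply, hY, map_smul, ← vt_smul_left, smul_smul]
  congr 2
  field_simp
  rfl

omit [Finite F] in
lemma Cn.scal [Finite F] (hHM : T.grp ≤ M) (hP : HypPair T.g c d)
    {Φ : (Fin m → F) →ₗ[F] (Fin m → F)} (h : T.Cn M c Φ) {u : F} (hu : T.σ u = u) :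
    T.Cn M c (u • Φ) := by
  have sq : ∀ s, T.σ s = s → T.Cn M c ((s * s) • Φ) := fun s hs => by
    rcases eq_or_ne s 0 with rfl | hs0
    · exact ⟨1, M.one_mem, fun X => by simp [vt_zero_left]⟩
    · exact Cn.torus_sq hHM hP h hs hs0
  by_cases h2 : (2 : F) = 0
  · haveI : Finite F := inferInstance
    have hinj : Function.Injective fun s : F => s * s := fun a b e => by
      have h' : (a + b) * (a + b) = 0 := by
        linear_combination (e : a * a = b * b) + (b * b + a * b) * h2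
      have h'' : a + b = 0 := mul_self_eq_zero.1 h'
      linear_combination h'' - b * h2
    obtain ⟨s, hs⟩ := Finite.injective_iff_surjective.1 hinj u
    have hsσ : T.σ s = s := hinj (show T.σ s * T.σ s = s * s by
      rw [← map_mul, show s * s = u from hs, hu])
    rw [← show s * s = u from hs]
    exact sq s hsσ
  · have e : u • Φ = (((u + 1) / 2) * ((u + 1) / 2)) • Φ - (((u - 1) / 2) * ((u - 1) / 2)) • Φ := by
      refine LinearMap.ext fun v => ?_
      simp only [LinearMap.smul_apply, LinearMap.sub_apply, ← sub_smul]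
      congr 1
      field_simp
      ring
    rw [e]
    exact Cn.sub hP.uu (sq _ (by rw [map_div₀, map_add, map_one, map_ofNat, hu]))
      (sq _ (by rw [map_div₀, map_sub, map_one, map_ofNat, hu]))

omit [Finite F] in
lemma Cn.skew [Finite F] (hMG : M ≤ isoH T.h ⊓ specialLinear (Fin m × Fin k) F)
    (hP : HypPair T.g c d) {Φ : (Fin m → F) →ₗ[F] (Fin m → F)} (h : T.Cn M c Φ) (v w : Fin m → F) :
    T.f (Φ v) w + T.f v (Φ w) = 0 := by
  obtain ⟨g, hg, e⟩ := h
  have e1 := (hMG hg).1 (vt v d) (vt w d)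
  rw [e, e, T.rL_vt, T.rL_vt, hP.vu T.Hg, one_smul, one_smul, T.Hh.add_left, herm_add_right T.Hh,
    herm_add_right T.Hh, T.pair, T.pair, T.pair, T.pair, hP.uu, hP.vv, hP.uv, hP.vu T.Hg] at e1
  refine mul_left_cancel₀ T.c₀_ne ?_
  linear_combination e1

/-- A non-scalar element gives a rank one element. -/
theorem exists_rank_one (hm : 2 ≤ m) (hq : m = 2 → ∃ s, T.σ s = s ∧ s ≠ 0 ∧ s ≠ 1)
    (hHM : T.grp ≤ M) (hMG : M ≤ isoH T.h ⊓ specialLinear (Fin m × Fin k) F) (hP : HypPair T.g c d)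
    {Φ : (Fin m → F) →ₗ[F] (Fin m → F)} (hΦ : T.Cn M c Φ) (hns : ¬ ∃ a : F, ∀ v, Φ v = a • v) :
    ∃ a l, T.f a a = 0 ∧ a ≠ 0 ∧ l ≠ 0 ∧ l + T.σ l = 0 ∧ T.Cn M c (l • T.proj₁ a) := by
  classical
  haveI : NeZero m := ⟨by omega⟩
  obtain ⟨a, ha, ha0, hw⟩ : ∃ a, T.f a a = 0 ∧ a ≠ 0 ∧ Φ a ∉ Submodule.span F {a} := by
    by_contra hcon
    push Not at hcon
    have hev : ∀ a, T.f a a = 0 → ∃ t : F, t • a = Φ a := fun a ha => by
      rcases eq_or_ne a 0 with rfl | h0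
      · exact ⟨0, by simp⟩
      · exact Submodule.mem_span_singleton.1 (hcon a ha h0)
    have hspan : ∀ v, v ∈ Submodule.span F {v | v ∈ perp T.Hf (![] : Fin 0 → Fin m → F) ∧ T.f v v = 0} :=
      fun v => span_isotropic_perp T.Hf (![] : Fin 0 → Fin m → F)
        (by rw [Fintype.card_fin]; omega) (fun i => i.elim0)
    obtain ⟨a₁, -, ha₁, x₁, -, hx₁⟩ := exists_isotropic_perp T.Hf (![] : Fin 0 → Fin m → F)
      (by rw [Fintype.card_fin]; omega)
    have ha₁0 : a₁ ≠ 0 := fun e => hx₁ (by rw [e, herm_zero_left T.Hf])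
    obtain ⟨t₁, ht₁⟩ := hev a₁ ha₁
    refine hns ⟨t₁, fun v => ?_⟩
    have key : ∀ b, T.f b b = 0 → Φ b = t₁ • b := by
      intro b hb
      by_cases hmem : b ∈ Submodule.span F {a₁}
      · obtain ⟨r, rfl⟩ := Submodule.mem_span_singleton.1 hmem
        rw [map_smul, ← ht₁, smul_comm]
      obtain ⟨s, hs0, hs⟩ : ∃ s : F, s ≠ 0 ∧ T.f (a₁ + s • b) (a₁ + s • b) = 0 := by
        by_cases hab : T.f a₁ b = 0
        · exact ⟨1, one_ne_zero, by
            rw [one_smul, T.Hf.add_left, herm_add_right T.Hf, herm_add_right T.Hf, ha₁, hb, hab,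
              eq_zero_of_herm_self T.Hf hab]
            ring⟩
        obtain ⟨κ, hκ0, hκ⟩ := exists_skew T.Hf
        refine ⟨T.σ (κ / T.f a₁ b), by simp [hκ0, hab], ?_⟩
        rw [T.Hf.add_left, herm_add_right T.Hf, herm_add_right T.Hf, T.Hf.smul_left, T.Hf.smul_left,
          herm_smul_right T.Hf, herm_smul_right T.Hf, ha₁, hb, T.Hf.herm b a₁, T.Hf.involutive,
          ← map_mul, div_mul_cancel₀ _ hab]
        linear_combination hκ
      obtain ⟨t, ht⟩ := hev b hb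
      obtain ⟨t', ht'⟩ := hev _ hs
      rw [map_add, map_smul, ← ht₁, ← ht] at ht'
      have h1 : (t' - t₁) • a₁ = (s * t - t' * s) • b := by linear_combination (norm := module) ht'
      have h2 : s * t - t' * s = 0 := by
        by_contra h
        exact hmem (Submodule.mem_span_singleton.2 ⟨(s * t - t' * s)⁻¹ * (t' - t₁), by
          rw [mul_smul, h1, inv_smul_smul₀ h]⟩)
      rw [h2, zero_smul, smul_eq_zero] at h1
      have h3 : t' = t₁ := sub_eq_zero.1 (h1.resolve_right ha₁0)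
      rw [← ht, show t = t₁ from mul_left_cancel₀ hs0 (by rw [← h3]; linear_combination h2)]
    have := hspan v
    induction this using Submodule.span_induction with
    | mem x hx => exact key x hx.2
    | zero => simp
    | add x y _ _ hx hy => rw [map_add, hx, hy, smul_add]
    | smul r x _ hx => rw [map_smul, hx, smul_comm]
  set w := Φ a with hwdef
  set e := T.f w a with he
  have hsk := Cn.skew hMG hP hΦ
  have hΦw : ∀ x, T.f (Φ x) a = -T.f x w := fun x => eq_neg_of_add_eq_zero_left (hsk x a)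
  have heσ : T.σ e = -e := by
    rw [← T.Hf.herm a w]
    exact eq_neg_of_add_eq_zero_right (hsk a a)
  -- the basic commutator
  let S : (Fin m → F) → (Fin m → F) →ₗ[F] (Fin m → F) := fun w =>
    (T.funF a).smulRight w + (T.funF w).smulRight a
  have hD : ∀ κ, κ + T.σ κ = 0 → T.Cn M c (κ • S w + (κ * κ * e) • T.proj₁ a) := by
    intro κ hκ
    have hA : tv a (κ • hv T.f a) ∈ isoH T.f ⊓ specialLinear (Fin m) F :=
      ⟨fun x y => utv_isometry T.Hf ha hκ x y, tv_mem_specialLinear _ _⟩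
    have h := Cn.sub hP.uu hΦ (Cn.conj hHM hΦ hA)
    rw [tv_inv (hv_smul_dot_self T.Hf ha κ), ← neg_smul] at h
    convert h using 1
    refine LinearMap.ext fun x => ?_
    show κ • (T.f x a • w + T.f x w • a) + (κ * κ * e) • (T.f x a • a) = Φ x -
      (tv a (κ • hv T.f a) : Matrix (Fin m) (Fin m) F) *ᵥ
        Φ ((tv a ((-κ) • hv T.f a) : Matrix (Fin m) (Fin m) F) *ᵥ x)
    rw [utv_mulVec T.Hf ha, utv_mulVec T.Hf ha, map_add, map_smul, ← hwdef, T.Hf.add_left,
      T.Hf.smul_left, ← he, hΦw]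
    module
  obtain ⟨κ, hκ0, hκ⟩ := exists_skew T.Hf
  rcases (show m = 2 ∨ 3 ≤ m by omega) with hm2 | hm3
  · -- the plane
    obtain ⟨s, hs, hs0, hs1⟩ := hq hm2
    have he0 : e ≠ 0 := by
      intro e0
      refine hw ?_
      have hperp : perp T.Hf ![a] = Submodule.span F {a} := by
        refine (Submodule.eq_of_le_of_finrank_le ((Submodule.span_singleton_le_iff_mem _ _).2
          fun i => ?_) ?_).symm
        · fin_cases i; exact ha
        · have h1 := finrank_perp T.Hf ![a]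
          rw [finrank_span_singleton ha0]
          have h2 : perp T.Hf ![a] < ⊤ := lt_top_iff_ne_top.2 fun htop => by
            obtain ⟨x, hx⟩ := (T.Hf.nondegenerate a ha0).1
            exact hx ((show x ∈ perp T.Hf ![a] by rw [htop]; trivial) 0)
          have h3 := Submodule.finrank_lt h2.ne
          rw [Module.finrank_fin_fun] at h3
          omega
      rw [← hperp]
      intro i
      fin_cases i
      exact e0
    refine ⟨a, (s - 1) * (κ * κ * e), ha, ha0,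
      mul_ne_zero (sub_ne_zero.2 hs1) (mul_ne_zero (mul_ne_zero hκ0 hκ0) he0), ?_, ?_⟩
    · have hκσ : T.σ κ = -κ := eq_neg_of_add_eq_zero_right hκ
      simp only [map_mul, map_sub, map_one, hs, hκσ, heσ]
      ring
    · have hsκ : s * κ + T.σ (s * κ) = 0 := by rw [map_mul, hs, ← mul_add, hκ, mul_zero]
      have h1 := Cn.sub hP.uu (Cn.scal hHM hP (hD _ hsκ) (u := s⁻¹) (by rw [map_inv₀, hs])) (hD κ hκ)
      convert h1 using 1
      rw [smul_add, smul_smul, smul_smul, inv_mul_cancel_left₀ hs0,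
        show s⁻¹ * (s * κ * (s * κ) * e) = s * (κ * κ * e) by field_simp]
      module
  -- moving the second vector into the orthogonal of `a`
  have hfix : ∀ u ∈ isoH T.f ⊓ specialLinear (Fin m) F, (u : Matrix (Fin m) (Fin m) F) *ᵥ a = a →
      ∀ (v : Fin m → F) (μ : F), T.Cn M c (κ • S v + μ • T.proj₁ a) →
        T.Cn M c (κ • S ((u : Matrix (Fin m) (Fin m) F) *ᵥ v - v)) := by
    intro u hu hua v μ h
    convert Cn.sub hP.uu (Cn.conj hHM h hu) h using 1
    refine LinearMap.ext fun x => ?_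
    have e1 : ∀ z, T.f (((u⁻¹ : GL (Fin m) F) : Matrix (Fin m) (Fin m) F) *ᵥ x) z =
        T.f x ((u : Matrix (Fin m) (Fin m) F) *ᵥ z) := fun z => by
      conv_rhs => rw [← mulVec_inv_mulVec u x, hu.1]
    show κ • (T.f x a • ((u : Matrix (Fin m) (Fin m) F) *ᵥ v - v) +
        T.f x ((u : Matrix (Fin m) (Fin m) F) *ᵥ v - v) • a) =
      (u : Matrix (Fin m) (Fin m) F) *ᵥ
        (κ • (T.f (((u⁻¹ : GL (Fin m) F) : Matrix (Fin m) (Fin m) F) *ᵥ x) a • v +
          T.f (((u⁻¹ : GL (Fin m) F) : Matrix (Fin m) (Fin m) F) *ᵥ x) v • a) +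
        μ • (T.f (((u⁻¹ : GL (Fin m) F) : Matrix (Fin m) (Fin m) F) *ᵥ x) a • a)) -
      (κ • (T.f x a • v + T.f x v • a) + μ • (T.f x a • a))
    simp only [mulVec_add, mulVec_smul, e1, hua, sub_eq_add_neg, herm_add_right T.Hf,
      herm_neg_right T.Hf]
    module
  obtain ⟨v, hva, hvspan, μ, hv'⟩ : ∃ v, T.f v a = 0 ∧ v ∉ Submodule.span F {a} ∧
      ∃ μ : F, T.Cn M c (κ • S v + μ • T.proj₁ a) := by
    by_cases he0 : e = 0
    · exact ⟨w, he0, hw, _, hD κ hκ⟩
    obtain ⟨z, hz, hzs⟩ : ∃ z ∈ perp T.Hf ![a], z ∉ Submodule.span F {a} :=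
      SetLike.not_le_iff_exists.1 fun hle => by
        have h1 := Submodule.finrank_mono hle
        have h2 := finrank_perp T.Hf ![a]
        rw [finrank_span_singleton ha0] at h1
        rw [Fintype.card_fin] at h2
        omega
    have haz : T.f a z = 0 := eq_zero_of_herm_self T.Hf (hz 0)
    obtain ⟨β, hβ⟩ := exists_trace_eq T.Hf (a := -T.f z z) (by rw [map_neg, herm_self_fixed T.Hf])
    have hu := usieg_mem T.Hf ha haz (c := β) (by rw [hβ, neg_add_cancel])
    have h := hfix _ hu (by rw [usieg_mulVec T.Hf ha haz, ha, haz]; simp) w _ (hD κ hκ)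
    rw [usieg_mulVec T.Hf ha haz, ← he] at h
    refine ⟨_, ?_, ?_, 0, by rwa [zero_smul, add_zero]⟩
    · have hza : T.f z a = 0 := hz 0
      simp only [sub_eq_add_neg, T.Hf.add_left, herm_neg_left T.Hf, T.Hf.smul_left, ha, hza]
      ring
    · intro hmem
      refine hzs ?_
      have h2 : e • z ∈ Submodule.span F {a} := by
        have := Submodule.sub_mem _ (Submodule.smul_mem _ (β * e + T.f w z)
          (Submodule.mem_span_singleton_self a)) hmem
        convert this using 1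
        module
      exact (Submodule.smul_mem_iff _ he0).1 h2
  obtain ⟨z, hz, hzv⟩ : ∃ z ∈ perp T.Hf ![a], T.f z v ≠ 0 := by
    by_contra hcon
    push Not at hcon
    refine hvspan ?_
    have hmem := mem_span_of_perp T.Hf (u := ![a]) (y := v) hcon
    rwa [Matrix.range_cons, Matrix.range_empty, Set.union_empty] at hmem
  obtain ⟨r, hr⟩ := exists_trace_ne_zero T.Hf
  have hvz : T.f v z ≠ 0 := fun e => hzv (eq_zero_of_herm_self T.Hf e)
  set z' := T.σ (r / T.f v z) • z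
  have hz' : T.f a z' = 0 := by
    rw [herm_smul_right T.Hf, show T.f a z = 0 from eq_zero_of_herm_self T.Hf (hz 0), mul_zero]
  have hvz' : T.f v z' = r := by
    rw [herm_smul_right T.Hf, T.Hf.involutive, div_mul_cancel₀ _ hvz]
  obtain ⟨β, hβ⟩ := exists_trace_eq T.Hf (a := -T.f z' z') (by rw [map_neg, herm_self_fixed T.Hf])
  have hu := usieg_mem T.Hf ha hz' (c := β) (by rw [hβ, neg_add_cancel])
  have h := hfix _ hu (by rw [usieg_mulVec T.Hf ha hz', ha, hz']; simp) v μ hv'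
  rw [usieg_mulVec T.Hf ha hz', hva, hvz'] at h
  refine ⟨a, κ * (r + T.σ r), ha, ha0, mul_ne_zero hκ0 hr, ?_, ?_⟩
  · rw [map_mul, map_add, T.Hf.involutive]
    linear_combination (r + T.σ r) * hκ
  · convert h using 1
    refine LinearMap.ext fun x => ?_
    show (κ * (r + T.σ r)) • (T.f x a • a) = κ • (T.f x a • (v + (β * 0 + r) • a - (0 : F) • z' - v) +
      T.f x (v + (β * 0 + r) • a - (0 : F) • z' - v) • a)
    rw [show v + (β * 0 + r) • a - (0 : F) • z' - v = r • a by module, herm_smul_right T.Hf]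
    module

/-- All pure isotropic vectors are centres. -/
theorem cen_pure (hm : 2 ≤ m) (hk : 5 ≤ k) (hHM : T.grp ≤ M)
    (hMG : M ≤ isoH T.h ⊓ specialLinear (Fin m × Fin k) F) (hP : HypPair T.g c d) (hc0 : c ≠ 0)
    {a₀ : Fin m → F} {l₀ : F} (ha₀ : T.f a₀ a₀ = 0) (ha₀0 : a₀ ≠ 0) (hl₀ : l₀ ≠ 0)
    (hl₀s : l₀ + T.σ l₀ = 0) (h₀ : T.Cn M c (l₀ • T.proj₁ a₀))
    (a : Fin m → F) (c' : Fin k → F) (ha : T.f a a = 0) (hc' : T.g c' c' = 0) :
    T.Cen M (vt a c') := by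
  haveI : NeZero m := ⟨by omega⟩
  haveI : NeZero k := ⟨by omega⟩
  have hiso : T.h (vt a₀ c) (vt a₀ c) = 0 := by rw [T.pair, hP.uu, mul_zero]
  have base : T.Cen M (vt a₀ c) := by
    refine ⟨hiso, fun l hl => ?_⟩
    set u := l * T.c₀ / l₀
    have hσl : T.σ l = -l := eq_neg_of_add_eq_zero_right hl
    have hσl₀ : T.σ l₀ = -l₀ := eq_neg_of_add_eq_zero_right hl₀s
    obtain ⟨g, hg, e⟩ := Cn.scal hHM hP h₀ (u := u)
      (by simp only [u, map_div₀, map_mul, hσl, hσl₀, T.σ_c₀]; field_simp)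
    convert hg using 1
    refine gl_ext fun X => ?_
    rw [e, utv_mulVec T.Hh hiso, T.h_vt, LinearMap.smul_apply, LinearMap.smul_apply, proj₁_apply]
    simp only [vt_smul_left, smul_smul, u]
    congr 2
    field_simp
  rcases eq_or_ne a 0 with rfl | ha0
  · have := base.smul 0
    rwa [zero_smul, ← vt_zero_left c'] at this
  rcases eq_or_ne c' 0 with rfl | hc'0
  · have := base.smul 0
    rwa [zero_smul, ← vt_zero_right a] at this
  obtain ⟨A, hA, s, hs, eA⟩ := exists_line_map T.Hf ha₀ ha₀0 ha ha0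
  obtain ⟨B, hB, t, ht, eB⟩ := exists_line_map T.Hg hP.uu hc0 hc' hc'0
  have hg := T.kr_mem_grp hA hB
  have h := (base.map (hHM hg) hg.2.1).smul (s * t)⁻¹
  rwa [kr_vt, eA, eB, vt_smul_left, vt_smul_right, smul_smul, smul_smul, mul_assoc,
    inv_mul_cancel₀ (mul_ne_zero hs ht), one_smul] at h

end UT

end Cfsg.Agent.Lib.Forms.TProd
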