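import Cfsg.Agent.Lib.Forms.TensorUnitLocate
import Cfsg.Agent.Lib.Forms.TensorUnitRankOne

/-!
The stabiliser of a unitary tensor decomposition with unequal factors is maximal in the special
unitary group.
-/

set_option autoImplicit false

namespace Cfsg.Agent.Lib.Forms.TProd

open Matrix Kronecker Cfsg.Agent.Lib.Forms Cfsg.Geo

variable {F : Type*} [Field F] [Finite F] {m k : ℕ}

namespace UT

variable (T : UT F m k)

/-- The special unitary group is larger. -/
lemma exists_not_mem (hm : 2 ≤ m) (hmk : m < k) :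
    ∃ g ∈ isoH T.h ⊓ specialLinear (Fin m × Fin k) F, g ∉ T.grp := by
  classical
  haveI : NeZero m := ⟨by omega⟩
  haveI : NeZero k := ⟨by omega⟩
  obtain ⟨c, -, hc, x, -, hx⟩ := exists_isotropic_perp T.Hg (![] : Fin 0 → Fin k → F)
    (by rw [Fintype.card_fin]; omega)
  have hc0 : c ≠ 0 := fun e => hx (by rw [e, herm_zero_left T.Hg])
  obtain ⟨d, hP⟩ := T.exists_hyp hc hc0
  set a : Fin m → F := Pi.single 0 1 with ha
  have ha0 : a ≠ 0 := fun h => by simpa [ha] using congrFun h 0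
  obtain ⟨b, hb⟩ := (T.Hf.nondegenerate a ha0).1
  set v := vt a c
  have hv' : T.h v v = 0 := by rw [T.pair, hc, mul_zero]
  have hv0 : v ≠ 0 := fun e => (vt_eq_zero e).elim ha0 hc0
  obtain ⟨l, hl0, hl⟩ := exists_skew T.Hh
  set g := tv v (l • hv T.h v) with hg
  refine ⟨g, ⟨fun x y => utv_isometry T.Hh hv' hl x y, tv_mem_specialLinear _ _⟩, fun hmem => ?_⟩
  obtain ⟨p, hpc⟩ := CharP.exists F
  haveI : Fact p.Prime := ⟨CharP.char_is_prime F p⟩
  obtain ⟨A, B, hAB⟩ := mem_kronecker.1 hmem.1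
  have hpow : kr A B ^ p ^ 1 = 1 := by
    rw [← hAB, hg, pow_one, tv_pow (hv_smul_dot_self T.Hh hv' l), ← Nat.cast_smul_eq_nsmul F p,
      CharP.cast_eq_zero F p, zero_smul, tv_zero_right]
  obtain ⟨A', B', hAB', hA', -⟩ := split_p (0 : Fin m) (0 : Fin k) hpow
  set E := Matrix.toLin' (g : Matrix (Fin m × Fin k) (Fin m × Fin k) F) - LinearMap.id with hE
  have hE1 : ∀ x, E x = (l * T.h x v) • v := fun x => by
    rw [hE, LinearMap.sub_apply, LinearMap.id_apply, Matrix.toLin'_apply, hg, utv_mulVec T.Hh hv',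
      add_sub_cancel_left]
  have hrk : Module.finrank F (LinearMap.range E) ≤ 1 :=
    (Submodule.finrank_mono (show LinearMap.range E ≤ Submodule.span F {v} by
      rintro _ ⟨x, rfl⟩
      rw [hE1]
      exact Submodule.smul_mem _ _ (Submodule.mem_span_singleton_self v))).trans
      (by rw [finrank_span_singleton hv0])
  have hA1 : A' = 1 := by
    by_contra h
    have := le_rk B' hA' h
    rw [← hAB', ← hAB] at this
    have : k ≤ Module.finrank F (LinearMap.range E) := this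
    omega
  have hsB : ∀ a z, E (vt a z) = vt a ((B' : Matrix (Fin k) (Fin k) F) *ᵥ z - z) := fun a z => by
    rw [hE, LinearMap.sub_apply, LinearMap.id_apply, Matrix.toLin'_apply, hAB, hAB', hA1, kr_vt,
      Units.val_one, one_mulVec]
    funext q
    simp only [vt, Pi.sub_apply]
    ring
  by_cases hB : ∀ z, (B' : Matrix (Fin k) (Fin k) F) *ᵥ z = z
  · have e := hsB b d
    rw [hB, sub_self, vt_zero_right, hE1, T.pair, smul_eq_zero, mul_eq_zero, mul_eq_zero,
      mul_eq_zero, hP.vu T.Hg] at e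
    simp [hl0, T.c₀_ne, hb, hv0] at e
  · push Not at hB
    obtain ⟨z, hz⟩ := hB
    have hd := LinearMap.finrank_range_of_inj (vtL_injective (m := m) (sub_ne_zero.2 hz))
    rw [Module.finrank_fin_fun] at hd
    have := Submodule.finrank_mono (show LinearMap.range (vtL (m := m)
        ((B' : Matrix (Fin k) (Fin k) F) *ᵥ z - z)) ≤ LinearMap.range E by
      rintro _ ⟨a, rfl⟩; exact ⟨vt a z, hsB a z⟩)
    omega

/-- The product group is maximal in the special unitary group of the product form. -/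
theorem grp_isMaximal (hm : 2 ≤ m) (hmk : m < k) (hn : 13 ≤ m * k)
    (hq : m = 2 → ∃ s, T.σ s = s ∧ s ≠ 0 ∧ s ≠ 1) :
    Cfsg.Geo.IsMaximalIn (isoH T.h ⊓ specialLinear (Fin m × Fin k) F) T.grp := by
  classical
  haveI : NeZero m := ⟨by omega⟩
  haveI : NeZero k := ⟨by omega⟩
  have hk5 : 5 ≤ k := by
    by_contra h
    have : m * k ≤ 3 * 4 := Nat.mul_le_mul (by omega) (by omega)
    omega
  refine isMaximalIn_of inf_le_right ?_ fun M hHM hMG g hg hgH => ?_
  · exact T.exists_not_mem hm hmk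
  obtain ⟨y, hy, hyH, c, hc0, hc, hstab⟩ := exists_locate hm hmk hn hHM hMG hg hgH
  obtain ⟨d, hP⟩ := T.exists_hyp hc hc0
  obtain ⟨r, hr, hrH, R⟩ := exists_rad hm hk5 hHM hMG hy hyH hP hc0 hstab
  obtain ⟨Φ, hΦ, hns⟩ := exists_central hm hk5 hHM hMG hr hrH hP hc0 R
  obtain ⟨a, l, ha, ha0, hl, hls, h₀⟩ := exists_rank_one hm hq hHM hMG hP hΦ hns
  exact (su_le hk5 hm fun a' c' h1 h2 =>
    cen_pure hm hk5 hHM hMG hP hc0 ha ha0 hl hls h₀ a' c' h1 h2)

end UT

end Cfsg.Agent.Lib.Forms.TProd
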