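import Cfsg.Agent.Lib.Forms.TensorUnitRoot
import Cfsg.Agent.Lib.Forms.UnitarySiegel

/-!
From an element stabilising `V ⊗ c` to a central element of its unipotent radical.
-/

set_option autoImplicit false

namespace Cfsg.Agent.Lib.Forms.TProd

open Matrix Kronecker Cfsg.Agent.Lib.Forms Cfsg.Geo

variable {F : Type*} [Field F] [Finite F] {m k : ℕ}

namespace UT

variable {T : UT F m k} {M : Subgroup (GL (Fin m × Fin k) F)} {c d : Fin k → F}

variable (T) in
/-- An isometry in the unipotent radical of the stabiliser of `V ⊗ c`. -/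
structure Rad (c d : Fin k → F) (r : GL (Fin m × Fin k) F) : Prop where
  iso : r ∈ isoH T.h
  fix : ∀ a, (r : Matrix (Fin m × Fin k) (Fin m × Fin k) F) *ᵥ vt a c = vt a c
  mid : ∀ X, T.rL c X = 0 → ∃ a, (r : Matrix (Fin m × Fin k) (Fin m × Fin k) F) *ᵥ X = X + vt a c

variable (T M) in
/-- Central elements of the radical in the group. -/
def Cn (c : Fin k → F) (Φ : (Fin m → F) →ₗ[F] (Fin m → F)) : Prop :=
  ∃ g ∈ M, ∀ X, (g : Matrix (Fin m × Fin k) (Fin m × Fin k) F) *ᵥ X = X + vt (Φ (T.rL c X)) c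

variable (T) in
/-- The Siegel element of the right factor. -/
noncomputable def sie (c z : Fin k → F) (β : F) : GL (Fin m × Fin k) F := kr 1 (usieg T.g c z β)

omit [Finite F] in
lemma sie_mulVec (hc : T.g c c = 0) {z : Fin k → F} (hz : T.g c z = 0) (β : F)
    (X : Fin m × Fin k → F) :
    (T.sie c z β : Matrix (Fin m × Fin k) (Fin m × Fin k) F) *ᵥ X =
      X + vt (β • T.rL c X + T.rL z X) c - vt (T.rL c X) z := by
  refine row_ext fun i => ?_
  rw [sie, kr_one_row, usieg_mulVec T.Hg hc hz, row_sub, row_add, row_vt, row_vt, T.rL_row]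
  simp only [Pi.add_apply, Pi.smul_apply, smul_eq_mul, T.rL_row]

omit [Finite F] in
lemma sie_mem [Finite F] (hc : T.g c c = 0) {z : Fin k → F} (hz : T.g c z = 0) {β : F}
    (hβ : β + T.σ β + T.g z z = 0) : T.sie c z β ∈ T.grp :=
  T.kr_mem_grp (one_mem _) (usieg_mem T.Hg hc hz hβ)

lemma exists_beta (z : Fin k → F) : ∃ β : F, β + T.σ β + T.g z z = 0 := by
  obtain ⟨β, hβ⟩ := exists_trace_eq T.Hg (a := -T.g z z) (by rw [map_neg, herm_self_fixed T.Hg])
  exact ⟨β, by rw [hβ, neg_add_cancel]⟩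

omit [Finite F] in
lemma rL_self (hc : T.g c c = 0) (a : Fin m → F) : T.rL c (vt a c) = 0 := by
  rw [T.rL_vt, hc, zero_smul]

omit [Finite F] in
lemma Rad.rL_eq {r : GL (Fin m × Fin k) F} (R : T.Rad c d r) (X : Fin m × Fin k → F) :
    T.rL c ((r : Matrix (Fin m × Fin k) (Fin m × Fin k) F) *ᵥ X) = T.rL c X := by
  refine sub_eq_zero.1 (by_contra fun h => ?_)
  obtain ⟨u, hu⟩ := (T.Hf.nondegenerate _ h).2
  refine hu ?_
  have e := R.iso X (vt u c)
  rw [R.fix, T.h_vt, T.h_vt] at e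
  rw [sub_eq_add_neg, T.Hf.add_left, herm_neg_left T.Hf, mul_left_cancel₀ T.c₀_ne e, add_neg_cancel]

omit [Finite F] in
lemma Rad.mid_eq (hP : HypPair T.g c d) {r : GL (Fin m × Fin k) F} (R : T.Rad c d r)
    {X : Fin m × Fin k → F} (hX : T.rL c X = 0) :
    (r : Matrix (Fin m × Fin k) (Fin m × Fin k) F) *ᵥ X = X +
      vt (T.rL d ((r : Matrix (Fin m × Fin k) (Fin m × Fin k) F) *ᵥ X - X)) c := by
  obtain ⟨a, ha⟩ := R.mid X hX
  rw [ha, add_sub_cancel_left, T.rL_vt, hP.uv, one_smul]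

omit [Finite F] in
/-- A radical element trivial on the orthogonal of `V ⊗ c` is central. -/
lemma Rad.central (hP : HypPair T.g c d) {r : GL (Fin m × Fin k) F} (R : T.Rad c d r)
    (htriv : ∀ X, T.rL c X = 0 → (r : Matrix (Fin m × Fin k) (Fin m × Fin k) F) *ᵥ X = X) :
    ∃ Φ : (Fin m → F) →ₗ[F] (Fin m → F),
      ∀ X, (r : Matrix (Fin m × Fin k) (Fin m × Fin k) F) *ᵥ X = X + vt (Φ (T.rL c X)) c := by
  set G := Matrix.toLin' (r : Matrix (Fin m × Fin k) (Fin m × Fin k) F) with hG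
  have hGa : ∀ X, G X = (r : Matrix (Fin m × Fin k) (Fin m × Fin k) F) *ᵥ X := fun X =>
    Matrix.toLin'_apply _ _
  have hgc := hP.uu
  refine ⟨T.rL d ∘ₗ (G - LinearMap.id) ∘ₗ vtL d, fun X => ?_⟩
  set v := T.rL c X
  have h0 : T.rL c (X - vt v d) = 0 := by
    rw [map_sub, T.rL_vt, hP.vu T.Hg, one_smul, sub_self]
  have h1 := htriv _ h0
  rw [mulVec_sub, sub_eq_iff_eq_add] at h1
  set D := (r : Matrix (Fin m × Fin k) (Fin m × Fin k) F) *ᵥ vt v d - vt v d with hD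
  suffices D = vt (T.rL d D) c by
    show _ = X + vt (T.rL d (G (vt v d) - vt v d)) c
    rw [hGa, ← hD, ← this, hD, h1]
    abel
  refine T.ext_h fun a z => ?_
  -- orthogonality to the orthogonal of `V ⊗ c`
  have key : ∀ Y, T.rL c Y = 0 → T.h D Y = 0 := fun Y hY => by
    have e := R.iso (vt v d) Y
    rw [htriv Y hY] at e
    rw [hD, sub_eq_add_neg, T.Hh.add_left, herm_neg_left T.Hh, e, add_neg_cancel]
  set z₀ := z + (-(T.g z c)) • d
  have hz₀ : T.g z₀ c = 0 := by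
    rw [T.Hg.add_left, T.Hg.smul_left, hP.vu T.Hg, mul_one, add_neg_cancel]
  have hz : z = z₀ + T.g z c • d := by simp only [z₀]; module
  have h2 : T.h D (vt a z₀) = 0 := key _ (by rw [T.rL_vt, hz₀, zero_smul])
  rw [hz, vt_add_right, vt_smul_right, herm_add_right T.Hh, herm_add_right T.Hh,
    herm_smul_right T.Hh, herm_smul_right T.Hh, h2, T.pair (T.rL d D) c a z₀,
    eq_zero_of_herm_self T.Hg hz₀, mul_zero, T.h_vt, T.pair, hP.uv, mul_one]

omit [Finite F] in
lemma exists_pr (hP : HypPair T.g c d) : ∃ pr : (Fin k → F) →ₗ[F] (Fin k → F),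
    ∀ x, pr x = x - T.g x d • c - T.g x c • d ∧ T.g (pr x) c = 0 ∧ T.g (pr x) d = 0 := by
  refine ⟨{ toFun := fun x => x - T.g x d • c - T.g x c • d
            map_add' := fun x y => by simp only [T.Hg.add_left]; module
            map_smul' := fun t x => by
              simp only [T.Hg.smul_left, RingHom.id_apply]; module }, fun x => ⟨rfl, ?_, ?_⟩⟩
  all_goals
    simp only [LinearMap.coe_mk, AddHom.coe_mk, sub_eq_add_neg, T.Hg.add_left, herm_neg_left T.Hg,
      T.Hg.smul_left, hP.uu, hP.vv, hP.uv, hP.vu T.Hg]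
    ring

/-- An element of the radical outside the product group. -/
theorem exists_rad (hm : 2 ≤ m) (hk : 5 ≤ k) (hHM : T.grp ≤ M)
    (hMG : M ≤ isoH T.h ⊓ specialLinear (Fin m × Fin k) F) {y : GL (Fin m × Fin k) F} (hy : y ∈ M)
    (hyH : y ∉ T.grp) (hP : HypPair T.g c d) (hc : c ≠ 0)
    (hstab : ∀ a, ∃ a', (y : Matrix (Fin m × Fin k) (Fin m × Fin k) F) *ᵥ vt a c = vt a' c) :
    ∃ r ∈ M, r ∉ T.grp ∧ T.Rad c d r := by
  classical
  haveI : NeZero m := ⟨by omega⟩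
  haveI : NeZero k := ⟨by omega⟩
  set G := Matrix.toLin' (y : Matrix (Fin m × Fin k) (Fin m × Fin k) F) with hG
  have hGa : ∀ X, G X = (y : Matrix (Fin m × Fin k) (Fin m × Fin k) F) *ᵥ X := fun X =>
    Matrix.toLin'_apply _ _
  choose φ hφ using hstab
  let A₀ : (Fin m → F) →ₗ[F] (Fin m → F) := T.rL d ∘ₗ G ∘ₗ vtL c
  have hA₀ : ∀ a, (y : Matrix (Fin m × Fin k) (Fin m × Fin k) F) *ᵥ vt a c = vt (A₀ a) c := fun a => by
    show _ = vt (T.rL d (G (vt a c))) c
    rw [hGa, hφ, T.rL_vt, hP.uv, one_smul]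
  obtain ⟨A, hA⟩ := exists_gl A₀ fun a b e => vtL_injective hc (gl_mulVec_injective y (by
    show _ *ᵥ vt a c = _ *ᵥ vt b c
    rw [hA₀, hA₀, e]))
  have hA' : ∀ a, (y : Matrix (Fin m × Fin k) (Fin m × Fin k) F) *ᵥ vt a c =
      vt ((A : Matrix (Fin m) (Fin m) F) *ᵥ a) c := fun a => by rw [hA₀, hA]
  have hyi := (hMG hy).1
  have hinv : ∀ a, ((y⁻¹ : GL (Fin m × Fin k) F) : Matrix (Fin m × Fin k) (Fin m × Fin k) F) *ᵥ
      vt ((A : Matrix (Fin m) (Fin m) F) *ᵥ a) c = vt a c := fun a => by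
    rw [← hA', inv_mulVec_mulVec]
  have hperp : ∀ X, T.rL c X = 0 →
      T.rL c ((y : Matrix (Fin m × Fin k) (Fin m × Fin k) F) *ᵥ X) = 0 := by
    intro X hX
    by_contra h
    obtain ⟨u, hu⟩ := (T.Hf.nondegenerate _ h).2
    refine hu ?_
    obtain ⟨a, ha⟩ : ∃ a, (A : Matrix (Fin m) (Fin m) F) *ᵥ a = u :=
      ⟨_, mulVec_inv_mulVec A u⟩
    have e := hyi X (vt a c)
    rw [hA', ha, T.h_vt, T.h_vt, hX, herm_zero_left T.Hf] at e
    exact mul_left_cancel₀ T.c₀_ne e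
  have hperp' : ∀ X, T.rL c X = 0 →
      T.rL c (((y⁻¹ : GL (Fin m × Fin k) F) : Matrix (Fin m × Fin k) (Fin m × Fin k) F) *ᵥ X) = 0 := by
    intro X hX
    by_contra h
    obtain ⟨u, hu⟩ := (T.Hf.nondegenerate _ h).2
    refine hu ?_
    have e := hyi (((y⁻¹ : GL (Fin m × Fin k) F) : Matrix (Fin m × Fin k) (Fin m × Fin k) F) *ᵥ X) (vt u c)
    rw [hA', mulVec_inv_mulVec, T.h_vt, T.h_vt, hX, herm_zero_left T.Hf] at e
    exact mul_left_cancel₀ T.c₀_ne e.symm
  by_cases hout : ∃ z β, T.g c z = 0 ∧ β + T.σ β + T.g z z = 0 ∧ y * T.sie c z β * y⁻¹ ∉ T.grp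
  · obtain ⟨z, β, hz, hβ, h⟩ := hout
    have hsM := hHM (sie_mem hP.uu hz hβ)
    refine ⟨_, M.mul_mem (M.mul_mem hy hsM) (M.inv_mem hy), h,
      (hMG (M.mul_mem (M.mul_mem hy hsM) (M.inv_mem hy))).1, fun a => ?_, fun X hX => ?_⟩
    · obtain ⟨b, rfl⟩ : ∃ b, (A : Matrix (Fin m) (Fin m) F) *ᵥ b = a := ⟨_, mulVec_inv_mulVec A a⟩
      rw [mul_mulVec', mul_mulVec', hinv, sie_mulVec hP.uu hz, rL_self hP.uu, smul_zero, zero_add,
        T.rL_vt, hz, zero_smul, vt_zero_left, vt_zero_left, add_zero, sub_zero, hA']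
    · refine ⟨(A : Matrix (Fin m) (Fin m) F) *ᵥ
        T.rL z (((y⁻¹ : GL (Fin m × Fin k) F) : Matrix (Fin m × Fin k) (Fin m × Fin k) F) *ᵥ X), ?_⟩
      rw [mul_mulVec', mul_mulVec', sie_mulVec hP.uu hz, hperp' X hX, smul_zero, zero_add,
        vt_zero_left, sub_zero, mulVec_add, mulVec_inv_mulVec, hA']
  push Not at hout
  -- the conjugates stay in the right factor
  have hzeta : ∀ z, T.g c z = 0 → ∃ z', T.g z' c = 0 ∧ ∀ Y, T.rL c Y = 0 →
      T.rL z' ((y : Matrix (Fin m × Fin k) (Fin m × Fin k) F) *ᵥ Y) =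
        (A : Matrix (Fin m) (Fin m) F) *ᵥ T.rL z Y := by
    intro z hz
    obtain ⟨β, hβ⟩ := exists_beta (T := T) z
    have hs := hout z β hz hβ
    obtain ⟨A₁, B₁, hAB⟩ := mem_kronecker.1 hs.1
    have hfix : ∀ a, (kr A₁ B₁ : Matrix (Fin m × Fin k) (Fin m × Fin k) F) *ᵥ vt a c = vt a c := by
      intro a
      obtain ⟨b, rfl⟩ : ∃ b, (A : Matrix (Fin m) (Fin m) F) *ᵥ b = a := ⟨_, mulVec_inv_mulVec A a⟩
      rw [← hAB, mul_mulVec', mul_mulVec', hinv, sie_mulVec hP.uu hz, rL_self hP.uu, smul_zero,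
        zero_add, T.rL_vt, hz, zero_smul, vt_zero_left, vt_zero_left, add_zero, sub_zero, hA']
    set B₁c := (B₁ : Matrix (Fin k) (Fin k) F) *ᵥ c
    have h1 : ∀ a, vt ((A₁ : Matrix (Fin m) (Fin m) F) *ᵥ a) B₁c = vt a c := fun a => by
      rw [← hfix a, kr_vt]
    obtain ⟨j, hj⟩ := Function.ne_iff.1 hc
    have hpt : ∀ a i, ((A₁ : Matrix (Fin m) (Fin m) F) *ᵥ a) i * B₁c j = a i * c j := fun a i =>
      congrFun (h1 a) (i, j)
    have hs0 : B₁c j ≠ 0 := fun e => hj (by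
      have := hpt (Pi.single 0 1) 0
      simpa [e] using this.symm)
    set t := c j / B₁c j
    have ht : t ≠ 0 := div_ne_zero hj hs0
    have hA₁ : ∀ a, (A₁ : Matrix (Fin m) (Fin m) F) *ᵥ a = t • a := fun a => funext fun i => by
      simp only [t, Pi.smul_apply, smul_eq_mul]
      field_simp
      linear_combination hpt a i
    set B : GL (Fin k) F := sc k (Units.mk0 t ht) * B₁
    have hsB : y * T.sie c z β * y⁻¹ = kr 1 B := by
      rw [hAB, show (1 : GL (Fin m) F) = sc m (Units.mk0 t ht)⁻¹ * A₁ from gl_ext fun v => by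
        rw [mul_mulVec', hA₁, sc_val, smul_mulVec, one_mulVec, Units.val_inv_eq_inv_val,
          Units.val_mk0, inv_smul_smul₀ ht, Units.val_one, one_mulVec], ← kr_mul, kr_sc, one_mul]
    have hBiso : ∀ u v, T.g ((B : Matrix (Fin k) (Fin k) F) *ᵥ u) ((B : Matrix (Fin k) (Fin k) F) *ᵥ v) =
        T.g u v := by
      intro u v
      obtain ⟨b, -, hb⟩ := exists_anisotropic T.Hf (W := ⊤)
        (fun w _ hw => by
          obtain ⟨⟨a, ha⟩, b, hb⟩ := T.Hf.nondegenerate w hw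
          exact ⟨⟨a, trivial, ha⟩, b, trivial, hb⟩) top_ne_bot
      have h := hs.2.1
      rw [hsB] at h
      have := h (vt b u) (vt b v)
      rw [kr_vt, kr_vt, Units.val_one, one_mulVec, T.pair, T.pair] at this
      exact mul_left_cancel₀ (mul_ne_zero T.c₀_ne hb) this
    have hBc : (B : Matrix (Fin k) (Fin k) F) *ᵥ c = c := by
      refine vtR_injective (F := F) (v := (Pi.single 0 1 : Fin m → F))
        (fun h => by simpa using congrFun h 0) ?_
      show vt _ _ = vt _ _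
      conv_rhs => rw [← hfix]
      rw [← hAB, hsB, kr_vt, Units.val_one, one_mulVec]
    refine ⟨((B⁻¹ : GL (Fin k) F) : Matrix (Fin k) (Fin k) F) *ᵥ d - d, ?_, fun Y hY => ?_⟩
    · have := hBiso (((B⁻¹ : GL (Fin k) F) : Matrix (Fin k) (Fin k) F) *ᵥ d) c
      rw [mulVec_inv_mulVec, hBc] at this
      rw [sub_eq_add_neg, T.Hg.add_left, herm_neg_left T.Hg, ← this, add_neg_cancel]
    · set X := (y : Matrix (Fin m × Fin k) (Fin m × Fin k) F) *ᵥ Y
      have e := sie_mulVec (T := T) hP.uu hz β Y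
      rw [hY, smul_zero, zero_add, vt_zero_left, sub_zero] at e
      have e2 : ((y * T.sie c z β * y⁻¹ : GL (Fin m × Fin k) F) :
          Matrix (Fin m × Fin k) (Fin m × Fin k) F) *ᵥ X =
          X + vt ((A : Matrix (Fin m) (Fin m) F) *ᵥ T.rL z Y) c := by
        rw [mul_mulVec', mul_mulVec', inv_mulVec_mulVec, e, mulVec_add, hA']
      rw [hsB] at e2
      funext i
      have e3 := congrArg (fun W => row W i) e2
      simp only [kr_one_row, row_add, row_vt] at e3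
      have e4 : T.g ((B : Matrix (Fin k) (Fin k) F) *ᵥ row X i - row X i) d =
          ((A : Matrix (Fin m) (Fin m) F) *ᵥ T.rL z Y) i := by
        rw [e3, add_sub_cancel_left, T.Hg.smul_left, hP.uv, mul_one]
      rw [← e4, T.rL_row]
      rw [sub_eq_add_neg, sub_eq_add_neg, T.Hg.add_left, herm_neg_left T.Hg,
        herm_add_right T.Hg, herm_neg_right T.Hg]
      have e5 := hBiso (row X i) (((B⁻¹ : GL (Fin k) F) : Matrix (Fin k) (Fin k) F) *ᵥ d)
      rw [mulVec_inv_mulVec] at e5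
      rw [e5]
  choose! ζ hζc hζ using hzeta
  have nd : ∀ u, T.g u c = 0 → (∀ z, T.g c z = 0 → T.g u (ζ z) = 0) → ∃ s : F, u = s • c := by
    intro u hu h
    set X := ((y⁻¹ : GL (Fin m × Fin k) F) : Matrix (Fin m × Fin k) (Fin m × Fin k) F) *ᵥ
      vt (Pi.single 0 1 : Fin m → F) u
    have hX : T.rL c X = 0 := hperp' _ (by rw [T.rL_vt, hu, zero_smul])
    have hrow : ∀ i, ∃ s : F, row X i = s • c := by
      intro i
      have hmem : row X i ∈ Submodule.span F (Set.range ![c]) := by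
        refine mem_span_of_perp T.Hg fun z hz => ?_
        have hzc : T.g c z = 0 := eq_zero_of_herm_self T.Hg (hz 0)
        have e := hζ z hzc X hX
        rw [mulVec_inv_mulVec, T.rL_vt, h z hzc, zero_smul] at e
        have e0 := gl_mulVec_injective A (e.symm.trans (mulVec_zero _).symm)
        have e1 := congrFun e0 i
        rw [T.rL_row, Pi.zero_apply] at e1
        exact eq_zero_of_herm_self T.Hg e1
      obtain ⟨w, hw⟩ := (Submodule.mem_span_range_iff_exists_fun F).1 hmem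
      exact ⟨w 0, by rw [← hw]; simp⟩
    choose s hs using hrow
    have hXs : X = vt s c := row_ext fun i => by rw [hs, row_vt]
    have e : vt (Pi.single 0 1 : Fin m → F) u = vt ((A : Matrix (Fin m) (Fin m) F) *ᵥ s) c := by
      rw [← hA', ← hXs, mulVec_inv_mulVec]
    have := congrArg (fun W => row W 0) e
    simp only [row_vt, Pi.single_eq_same, one_smul] at this
    exact ⟨_, this⟩
  obtain ⟨pr, hpr⟩ := exists_pr hP
  set a₁ : Fin m → F := Pi.single 0 1 with ha₁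
  have hA1 : (A : Matrix (Fin m) (Fin m) F) *ᵥ a₁ ≠ 0 := fun h => by
    simpa [ha₁] using congrFun (gl_mulVec_injective A (h.trans (mulVec_zero _).symm)) 0
  obtain ⟨i₁, hi₁⟩ := Function.ne_iff.1 hA1
  let B₀ : (Fin k → F) →ₗ[F] (Fin k → F) := pr ∘ₗ
    ((((A : Matrix (Fin m) (Fin m) F) *ᵥ a₁) i₁)⁻¹ • (rowL i₁ ∘ₗ G ∘ₗ vtR a₁ :
      (Fin k → F) →ₗ[F] (Fin k → F)))
  have hB₀v : ∀ x, B₀ x = pr ((((A : Matrix (Fin m) (Fin m) F) *ᵥ a₁) i₁)⁻¹ •
      row ((y : Matrix (Fin m × Fin k) (Fin m × Fin k) F) *ᵥ vt a₁ x) i₁) := fun x => by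
    rw [← hGa]
    rfl
  have hrowc : ∀ v x, T.g x c = 0 → ∀ i,
      T.g (row ((y : Matrix (Fin m × Fin k) (Fin m × Fin k) F) *ᵥ vt v x) i) c = 0 := by
    intro v x hx i
    have := congrFun (hperp (vt v x) (by rw [T.rL_vt, hx, zero_smul])) i
    rwa [T.rL_row] at this
  have hB₀z : ∀ x, T.g x c = 0 → ∀ z, T.g c z = 0 → T.g (B₀ x) (ζ z) = T.g x z := by
    intro x hx z hz
    rw [hB₀v, (hpr _).1]
    simp only [sub_eq_add_neg, T.Hg.add_left, herm_neg_left T.Hg, T.Hg.smul_left,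
      hrowc a₁ x hx i₁, eq_zero_of_herm_self T.Hg (hζc z hz)]
    have e := congrFun (hζ z hz (vt a₁ x) (by rw [T.rL_vt, hx, zero_smul])) i₁
    rw [T.rL_row, T.rL_vt, mulVec_smul, Pi.smul_apply, smul_eq_mul] at e
    rw [e]
    have hi₁' : ((A : Matrix (Fin m) (Fin m) F) *ᵥ a₁) i₁ ≠ 0 := hi₁
    field_simp
    ring
  have hmid : ∀ x, T.g x c = 0 → ∀ v, ∃ s, (y : Matrix (Fin m × Fin k) (Fin m × Fin k) F) *ᵥ vt v x =
      vt ((A : Matrix (Fin m) (Fin m) F) *ᵥ v) (B₀ x) + vt s c := by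
    intro x hx v
    set Z := (y : Matrix (Fin m × Fin k) (Fin m × Fin k) F) *ᵥ vt v x with hZ
    have hrow : ∀ i, ∃ s : F, row Z i - ((A : Matrix (Fin m) (Fin m) F) *ᵥ v) i • B₀ x = s • c := by
      intro i
      refine nd _ ?_ fun z hz => ?_
      · rw [sub_eq_add_neg, T.Hg.add_left, herm_neg_left T.Hg, T.Hg.smul_left, hrowc v x hx i,
          hB₀v, (hpr _).2.1, mul_zero, neg_zero, add_zero]
      · have e := congrFun (hζ z hz (vt v x) (by rw [T.rL_vt, hx, zero_smul])) i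
        rw [T.rL_row, T.rL_vt, mulVec_smul, Pi.smul_apply, smul_eq_mul] at e
        rw [sub_eq_add_neg, T.Hg.add_left, herm_neg_left T.Hg, T.Hg.smul_left, hB₀z x hx z hz, hZ, e]
        ring
    choose s hs using hrow
    exact ⟨s, row_ext fun i => by rw [row_add, row_vt, row_vt, ← hs]; abel⟩
  have hsim : ∀ x x', T.g x c = 0 → T.g x' c = 0 → ∀ v w,
      T.f ((A : Matrix (Fin m) (Fin m) F) *ᵥ v) ((A : Matrix (Fin m) (Fin m) F) *ᵥ w) *
        T.g (B₀ x) (B₀ x') = T.f v w * T.g x x' := by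
    intro x x' hx hx' v w
    obtain ⟨s, hs⟩ := hmid x hx v
    obtain ⟨s', hs'⟩ := hmid x' hx' w
    have e := hyi (vt v x) (vt w x')
    have hBc : ∀ x, T.g (B₀ x) c = 0 ∧ T.g c (B₀ x) = 0 := fun x => by
      rw [hB₀v]; exact ⟨(hpr _).2.1, eq_zero_of_herm_self T.Hg (hpr _).2.1⟩
    rw [hs, hs', T.Hh.add_left, herm_add_right T.Hh, herm_add_right T.Hh, T.pair, T.pair, T.pair,
      T.pair, T.pair, hP.uu, (hBc x).1, (hBc x').2, mul_zero, mul_zero, mul_zero, add_zero, add_zero,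
      add_zero, mul_assoc, mul_assoc] at e
    exact mul_left_cancel₀ T.c₀_ne e
  obtain ⟨x₀, hx₀c, hx₀⟩ : ∃ x, T.g x c = 0 ∧ T.g x x ≠ 0 := by
    obtain ⟨z, hzc, -⟩ : ∃ z, T.g z c = 0 ∧ True := ⟨0, herm_zero_left T.Hg _, trivial⟩
    obtain ⟨x, -, hx⟩ := exists_anisotropic T.Hg (W := ⊤)
      (fun w _ hw => by
        obtain ⟨⟨a, ha⟩, b, hb⟩ := T.Hg.nondegenerate w hw
        exact ⟨⟨a, trivial, ha⟩, b, trivial, hb⟩) top_ne_bot
    by_contra hcon
    push Not at hcon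
    -- the orthogonal of `c` is not totally isotropic
    have htot : ∀ u ∈ perp T.Hg ![c], ∀ v ∈ perp T.Hg ![c], T.g u v = 0 := by
      intro u hu v hv'
      by_contra huv
      obtain ⟨r, hr⟩ := exists_trace_ne_zero T.Hg
      have := hcon _ ((add_mem (Submodule.smul_mem _ (r / T.g u v) hu) hv') 0)
      simp only [T.Hg.add_left, T.Hg.smul_left, herm_add_right T.Hg, herm_smul_right T.Hg,
        hcon u (hu 0), hcon v (hv' 0), T.Hg.herm v u, mul_zero, add_zero, zero_add, map_div₀] at this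
      have hσ : T.σ (T.g u v) ≠ 0 := by simpa using huv
      field_simp at this
      exact hr (by linear_combination this)
    have hle : perp T.Hg ![c] ≤ Submodule.span F (Set.range ![c]) := fun u hu =>
      mem_span_of_perp T.Hg fun v hv' => htot v hv' u hu
    have h1 := Submodule.finrank_mono hle
    have h2 := finrank_perp T.Hg ![c]
    have h3 : Module.finrank F (Submodule.span F (Set.range ![c])) ≤ 1 :=
      (finrank_range_le_card ![c]).trans (by simp)
    rw [Fintype.card_fin] at h2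
    omega
  obtain ⟨v₀, hv₀⟩ : ∃ v, T.f v v ≠ 0 := by
    obtain ⟨x, -, hx⟩ := exists_anisotropic T.Hf (W := ⊤)
      (fun w _ hw => by
        obtain ⟨⟨a, ha⟩, b, hb⟩ := T.Hf.nondegenerate w hw
        exact ⟨⟨a, trivial, ha⟩, b, trivial, hb⟩) top_ne_bot
    exact ⟨x, hx⟩
  set ν := T.g (B₀ x₀) (B₀ x₀) / T.g x₀ x₀ with hν
  have h00 := hsim x₀ x₀ hx₀c hx₀c v₀ v₀
  have hν0 : ν ≠ 0 := by
    refine div_ne_zero (fun e => ?_) hx₀
    rw [e, mul_zero] at h00
    exact mul_ne_zero hv₀ hx₀ h00.symm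
  have hAsim : ∀ v w, T.f ((A : Matrix (Fin m) (Fin m) F) *ᵥ v) ((A : Matrix (Fin m) (Fin m) F) *ᵥ w) =
      ν⁻¹ * T.f v w := fun v w => by
    have e := hsim x₀ x₀ hx₀c hx₀c v w
    have hb : T.g (B₀ x₀) (B₀ x₀) ≠ 0 := fun e' => hν0 (by rw [hν, e', zero_div])
    rw [hν]
    field_simp
    linear_combination e
  have hνσ : T.σ ν = ν := by rw [hν, map_div₀, herm_self_fixed T.Hg, herm_self_fixed T.Hg]
  have hBsim : ∀ x x', T.g x c = 0 → T.g x' c = 0 → T.g (B₀ x) (B₀ x') = ν * T.g x x' := by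
    intro x x' hx hx'
    have e := hsim x x' hx hx' v₀ v₀
    rw [hAsim] at e
    field_simp at e
    exact e
  let BL : (Fin k → F) →ₗ[F] (Fin k → F) :=
    ({ toFun := fun x => T.g x d • c + (ν * T.g x c) • d
       map_add' := fun x y => by simp only [T.Hg.add_left]; module
       map_smul' := fun t x => by simp only [T.Hg.smul_left, RingHom.id_apply]; module } :
      (Fin k → F) →ₗ[F] (Fin k → F)) + B₀ ∘ₗ pr
  have hBL : ∀ x, BL x = T.g x d • c + (ν * T.g x c) • d + B₀ (pr x) := fun x => rfl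
  have hBLsim : ∀ x x', T.g (BL x) (BL x') = ν * T.g x x' := by
    intro x x'
    have hb : ∀ u, T.g (B₀ u) c = 0 ∧ T.g (B₀ u) d = 0 ∧ T.g c (B₀ u) = 0 ∧ T.g d (B₀ u) = 0 :=
      fun u => by
        rw [hB₀v]
        exact ⟨(hpr _).2.1, (hpr _).2.2, eq_zero_of_herm_self T.Hg (hpr _).2.1,
          eq_zero_of_herm_self T.Hg (hpr _).2.2⟩
    simp only [hBL, T.Hg.add_left, T.Hg.smul_left, herm_add_right T.Hg, herm_smul_right T.Hg,
      hP.uu, hP.vv, hP.uv, hP.vu T.Hg, (hb (pr x)).1, (hb (pr x)).2.1, (hb (pr x')).2.2.1,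
      (hb (pr x')).2.2.2, hBsim _ _ (hpr x).2.1 (hpr x').2.1, map_mul, hνσ]
    rw [(hpr x).1, (hpr x').1]
    simp only [sub_eq_add_neg, T.Hg.add_left, herm_neg_left T.Hg, T.Hg.smul_left,
      herm_add_right T.Hg, herm_neg_right T.Hg, herm_smul_right T.Hg, hP.uu, hP.vv, hP.uv,
      hP.vu T.Hg, T.Hg.herm c x', T.Hg.herm d x']
    ring
  obtain ⟨B, hB⟩ := exists_gl BL fun x x' e => by
    by_contra hne
    obtain ⟨w, hw⟩ := (T.Hg.nondegenerate _ (sub_ne_zero.2 hne)).2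
    refine hw ?_
    have := hBLsim (x - x') w
    rw [map_sub, e, sub_self, herm_zero_left T.Hg] at this
    exact (mul_eq_zero.1 this.symm).resolve_left hν0
  have hn : kr A B ∈ isoH T.h := T.kr_iso (inv_mul_cancel₀ hν0) hAsim fun z w => by
    rw [hB, hB, hBLsim]
  set r := (kr A B)⁻¹ * y with hr
  have hBc : (B : Matrix (Fin k) (Fin k) F) *ᵥ c = c := by
    rw [hB, hBL, hP.uv, hP.uu, (hpr c).1, hP.uv, hP.uu, one_smul, mul_zero, zero_smul, sub_self,
      zero_sub, neg_zero, map_zero, add_zero, add_zero]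
  have R : T.Rad c d r := by
    refine ⟨mul_mem (inv_mem hn) hyi, fun a => ?_, fun X hX => ?_⟩
    · rw [hr, mul_mulVec', hA',
        show vt ((A : Matrix (Fin m) (Fin m) F) *ᵥ a) c = _ *ᵥ vt a c from by rw [kr_vt, hBc],
        inv_mulVec_mulVec]
    · have hone : ∀ v u, T.g u c = 0 → ∃ a,
          (r : Matrix (Fin m × Fin k) (Fin m × Fin k) F) *ᵥ vt v u = vt v u + vt a c := by
        intro v u hu
        obtain ⟨s, hs⟩ := hmid (pr u) (hpr u).2.1 v
        refine ⟨((A⁻¹ : GL (Fin m) F) : Matrix (Fin m) (Fin m) F) *ᵥ s, ?_⟩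
        have hu' : u = T.g u d • c + pr u := by rw [(hpr u).1, hu, zero_smul]; abel
        refine gl_mulVec_injective (kr A B) ?_
        beta_reduce
        rw [hr, mul_mulVec', mulVec_inv_mulVec]
        conv_lhs => rw [hu', vt_add_right, vt_smul_right, mulVec_add, mulVec_smul, hA', hs]
        rw [mulVec_add, kr_vt, kr_vt, hBc, mulVec_inv_mulVec, hB, hBL, hu, mul_zero, zero_smul,
          add_zero, vt_add_right, vt_smul_right, add_assoc]
      have hrow : ∀ i, T.g (row X i) c = 0 := fun i => by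
        have := congrFun hX i
        rwa [T.rL_row] at this
      choose a ha using fun i => hone (Pi.single i 1) (row X i) (hrow i)
      refine ⟨∑ i, a i, ?_⟩
      conv_lhs => rw [sum_rows X, mulVec_sum]
      simp only [ha]
      rw [Finset.sum_add_distrib, ← sum_rows]
      congr 1
      exact (map_sum (vtL (m := m) c) a Finset.univ).symm
  obtain ⟨p, hpc⟩ := CharP.exists F
  haveI : Fact p.Prime := ⟨CharP.char_is_prime F p⟩
  -- the element is unipotent
  have hdet : (r : Matrix (Fin m × Fin k) (Fin m × Fin k) F).det = 1 := by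
    set N : Matrix (Fin m × Fin k) (Fin m × Fin k) F := (r : Matrix _ _ F) - 1 with hN
    have hN3 : N ^ 3 = 0 := Matrix.ext_iff_mulVec.2 fun x => by
      have e : ∀ x, N *ᵥ x = (r : Matrix (Fin m × Fin k) (Fin m × Fin k) F) *ᵥ x - x := fun x => by
        rw [hN, sub_mulVec, one_mulVec]
      rw [pow_succ, pow_two, ← mulVec_mulVec, ← mulVec_mulVec, zero_mulVec]
      have h0 : T.rL c (N *ᵥ x) = 0 := by rw [e, map_sub, R.rL_eq, sub_self]
      obtain ⟨a, ha⟩ := R.mid _ h0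
      rw [e (N *ᵥ x), ha, add_sub_cancel_left, e, R.fix, sub_self]
    have hp3 : 3 ≤ p ^ 2 := le_trans (by norm_num) (Nat.pow_le_pow_left (Fact.out : p.Prime).two_le 2)
    haveI : Nonempty (Fin m × Fin k) := ⟨(0, ⟨0, by omega⟩)⟩
    have hrp : (r : Matrix (Fin m × Fin k) (Fin m × Fin k) F) ^ p ^ 2 = 1 := by
      have h := sub_pow_char_pow_of_commute (p := p) (n := 2)
        (Commute.one_right (r : Matrix (Fin m × Fin k) (Fin m × Fin k) F))
      rw [← hN, pow_eq_zero_of_le hp3 hN3, one_pow, eq_comm, sub_eq_zero] at h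
      exact h
    have h := congrArg Matrix.det hrp
    rw [Matrix.det_pow, Matrix.det_one] at h
    refine (iterateFrobenius F p 2).injective ?_
    rw [iterateFrobenius_def, iterateFrobenius_def, h, one_pow]
  have hnH : kr A B ∈ T.grp := by
    refine ⟨mem_kronecker.2 ⟨A, B, rfl⟩, hn, ?_⟩
    show kr A B ∈ specialLinear _ F
    rw [mem_specialLinear]
    have h := congrArg (fun g : GL (Fin m × Fin k) F => (g : Matrix (Fin m × Fin k) (Fin m × Fin k) F).det)
      (show kr A B * r = y by rw [hr, mul_inv_cancel_left])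
    simp only [Units.val_mul, Matrix.det_mul, hdet, mul_one, det_of_mem (hMG hy).2] at h
    exact h
  exact ⟨r, M.mul_mem (M.inv_mem (hHM hnH)) hy, fun h => hyH (by
    have := mul_mem hnH h
    rwa [hr, mul_inv_cancel_left] at this), R⟩

/-- A non-scalar central element. -/
theorem exists_central (hm : 2 ≤ m) (hk : 5 ≤ k) (hHM : T.grp ≤ M)
    (hMG : M ≤ isoH T.h ⊓ specialLinear (Fin m × Fin k) F) {r : GL (Fin m × Fin k) F} (hr : r ∈ M)
    (hrH : r ∉ T.grp) (hP : HypPair T.g c d) (hc : c ≠ 0) (R : T.Rad c d r) :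
    ∃ Φ, T.Cn M c Φ ∧ ¬ ∃ a : F, ∀ v, Φ v = a • v := by
  classical
  haveI : NeZero m := ⟨by omega⟩
  haveI : NeZero k := ⟨by omega⟩
  set G := Matrix.toLin' (r : Matrix (Fin m × Fin k) (Fin m × Fin k) F) with hG
  have hGa : ∀ X, G X = (r : Matrix (Fin m × Fin k) (Fin m × Fin k) F) *ᵥ X := fun X =>
    Matrix.toLin'_apply _ _
  let L : (Fin m × Fin k → F) →ₗ[F] (Fin m → F) := T.rL d ∘ₗ (G - LinearMap.id)
  have hL : ∀ X, T.rL c X = 0 →
      (r : Matrix (Fin m × Fin k) (Fin m × Fin k) F) *ᵥ X = X + vt (L X) c := fun X hX => by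
    rw [R.mid_eq hP hX]
    show _ = X + vt (T.rL d (G X - X)) c
    rw [hGa]
  -- commutators
  have comm : ∀ z, T.g c z = 0 → T.g d z = 0 → ∃ Φ, T.Cn M c Φ ∧
      ∀ v u, T.f (Φ v) u = T.f v (L (vt u z)) - T.f (L (vt v z)) u := by
    intro z hz hdz
    obtain ⟨β, hβ⟩ := exists_beta (T := T) z
    set w := T.sie c z β with hw
    have hwM := hHM (sie_mem (T := T) hP.uu hz hβ)
    set t := r * w * r⁻¹ * w⁻¹ with ht
    have htM : t ∈ M := M.mul_mem (M.mul_mem (M.mul_mem hr hwM) (M.inv_mem hr)) (M.inv_mem hwM)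
    have hzc : T.g z c = 0 := eq_zero_of_herm_self T.Hg hz
    have hwW : ∀ a, (w : Matrix (Fin m × Fin k) (Fin m × Fin k) F) *ᵥ vt a c = vt a c := fun a => by
      rw [hw, sie_mulVec hP.uu hz, rL_self hP.uu, smul_zero, zero_add, T.rL_vt, hz, zero_smul,
        vt_zero_left, vt_zero_left, add_zero, sub_zero]
    have hwmid : ∀ X, T.rL c X = 0 →
        (w : Matrix (Fin m × Fin k) (Fin m × Fin k) F) *ᵥ X = X + vt (T.rL z X) c := fun X hX => by
      rw [hw, sie_mulVec hP.uu hz, hX, smul_zero, zero_add, vt_zero_left, sub_zero]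
    have hwinv : ∀ X, T.rL c X = 0 →
        T.rL c (((w⁻¹ : GL (Fin m × Fin k) F) : Matrix (Fin m × Fin k) (Fin m × Fin k) F) *ᵥ X) = 0 := by
      intro X hX
      set Y := ((w⁻¹ : GL (Fin m × Fin k) F) : Matrix (Fin m × Fin k) (Fin m × Fin k) F) *ᵥ X
      have e : (w : Matrix (Fin m × Fin k) (Fin m × Fin k) F) *ᵥ Y = X := mulVec_inv_mulVec _ _
      rw [← e, hw, sie_mulVec hP.uu hz, map_sub, map_add, rL_self hP.uu, T.rL_vt, hzc, zero_smul,
        add_zero, sub_zero] at hX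
      exact hX
    have hrinv : ∀ X, T.rL c X = 0 →
        T.rL c (((r⁻¹ : GL (Fin m × Fin k) F) : Matrix (Fin m × Fin k) (Fin m × Fin k) F) *ᵥ X) = 0 := by
      intro X hX
      rw [← R.rL_eq, mulVec_inv_mulVec, hX]
    have htriv : ∀ X, T.rL c X = 0 → (t : Matrix (Fin m × Fin k) (Fin m × Fin k) F) *ᵥ X = X := by
      intro X hX
      set Y := ((r⁻¹ : GL (Fin m × Fin k) F) : Matrix (Fin m × Fin k) (Fin m × Fin k) F) *ᵥ
        (((w⁻¹ : GL (Fin m × Fin k) F) : Matrix (Fin m × Fin k) (Fin m × Fin k) F) *ᵥ X) with hY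
      have hY0 : T.rL c Y = 0 := hrinv _ (hwinv _ hX)
      have hX' : X = (w : Matrix (Fin m × Fin k) (Fin m × Fin k) F) *ᵥ
          ((r : Matrix (Fin m × Fin k) (Fin m × Fin k) F) *ᵥ Y) := by
        rw [hY, mulVec_inv_mulVec, mulVec_inv_mulVec]
      rw [ht, mul_mulVec', mul_mulVec', mul_mulVec', ← hY]
      conv_rhs => rw [hX']
      rw [hwmid _ hY0, hL _ hY0, mulVec_add, mulVec_add, hwW, hL _ hY0, hwmid _ hY0, R.fix]
      abel
    have tR : T.Rad c d t := ⟨(hMG htM).1, fun a => htriv _ (rL_self hP.uu a),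
      fun X hX => ⟨0, by rw [htriv X hX, vt_zero_left, add_zero]⟩⟩
    obtain ⟨Φ, hΦ⟩ := tR.central hP htriv
    refine ⟨Φ, ⟨t, htM, hΦ⟩, fun v u => ?_⟩
    set X := vt v d
    have hvz : T.rL c (vt v z) = 0 := by rw [T.rL_vt, hzc, zero_smul]
    have huz : T.rL c (vt u z) = 0 := by rw [T.rL_vt, hzc, zero_smul]
    have hXc : T.rL c X = v := by rw [T.rL_vt, hP.vu T.Hg, one_smul]
    set q := T.rL z ((r : Matrix (Fin m × Fin k) (Fin m × Fin k) F) *ᵥ X)
    have e1 : (r : Matrix (Fin m × Fin k) (Fin m × Fin k) F) *ᵥ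
        ((w : Matrix (Fin m × Fin k) (Fin m × Fin k) F) *ᵥ X) =
          (r : Matrix (Fin m × Fin k) (Fin m × Fin k) F) *ᵥ X + vt (β • v) c -
            (vt v z + vt (L (vt v z)) c) := by
      rw [hw, sie_mulVec hP.uu hz, hXc, T.rL_vt, hdz, zero_smul, add_zero, mulVec_sub, mulVec_add,
        R.fix, hL _ hvz]
    have e2 : (w : Matrix (Fin m × Fin k) (Fin m × Fin k) F) *ᵥ
        ((r : Matrix (Fin m × Fin k) (Fin m × Fin k) F) *ᵥ X) =
          (r : Matrix (Fin m × Fin k) (Fin m × Fin k) F) *ᵥ X + vt (β • v + q) c - vt v z := by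
      rw [hw, sie_mulVec hP.uu hz, R.rL_eq, hXc]
    set Z := (w : Matrix (Fin m × Fin k) (Fin m × Fin k) F) *ᵥ
      ((r : Matrix (Fin m × Fin k) (Fin m × Fin k) F) *ᵥ X)
    have e3 : (t : Matrix (Fin m × Fin k) (Fin m × Fin k) F) *ᵥ Z =
        (r : Matrix (Fin m × Fin k) (Fin m × Fin k) F) *ᵥ
          ((w : Matrix (Fin m × Fin k) (Fin m × Fin k) F) *ᵥ X) := by
      rw [ht, mul_mulVec', mul_mulVec', mul_mulVec', inv_mulVec_mulVec, inv_mulVec_mulVec]
    have hZc : T.rL c Z = v := by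
      rw [e2, map_sub, map_add, rL_self hP.uu, hvz, R.rL_eq, hXc, add_zero, sub_zero]
    rw [hΦ, hZc, e1] at e3
    have e4 : Φ v = -q - L (vt v z) := by
      refine vtL_injective hc ?_
      show vt (Φ v) c = vt (-q - L (vt v z)) c
      rw [e2] at e3
      have h := e3
      funext i
      have hi := congrFun h i
      simp only [vt, Pi.add_apply, Pi.sub_apply, Pi.neg_apply] at hi ⊢
      linear_combination hi
    have e5 : T.f q u = -T.f v (L (vt u z)) := by
      have e := R.iso X (vt u z)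
      rw [hL _ huz, herm_add_right T.Hh, T.h_vt, T.h_vt, R.rL_eq, hXc, T.h_vt, T.rL_vt, hdz,
        zero_smul, herm_zero_left T.Hf, mul_zero] at e
      refine eq_neg_of_add_eq_zero_left (mul_left_cancel₀ T.c₀_ne ?_)
      rw [mul_zero, mul_add]
      exact e
    rw [e4, sub_eq_add_neg, T.Hf.add_left, herm_neg_left T.Hf, herm_neg_left T.Hf, e5]
    ring
  by_contra hcon
  push Not at hcon
  have hscal : ∀ z, T.g c z = 0 → T.g d z = 0 → ∃ a : F, ∀ v, L (vt v z) = a • v := by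
    intro z hz hdz
    obtain ⟨s, hs⟩ : ∃ x : F, T.σ x ≠ x := by
      by_contra h; push Not at h
      exact T.Hg.ne_refl (RingEquiv.ext h)
    obtain ⟨Φ, hΦ, e⟩ := comm z hz hdz
    obtain ⟨Φ', hΦ', e'⟩ := comm (s • z) (by rw [herm_smul_right T.Hg, hz, mul_zero])
      (by rw [herm_smul_right T.Hg, hdz, mul_zero])
    obtain ⟨a, ha⟩ := hcon Φ hΦ
    obtain ⟨b, hb⟩ := hcon Φ' hΦ'
    refine ⟨(T.σ s * a - b) / (s - T.σ s), fun v => sub_eq_zero.1 (by_contra fun h => ?_)⟩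
    obtain ⟨u, hu⟩ := (T.Hf.nondegenerate _ h).2
    refine hu ?_
    have e1 := e v u
    have e2 := e' v u
    rw [ha, T.Hf.smul_left] at e1
    rw [hb, T.Hf.smul_left] at e2
    simp only [vt_smul_right, map_smul, T.Hf.smul_left, herm_smul_right T.Hf] at e2
    rw [sub_eq_add_neg, T.Hf.add_left, herm_neg_left T.Hf, T.Hf.smul_left]
    have hne : s - T.σ s ≠ 0 := sub_ne_zero.2 (Ne.symm hs)
    field_simp
    linear_combination e2 - T.σ s * e1
  obtain ⟨pr, hpr⟩ := exists_pr hP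
  set a₁ : Fin m → F := Pi.single 0 1 with ha₁
  have ha10 : a₁ 0 = 1 := by simp [ha₁]
  let lam : (Fin k → F) →ₗ[F] F := LinearMap.proj 0 ∘ₗ L ∘ₗ vtR a₁ ∘ₗ pr
  obtain ⟨z₀, hz₀⟩ := hv_surjective T.Hg (fun j => lam (Pi.single j 1))
  have hlam : ∀ x, lam x = T.g x z₀ := fun x => by
    rw [← hv_dot T.Hg, hz₀]
    conv_lhs => rw [show x = ∑ j, x j • (Pi.single j (1 : F) : Fin k → F) from pi_eq_sum_univ' x]
    rw [map_sum]
    simp [dotProduct, mul_comm]
  have hprc : pr c = 0 := by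
    rw [(hpr c).1, hP.uv, hP.uu, one_smul, zero_smul, sub_self, zero_sub, neg_zero]
  have hprd : pr d = 0 := by
    rw [(hpr d).1, hP.vv, hP.vu T.Hg, one_smul, zero_smul, sub_zero, sub_self]
  have hcz₀ : T.g c z₀ = 0 := by rw [← hlam]; simp [lam, hprc, vt_zero_right]
  have hdz₀ : T.g d z₀ = 0 := by rw [← hlam]; simp [lam, hprd, vt_zero_right]
  have hLc : ∀ v, L (vt v c) = 0 := fun v => by
    show T.rL d (G (vt v c) - vt v c) = 0
    rw [hGa, R.fix, sub_self, map_zero]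
  have hLone : ∀ v u, T.g u c = 0 → L (vt v u) = T.rL z₀ (vt v u) := by
    intro v u hu
    obtain ⟨a, ha⟩ := hscal (pr u) (eq_zero_of_herm_self T.Hg (hpr u).2.1)
      (eq_zero_of_herm_self T.Hg (hpr u).2.2)
    have hlam' : lam u = a := by
      show L (vt a₁ (pr u)) 0 = a
      rw [ha, Pi.smul_apply, ha10, smul_eq_mul, mul_one]
    have hu' : u = T.g u d • c + pr u := by rw [(hpr u).1, hu, zero_smul]; abel
    rw [T.rL_vt, ← hlam, hlam']
    conv_lhs => rw [hu', vt_add_right, vt_smul_right, map_add, map_smul, hLc, ha, smul_zero, zero_add]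
  have hLall : ∀ X, T.rL c X = 0 → L X = T.rL z₀ X := by
    intro X hX
    rw [sum_rows X, map_sum, map_sum]
    refine Finset.sum_congr rfl fun i _ => hLone _ _ ?_
    have := congrFun hX i
    rwa [T.rL_row] at this
  obtain ⟨β, hβ⟩ := exists_beta (T := T) z₀
  set w := T.sie c z₀ β with hw
  have hwH := sie_mem (T := T) hP.uu hcz₀ hβ
  set t := w⁻¹ * r with ht
  have htriv : ∀ X, T.rL c X = 0 → (t : Matrix (Fin m × Fin k) (Fin m × Fin k) F) *ᵥ X = X := by
    intro X hX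
    refine gl_mulVec_injective w ?_
    beta_reduce
    rw [ht, mul_mulVec', mulVec_inv_mulVec, hL X hX, hw, sie_mulVec hP.uu hcz₀, hX, smul_zero,
      zero_add, vt_zero_left, sub_zero, hLall X hX]
  have htM : t ∈ M := M.mul_mem (M.inv_mem (hHM hwH)) hr
  have tR : T.Rad c d t := ⟨(hMG htM).1, fun a => htriv _ (rL_self hP.uu a),
    fun X hX => ⟨0, by rw [htriv X hX, vt_zero_left, add_zero]⟩⟩
  obtain ⟨Φ, hΦ⟩ := tR.central hP htriv
  obtain ⟨a, ha⟩ := hcon Φ ⟨t, htM, hΦ⟩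
  have hask : a + T.σ a = 0 := by
    obtain ⟨v, -, hv'⟩ := exists_anisotropic T.Hf (W := ⊤)
      (fun w _ hw => by
        obtain ⟨⟨a, ha⟩, b, hb⟩ := T.Hf.nondegenerate w hw
        exact ⟨⟨a, trivial, ha⟩, b, trivial, hb⟩) top_ne_bot
    have e := (hMG htM).1 (vt v d) (vt v d)
    rw [hΦ, T.rL_vt, hP.vu T.Hg, one_smul, ha, vt_smul_left, T.Hh.add_left, herm_add_right T.Hh,
      herm_add_right T.Hh, herm_smul_right T.Hh, herm_smul_right T.Hh, T.Hh.smul_left,
      T.Hh.smul_left, T.pair, T.pair, T.pair, T.pair, hP.uu, hP.vv, hP.uv, hP.vu T.Hg] at e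
    refine (mul_eq_zero.1 (?_ : T.c₀ * T.f v v * (a + T.σ a) = 0)).resolve_left
      (mul_ne_zero T.c₀_ne hv')
    linear_combination e
  have htH : t ∈ T.grp := by
    have hrt : t = T.rt c a := gl_ext fun X => by rw [hΦ, rt_mulVec hP.uu, ha]
    rcases eq_or_ne a 0 with rfl | ha0
    · rw [show t = 1 from gl_ext fun X => by
        rw [hΦ, ha, zero_smul, vt_zero_left, add_zero, Units.val_one, one_mulVec]]
      exact one_mem _
    · rw [hrt]; exact Root.mem_grp ⟨hP.uu, hc, hask, ha0⟩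
  refine hrH ?_
  have := mul_mem hwH htH
  rwa [ht, mul_inv_cancel_left] at this

end UT

end Cfsg.Agent.Lib.Forms.TProd
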