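import Cfsg.Agent.Lib.Forms.TensorUnitBasic
import Cfsg.Agent.Lib.Forms.TensorProdSylow

/-!
Root elements of the right factor of a tensor product of Hermitian forms and their fusion in an
overgroup.
-/

set_option autoImplicit false

namespace Cfsg.Agent.Lib.Forms.TProd

open Matrix Kronecker Cfsg.Agent.Lib.Forms Cfsg.Geo

variable {F : Type*} [Field F] [Finite F] {m k : ℕ}

namespace UT

variable (T : UT F m k)

/-- A root element of the right factor. -/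
noncomputable def rt (c : Fin k → F) (l : F) : GL (Fin m × Fin k) F := kr 1 (tv c (l • hv T.g c))

/-- The data of a non-trivial root element. -/
structure Root (c : Fin k → F) (l : F) : Prop where
  iso : T.g c c = 0
  ne : c ≠ 0
  skew : l + T.σ l = 0
  l_ne : l ≠ 0

/-- Some non-zero isotropic right vector is orthogonal to all rows. -/
def HasRoot (x : Fin m × Fin k → F) : Prop := ∃ c, c ≠ 0 ∧ T.g c c = 0 ∧ T.rL c x = 0

/-- An element conjugating a root element into the product group lies in it. -/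
def NoOut (M : Subgroup (GL (Fin m × Fin k) F)) : Prop :=
  ∀ y ∈ M, ∀ c l, T.Root c l → y * T.rt c l * y⁻¹ ∈ T.grp → y ∈ T.grp

variable {T} {c : Fin k → F}

omit [Finite F] in
lemma rt_mulVec (hc : T.g c c = 0) (l : F) (x : Fin m × Fin k → F) :
    (T.rt c l : Matrix (Fin m × Fin k) (Fin m × Fin k) F) *ᵥ x = x + vt (l • T.rL c x) c := by
  rw [rt, kr_one_tv_mulVec (hv_smul_dot_self T.Hg hc l)]
  congr 2
  funext i
  show (l • hv T.g c) ⬝ᵥ row x i = l * (hv T.g c ⬝ᵥ row x i)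
  rw [smul_dotProduct, smul_eq_mul]

omit [Finite F] in
lemma Root.mem_grp {l : F} (R : T.Root c l) : T.rt c l ∈ T.grp :=
  T.kr_mem_grp (one_mem _)
    ⟨fun x y => utv_isometry T.Hg R.iso R.skew x y, tv_mem_specialLinear _ _⟩

omit [Finite F] in
lemma rt_fix (hc : T.g c c = 0) (l : F) {x : Fin m × Fin k → F} (hx : T.rL c x = 0) :
    (T.rt c l : Matrix (Fin m × Fin k) (Fin m × Fin k) F) *ᵥ x = x := by
  rw [rt_mulVec hc, hx, smul_zero, vt_zero_left, add_zero]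

omit [Finite F] in
lemma rt_pow_p {p : ℕ} [Fact p.Prime] [CharP F p] (hc : T.g c c = 0) (l : F) :
    T.rt c l ^ p = 1 := by
  rw [rt, kr_pow, one_pow, tv_pow (hv_smul_dot_self T.Hg hc l), ← Nat.cast_smul_eq_nsmul F p,
    CharP.cast_eq_zero F p, zero_smul, tv_zero_right, kr_one]

omit [Finite F] in
lemma zpowers_rt_isPGroup {p : ℕ} [Fact p.Prime] [CharP F p] (hc : T.g c c = 0) (l : F) :
    IsPGroup p (Subgroup.zpowers (T.rt c l)) := fun x => by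
  obtain ⟨n, hn⟩ := Subgroup.mem_zpowers_iff.1 x.2
  refine ⟨1, Subtype.ext ?_⟩
  rw [pow_one, SubmonoidClass.coe_pow, ← hn, ← zpow_natCast, zpow_comm, zpow_natCast,
    rt_pow_p hc, _root_.one_zpow, OneMemClass.coe_one]

omit [Finite F] in
/-- An isotropic vector in a subspace of dimension at least two. -/
lemma exists_iso_of_two [Finite F] {σ : F ≃+* F} {g : (Fin k → F) → (Fin k → F) → F}
    (H : IsUnitaryForm σ g) {S : Submodule F (Fin k → F)} (hS : 2 ≤ Module.finrank F S) :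
    ∃ v ∈ S, v ≠ 0 ∧ g v v = 0 := by
  obtain ⟨x, hx, hx0⟩ := Submodule.exists_mem_ne_zero_of_ne_bot
    (show S ≠ ⊥ from fun e => by rw [e, finrank_bot] at hS; omega)
  by_cases hxx : g x x = 0
  · exact ⟨x, hx, hx0, hxx⟩
  obtain ⟨y, hy, hyx⟩ : ∃ y ∈ S, y ∉ Submodule.span F {x} := SetLike.not_le_iff_exists.1 fun hle => by
    have := Submodule.finrank_mono hle
    rw [finrank_span_singleton hx0] at this
    omega
  set z := y + (-(g y x / g x x)) • x with hz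
  have hzS : z ∈ S := S.add_mem hy (S.smul_mem _ hx)
  have hzx : g z x = 0 := by rw [hz, H.add_left, H.smul_left]; field_simp; ring
  have hz0 : z ≠ 0 := fun e => hyx (by
    rw [hz, ← eq_neg_iff_add_eq_zero] at e
    rw [e]
    exact Submodule.neg_mem _ (Submodule.smul_mem _ _ (Submodule.mem_span_singleton_self x)))
  by_cases hzz : g z z = 0
  · exact ⟨z, hzS, hz0, hzz⟩
  obtain ⟨t, ht⟩ := exists_norm_eq H (a := -g x x / g z z)
    (by rw [map_div₀, map_neg, herm_self_fixed H, herm_self_fixed H])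
  refine ⟨x + t • z, S.add_mem hx (S.smul_mem _ hzS), fun e => hxx ?_, ?_⟩
  · have := congrArg (fun y => g y x) e
    simpa [H.add_left, H.smul_left, hzx, herm_zero_left H] using this
  · simp only [H.add_left, H.smul_left, herm_add_right H, herm_smul_right H, hzx,
      eq_zero_of_herm_self H hzx]
    field_simp at ht
    linear_combination ht

variable (T) in
/-- Few vectors spanning the rows leave room for a root. -/
lemma hasRoot_of_rows {j : ℕ} (u : Fin j → Fin k → F) (hj : j + 2 ≤ k) {x : Fin m × Fin k → F}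
    (hx : ∀ i, row x i ∈ Submodule.span F (Set.range u)) : T.HasRoot x := by
  have hperp := finrank_perp T.Hg u
  rw [Fintype.card_fin] at hperp
  obtain ⟨c, hc, hc0, hcc⟩ := exists_iso_of_two T.Hg (S := perp T.Hg u) (by omega)
  refine ⟨c, hc0, hcc, funext fun i => ?_⟩
  rw [T.rL_row]
  refine eq_zero_of_herm_self T.Hg ?_
  obtain ⟨w, hw⟩ := (Submodule.mem_span_range_iff_exists_fun F).1 (hx i)
  rw [← hw]
  refine Finset.sum_induction _ (fun y => T.g c y = 0) (fun a b ha hb => ?_) ?_ fun a _ => ?_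
  · rw [herm_add_right T.Hg, ha, hb, add_zero]
  · exact herm_zero_right T.Hg _
  · rw [herm_smul_right T.Hg, hc a, mul_zero]

variable (T) in
lemma hasRoot_vt (hk : 3 ≤ k) (a : Fin m → F) (z : Fin k → F) : T.HasRoot (vt a z) :=
  T.hasRoot_of_rows ![z] (by omega) fun i => by
    rw [row_vt]
    exact Submodule.smul_mem _ _ (Submodule.subset_span ⟨0, rfl⟩)

variable {M : Subgroup (GL (Fin m × Fin k) F)}

omit [Finite F] in
/-- The form only sees a maximal subgroup containing a root element. -/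
lemma maximal_in [Finite F] {p : ℕ} [Fact p.Prime] (hno : T.NoOut M)
    {K : Subgroup (GL (Fin m × Fin k) F)} (hKM : K ≤ M) {S : Subgroup (GL (Fin m × Fin k) F)}
    (hSK : S ≤ T.grp ⊓ K) (hSm : ∀ Q, S ≤ Q → Q ≤ T.grp ⊓ K → IsPGroup p Q → Q = S)
    {l : F} (R : T.Root c l) (hr : T.rt c l ∈ S) :
    ∀ Q, S ≤ Q → Q ≤ K → IsPGroup p Q → Q = S := by
  intro Q h1 h2 h3
  by_contra hne
  obtain ⟨y, hyQ, hyS, hy⟩ := exists_normalizing h3 (lt_of_le_of_ne h1 (Ne.symm hne))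
  have hyH : y ∈ T.grp := hno y (hKM (h2 hyQ)) c l R (hSK (hy _ hr).1).1
  refine hyS ?_
  rw [← hSm (S ⊔ Subgroup.zpowers y) le_sup_left
    (sup_le hSK (Subgroup.zpowers_le.2 ⟨hyH, h2 hyQ⟩))
    (h3.to_le (sup_le h1 (Subgroup.zpowers_le.2 hyQ)))]
  exact le_sup_right (a := S) (Subgroup.mem_zpowers y)

omit [Finite F] in
/-- Two subgroups with root elements that are conjugate are conjugate by the product group. -/
lemma fusion [Finite F] {p : ℕ} [Fact p.Prime] [CharP F p] (hno : T.NoOut M)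
    {g : GL (Fin m × Fin k) F} (hg : g ∈ M) {K₁ K₂ : Subgroup (GL (Fin m × Fin k) F)}
    (h₁ : K₁ ≤ M) (h₂ : K₂ ≤ M) (hK : ∀ x ∈ K₁, g * x * g⁻¹ ∈ K₂)
    (hK' : ∀ x ∈ K₂, g⁻¹ * x * g ∈ K₁)
    {c₁ c₂ : Fin k → F} {l₁ l₂ : F} (R₁ : T.Root c₁ l₁) (R₂ : T.Root c₂ l₂)
    (hr₁ : T.rt c₁ l₁ ∈ K₁) (hr₂ : T.rt c₂ l₂ ∈ K₂) : ∃ y ∈ K₂, y * g ∈ T.grp := by
  obtain ⟨S₁, hr₁', hS₁, hS₁p, hS₁m⟩ := exists_maximal_pgroup (K := T.grp ⊓ K₁)
    (zpowers_rt_isPGroup (p := p) R₁.iso l₁)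
    (Subgroup.zpowers_le.2 ⟨R₁.mem_grp, hr₁⟩)
  obtain ⟨S₂, hr₂', hS₂, hS₂p, hS₂m⟩ := exists_maximal_pgroup (K := T.grp ⊓ K₂)
    (zpowers_rt_isPGroup (p := p) R₂.iso l₂)
    (Subgroup.zpowers_le.2 ⟨R₂.mem_grp, hr₂⟩)
  have m₁ := maximal_in (p := p) hno h₁ hS₁ hS₁m R₁ (Subgroup.zpowers_le.1 hr₁')
  have m₂ := maximal_in (p := p) hno h₂ hS₂ hS₂m R₂ (Subgroup.zpowers_le.1 hr₂')
  set f := (MulAut.conj g).toMonoidHom with hf
  have hm₁' : ∀ Q, S₁.map f ≤ Q → Q ≤ K₂ → IsPGroup p Q → Q = S₁.map f := by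
    intro Q h1 h2 h3
    have e : Q.map (MulAut.conj g⁻¹).toMonoidHom = S₁ := by
      refine m₁ _ (fun x hx => ⟨g * x * g⁻¹, h1 ⟨x, hx, rfl⟩, by simp [mul_assoc]⟩) ?_ (h3.map _)
      rintro _ ⟨x, hx, rfl⟩
      simpa [mul_assoc] using hK' x (h2 hx)
    refine le_antisymm (fun x hx => ⟨g⁻¹ * x * g, ?_, by simp [hf, mul_assoc]⟩) h1
    rw [SetLike.mem_coe, ← e]
    exact ⟨x, hx, by simp [mul_assoc]⟩
  obtain ⟨y, hy, hyc⟩ := maximal_conj (P := S₁.map f) (R := S₂) (K := K₂)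
    (by rintro _ ⟨x, hx, rfl⟩; exact hK x (hS₁ hx).2) (hS₁p.map f) hm₁' (hS₂.trans inf_le_right)
    hS₂p m₂
  refine ⟨y, hy, hno (y * g) (mul_mem (h₂ hy) hg) c₁ l₁ R₁ ?_⟩
  have := (hS₂ (hyc _ ⟨T.rt c₁ l₁, Subgroup.zpowers_le.1 hr₁', rfl⟩)).1
  simpa [hf, mul_assoc] using this

/-- An overgroup element agrees with the product group on vectors with roots. -/
lemma exists_agree (hno : T.NoOut M) (hHM : T.grp ≤ M) {g : GL (Fin m × Fin k) F} (hg : g ∈ M)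
    {x : Fin m × Fin k → F} (hx : T.HasRoot x)
    (hgx : T.HasRoot ((g : Matrix (Fin m × Fin k) (Fin m × Fin k) F) *ᵥ x)) :
    ∃ h ∈ T.grp, (h : Matrix (Fin m × Fin k) (Fin m × Fin k) F) *ᵥ x =
      (g : Matrix (Fin m × Fin k) (Fin m × Fin k) F) *ᵥ x := by
  obtain ⟨p, hpc⟩ := CharP.exists F
  haveI : Fact p.Prime := ⟨CharP.char_is_prime F p⟩
  obtain ⟨c₁, hc₁, hi₁, h₁⟩ := hx
  obtain ⟨c₂, hc₂, hi₂, h₂⟩ := hgx
  obtain ⟨κ, hκ0, hκ⟩ := exists_skew T.Hg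
  have R₁ : T.Root c₁ κ := ⟨hi₁, hc₁, hκ, hκ0⟩
  have R₂ : T.Root c₂ κ := ⟨hi₂, hc₂, hκ, hκ0⟩
  set v := (g : Matrix (Fin m × Fin k) (Fin m × Fin k) F) *ᵥ x with hv'
  obtain ⟨y, hy, hyg⟩ := fusion (p := p) hno hg (K₁ := M ⊓ fixVec x) (K₂ := M ⊓ fixVec v)
    inf_le_left inf_le_left
    (fun s hs => ⟨M.mul_mem (M.mul_mem hg hs.1) (M.inv_mem hg), by
      show _ *ᵥ v = v
      rw [hv', mul_mulVec', mul_mulVec', inv_mulVec_mulVec,
        show (s : Matrix (Fin m × Fin k) (Fin m × Fin k) F) *ᵥ x = x from hs.2]⟩)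
    (fun s hs => ⟨M.mul_mem (M.mul_mem (M.inv_mem hg) hs.1) hg, by
      show _ *ᵥ x = x
      rw [mul_mulVec', mul_mulVec', ← hv',
        show (s : Matrix (Fin m × Fin k) (Fin m × Fin k) F) *ᵥ v = v from hs.2, hv',
        inv_mulVec_mulVec]⟩)
    R₁ R₂ ⟨hHM R₁.mem_grp, rt_fix hi₁ κ h₁⟩ ⟨hHM R₂.mem_grp, rt_fix hi₂ κ h₂⟩
  refine ⟨y * g, hyg, ?_⟩
  rw [mul_mulVec']
  exact hy.2

/-- Images with roots of pure vectors are pure. -/
lemma pure_of_hasRoot (hno : T.NoOut M) (hHM : T.grp ≤ M) (hk : 3 ≤ k)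
    {g : GL (Fin m × Fin k) F} (hg : g ∈ M) (a : Fin m → F) (z : Fin k → F)
    (h : T.HasRoot ((g : Matrix (Fin m × Fin k) (Fin m × Fin k) F) *ᵥ vt a z)) :
    ∃ A B, kr A B ∈ T.grp ∧ (g : Matrix (Fin m × Fin k) (Fin m × Fin k) F) *ᵥ vt a z =
      vt ((A : Matrix (Fin m) (Fin m) F) *ᵥ a) ((B : Matrix (Fin k) (Fin k) F) *ᵥ z) := by
  obtain ⟨h', hh', e⟩ := exists_agree hno hHM hg (T.hasRoot_vt hk a z) h
  obtain ⟨A, B, rfl⟩ := mem_kronecker.1 hh'.1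
  exact ⟨A, B, hh', by rw [← e, kr_vt]⟩

omit [Finite F] in
/-- The right factor of a member preserves isotropy. -/
lemma kr_right_iso [NeZero m] [Finite F] {A : GL (Fin m) F} {B : GL (Fin k) F}
    (h : kr A B ∈ isoH T.h) (hc : T.g c c = 0) :
    T.g ((B : Matrix (Fin k) (Fin k) F) *ᵥ c) ((B : Matrix (Fin k) (Fin k) F) *ᵥ c) = 0 := by
  obtain ⟨b, -, hb⟩ := exists_anisotropic T.Hf (W := ⊤)
    (fun w _ hw => by
      obtain ⟨⟨a, ha⟩, b, hb⟩ := T.Hf.nondegenerate w hw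
      exact ⟨⟨a, trivial, ha⟩, b, trivial, hb⟩) top_ne_bot
  have := h (vt (((A⁻¹ : GL (Fin m) F) : Matrix (Fin m) (Fin m) F) *ᵥ b) c)
    (vt (((A⁻¹ : GL (Fin m) F) : Matrix (Fin m) (Fin m) F) *ᵥ b) c)
  rw [kr_vt, mulVec_inv_mulVec, T.pair, T.pair, hc, mul_zero] at this
  simpa [hb, T.c₀_ne] using this

/-- Transitivity of the right factor on isotropic lines. -/
lemma exists_move [NeZero k] {c c' : Fin k → F} (hc : T.g c c = 0) (hc0 : c ≠ 0)
    (hc' : T.g c' c' = 0) (hc0' : c' ≠ 0) :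
    ∃ B ∈ isoH T.g ⊓ specialLinear (Fin k) F, ∃ t : F, t ≠ 0 ∧
      (B : Matrix (Fin k) (Fin k) F) *ᵥ c = t • c' := by
  have step : ∀ c c', T.g c c = 0 → T.g c' c' = 0 → T.g c c' ≠ 0 →
      ∃ B ∈ isoH T.g ⊓ specialLinear (Fin k) F, ∃ t : F, t ≠ 0 ∧
        (B : Matrix (Fin k) (Fin k) F) *ᵥ c = t • c' := by
    intro c c' hc hc' hne
    have P : HypPair T.g ((T.g c' c)⁻¹ • c') c :=
      ⟨by rw [smul_inner T.Hg, hc', mul_zero], hc, by
        rw [T.Hg.smul_left, inv_mul_cancel₀ fun e => hne (eq_zero_of_herm_self T.Hg e)]⟩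
    obtain ⟨κ, hκ0, hκ⟩ := exists_skew T.Hg
    obtain ⟨B, hB, -, e, -⟩ := P.exists_monomial T.Hg hκ0 hκ
    refine ⟨B, utvGroup_le T.Hg hB, κ * (T.g c' c)⁻¹, mul_ne_zero hκ0
      (inv_ne_zero fun e => hne (eq_zero_of_herm_self T.Hg e)), ?_⟩
    rw [e, smul_smul]
  by_cases hne : T.g c c' = 0
  swap
  · exact step c c' hc hc' hne
  obtain ⟨x, hxc, hxc'⟩ : ∃ x, T.g c x ≠ 0 ∧ T.g c' x ≠ 0 := by
    obtain ⟨x, hx⟩ := (T.Hg.nondegenerate c hc0).2
    obtain ⟨y, hy⟩ := (T.Hg.nondegenerate c' hc0').2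
    by_cases h1 : T.g c' x = 0
    · by_cases h2 : T.g c y = 0
      · exact ⟨x + y, by rw [herm_add_right T.Hg, h2, add_zero]; exact hx,
          by rw [herm_add_right T.Hg, h1, zero_add]; exact hy⟩
      · exact ⟨y, h2, hy⟩
    · exact ⟨x, hx, h1⟩
  obtain ⟨r, hr⟩ := exists_isotropic_translate T.Hg hc hxc
  obtain ⟨B₁, hB₁, t₁, ht₁, e₁⟩ := step c (x + r • c) hc hr (by
    rw [herm_add_right T.Hg, herm_smul_right T.Hg, hc, mul_zero, add_zero]; exact hxc)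
  obtain ⟨B₂, hB₂, t₂, ht₂, e₂⟩ := step (x + r • c) c' hr hc' (by
    rw [T.Hg.add_left, T.Hg.smul_left, hne, mul_zero, add_zero]
    exact fun e => hxc' (eq_zero_of_herm_self T.Hg e))
  refine ⟨B₂ * B₁, mul_mem hB₂ hB₁, t₁ * t₂, mul_ne_zero ht₁ ht₂, ?_⟩
  rw [mul_mulVec', e₁, mulVec_smul, e₂, smul_smul]

end UT

end Cfsg.Agent.Lib.Forms.TProd
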