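import Cfsg.Agent.Lib.Forms.Transvection

/-! The class of transvections and its size. -/

set_option autoImplicit false

namespace Cfsg.Agent.Lib.Forms

open Matrix

variable {ι : Type} [Fintype ι] [DecidableEq ι] {F : Type*} [Field F]

/-- All transvections are conjugate in `GL`. -/
theorem exists_conj_tv {a φ a₀ φ₀ : ι → F} (h : φ ⬝ᵥ a = 0) (h₀ : φ₀ ⬝ᵥ a₀ = 0) (ha : a ≠ 0)
    (hφ : φ ≠ 0) (ha₀ : a₀ ≠ 0) (hφ₀ : φ₀ ≠ 0) :
    ∃ g : GL ι F, g * tv a φ * g⁻¹ = tv a₀ φ₀ := by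
  classical
  have key : ∀ {a φ : ι → F}, φ ⬝ᵥ a = 0 → a ≠ 0 → φ ≠ 0 → ∃ (b χ : ι → F) (U : Submodule F (ι → F)),
      φ ⬝ᵥ b = 1 ∧ χ ⬝ᵥ a = 1 ∧ χ ⬝ᵥ b = 0 ∧ (∀ x, x ∈ U ↔ φ ⬝ᵥ x = 0 ∧ χ ⬝ᵥ x = 0) ∧
      Module.finrank F U + 2 = Fintype.card ι := by
    intro a φ h ha hφ
    obtain ⟨y, hy⟩ : ∃ y, φ ⬝ᵥ y ≠ 0 := by
      by_contra hc; push Not at hc; exact hφ (dotProduct_eq_zero φ hc)
    have hay : a ∉ Submodule.span F ({y} : Set (ι → F)) := by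
      rw [Submodule.mem_span_singleton]
      rintro ⟨s, rfl⟩
      rw [dotProduct_smul, smul_eq_mul, mul_eq_zero] at h
      rcases h with rfl | h
      · exact ha (zero_smul _ _)
      · exact hy h
    obtain ⟨χ, hχa, hχ⟩ := exists_dot_eq_one hay
    have hχy := hχ y (Submodule.mem_span_singleton_self y)
    let L : (ι → F) →ₗ[F] F × F := ((dotProductEquiv F ι) φ).prod ((dotProductEquiv F ι) χ)
    refine ⟨(φ ⬝ᵥ y)⁻¹ • y, χ, LinearMap.ker L, by simp [hy], hχa, by simp [hχy], fun x => ?_, ?_⟩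
    · simp [L, LinearMap.mem_ker, Prod.ext_iff]
    · have hs : LinearMap.range L = ⊤ := by
        rw [LinearMap.range_eq_top]
        rintro ⟨u, v⟩
        exact ⟨u • ((φ ⬝ᵥ y)⁻¹ • y) + v • a, by
          simp [L, dotProduct_add, dotProduct_smul, hy, h, hχy, hχa]⟩
      have := LinearMap.finrank_range_add_finrank_ker L
      rw [hs, finrank_top, Module.finrank_prod, Module.finrank_self, Module.finrank_pi] at this
      omega
  obtain ⟨b, χ, U, hb, hχa, hχb, hU, hUd⟩ := key h ha hφ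
  obtain ⟨b₀, χ₀, U₀, hb₀, hχa₀, hχb₀, hU₀, hUd₀⟩ := key h₀ ha₀ hφ₀
  let e : U ≃ₗ[F] U₀ := LinearEquiv.ofFinrankEq _ _ (by omega)
  have hmem : ∀ x, x - (χ ⬝ᵥ x) • a - (φ ⬝ᵥ x) • b ∈ U := fun x => (hU _).2
    ⟨by simp [dotProduct_sub, dotProduct_smul, h, hb], by simp [dotProduct_sub, dotProduct_smul, hχa, hχb]⟩
  let P : (ι → F) →ₗ[F] (ι → F) :=
    LinearMap.id - ((dotProductEquiv F ι) χ).smulRight a - ((dotProductEquiv F ι) φ).smulRight b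
  let f : (ι → F) →ₗ[F] (ι → F) := ((dotProductEquiv F ι) χ).smulRight a₀ +
    ((dotProductEquiv F ι) φ).smulRight b₀ + U₀.subtype.comp (e.toLinearMap.comp (P.codRestrict U hmem))
  have hf : ∀ x, f x = (χ ⬝ᵥ x) • a₀ + (φ ⬝ᵥ x) • b₀ +
      (e ⟨x - (χ ⬝ᵥ x) • a - (φ ⬝ᵥ x) • b, hmem x⟩ : ι → F) := fun x => rfl
  have he : ∀ u : U, φ₀ ⬝ᵥ (e u : ι → F) = 0 ∧ χ₀ ⬝ᵥ (e u : ι → F) = 0 := fun u => (hU₀ _).1 (e u).2
  have hφf : ∀ x, φ₀ ⬝ᵥ f x = φ ⬝ᵥ x := fun x => by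
    simp [hf, dotProduct_add, dotProduct_smul, h₀, hb₀, (he _).1]
  have hχf : ∀ x, χ₀ ⬝ᵥ f x = χ ⬝ᵥ x := fun x => by
    simp [hf, dotProduct_add, dotProduct_smul, hχa₀, hχb₀, (he _).2]
  have hinj : Function.Injective f := by
    rw [← LinearMap.ker_eq_bot, LinearMap.ker_eq_bot']
    intro x hx
    have h1 : φ ⬝ᵥ x = 0 := by rw [← hφf, hx, dotProduct_zero]
    have h2 : χ ⬝ᵥ x = 0 := by rw [← hχf, hx, dotProduct_zero]
    have h3 := hf x
    rw [show (⟨x - (χ ⬝ᵥ x) • a - (φ ⬝ᵥ x) • b, hmem x⟩ : U) = ⟨x, (hU x).2 ⟨h1, h2⟩⟩ from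
      Subtype.ext (by simp [h1, h2]), hx] at h3
    simp only [h1, h2, zero_smul, zero_add] at h3
    have h4 : e ⟨x, (hU x).2 ⟨h1, h2⟩⟩ = 0 := Subtype.ext h3.symm
    exact congrArg Subtype.val (e.map_eq_zero_iff.1 h4)
  have hunit : IsUnit (LinearMap.toMatrix' f) := by
    rw [← Matrix.mulVec_injective_iff_isUnit]
    intro x y hxy
    exact hinj (by simpa [LinearMap.toMatrix'_mulVec] using hxy)
  refine ⟨hunit.unit, ?_⟩
  rw [mul_inv_eq_iff_eq_mul]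
  apply gl_ext
  intro x
  rw [mul_mulVec', mul_mulVec', tv_mulVec h, tv_mulVec h₀, IsUnit.unit_spec, LinearMap.toMatrix'_mulVec,
    LinearMap.toMatrix'_mulVec, map_add, map_smul, hφf]
  have hfa : f a = a₀ := by
    rw [hf]
    have h0 : e ⟨a - (χ ⬝ᵥ a) • a - (φ ⬝ᵥ a) • b, hmem a⟩ = 0 := by
      rw [e.map_eq_zero_iff]; exact Subtype.ext (by simp [hχa, h])
    simp [h0, hχa, h]
  rw [hfa]

/-- A matrix with `t - 1` of rank one and square zero is a transvection. -/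
theorem exists_tv_of_isTransvection {t : GL ι F} (ht : Cfsg.IsTransvection (t : Matrix ι ι F)) :
    ∃ a φ : ι → F, a ≠ 0 ∧ φ ≠ 0 ∧ φ ⬝ᵥ a = 0 ∧ t = tv a φ := by
  classical
  obtain ⟨hr, hsq⟩ := ht
  set N := (t : Matrix ι ι F) - 1 with hNdef
  rw [Matrix.rank] at hr
  obtain ⟨⟨a, ha⟩, ha0, hsp⟩ := finrank_eq_one_iff'.1 hr
  have ha0' : a ≠ 0 := by simpa using ha0
  choose φ hφ using fun j => hsp ⟨N *ᵥ Pi.single j 1, ⟨_, rfl⟩⟩
  have hN : N = Matrix.vecMulVec a φ := by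
    ext i j
    have := congrFun (congrArg Subtype.val (hφ j)) i
    simp only [SetLike.val_smul, Matrix.mulVec_single_one, Pi.smul_apply, smul_eq_mul, Matrix.col_apply] at this
    rw [Matrix.vecMulVec_apply, ← this, mul_comm]
  obtain ⟨x, hx⟩ : ∃ x, φ ⬝ᵥ x ≠ 0 := by
    by_contra hc
    push Not at hc
    obtain ⟨z, hz⟩ := ha
    rw [Matrix.mulVecLin_apply, hN, vecMulVec_mulVec, hc] at hz
    exact ha0' (by simpa using hz.symm)
  have hφ0 : φ ≠ 0 := fun e => hx (by rw [e, zero_dotProduct])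
  have h : φ ⬝ᵥ a = 0 := by
    have h2 : (N * N) *ᵥ x = 0 := by rw [hsq, zero_mulVec]
    rw [← mulVec_mulVec, hN] at h2
    simp only [vecMulVec_mulVec, op_smul_eq_smul, dotProduct_smul, smul_eq_mul, smul_eq_zero, mul_eq_zero] at h2
    rcases h2 with (h2 | h2) | h2
    · exact absurd h2 hx
    · exact h2
    · exact absurd h2 ha0'
  refine ⟨a, φ, ha0', hφ0, h, Units.ext ?_⟩
  rw [tv_val h, tvMat, ← hN, hNdef, add_sub_cancel]

theorem tv_eq_tv_iff {a φ b ψ : ι → F} (h : φ ⬝ᵥ a = 0) (hψ : ψ ⬝ᵥ b = 0) (ha : a ≠ 0) (hφ : φ ≠ 0) :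
    tv a φ = tv b ψ ↔ ∃ s : F, s ≠ 0 ∧ b = s • a ∧ ψ = s⁻¹ • φ := by
  constructor
  · intro e
    have h1 : ∀ x, (φ ⬝ᵥ x) • a = (ψ ⬝ᵥ x) • b := fun x => by
      have := congrArg (fun g : GL ι F => (g : Matrix ι ι F) *ᵥ x) e
      simpa [tv_mulVec h, tv_mulVec hψ] using this
    obtain ⟨y, hy⟩ : ∃ y, φ ⬝ᵥ y ≠ 0 := by
      by_contra hc; push Not at hc; exact hφ (dotProduct_eq_zero φ hc)
    have hψy : ψ ⬝ᵥ y ≠ 0 := fun h0 => by
      have := h1 y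
      rw [h0, zero_smul, smul_eq_zero] at this
      exact this.elim hy ha
    refine ⟨(φ ⬝ᵥ y) / (ψ ⬝ᵥ y), div_ne_zero hy hψy, ?_, ?_⟩
    · rw [div_eq_inv_mul, mul_smul, h1, smul_smul, inv_mul_cancel₀ hψy, one_smul]
    · refine dotProduct_eq _ _ fun x => ?_
      have hb : b = ((φ ⬝ᵥ y) / (ψ ⬝ᵥ y)) • a := by
        rw [div_eq_inv_mul, mul_smul, h1, smul_smul, inv_mul_cancel₀ hψy, one_smul]
      have := h1 x
      rw [hb, smul_smul] at this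
      have h2 : φ ⬝ᵥ x = (ψ ⬝ᵥ x) * ((φ ⬝ᵥ y) / (ψ ⬝ᵥ y)) := smul_left_injective F ha this
      rw [smul_dotProduct, smul_eq_mul, h2]
      field_simp
  · rintro ⟨s, hs, rfl, rfl⟩
    rw [tv_smul_center s (by simp [h]), smul_smul, mul_inv_cancel₀ hs, one_smul]

/-- The number of transvections times `q - 1`. -/
theorem card_tv [Fintype F] :
    Nat.card {t : GL ι F // ∃ a φ : ι → F, a ≠ 0 ∧ φ ≠ 0 ∧ φ ⬝ᵥ a = 0 ∧ t = tv a φ} *
      (Fintype.card F - 1) =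
      (Fintype.card F ^ Fintype.card ι - 1) * (Fintype.card F ^ (Fintype.card ι - 1) - 1) := by
  classical
  let P := Σ a : {a : ι → F // a ≠ 0}, {φ : ι → F // φ ⬝ᵥ a.1 = 0 ∧ φ ≠ 0}
  let T := {t : GL ι F // ∃ a φ : ι → F, a ≠ 0 ∧ φ ≠ 0 ∧ φ ⬝ᵥ a = 0 ∧ t = tv a φ}
  have hP : Nat.card P = (Fintype.card F ^ Fintype.card ι - 1) * (Fintype.card F ^ (Fintype.card ι - 1) - 1) := by
    have hfib : ∀ a : {a : ι → F // a ≠ 0}, Nat.card {φ : ι → F // φ ⬝ᵥ a.1 = 0 ∧ φ ≠ 0} =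
        Fintype.card F ^ (Fintype.card ι - 1) - 1 := by
      intro a
      let L : (ι → F) →ₗ[F] F := (dotProductEquiv F ι) a.1
      have hL : L ≠ 0 := fun h0 => a.2 (dotProduct_eq_zero a.1 fun x => LinearMap.congr_fun h0 x)
      have hd : Module.finrank F (LinearMap.ker L) = Fintype.card ι - 1 := by
        have := LinearMap.finrank_range_add_finrank_ker L
        rw [LinearMap.range_eq_top.2 (LinearMap.surjective hL), finrank_top, Module.finrank_self, Module.finrank_pi] at this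
        omega
      let e : {φ : ι → F // φ ⬝ᵥ a.1 = 0 ∧ φ ≠ 0} ≃ {x : LinearMap.ker L // x ≠ 0} :=
        { toFun := fun φ => ⟨⟨φ.1, by simp [L, dotProduct_comm a.1, φ.2.1]⟩, fun h0 => φ.2.2 (congrArg Subtype.val h0)⟩
          invFun := fun x => ⟨x.1.1, by have := x.1.2; simp only [L, LinearMap.mem_ker, dotProductEquiv_apply_apply] at this; rw [dotProduct_comm, this],
            fun h0 => x.2 (Subtype.ext h0)⟩
          left_inv := fun _ => rfl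
          right_inv := fun _ => rfl }
      rw [Nat.card_congr e, Nat.card_eq_fintype_card, Fintype.card_subtype_compl, Fintype.card_subtype_eq,
        Module.card_eq_pow_finrank (K := F), hd]
    rw [Nat.card_sigma, Finset.sum_congr rfl fun a _ => hfib a, Finset.sum_const, Finset.card_univ, smul_eq_mul,
      Fintype.card_subtype_compl, Fintype.card_subtype_eq, Fintype.card_fun]
  rw [← hP]
  let f : P → T := fun p => ⟨tv p.1.1 p.2.1, _, _, p.1.2, p.2.2.2, p.2.2.1, rfl⟩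
  have hfibre : ∀ t : T, Nat.card {p : P // f p = t} = Fintype.card F - 1 := by
    rintro ⟨t, a, φ, ha, hφ, h, rfl⟩
    let g : {s : F // s ≠ 0} → {p : P // f p = ⟨tv a φ, a, φ, ha, hφ, h, rfl⟩} := fun s =>
      ⟨⟨⟨s.1 • a, by simp [s.2, ha]⟩, s.1⁻¹ • φ, by simp [h], by simp [s.2, hφ]⟩,
        Subtype.ext ((tv_eq_tv_iff h (by simp [h]) ha hφ).2 ⟨s.1, s.2, rfl, rfl⟩).symm⟩
    rw [← Nat.card_eq_of_bijective g ⟨?_, ?_⟩, Nat.card_eq_fintype_card, Fintype.card_subtype_compl,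
      Fintype.card_subtype_eq]
    · intro s s' e
      have := congrArg (fun z => z.1.1.1) e
      exact Subtype.ext (smul_left_injective F ha this)
    · rintro ⟨⟨⟨b, hb⟩, ψ, hψ, hψ0⟩, hp⟩
      obtain ⟨s, hs, rfl, rfl⟩ := (tv_eq_tv_iff h hψ ha hφ).1 (congrArg Subtype.val hp).symm
      exact ⟨⟨s, hs⟩, rfl⟩
  rw [← Nat.card_congr (Equiv.sigmaFiberEquiv f), Nat.card_sigma,
    Finset.sum_congr rfl fun t _ => hfibre t, Finset.sum_const, Finset.card_univ, smul_eq_mul, Nat.card_eq_fintype_card]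

end Cfsg.Agent.Lib.Forms
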