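import Cfsg.Agent.Lib.Forms.UnitaryMax

/-!
Maximality of the stabiliser of a non-degenerate subspace in a special unitary group.
-/

set_option autoImplicit false

namespace Cfsg.Agent.Lib.Forms

open Matrix Cfsg.Geo

variable {ι : Type} [Fintype ι] [DecidableEq ι] {F : Type*} [Field F]
  {σ : F ≃+* F} {h : (ι → F) → (ι → F) → F} (H : IsUnitaryForm σ h)
include H

omit [DecidableEq ι] [Fintype ι] in
lemma herm_add_smul_self (x y : ι → F) (t : F) : h (x + t • y) (x + t • y) =
    h x x + σ t * h x y + t * σ (h x y) + t * σ t * h y y := by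
  rw [H.add_left, herm_add_right H, herm_add_right H, H.smul_left, H.smul_left,
    herm_smul_right H, herm_smul_right H, H.herm y x]
  ring

omit [DecidableEq ι] in
/-- Orthogonal projection to a non-degenerate subspace. -/
lemma exists_proj {W : Submodule F (ι → F)} (hW : IsNondegenerateOn h W) (z : ι → F) :
    ∃ a ∈ W, ∀ w ∈ W, h (z - a) w = 0 := by
  let b := Module.finBasis F W
  let T : W →ₗ[F] (Fin (Module.finrank F W) → F) :=
    { toFun := fun y i => h (y : ι → F) (b i)
      map_add' := fun y y' => funext fun i => H.add_left _ _ _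
      map_smul' := fun c y => funext fun i => H.smul_left c _ _ }
  have ext : ∀ y, (∀ i, h y (b i) = 0) → ∀ w ∈ W, h y w = 0 := by
    intro y hy w hw
    let L₁ : W →ₗ[F] F :=
      { toFun := fun s => h (s : ι → F) y
        map_add' := fun s s' => H.add_left _ _ _
        map_smul' := fun c s => H.smul_left c _ _ }
    have : L₁ = 0 := b.ext fun i => (herm_eq_zero_comm H).1 (hy i)
    exact (herm_eq_zero_comm H).1 (LinearMap.congr_fun this ⟨w, hw⟩)
  have hTinj : Function.Injective T := by
    rw [← LinearMap.ker_eq_bot, LinearMap.ker_eq_bot']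
    rintro ⟨y, hy⟩ hTy
    by_contra hne
    obtain ⟨w, hw, hyw⟩ := (hW y hy (fun e => hne (Subtype.ext e))).2
    exact hyw (ext y (fun i => congrFun hTy i) w hw)
  obtain ⟨y, hy⟩ := (LinearMap.injective_iff_surjective_of_finrank_eq_finrank
    (by rw [Module.finrank_fin_fun])).1 hTinj fun i => h z (b i)
  exact ⟨y, y.2, ext _ fun i => by
    rw [herm_sub_left H, sub_eq_zero]; exact (congrFun hy i).symm⟩

/-- Maximality of the stabiliser of a non-degenerate subspace of less than half the dimension. -/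
theorem unitary_nondeg_stab_isMaximalIn [Finite F] (hn : 13 ≤ Fintype.card ι)
    {W : Submodule F (ι → F)} (h0 : W ≠ ⊥) (hW : IsNondegenerateOn h W)
    (hdim : 2 * Module.finrank F W < Fintype.card ι) :
    IsMaximalIn (isoH h ⊓ specialLinear ι F)
      (subspaceStabilizer W ⊓ (isoH h ⊓ specialLinear ι F)) := by
  classical
  let P : Submodule F (ι → F) :=
    { carrier := {x | ∀ w ∈ W, h x w = 0}
      add_mem' := fun {a b} ha hb w hw => by rw [H.add_left, ha w hw, hb w hw, add_zero]
      zero_mem' := fun w _ => herm_zero_left H _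
      smul_mem' := fun c a ha w hw => by rw [H.smul_left, ha w hw, mul_zero] }
  have hdec : ∀ z, ∃ a ∈ W, ∃ b ∈ P, a + b = z := fun z => by
    obtain ⟨a, ha, hz⟩ := exists_proj H hW z
    exact ⟨a, ha, z - a, hz, add_sub_cancel a z⟩
  have hWP : ∀ a ∈ W, ∀ b ∈ P, h a b = 0 := fun a ha b hb => (herm_eq_zero_comm H).1 (hb a ha)
  have hWperp : ∀ z, (∀ b ∈ P, h z b = 0) → z ∈ W := by
    intro z hz
    obtain ⟨a, ha, b, hb, rfl⟩ := hdec z
    rcases eq_or_ne b 0 with rfl | hb0
    · simpa using ha
    exfalso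
    obtain ⟨y, hy⟩ := (H.nondegenerate b hb0).2
    obtain ⟨a', ha', b', hb', rfl⟩ := hdec y
    refine hy ?_
    have := hz b' hb'
    rw [H.add_left, hWP a ha b' hb', zero_add] at this
    rw [herm_add_right H, hb a' ha', this, add_zero]
  have hPnd : IsNondegenerateOn h P := by
    intro b hb hb0
    obtain ⟨y, hy⟩ := (H.nondegenerate b hb0).2
    obtain ⟨a', ha', b', hb', rfl⟩ := hdec y
    rw [herm_add_right H, hb a' ha', zero_add] at hy
    exact ⟨⟨b', hb', fun e => hy ((herm_eq_zero_comm H).1 e)⟩, b', hb', hy⟩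
  have hdisj : Disjoint W P := Submodule.disjoint_def.2 fun x hx hxP => by
    by_contra hx0
    obtain ⟨y, hy, hxy⟩ := (hW x hx hx0).2
    exact hxy (hxP y hy)
  have hsup : W ⊔ P = ⊤ := eq_top_iff.2 fun z _ => Submodule.mem_sup.2 (hdec z)
  have hPdim : Module.finrank F W + Module.finrank F P = Fintype.card ι := by
    rw [← Submodule.finrank_sup_add_finrank_inf_eq, hsup, hdisj.eq_bot, finrank_top, finrank_bot,
      Module.finrank_fintype_fun_eq_card, add_zero]
  have hWrank : 0 < Module.finrank F W :=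
    Nat.pos_of_ne_zero fun e => h0 (Submodule.finrank_eq_zero.1 e)
  obtain ⟨κ, hκ0, hκ⟩ := exists_skew H
  refine isMaximalIn_of inf_le_right ?_ fun M hle hM g hg hgn => ?_
  · obtain ⟨a, ha, haa⟩ := exists_anisotropic H hW h0
    obtain ⟨b₀, hb₀, -, hbb⟩ := exists_aniso_perp H hPnd (![] : Fin 0 → (ι → F))
      (fun i => i.elim0) (by omega)
    obtain ⟨t, ht⟩ := exists_norm_eq H (a := -h a a / h b₀ b₀)
      (by rw [map_div₀, map_neg, herm_self_fixed H, herm_self_fixed H])
    set b := t • b₀ with hb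
    have hbP : b ∈ P := P.smul_mem _ hb₀
    have hv : h (a + b) (a + b) = 0 := by
      rw [H.add_left, herm_add_right H, herm_add_right H, hWP a ha b hbP,
        hbP a ha, hb, smul_inner H]
      field_simp at ht
      linear_combination ht
    refine ⟨tv (a + b) (κ • Cfsg.Agent.Lib.Forms.hv h (a + b)), utvGroup_le H (utv_mem_utvGroup hv hκ), fun hs => ?_⟩
    have h1 := mem_subspaceStabilizer.1 hs.1 a ha
    rw [utv_mulVec H hv, herm_add_right H, hWP a ha b hbP, add_zero] at h1
    have h2 := W.smul_mem (κ * h a a)⁻¹ (W.sub_mem h1 ha)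
    rw [add_sub_cancel_left, smul_smul, inv_mul_cancel₀ (mul_ne_zero hκ0 haa), one_smul] at h2
    have h3 := Submodule.disjoint_def.1 hdisj b (by simpa using W.sub_mem h2 ha) hbP
    rw [h3, add_zero] at hv
    exact haa hv
  have hgi : g ∈ isoH h := (hM hg).1
  have hgW : ∀ {k : GL ι F}, k ∈ isoH h → k ∈ specialLinear ι F →
      (∀ b ∈ P, (k : Matrix ι ι F) *ᵥ b ∈ P) → k ∈ M := fun {k} hk hk1 hkP =>
    hle ⟨mem_subspaceStabilizer.2 fun w hw => hWperp _ fun b hb => by
      have hmap : P.map (Matrix.toLin' (k : Matrix ι ι F)) = P :=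
        Submodule.eq_of_le_of_finrank_eq (map_le_of_mulVec_mem hkP) (finrank_map_gl _ _)
      obtain ⟨b', hb', rfl⟩ := hmap ▸ hb
      rw [Matrix.toLin'_apply, hk]
      exact hWP w hw b' hb', hk, hk1⟩
  have hWc : ∀ v ∈ W, h v v = 0 → v ∈ ucentres σ h M := fun v hv' hv0 => ⟨hv0, fun c hc =>
    hle ⟨tv_mem_subspaceStabilizer (hv_smul_dot_self H hv0 c) (Or.inl hv'),
      utvGroup_le H (utv_mem_utvGroup hv0 hc)⟩⟩
  have hPc : ∀ v ∈ P, h v v = 0 → v ∈ ucentres σ h M := fun v hv' hv0 => ⟨hv0, fun c hc =>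
    hle ⟨tv_mem_subspaceStabilizer (hv_smul_dot_self H hv0 c) (Or.inr fun w hw => by
      rw [smul_dotProduct, hv_dot H, hWP w hw v hv', smul_zero]),
      utvGroup_le H (utv_mem_utvGroup hv0 hc)⟩⟩
  have hnorm : ∀ {a b}, a ∈ W → b ∈ P → h (a + b) (a + b) = h a a + h b b := fun {a b} ha hb => by
    rw [H.add_left, herm_add_right H, herm_add_right H, hWP a ha b hb, hb a ha, add_zero, zero_add]
  -- a mixed centre
  obtain ⟨a, ha, b, hb, ha0, hb0, hab⟩ :
      ∃ a ∈ W, ∃ b ∈ P, a ≠ 0 ∧ b ≠ 0 ∧ a + b ∈ ucentres σ h M := by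
    by_contra hcon
    push Not at hcon
    have side : ∀ u, u ∈ P → h u u = 0 →
        (g : Matrix ι ι F) *ᵥ u ∈ W ∨ (g : Matrix ι ι F) *ᵥ u ∈ P := by
      intro u hu huu
      obtain ⟨a, ha, b, hb, hab⟩ := hdec ((g : Matrix ι ι F) *ᵥ u)
      rcases eq_or_ne a 0 with rfl | ha0
      · exact Or.inr (by rw [← hab, zero_add]; exact hb)
      rcases eq_or_ne b 0 with rfl | hb0
      · exact Or.inl (by rw [← hab, add_zero]; exact ha)
      exact absurd (hab ▸ mulVec_mem_ucentres H hg hgi (hPc u hu huu)) (hcon a ha b hb ha0 hb0)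
    have pair : ∀ u v, u ∈ P → h u u = 0 → v ∈ P → h v v = 0 →
        (g : Matrix ι ι F) *ᵥ u ∉ W → (g : Matrix ι ι F) *ᵥ v ∉ P → False := by
      intro u v hu huu hv' hvv h1 h2
      have g1 := (side u hu huu).resolve_left h1
      have g2 := (side v hv' hvv).resolve_right h2
      have huv : h u v = 0 := by rw [← hgi]; exact g1 _ g2
      rcases side (u + v) (P.add_mem hu hv') (by
        rw [H.add_left, herm_add_right H, herm_add_right H, huu, hvv, huv,
          (herm_eq_zero_comm H).1 huv]; ring) with h3 | h3 <;> rw [mulVec_add] at h3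
      · exact h1 (by simpa using W.sub_mem h3 g2)
      · exact h2 (by simpa using P.sub_mem h3 g1)
    have hPmap : P.map (Matrix.toLin' (g : Matrix ι ι F)) ≤ W ∨
        P.map (Matrix.toLin' (g : Matrix ι ι F)) ≤ P := by
      have hspan : P ≤ Submodule.span F {v | v ∈ P ∧ h v v = 0} := by
        intro x hx
        set S := Submodule.span F {v | v ∈ P ∧ h v v = 0}
        rcases eq_or_ne x 0 with rfl | hx0
        · exact S.zero_mem
        obtain ⟨p, hp, hpp, hpx⟩ := exists_iso_nonorth H hPnd (by omega) hx hx0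
        obtain ⟨c, hc⟩ := exists_isotropic_translate H hpp hpx
        have h1 : x + c • p ∈ S := Submodule.subset_span ⟨P.add_mem hx (P.smul_mem _ hp), hc⟩
        have h2 : p ∈ S := Submodule.subset_span ⟨hp, hpp⟩
        simpa using S.sub_mem h1 (S.smul_mem c h2)
      by_contra hne
      push Not at hne
      obtain ⟨u, hu, huu, hu'⟩ : ∃ u ∈ P, h u u = 0 ∧ (g : Matrix ι ι F) *ᵥ u ∉ W := by
        by_contra hc; push Not at hc
        refine hne.1 ((Submodule.map_mono hspan).trans ?_)
        rw [Submodule.map_span]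
        refine Submodule.span_le.2 ?_
        rintro _ ⟨v, hv', rfl⟩
        rw [Matrix.toLin'_apply]
        exact hc v hv'.1 hv'.2
      obtain ⟨v, hv', hvv, hv''⟩ : ∃ u ∈ P, h u u = 0 ∧ (g : Matrix ι ι F) *ᵥ u ∉ P := by
        by_contra hc; push Not at hc
        refine hne.2 ((Submodule.map_mono hspan).trans ?_)
        rw [Submodule.map_span]
        refine Submodule.span_le.2 ?_
        rintro _ ⟨v, hv', rfl⟩
        rw [Matrix.toLin'_apply]
        exact hc v hv'.1 hv'.2
      exact pair u v hu huu hv' hvv hu' hv''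
    rcases hPmap with hP' | hP'
    · have := Submodule.finrank_mono hP'
      rw [finrank_map_gl] at this
      omega
    · refine hgn ⟨mem_subspaceStabilizer.2 fun w hw => hWperp _ fun b hb => ?_, hM hg⟩
      have hmap := Submodule.eq_of_le_of_finrank_eq hP' (finrank_map_gl _ _)
      obtain ⟨b', hb', rfl⟩ := hmap.symm ▸ hb
      rw [Matrix.toLin'_apply, hgi]
      exact hWP w hw b' hb'
  have hbb : h b b = -h a a := by
    have := hab.1; rw [hnorm ha hb] at this; linear_combination this
  -- reflections compensated in `P`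
  have compensate : ∀ (k : GL ι F), k ∈ isoH h → FixesPerp h k W → ∀ b' ∈ P,
      ∃ k' ∈ M, k' ∈ isoH h ∧ (∀ a' ∈ W, (k' : Matrix ι ι F) *ᵥ a' = (k : Matrix ι ι F) *ᵥ a') ∧
        (k' : Matrix ι ι F) *ᵥ b' = b' := by
    intro k hk hkf b' hb'
    obtain ⟨p, hp, hpb, hpp⟩ := exists_aniso_perp H hPnd ![b'] (fun i => by fin_cases i; exact hb')
      (by omega)
    have hpb' : h b' p = 0 := (herm_eq_zero_comm H).1 (hpb 0)
    set D := (k : Matrix ι ι F).det
    have hDn : D * σ D = 1 := by
      -- compare the determinant of the Gram matrices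
      let G₀ : Matrix ι ι F := Matrix.of fun i j => h (Pi.single i 1) (Pi.single j 1)
      have hG : ∀ x y, h x y = x ⬝ᵥ (G₀ *ᵥ (σ ∘ y)) := by
        intro x y
        conv_lhs => rw [← hv_dot H]
        simp only [dotProduct, mulVec, G₀, Matrix.of_apply]
        refine Finset.sum_congr rfl fun i _ => ?_
        rw [mul_comm]
        congr 1
        change h (Pi.single i 1) y = _
        conv_lhs => rw [H.herm, ← hv_dot H, dotProduct, map_sum]
        refine Finset.sum_congr rfl fun j _ => ?_
        simp only [Function.comp_apply, map_mul]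
        rw [show Cfsg.Agent.Lib.Forms.hv h (Pi.single i 1) j = h (Pi.single j 1) (Pi.single i 1) from rfl,
          ← H.herm, mul_comm]
      have hmat : (k : Matrix ι ι F)ᵀ * G₀ * (k : Matrix ι ι F).map σ = G₀ := by
        ext i j
        have e := hk (Pi.single i 1) (Pi.single j 1)
        rw [hG] at e
        have e' : G₀ i j = h (Pi.single i 1) (Pi.single j 1) := rfl
        rw [e', ← e, mul_assoc]
        simp [Matrix.mul_apply, dotProduct, mulVec, Pi.single_apply, Function.comp]
      have hG0 : G₀.det ≠ 0 := by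
        intro e
        obtain ⟨v, hv0, hv'⟩ := Matrix.exists_mulVec_eq_zero_iff.2 e
        obtain ⟨x, hx⟩ := (H.nondegenerate (σ ∘ v) (fun e => hv0 (funext fun i => by
          simpa using congrFun e i))).1
        apply hx
        rw [hG, show σ ∘ (σ ∘ v) = v from funext fun i => H.involutive (v i), hv', dotProduct_zero]
      have := congrArg Matrix.det hmat
      rw [Matrix.det_mul, Matrix.det_mul, Matrix.det_transpose,
        show (k : Matrix ι ι F).map σ = σ.toRingHom.mapMatrix (k : Matrix ι ι F) from rfl,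
        ← RingHom.map_det] at this
      change D * G₀.det * σ D = G₀.det at this
      exact mul_right_cancel₀ hG0 (by rw [one_mul]; linear_combination this)
    have hD0 : D ≠ 0 := left_ne_zero_of_mul_eq_one hDn
    obtain ⟨r, hr, hrx, hrd⟩ := exists_qrefl H (w := p) (c := (D⁻¹ - 1) / h p p)
      (by rw [map_div₀, map_sub, map_one, map_inv₀, herm_self_fixed H,
          eq_inv_of_mul_eq_one_right hDn, inv_inv]; field_simp; ring)
    have hkb : ∀ x ∈ P, (k : Matrix ι ι F) *ᵥ x = x := fun x hx => hkf x hx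
    refine ⟨k * r, hgW (mul_mem hk hr) ((mem_specialLinear _).2 ?_) ?_, mul_mem hk hr, ?_, ?_⟩
    · rw [Units.val_mul, Matrix.det_mul, hrd]; field_simp; ring
    · intro x hx
      rw [mul_mulVec', hrx, mulVec_add, mulVec_smul, hkb x hx, hkb p hp]
      exact P.add_mem hx (P.smul_mem _ hp)
    · intro a' ha'
      rw [mul_mulVec', hrx, hWP a' ha' p hp, mul_zero, zero_smul, add_zero]
    · rw [mul_mulVec', hrx, hpb', mul_zero, zero_smul, add_zero, hkb b' hb']
  have hPfix : ∀ {t : GL ι F}, t ∈ utvGroup σ h → FixesPerp h t P → t ∈ M := fun {t} ht htf =>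
    hgW (utvGroup_le H ht).1 (utvGroup_le H ht).2 fun x hx w hw => by
      rw [← htf w (fun p hp => hWP w hw p hp), (utvGroup_le H ht).1]
      exact hx w hw
  -- centres with anisotropic component, given one
  have aniso : ∀ {a b}, a ∈ W → b ∈ P → a + b ∈ ucentres σ h M → h a a ≠ 0 →
      ∀ {a' b'}, a' ∈ W → b' ∈ P → h (a' + b') (a' + b') = 0 → h a' a' ≠ 0 →
        a' + b' ∈ ucentres σ h M := by
    intro a b ha hb hab haa a' b' ha' hb' hiso haa'
    have hb0 : b ≠ 0 := fun e => haa (by
      have := hab.1; rw [hnorm ha hb, e, herm_zero_left H, add_zero] at this; exact this)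
    -- adjust the norm
    obtain ⟨t, ht⟩ := exists_norm_eq H (a := h a' a' / h a a)
      (by rw [map_div₀, herm_self_fixed H, herm_self_fixed H])
    have ht0 : t ≠ 0 := fun e => by
      rw [e, zero_mul, eq_comm, div_eq_zero_iff] at ht; tauto
    obtain ⟨p₀, hp₀, hpp, hpb⟩ := exists_iso_nonorth H hPnd (by omega) hb hb0
    set X := h p₀ b
    have hσt : σ t ≠ 0 := by simpa using ht0
    set q := (t / (κ * X)) • p₀ with hq
    have hq' : q ∈ P := P.smul_mem _ hp₀
    have hqq : h q q = 0 := by rw [hq, smul_inner H, hpp, mul_zero]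
    have hqz : h q (a + b) = t / κ := by
      rw [herm_add_right H, (hq' : ∀ w ∈ W, h q w = 0) a ha, zero_add, hq, H.smul_left]
      change t / (κ * X) * X = t / κ
      field_simp
    have hqs : h (q + t • (a + b)) (q + t • (a + b)) = 0 := by
      rw [herm_add_smul_self H, hqq, hab.1, hqz, map_div₀, eq_neg_of_add_eq_zero_right hκ]
      field_simp
      ring
    have h1 : q + t • (a + b) ∈ ucentres σ h M :=
      add_smul_mem_ucentres H (hPc q hq' hqq) hab (by rw [hqz]; exact div_ne_zero ht0 hκ0) hqs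
    rw [show q + t • (a + b) = t • a + (q + t • b) by module] at h1
    set a₁ := t • a
    set b₁ := q + t • b
    have ha₁ : a₁ ∈ W := W.smul_mem _ ha
    have hb₁ : b₁ ∈ P := P.add_mem hq' (P.smul_mem _ hb)
    have haa₁ : h a₁ a₁ = h a' a' := by rw [smul_inner H, ht]; field_simp
    -- adjust the component in `W`
    obtain ⟨μ, hμ, hμ1⟩ := exists_norm_one_ne H
    obtain ⟨l, hl, hk⟩ : ∃ l, l * σ l = 1 ∧ h a₁ (l • a') ≠ h a' a' := by
      by_cases h1' : h a₁ a' = h a' a'
      · refine ⟨μ, hμ, fun e => hμ1 ?_⟩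
        rw [herm_smul_right H, h1'] at e
        have := mul_right_cancel₀ haa' (e.trans (one_mul _).symm)
        rw [this, mul_one] at hμ
        exact hμ
      · exact ⟨1, by simp, by rwa [one_smul]⟩
    have hl0 : l ≠ 0 := left_ne_zero_of_mul_eq_one hl
    set a₂ := l • a'
    have ha₂ : a₂ ∈ W := W.smul_mem _ ha'
    have haa₂ : h a₂ a₂ = h a' a' := by rw [smul_inner H, hl, one_mul]
    obtain ⟨k, hki, hkf, hka⟩ : ∃ k ∈ isoH h, FixesPerp h k W ∧ (k : Matrix ι ι F) *ᵥ a₁ = a₂ := by
      set w := a₂ - a₁ with hw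
      set e := h a₁ a₂ - h a' a' with he
      have he0 : e ≠ 0 := sub_ne_zero.2 hk
      have hσe : σ e ≠ 0 := by simpa using he0
      have hwe : h a₁ w = e := by rw [herm_sub_right H, haa₁]
      have hww : h w w = -e - σ e := by
        rw [herm_sub_left H, herm_sub_right H, herm_sub_right H, haa₂, haa₁, he, map_sub,
          herm_self_fixed H, ← H.herm]
        ring
      obtain ⟨k, hk, hkx, -⟩ := exists_qrefl H (w := w) (c := e⁻¹)
        (by rw [hww, map_inv₀]; field_simp; ring)
      exact ⟨k, hk, fun x hx => by rw [hkx, hx w (W.sub_mem ha₂ ha₁), mul_zero, zero_smul, add_zero],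
        by rw [hkx, hwe, inv_mul_cancel₀ he0, one_smul, hw, add_sub_cancel]⟩
    obtain ⟨k', hk'M, hk'i, hk'a, hk'b⟩ := compensate k hki hkf b₁ hb₁
    have h2 := mulVec_mem_ucentres H hk'M hk'i h1
    rw [mulVec_add, hk'a a₁ ha₁, hka, hk'b] at h2
    -- adjust the component in `P`
    set b₂ := l • b'
    have hb₂ : b₂ ∈ P := P.smul_mem _ hb'
    rw [hnorm ha' hb'] at hiso
    have hbb₂ : h b₂ b₂ = -h a' a' := by
      rw [smul_inner H, hl, one_mul]; linear_combination hiso
    have hbb₁ : h b₁ b₁ = -h a' a' := by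
      have := h1.1; rw [hnorm ha₁ hb₁, haa₁] at this; linear_combination this
    obtain ⟨T, hT, hTb, hTf⟩ := exists_map H hPnd (Or.inr (by omega)) (by omega) hb₁ hb₂ hbb₁ hbb₂
      (neg_ne_zero.2 haa')
    have h3 := mulVec_mem_ucentres H (hPfix hT hTf) (utvGroup_le H hT).1 h2
    rw [mulVec_add, hTb, hTf a₂ (fun p hp => hWP a₂ ha₂ p hp)] at h3
    have h4 := smul_mem_ucentres H l⁻¹ h3
    rwa [smul_add, smul_smul, smul_smul, inv_mul_cancel₀ hl0, one_smul, one_smul] at h4
  -- an anisotropic mixed centre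
  obtain ⟨a, ha, b, hb, haa, hab⟩ :
      ∃ a' ∈ W, ∃ b' ∈ P, h a' a' ≠ 0 ∧ a' + b' ∈ ucentres σ h M := by
    by_cases haa : h a a = 0
    swap
    · exact ⟨a, ha, b, hb, haa, hab⟩
    rw [haa, neg_zero] at hbb
    obtain ⟨w, hw, haw⟩ := (hW a ha ha0).2
    obtain ⟨c, hc⟩ := exists_isotropic_translate H haa haw
    set w' := w + c • a
    have hw' : w' ∈ W := W.add_mem hw (W.smul_mem _ ha)
    have haw' : h a w' ≠ 0 := by
      rwa [herm_add_right H, herm_smul_right H, haa, mul_zero, add_zero]
    set s := κ / σ (h a w') with hs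
    have hσaw : σ (h a w') ≠ 0 := by simpa using haw'
    set Y := h (a + s • w') a with hY
    have hYκ : Y = κ := by
      rw [hY, H.add_left, H.smul_left, haa, zero_add, hs, H.herm w' a]; field_simp
    have hiso' : h (a + s • w') (a + s • w') = 0 := by
      rw [herm_add_smul_self H, haa, show h w' w' = 0 from hc, hs, map_div₀, H.involutive]
      field_simp
      linear_combination (h a w' * σ (h a w')) * hκ
    set a' := a + s • w'
    have ha' : a' ∈ W := W.add_mem ha (W.smul_mem _ hw')
    have hza' : a' + b ∈ ucentres σ h M := by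
      rw [show a' + b = (a + b) + s • w' by simp only [a']; abel]
      refine add_smul_mem_ucentres H hab (hWc w' hw' hc) ?_ ?_
      · rwa [H.add_left, hb w' hw', add_zero]
      · rw [show (a + b) + s • w' = a' + b by simp only [a']; abel, hnorm ha' hb, hiso', hbb,
          add_zero]
    obtain ⟨r, hr, hrr, hrb⟩ : ∃ r ∈ P, h r r ≠ 0 ∧ h b r ≠ 0 := by
      obtain ⟨p, hp, hpp, hpb⟩ := exists_iso_nonorth H hPnd (by omega) hb hb0
      obtain ⟨t, ht⟩ := exists_trace_ne_zero H
      refine ⟨(t / h p b) • p + b, P.add_mem (P.smul_mem _ hp) hb, ?_, ?_⟩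
      · simp only [H.add_left, H.smul_left, herm_add_right H, herm_smul_right H, hpp, hbb,
          H.herm b p, map_div₀]
        intro e
        have : σ (h p b) ≠ 0 := by simpa using hpb
        field_simp at e
        exact ht (mul_right_cancel₀ (mul_ne_zero hpb this) (by rw [zero_mul]; linear_combination e))
      · simp only [herm_add_right H, herm_smul_right H, hbb, add_zero, H.herm b p, map_div₀]
        have : σ (h p b) ≠ 0 := by simpa using hpb
        field_simp
        intro e
        rcases eq_or_ne t 0 with rfl | h'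
        · simp at ht
        · exact h' (by simpa using e)
    obtain ⟨μ, hμ, hμ1⟩ := exists_norm_one_ne H
    have hμ0 : μ ≠ 0 := left_ne_zero_of_mul_eq_one hμ
    have hσμ : σ μ = μ⁻¹ := eq_inv_of_mul_eq_one_right hμ
    obtain ⟨p, hp, hpp', hpp⟩ := exists_aniso_perp H hPnd ![b, r]
      (fun i => by fin_cases i <;> assumption) (by omega)
    obtain ⟨R, hR, hRx, hRd⟩ := exists_qrefl H (w := r) (c := (μ - 1) / h r r)
      (by rw [map_div₀, map_sub, map_one, herm_self_fixed H, hσμ]; field_simp; ring)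
    obtain ⟨R', hR', hRx', hRd'⟩ := exists_qrefl H (w := p) (c := (μ⁻¹ - 1) / h p p)
      (by rw [map_div₀, map_sub, map_one, map_inv₀, herm_self_fixed H, hσμ, inv_inv]; field_simp; ring)
    have hRM : R * R' ∈ M := hgW (mul_mem hR hR') ((mem_specialLinear _).2 (by
      rw [Units.val_mul, Matrix.det_mul, hRd, hRd']; field_simp; ring)) fun x hx => by
        rw [mul_mulVec', hRx', hRx]
        exact P.add_mem (P.add_mem hx (P.smul_mem _ hp)) (P.smul_mem _ hr)
    set X := (μ - 1) / h r r * h b r with hX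
    have hbp : h b p = 0 := (herm_eq_zero_comm H).1 (hpp' 0)
    have h2 := mulVec_mem_ucentres H hRM (mul_mem hR hR') hza'
    have hRa : ((R * R' : GL ι F) : Matrix ι ι F) *ᵥ (a' + b) = a' + (b + X • r) := by
      rw [mul_mulVec', hRx', H.add_left a' b, hWP a' ha' p hp, hbp, add_zero, mul_zero, zero_smul,
        add_zero, hRx, H.add_left a' b, hWP a' ha' r hr, zero_add, hX]
      abel
    rw [hRa] at h2
    set b' := b + X • r
    have hb' : b' ∈ P := P.add_mem hb (P.smul_mem _ hr)
    set e := h b' b with he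
    have he' : e = (μ - 1) * (h b r * σ (h b r) / h r r) := by
      rw [he, H.add_left, H.smul_left, hbb, zero_add, hX, H.herm r b]; ring
    have hcross : h (a' + b') (a + b) = κ + e := by
      rw [H.add_left, herm_add_right H, herm_add_right H, hWP a' ha' b hb, hb' a ha, ← hY, hYκ]
      ring
    set S := h b r * σ (h b r) / h r r
    have hS : σ S = S := by
      simp only [S, map_div₀, map_mul, H.involutive, herm_self_fixed H]; ring
    have hσbr : σ (h b r) ≠ 0 := by simpa using hrb
    have hS0 : S ≠ 0 := div_ne_zero (mul_ne_zero hrb hσbr) hrr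
    have hμskew : ¬ ((μ - 1) + σ (μ - 1) = 0) := fun e' => by
      rw [map_sub, map_one, hσμ] at e'
      field_simp at e'
      exact hμ1 (sub_eq_zero.1 (mul_self_eq_zero.1 (by linear_combination e')))
    have hne : κ + e ≠ 0 := fun e' => hμskew (by
      have h3 : (μ - 1) * S = -κ := by rw [← he']; linear_combination e'
      have h4 := congrArg σ h3
      rw [map_mul, hS, map_neg] at h4
      exact (mul_eq_zero.1 (show ((μ - 1) + σ (μ - 1)) * S = 0 by
        linear_combination h3 + h4 - hκ)).resolve_right hS0)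
    set t := σ (κ / (κ + e)) with ht
    have hσne : σ (κ + e) ≠ 0 := (map_ne_zero σ).2 hne
    have hσt : σ t = κ / (κ + e) := by rw [ht, H.involutive]
    have hnew := add_smul_mem_ucentres H h2 hab (by rw [hcross]; exact hne) (t := t) (by
      rw [herm_add_smul_self H, h2.1, hab.1, hcross, hσt, ht, map_div₀]
      field_simp
      linear_combination ((κ + e) * σ (κ + e)) * hκ)
    rw [show a' + b' + t • (a + b) = (a' + t • a) + (b' + t • b) by module] at hnew
    refine ⟨_, W.add_mem ha' (W.smul_mem _ ha), _, P.add_mem hb' (P.smul_mem _ hb), ?_, hnew⟩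
    rw [herm_add_smul_self H, hiso', haa, ← hY, hYκ, hσt, ht, map_div₀]
    intro e'
    field_simp at e'
    apply hμskew
    have h5 : σ κ = -κ := eq_neg_of_add_eq_zero_right hκ
    rw [h5, he', map_add, h5, map_mul, hS] at e'
    have h6 : κ * κ * (S * ((μ - 1) + σ (μ - 1))) = 0 := by linear_combination e'
    simpa [hκ0, hS0] using h6
  refine iso_sl_le_of_ucentres H (by omega) fun z hz => ?_
  obtain ⟨a', ha', b', hb', rfl⟩ := hdec z
  rw [hnorm ha' hb'] at hz
  rcases eq_or_ne a' 0 with rfl | ha0'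
  · rw [herm_zero_left H, zero_add] at hz
    simpa using hPc b' hb' hz
  rcases eq_or_ne b' 0 with rfl | hb0'
  · rw [herm_zero_left H, add_zero] at hz
    simpa using hWc a' ha' hz
  by_cases haa' : h a' a' = 0
  swap
  · exact aniso ha hb hab haa ha' hb' (by rw [hnorm ha' hb']; exact hz) haa'
  rw [haa', zero_add] at hz
  obtain ⟨a₁, ha₁, haa₁, hc⟩ : ∃ a₁ ∈ W, h a₁ a₁ ≠ 0 ∧ h a' a₁ ≠ 0 := by
    obtain ⟨w, hw, haw⟩ := (hW a' ha' ha0').2
    by_cases hww : h w w = 0
    swap
    · exact ⟨w, hw, hww, haw⟩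
    obtain ⟨t, ht⟩ := exists_trace_ne_zero H
    have : σ (h a' w) ≠ 0 := by simpa using haw
    refine ⟨w + (t / h a' w) • a', W.add_mem hw (W.smul_mem _ ha'), ?_, ?_⟩
    · simp only [H.add_left, H.smul_left, herm_add_right H, herm_smul_right H, hww, haa',
        H.herm w a', map_div₀]
      intro e
      field_simp at e
      exact ht (mul_right_cancel₀ (mul_ne_zero haw this) (by rw [zero_mul]; linear_combination e))
    · rwa [herm_add_right H, herm_smul_right H, haa', mul_zero, add_zero]
  obtain ⟨b₀, hb₀, hb₀b, hbb₀⟩ := exists_aniso_perp H hPnd ![b'] (fun i => by fin_cases i; exact hb')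
    (by omega)
  obtain ⟨t₁, ht₁⟩ := exists_norm_eq H (a := -h a₁ a₁ / h b₀ b₀)
    (by rw [map_div₀, map_neg, herm_self_fixed H, herm_self_fixed H])
  set b₁ := t₁ • b₀
  have hb₁ : b₁ ∈ P := P.smul_mem _ hb₀
  have hb₁b : h b' b₁ = 0 := by
    have h0' : h b₀ b' = 0 := by simpa using hb₀b 0
    rw [herm_smul_right H, (herm_eq_zero_comm H).1 h0', mul_zero]
  have hz1 : h (a₁ + b₁) (a₁ + b₁) = 0 := by
    rw [hnorm ha₁ hb₁, smul_inner H, ht₁]; field_simp; ring
  have hzc : a₁ + b₁ ∈ ucentres σ h M := aniso ha hb hab haa ha₁ hb₁ hz1 haa₁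
  set c₀ := h a' a₁
  set t := σ (κ / c₀) with ht
  have hσc : σ c₀ ≠ 0 := by simpa using hc
  have hcross : h (a' + b') (a₁ + b₁) = c₀ := by
    rw [H.add_left, herm_add_right H, herm_add_right H, hWP a' ha' b₁ hb₁, hb' a₁ ha₁, hb₁b]; ring
  have hσκ : σ κ = -κ := eq_neg_of_add_eq_zero_right hκ
  have ht0 : t ≠ 0 := by simp [ht, hκ0, hc]
  set A := a' + t • a₁
  have hAA : h A A = t * σ t * h a₁ a₁ := by
    simp only [A, H.add_left, H.smul_left, herm_add_right H, herm_smul_right H, haa',
      H.herm a₁ a', ht, map_div₀, H.involutive]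
    rw [show h a' a₁ = c₀ from rfl, hσκ]
    field_simp
    ring
  have hiso : h (a' + b' + t • (a₁ + b₁)) (a' + b' + t • (a₁ + b₁)) = 0 := by
    rw [herm_add_smul_self H, hz1, hcross, hnorm ha' hb', haa', hz, ht, map_div₀, map_div₀,
      H.involutive, H.involutive, hσκ]
    field_simp
    ring
  have hv' : A + (b' + t • b₁) ∈ ucentres σ h M :=
    aniso ha hb hab haa (W.add_mem ha' (W.smul_mem _ ha₁)) (P.add_mem hb' (P.smul_mem _ hb₁))
      (by rwa [show A + (b' + t • b₁) = a' + b' + t • (a₁ + b₁) by simp only [A]; module])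
      (by rw [hAA]; exact mul_ne_zero (mul_ne_zero ht0 (by simpa using ht0)) haa₁)
  rw [show A + (b' + t • b₁) = a' + b' + t • (a₁ + b₁) by simp only [A]; module] at hv'
  have h5 := add_smul_mem_ucentres H hv' hzc (by
    rw [H.add_left, H.smul_left, hz1, mul_zero, add_zero, hcross]; exact hc) (t := -t) (by
    rw [show a' + b' + t • (a₁ + b₁) + -t • (a₁ + b₁) = a' + b' by module, hnorm ha' hb', haa', hz,
      add_zero])
  rwa [show a' + b' + t • (a₁ + b₁) + -t • (a₁ + b₁) = a' + b' by module] at h5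

end Cfsg.Agent.Lib.Forms
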