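import Cfsg.Agent.Lib.Forms.SubfieldBasic
import Cfsg.Agent.Lib.Forms.UnitaryPair
import Cfsg.Agent.Lib.Forms.UnitaryNondeg
import Cfsg.Agent.Lib.Forms.OrthTv

/-!
The orthogonal subfield subgroup is maximal in the special unitary group.
-/

set_option autoImplicit false

namespace Cfsg.Agent.Lib.Forms

open Matrix Cfsg.Geo

section Calculus

variable {ι : Type} [Fintype ι] [DecidableEq ι] {F : Type*} [Field F]
  {σ : F ≃+* F} {h : (ι → F) → (ι → F) → F} (H : IsUnitaryForm σ h)
include H

lemma ueE_conj {g : GL ι F} (hg : g ∈ isoH h) {a b : ι → F} (ha : h a a = 0) (hb : h b b = 0)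
    (hab : h a b = 0) (c : F) :
    g * ueE σ h a b c * g⁻¹ =
      ueE σ h ((g : Matrix ι ι F) *ᵥ a) ((g : Matrix ι ι F) *ᵥ b) c := by
  apply gl_ext; intro x
  rw [mul_mulVec', mul_mulVec', ueE_mulVec H ha hb hab,
    ueE_mulVec H (by rw [hg]; exact ha) (by rw [hg]; exact hb) (by rw [hg]; exact hab),
    mulVec_sub, mulVec_add, mulVec_smul, mulVec_smul, mulVec_inv_mulVec]
  have e : ∀ y, h (((g⁻¹ : GL ι F) : Matrix ι ι F) *ᵥ x) y = h x ((g : Matrix ι ι F) *ᵥ y) :=
    fun y => by rw [← hg, mulVec_inv_mulVec]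
  rw [e, e]

lemma ueE_add_left {a a' b : ι → F} (ha : h a a = 0) (ha' : h a' a' = 0) (hb : h b b = 0)
    (haa : h a' a = 0) (hab : h a b = 0) (hab' : h a' b = 0) (c : F) :
    ueE σ h a b c * ueE σ h a' b c = ueE σ h (a + a') b c := by
  have haa' := eq_zero_of_herm_self H haa
  apply gl_ext; intro x
  rw [mul_mulVec', ueE_mulVec H ha' hb hab', ueE_mulVec H ha hb hab,
    ueE_mulVec H (by simp [H.add_left, herm_add_right H, ha, ha', haa, haa']) hb
      (by rw [H.add_left, hab, hab', add_zero]),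
    herm_sub_left H, herm_sub_left H, H.add_left, H.add_left, H.smul_left, H.smul_left,
    H.smul_left, H.smul_left, haa, hab', hb, eq_zero_of_herm_self H hab,
    herm_add_right H]
  module

lemma ueE_smul_left {a b : ι → F} (ha : h a a = 0) (hb : h b b = 0) (hab : h a b = 0) (k c : F) :
    ueE σ h (k • a) b c = ueE σ h a b (c * k) := by
  apply gl_ext; intro x
  rw [ueE_mulVec H (by rw [smul_inner H, ha, mul_zero]) hb (by rw [H.smul_left, hab, mul_zero]),
    ueE_mulVec H ha hb hab, herm_smul_right H, map_mul]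
  module

lemma ueE_swap {a b : ι → F} (ha : h a a = 0) (hb : h b b = 0) (hab : h a b = 0) (c : F) :
    ueE σ h a b c = ueE σ h b a (-σ c) := by
  apply gl_ext; intro x
  rw [ueE_mulVec H ha hb hab, ueE_mulVec H hb ha (eq_zero_of_herm_self H hab), map_neg, H.involutive]
  module

lemma ueE_comm {s p p' : ι → F} (hs : h s s = 0) (hp : h p p = 0) (hp' : h p' p' = 0)
    (hsp : h s p = 0) (hsp' : h s p' = 0) (c d : F) :
    ueE σ h s p c * ueE σ h s p' d =
      tv s ((d * σ c * h p p' - c * σ d * h p' p) • hv h s) *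
        (ueE σ h s p' d * ueE σ h s p c) := by
  have hps := eq_zero_of_herm_self H hsp
  have hps' := eq_zero_of_herm_self H hsp'
  apply gl_ext; intro x
  simp only [mul_mulVec', ueE_mulVec H hs hp hsp, ueE_mulVec H hs hp' hsp', utv_mulVec H hs,
    herm_sub_left H, H.add_left, H.smul_left, hs, hps, hps', hsp, hsp']
  module

end Calculus

variable {ι : Type} [Fintype ι] [DecidableEq ι] {F : Type*} [Field F]
  {σ : F ≃+* F} {h : (ι → F) → (ι → F) → F} {F₀ : Subfield F} {P : GL ι F} {δ : F}

/-- A rational orthogonal structure inside a Hermitian space. -/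
structure OrthRat (σ : F ≃+* F) (h : (ι → F) → (ι → F) → F) (F₀ : Subfield F) (P : GL ι F)
    (δ : F) : Prop where
  herm : IsUnitaryForm σ h
  fixed : ∀ c : F, σ c = c ↔ c ∈ F₀
  δ0 : δ ≠ 0
  δskew : δ + σ δ = 0
  two : (2 : F) ≠ 0
  rat : ∀ u v : ι → F₀, h (ratVec P u) (ratVec P v) ∈ F₀

variable (S : OrthRat σ h F₀ P δ)
include S

/-- The symmetric form on the rational vectors. -/
def OrthRat.form : LinearMap.BilinForm F₀ (ι → F₀) :=
  LinearMap.mk₂ F₀ (fun u v => (⟨h (ratVec P u) (ratVec P v), S.rat u v⟩ : F₀))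
    (fun u u' v => Subtype.ext (by
      rw [Subfield.coe_add]; simp only
      rw [ratVec_add, S.herm.add_left]))
    (fun c u v => Subtype.ext (by
      rw [smul_eq_mul, Subfield.coe_mul]; simp only
      rw [ratVec_smul, S.herm.smul_left]))
    (fun u v v' => Subtype.ext (by
      rw [Subfield.coe_add]; simp only
      rw [ratVec_add, herm_add_right S.herm]))
    (fun c u v => Subtype.ext (by
      rw [smul_eq_mul, Subfield.coe_mul]; simp only
      rw [ratVec_smul, herm_smul_right S.herm, (S.fixed _).2 c.2]))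

lemma OrthRat.form_coe (u v : ι → F₀) : ((S.form u v : F₀) : F) = h (ratVec P u) (ratVec P v) := rfl

lemma OrthRat.two' : (2 : F₀) ≠ 0 := fun e => S.two (congrArg Subtype.val e :)

lemma OrthRat.decomp (c : F) : ∃ a b : F₀, (a : F) + (b : F) * δ = c := by
  have hσδ : σ δ = -δ := eq_neg_of_add_eq_zero_right S.δskew
  have h2 := S.two
  have hδ := S.δ0
  have h2' : σ 2 = 2 := map_ofNat σ 2
  refine ⟨⟨(c + σ c) / 2, (S.fixed _).1 ?_⟩, ⟨(c - σ c) / (2 * δ), (S.fixed _).1 ?_⟩, ?_⟩
  · rw [map_div₀, map_add, S.herm.involutive, h2', add_comm]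
  · rw [map_div₀, map_sub, map_mul, S.herm.involutive, h2', hσδ]
    field_simp
    ring
  · field_simp
    ring

lemma OrthRat.exists_combo (x : ι → F) :
    ∃ u w : ι → F₀, x = ratVec P u + δ • ratVec P w := by
  choose a b hab using fun i => S.decomp ((((P⁻¹ : GL ι F) : Matrix ι ι F) *ᵥ x) i)
  refine ⟨a, b, ?_⟩
  conv_lhs => rw [← mulVec_inv_mulVec P x]
  rw [ratVec, ratVec, ← mulVec_smul, ← mulVec_add]
  congr 1
  funext i
  rw [Pi.add_apply, Pi.smul_apply, smul_eq_mul, ← hab i, mul_comm]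

lemma OrthRat.oddForm : OddForm S.form where
  two := S.two'
  symm u v := Subtype.ext (by
    rw [S.form_coe, S.form_coe, S.herm.herm, (S.fixed _).2 (S.rat v u)])
  nd := by
    have key : ∀ v, (∀ u, S.form u v = 0) → v = 0 := by
      intro v hv'
      by_contra hv0
      obtain ⟨x, hx⟩ := (S.herm.nondegenerate _ (ratVec_ne_zero (P := P) hv0)).1
      obtain ⟨a, b, rfl⟩ := S.exists_combo x
      apply hx
      rw [S.herm.add_left, S.herm.smul_left, ← S.form_coe, ← S.form_coe, hv', hv']
      simp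
    refine ⟨fun u hu => key u fun v => ?_, fun v hv' => key v hv'⟩
    refine Subtype.ext ?_
    rw [S.form_coe, S.herm.herm, ← S.form_coe, hu v]
    simp

lemma OrthRat.herm_combo (u w : ι → F₀) :
    h (ratVec P u + δ • ratVec P w) (ratVec P u + δ • ratVec P w) =
      (S.form u u : F) - δ * δ * (S.form w w : F) := by
  have hσδ : σ δ = -δ := eq_neg_of_add_eq_zero_right S.δskew
  rw [herm_add_smul_self S.herm, ← S.form_coe, ← S.form_coe, ← S.form_coe, hσδ,
    (S.fixed _).2 (SetLike.coe_mem _)]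
  ring

lemma OrthRat.iso_combo {u w : ι → F₀}
    (hiso : h (ratVec P u + δ • ratVec P w) (ratVec P u + δ • ratVec P w) = 0) :
    (S.form u u : F) = δ * δ * (S.form w w : F) := by
  rw [S.herm_combo] at hiso
  exact sub_eq_zero.1 hiso

lemma OrthRat.herm_rat_combo (z u w : ι → F₀) :
    h (ratVec P u + δ • ratVec P w) (ratVec P z) = (S.form u z : F) + δ * (S.form w z : F) := by
  rw [S.herm.add_left, S.herm.smul_left, S.form_coe, S.form_coe]

variable {M : Subgroup (GL ι F)}
  (hM : subfieldSubgroup F₀ P ⊓ (isoH h ⊓ specialLinear ι F) ≤ M)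
include hM

lemma OrthRat.ueE_rat_mem {s r : ι → F₀} (hs : S.form s s = 0) (hr : S.form r r = 0)
    (hsr : S.form s r = 0) (c : F₀) :
    ueE σ h (ratVec P s) (ratVec P r) (c : F) ∈ M := by
  have H := S.herm
  have h1 : h (ratVec P s) (ratVec P s) = 0 := by rw [← S.form_coe, hs]; rfl
  have h2 : h (ratVec P r) (ratVec P r) = 0 := by rw [← S.form_coe, hr]; rfl
  have h3 : h (ratVec P s) (ratVec P r) = 0 := by rw [← S.form_coe, hsr]; rfl
  refine hM ⟨mem_subfieldSubgroup_iff.2 ⟨sieg S.form r s c, 1, fun v => ?_⟩, ueE_mem H h1 h2 h3 _⟩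
  rw [ueE_mulVec H h1 h2 h3, S.oddForm.sieg_mulVec ⟨hr, hs, by rw [S.oddForm.symm]; exact hsr⟩,
    Units.val_one, one_smul, (S.fixed _).2 c.2, sub_eq_add_neg _ ((c * S.form v s) • r), ← neg_smul,
    ratVec_add, ratVec_add, ratVec_smul, ratVec_smul, Subfield.coe_mul, NegMemClass.coe_neg,
    Subfield.coe_mul, S.form_coe, S.form_coe]
  module

/-- An element outside the subfield group gives a rational centre. -/
lemma OrthRat.exists_centre [Finite F] (hn : 13 ≤ Fintype.card ι) {g : GL ι F} (hg : g ∈ M)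
    (hgi : g ∈ isoH h) (hgn : g ∉ subfieldSubgroup F₀ P) :
    ∃ s : ι → F₀, s ≠ 0 ∧ S.form s s = 0 ∧ ratVec P s ∈ ucentres σ h M := by
  classical
  have H := S.herm
  have O := S.oddForm
  -- a singular vector with irrational image
  obtain ⟨u₂, a, b, hu₂, hab, hind⟩ : ∃ u₂ a b : ι → F₀, S.form u₂ u₂ = 0 ∧
      (g : Matrix ι ι F) *ᵥ ratVec P u₂ = ratVec P a + δ • ratVec P b ∧
      LinearIndependent F₀ ![a, b] := by
    by_contra hcon
    push Not at hcon
    have line : ∀ u, S.form u u = 0 → ∃ (c : F) (a : ι → F₀),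
        (g : Matrix ι ι F) *ᵥ ratVec P u = c • ratVec P a := by
      intro u hu
      obtain ⟨a, b, hab⟩ := S.exists_combo ((g : Matrix ι ι F) *ᵥ ratVec P u)
      have hdep := hcon u a b hu hab
      rw [LinearIndependent.pair_iff] at hdep
      push Not at hdep
      obtain ⟨s, t, hst, hne⟩ := hdep
      rcases eq_or_ne t 0 with rfl | ht
      · have hs0 : s ≠ 0 := fun e => hne e rfl
        rw [zero_smul, add_zero, smul_eq_zero, or_iff_right hs0] at hst
        exact ⟨δ, b, by rw [hab, hst, ratVec_zero, zero_add]⟩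
      · refine ⟨1 + δ * ((-(s / t) : F₀) : F), a, ?_⟩
        have hb' : b = (-(s / t)) • a := by
          funext j
          have := congrFun hst j
          simp only [Pi.add_apply, Pi.smul_apply, Pi.zero_apply, smul_eq_mul] at this ⊢
          field_simp
          linear_combination this
        rw [hab, hb', ratVec_smul, smul_smul, add_smul, one_smul]
    obtain ⟨p₀, hp₀, -, hp₀out⟩ := O.exists_sing_notMem (![] : Fin 0 → (ι → F₀)) (by omega)
    obtain ⟨l₀, a₀, ha₀⟩ := line p₀ hp₀
    have hl₀ : l₀ ≠ 0 := fun e => by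
      rw [e, zero_smul] at ha₀
      refine hp₀out ?_
      have h0 : ratVec P p₀ = ratVec P (0 : ι → F₀) :=
        gl_mulVec_injective g (by simpa [ratVec_zero] using ha₀)
      rw [ratVec_injective h0]; exact Submodule.zero_mem _
    -- coherence
    have step : ∀ p q, S.form p p = 0 → S.form q q = 0 → S.form p q ≠ 0 → ∀ (l : F) (a : ι → F₀),
        (g : Matrix ι ι F) *ᵥ ratVec P p = l • ratVec P a →
        ∃ a' : ι → F₀, (g : Matrix ι ι F) *ᵥ ratVec P q = l • ratVec P a' := by
      intro p q hp hq hpq l a ha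
      obtain ⟨μ, a', ha'⟩ := line q hq
      have e := hgi (ratVec P p) (ratVec P q)
      rw [ha, ha', smul_inner H, ← S.form_coe, ← S.form_coe] at e
      have hpq' : (S.form p q : F) ≠ 0 := by simpa using hpq
      have hl : l ≠ 0 := fun e' => hpq' (by rw [← e, e', zero_mul, zero_mul])
      have hμ : μ ≠ 0 := fun e' => hpq' (by rw [← e, e', map_zero, mul_zero, zero_mul])
      have hB : (S.form a a' : F) ≠ 0 := fun e' => hpq' (by rw [← e, e', mul_zero])
      have hσl : σ l ≠ 0 := (map_ne_zero σ).2 hl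
      have e2 := congrArg σ e
      rw [map_mul, map_mul, H.involutive, (S.fixed _).2 (SetLike.coe_mem _),
        (S.fixed _).2 (SetLike.coe_mem _)] at e2
      have hk : μ / l ∈ F₀ := by
        rw [show μ / l = (S.form p q : F) / ((σ l * l) * (S.form a a' : F)) by
          field_simp; linear_combination e2]
        refine div_mem (SetLike.coe_mem _) (mul_mem ((S.fixed _).1 ?_) (SetLike.coe_mem _))
        rw [map_mul, H.involutive, mul_comm]
      refine ⟨(⟨μ / l, hk⟩ : F₀) • a', ?_⟩
      rw [ha', ratVec_smul, smul_smul, mul_div_cancel₀ μ hl]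
    have all : ∀ q, S.form q q = 0 → ∃ a' : ι → F₀, (g : Matrix ι ι F) *ᵥ ratVec P q = l₀ • ratVec P a' := by
      intro q hq
      rcases eq_or_ne q 0 with rfl | hq0
      · exact ⟨0, by simp [ratVec_zero]⟩
      by_cases hpq : S.form p₀ q = 0
      swap
      · exact step p₀ q hp₀ hq hpq l₀ a₀ ha₀
      by_cases hqin : q ∈ Submodule.span F₀ {p₀}
      · obtain ⟨c, rfl⟩ := Submodule.mem_span_singleton.1 hqin
        exact ⟨c • a₀, by rw [ratVec_smul, ratVec_smul, mulVec_smul, ha₀, smul_comm]⟩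
      -- a vector non-orthogonal to both
      obtain ⟨z₁, hz₁, hz₁p, hz₁q⟩ := O.exists_sing_ne ![p₀] (by omega) (a := q) (fun h' => hqin (by
        simpa [Matrix.range_cons] using h'))
      obtain ⟨z₂, hz₂, hz₂p, hz₂q⟩ := O.exists_sing_ne ![q, z₁] (by omega) (a := p₀) (fun h' => by
        rw [Matrix.range_cons, Matrix.range_cons, Matrix.range_empty, Set.union_empty,
          Set.singleton_union, Submodule.mem_span_pair] at h'
        obtain ⟨x, y, hxy⟩ := h'
        have h1 := congrArg (fun v => S.form p₀ v) hxy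
        have h2 : S.form p₀ z₁ = 0 := by simpa using hz₁p 0
        have h3 := congrArg (fun v => S.form q v) hxy
        have hq' : S.form q p₀ = 0 := by rw [O.symm]; exact hpq
        simp only [map_add, map_smul, hq, hq', smul_eq_mul, mul_zero, zero_add] at h3
        have hy : y = 0 := (mul_eq_zero.1 h3).resolve_right hz₁q
        rw [hy, zero_smul, add_zero] at hxy
        rcases eq_or_ne x 0 with rfl | hx
        · exact hp₀out (by rw [← hxy, zero_smul]; exact Submodule.zero_mem _)
        · exact hqin (Submodule.mem_span_singleton.2 ⟨x⁻¹, by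
            rw [← hxy, smul_smul, inv_mul_cancel₀ hx, one_smul]⟩))
      have h12 : S.form z₁ z₂ = 0 := by simpa using hz₂p 1
      have h2q : S.form q z₂ = 0 := by simpa using hz₂p 0
      have h1p : S.form p₀ z₁ = 0 := by simpa using hz₁p 0
      have hzz : S.form (z₁ + z₂) (z₁ + z₂) = 0 := by
        have e1 : S.form z₁ z₁ = 0 := hz₁
        have e2 : S.form z₂ z₂ = 0 := hz₂
        simp [e1, e2, h12, O.symm z₂ z₁]
      obtain ⟨az, haz⟩ := step p₀ (z₁ + z₂) hp₀ hzz (by simpa [h1p] using hz₂q) l₀ a₀ ha₀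
      exact step (z₁ + z₂) q hzz hq (by
        rw [O.symm, map_add, h2q, add_zero]; exact hz₁q) l₀ az haz
    refine hgn (mem_subfieldSubgroup_of_lines fun u hu0 => ⟨l₀, ?_⟩)
    clear hu0
    have hmem := O.mem_span_sing (![] : Fin 0 → (ι → F₀)) (by omega) (x := u) (fun i => i.elim0)
    induction hmem using Submodule.span_induction with
    | mem z hz => exact all z hz.1
    | zero => exact ⟨0, by simp [ratVec_zero]⟩
    | add x y _ _ hx hy =>
      obtain ⟨a, ha⟩ := hx
      obtain ⟨a', ha'⟩ := hy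
      exact ⟨a + a', by rw [ratVec_add, ratVec_add, mulVec_add, ha, ha', smul_add]⟩
    | smul c x _ hx =>
      obtain ⟨a, ha⟩ := hx
      exact ⟨c • a, by rw [ratVec_smul, ratVec_smul, mulVec_smul, ha, smul_comm]⟩
  set m₂ := (g : Matrix ι ι F) *ᵥ ratVec P u₂ with hm₂
  -- a partner
  obtain ⟨u₁, a₁, b₁, hu₁, hu₁₂, hab₁, hout⟩ : ∃ u₁ a₁ b₁ : ι → F₀, S.form u₁ u₁ = 0 ∧
      S.form u₁ u₂ = 0 ∧ (g : Matrix ι ι F) *ᵥ ratVec P u₁ = ratVec P a₁ + δ • ratVec P b₁ ∧
      (a₁ ∉ Submodule.span F₀ (Set.range ![a, b]) ∨ b₁ ∉ Submodule.span F₀ (Set.range ![a, b])) := by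
    by_contra hcon
    push Not at hcon
    let W := Submodule.span F {ratVec P a, ratVec P b}
    have hrat : ∀ z ∈ Submodule.span F₀ (Set.range ![a, b]), ratVec P z ∈ W := by
      intro z hz
      rw [Matrix.range_cons, Matrix.range_cons, Matrix.range_empty, Set.union_empty,
        Set.singleton_union, Submodule.mem_span_pair] at hz
      obtain ⟨x, y, rfl⟩ := hz
      rw [ratVec_add, ratVec_smul, ratVec_smul]
      exact Submodule.mem_span_pair.2 ⟨_, _, rfl⟩
    have key : ∀ z ∈ perpB S.form ![u₂], (g : Matrix ι ι F) *ᵥ ratVec P z ∈ W := by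
      intro z hz
      have hmem := O.mem_span_sing ![u₂] (by omega) (x := z) (fun i => mem_perpB.1 hz i)
      clear hz
      induction hmem using Submodule.span_induction with
      | mem y hy =>
        obtain ⟨a₁, b₁, he⟩ := S.exists_combo ((g : Matrix ι ι F) *ᵥ ratVec P y)
        obtain ⟨h1, h2⟩ := hcon y a₁ b₁ hy.1 (by rw [O.symm]; simpa using hy.2 0) he
        rw [he]
        exact W.add_mem (hrat _ h1) (W.smul_mem _ (hrat _ h2))
      | zero => simp [ratVec_zero]
      | add x y _ _ hx hy => rw [ratVec_add, mulVec_add]; exact W.add_mem hx hy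
      | smul c x _ hx => rw [ratVec_smul, mulVec_smul]; exact W.smul_mem _ hx
    -- three independent vectors cannot fit in a plane
    have hdim := O.finrank_perp ![u₂]
    obtain ⟨f, hf⟩ := exists_linearIndependent_of_le_finrank
      (R := F₀) (M := perpB S.form ![u₂]) (n := 3) (by omega)
    have hindF : LinearIndependent F fun k => (g : Matrix ι ι F) *ᵥ ratVec P (f k : ι → F₀) := by
      have h1 : LinearIndependent F₀ fun k => ((f k : perpB S.form ![u₂]) : ι → F₀) :=
        hf.map' (perpB S.form ![u₂]).subtype (Submodule.ker_subtype _)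
      rw [Fintype.linearIndependent_iff]
      intro c hc
      simp only [← mulVec_smul, ← mulVec_sum] at hc
      have h2 : ∑ k, c k • ratVec P ((f k : ι → F₀)) = 0 :=
        gl_mulVec_injective g (by simpa using hc)
      choose x y hxy using fun k => S.decomp (c k)
      simp only [ratVec, ← mulVec_smul, ← mulVec_sum] at h2
      have h3 := gl_mulVec_injective P (h2.trans (mulVec_zero _).symm)
      have hx : ∑ k, x k • ((f k : ι → F₀)) = 0 ∧ ∑ k, y k • ((f k : ι → F₀)) = 0 := by
        have : ∀ j, ((∑ k, x k * (f k : ι → F₀) j : F₀) : F) +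
            ((∑ k, y k * (f k : ι → F₀) j : F₀) : F) * δ = 0 := by
          intro j
          have := congrFun h3 j
          simp only [Finset.sum_apply, Pi.smul_apply, smul_eq_mul, Pi.zero_apply] at this
          rw [← this, AddSubmonoidClass.coe_finsetSum, AddSubmonoidClass.coe_finsetSum,
            Finset.sum_mul, ← Finset.sum_add_distrib]
          refine Finset.sum_congr rfl fun k _ => ?_
          rw [← hxy k, Subfield.coe_mul, Subfield.coe_mul]; ring
        have split : ∀ r r' : F₀, (r : F) + (r' : F) * δ = 0 → r = 0 ∧ r' = 0 := by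
          intro r r' e
          have e' := congrArg σ e
          rw [map_add, map_mul, (S.fixed _).2 r.2, (S.fixed _).2 r'.2,
            eq_neg_of_add_eq_zero_right S.δskew, map_zero] at e'
          have hr : (r : F) = 0 := by
            have : 2 * (r : F) = 0 := by linear_combination e + e'
            exact (mul_eq_zero.1 this).resolve_left S.two
          rw [hr, zero_add, mul_eq_zero, or_iff_left S.δ0] at e
          exact ⟨Subtype.ext hr, Subtype.ext e⟩
        constructor <;> funext j <;> simp only [Finset.sum_apply, Pi.smul_apply, smul_eq_mul,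
          Pi.zero_apply]
        · exact (split _ _ (this j)).1
        · exact (split _ _ (this j)).2
      intro k
      rw [← hxy k, Fintype.linearIndependent_iff.1 h1 x hx.1 k,
        Fintype.linearIndependent_iff.1 h1 y hx.2 k]
      simp
    have hle : Submodule.span F (Set.range fun k => (g : Matrix ι ι F) *ᵥ ratVec P (f k : ι → F₀))
        ≤ W := Submodule.span_le.2 (by rintro _ ⟨k, rfl⟩; exact key _ (f k).2)
    have h5 := Submodule.finrank_mono hle
    rw [finrank_span_eq_card hindF] at h5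
    have hW : Module.finrank F W ≤ 2 := (finrank_span_le_card _).trans (by
      simp only [Set.toFinset_insert, Set.toFinset_singleton]
      exact Finset.card_le_two)
    simp at h5
    omega
  set m₁ := (g : Matrix ι ι F) *ᵥ ratVec P u₁ with hm₁
  obtain ⟨s, hs, hsp, hsout⟩ := O.exists_sing_notMem ![a, b, a₁, b₁] (by omega)
  have hsa : S.form a s = 0 := by simpa using hsp 0
  have hsb : S.form b s = 0 := by simpa using hsp 1
  have hsa₁ : S.form a₁ s = 0 := by simpa using hsp 2
  have hsb₁ : S.form b₁ s = 0 := by simpa using hsp 3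
  have hs0 : s ≠ 0 := fun e => hsout (e ▸ Submodule.zero_mem _)
  have hpair : ∀ z ∈ Submodule.span F₀ (Set.range ![a, b, s]),
      z ∈ Submodule.span F₀ (Set.range ![a, b, a₁, b₁]) →
      z ∈ Submodule.span F₀ (Set.range ![a, b]) := by
    intro z hz hz'
    obtain ⟨c, hc⟩ := (Submodule.mem_span_range_iff_exists_fun F₀).1 hz
    simp [Fin.sum_univ_three] at hc
    have hmem : ∀ y ∈ Submodule.span F₀ (Set.range ![a, b]),
        y ∈ Submodule.span F₀ (Set.range ![a, b, a₁, b₁]) := fun y hy =>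
      Submodule.span_le.2 (by
        rintro _ ⟨k, rfl⟩
        fin_cases k
        exacts [Submodule.subset_span ⟨0, rfl⟩, Submodule.subset_span ⟨1, rfl⟩]) hy
    have hab' : c 0 • a + c 1 • b ∈ Submodule.span F₀ (Set.range ![a, b]) :=
      add_mem (Submodule.smul_mem _ _ (Submodule.subset_span ⟨0, rfl⟩))
        (Submodule.smul_mem _ _ (Submodule.subset_span ⟨1, rfl⟩))
    rcases eq_or_ne (c 2) 0 with h2 | h2
    · rw [← hc, h2, zero_smul, add_zero]; exact hab'
    · refine absurd ?_ hsout
      have := Submodule.smul_mem _ (c 2)⁻¹ (sub_mem hz' (hmem _ hab'))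
      rwa [show z - (c 0 • a + c 1 • b) = c 2 • s by rw [← hc]; abel, smul_smul,
        inv_mul_cancel₀ h2, one_smul] at this
  obtain ⟨r, hr, hra, hrb, hrs, hc⟩ : ∃ r, S.form r r = 0 ∧ S.form a r = 0 ∧ S.form b r = 0 ∧
      S.form s r = 0 ∧ (S.form a₁ r : F) + δ * (S.form b₁ r : F) ≠ 0 := by
    have split : ∀ r r' : F₀, (r : F) + δ * (r' : F) = 0 → r = 0 ∧ r' = 0 := by
      intro r r' e
      have e' := congrArg σ e
      rw [map_add, map_mul, (S.fixed _).2 r.2, (S.fixed _).2 r'.2,
        eq_neg_of_add_eq_zero_right S.δskew, map_zero] at e'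
      have hr : (r : F) = 0 := by
        have : 2 * (r : F) = 0 := by linear_combination e + e'
        exact (mul_eq_zero.1 this).resolve_left S.two
      rw [hr, zero_add, mul_eq_zero, or_iff_right S.δ0] at e
      exact ⟨Subtype.ext hr, Subtype.ext e⟩
    rcases hout with h' | h'
    · obtain ⟨r, hr, hrp, hne⟩ := O.exists_sing_ne ![a, b, s] (by omega) (a := a₁)
        (fun e => h' (hpair _ e (Submodule.subset_span ⟨2, rfl⟩)))
      exact ⟨r, hr, by simpa using hrp 0, by simpa using hrp 1, by simpa using hrp 2,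
        fun e => hne (split _ _ e).1⟩
    · obtain ⟨r, hr, hrp, hne⟩ := O.exists_sing_ne ![a, b, s] (by omega) (a := b₁)
        (fun e => h' (hpair _ e (Submodule.subset_span ⟨3, rfl⟩)))
      exact ⟨r, hr, by simpa using hrp 0, by simpa using hrp 1, by simpa using hrp 2,
        fun e => hne (split _ _ e).2⟩
  set c := (S.form a₁ r : F) + δ * (S.form b₁ r : F) with hcdef
  have iso : ∀ {z : ι → F₀}, S.form z z = 0 → h (ratVec P z) (ratVec P z) = 0 := fun {z} hz => by
    rw [← S.form_coe, hz]; rfl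
  have orth : ∀ {z z' : ι → F₀}, S.form z z' = 0 → h (ratVec P z) (ratVec P z') = 0 :=
    fun {z z'} hz => by rw [← S.form_coe, hz]; rfl
  have hm₂i : h m₂ m₂ = 0 := by rw [hm₂, hgi]; exact iso hu₂
  have hm₁i : h m₁ m₁ = 0 := by rw [hm₁, hgi]; exact iso hu₁
  have hm₁₂ : h m₁ m₂ = 0 := by rw [hm₁, hm₂, hgi]; exact orth hu₁₂
  have hm₂s : h m₂ (ratVec P s) = 0 := by rw [hab, S.herm_rat_combo, hsa, hsb]; simp
  have hm₂r : h m₂ (ratVec P r) = 0 := by rw [hab, S.herm_rat_combo, hra, hrb]; simp
  have hm₁s : h m₁ (ratVec P s) = 0 := by rw [hab₁, S.herm_rat_combo, hsa₁, hsb₁]; simp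
  have hm₁r : h m₁ (ratVec P r) = c := by rw [hab₁, S.herm_rat_combo]
  have hS := S.ueE_rat_mem hM hs hr hrs 1
  rw [OneMemClass.coe_one] at hS
  set T := ueE σ h (ratVec P s) (ratVec P r) 1 with hT
  have hTi : T ∈ isoH h := (ueE_mem H (iso hs) (iso hr) (orth hrs) 1).1
  have hT1 : (T : Matrix ι ι F) *ᵥ m₁ = m₁ + c • ratVec P s := by
    rw [hT, ueE_mulVec H (iso hs) (iso hr) (orth hrs), hm₁r, hm₁s, one_mul, mul_zero, zero_smul,
      sub_zero]
  have hT2 : (T : Matrix ι ι F) *ᵥ m₂ = m₂ := by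
    rw [hT, ueE_mulVec H (iso hs) (iso hr) (orth hrs), hm₂r, hm₂s, mul_zero, zero_smul, mul_zero,
      zero_smul, add_zero, sub_zero]
  have ht : ueE σ h m₁ m₂ 1 ∈ M := by
    have h0 := S.ueE_rat_mem hM hu₁ hu₂ hu₁₂ 1
    rw [OneMemClass.coe_one] at h0
    have h1 := M.mul_mem (M.mul_mem hg h0) (M.inv_mem hg)
    rwa [ueE_conj H hgi (iso hu₁) (iso hu₂) (orth hu₁₂)] at h1
  have hcs : h (c • ratVec P s) m₂ = 0 := by
    rw [H.smul_left, eq_zero_of_herm_self H hm₂s, mul_zero]
  have h2 : ueE σ h (ratVec P s) m₂ c ∈ M := by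
    have h1 := M.mul_mem (M.mul_mem hS ht) (M.inv_mem hS)
    rw [ueE_conj H hTi hm₁i hm₂i hm₁₂, hT1, hT2,
      ← ueE_add_left H hm₁i (by rw [smul_inner H, iso hs, mul_zero]) hm₂i
        (by rw [H.smul_left, eq_zero_of_herm_self H hm₁s, mul_zero]) hm₁₂ hcs] at h1
    have h3 := M.mul_mem (M.inv_mem ht) h1
    rwa [inv_mul_cancel_left, ueE_smul_left H (iso hs) hm₂i (eq_zero_of_herm_self H hm₂s),
      one_mul] at h3
  rw [ueE_swap H (iso hs) hm₂i (eq_zero_of_herm_self H hm₂s)] at h2
  set c' := -σ c with hc'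
  have hc'0 : c' ≠ 0 := by simp [hc', hc]
  obtain ⟨c₀, c₁, hc01⟩ := S.decomp c'
  set d := c₀ • b + c₁ • a with hd
  have hdmem : d ∈ Submodule.span F₀ (Set.range ![a, b]) :=
    add_mem (Submodule.smul_mem _ _ (Submodule.subset_span ⟨1, rfl⟩))
      (Submodule.smul_mem _ _ (Submodule.subset_span ⟨0, rfl⟩))
  have hab4 : ∀ y ∈ Submodule.span F₀ (Set.range ![a, b]),
      y ∈ Submodule.span F₀ (Set.range ![a, b, a₁, b₁]) := fun y hy => Submodule.span_le.2 (by
        rintro _ ⟨k, rfl⟩
        fin_cases k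
        exacts [Submodule.subset_span ⟨0, rfl⟩, Submodule.subset_span ⟨1, rfl⟩]) hy
  have hds : d ∉ Submodule.span F₀ (Set.range ![s]) := fun e => by
    rw [Matrix.range_cons, Matrix.range_empty, Set.union_empty,
      Submodule.mem_span_singleton] at e
    obtain ⟨x, hx⟩ := e
    rcases eq_or_ne x 0 with rfl | hx0
    · rw [zero_smul] at hx
      have := LinearIndependent.pair_iff.1 hind c₁ c₀ (by rw [add_comm, ← hd]; exact hx.symm)
      exact hc'0 (by rw [← hc01, this.1, this.2]; simp)
    · refine hsout ?_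
      have := Submodule.smul_mem _ x⁻¹ (hab4 _ hdmem)
      rwa [← hx, smul_smul, inv_mul_cancel₀ hx0, one_smul] at this
  obtain ⟨r₂, hr₂, hr₂p, hne⟩ := O.exists_sing_ne ![s] (by omega) hds
  have hsr₂ : S.form s r₂ = 0 := by simpa using hr₂p 0
  obtain ⟨s₂, hs₂, hs₂p, hs₂out⟩ := O.exists_sing_notMem ![s, a, b, r₂] (by omega)
  have hss₂ : S.form s s₂ = 0 := by simpa using hs₂p 0
  have hs₂a : S.form a s₂ = 0 := by simpa using hs₂p 1
  have hs₂b : S.form b s₂ = 0 := by simpa using hs₂p 2
  have hs₂r₂ : S.form s₂ r₂ = 0 := by rw [O.symm]; simpa using hs₂p 3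
  have hs₂s : S.form s₂ s = 0 := by rw [O.symm]; exact hss₂
  set A := (S.form a r₂ : F) + δ * (S.form b r₂ : F) with hA
  have hfam : ∀ f : F₀, ueE σ h (ratVec P s₂) (ratVec P s) (c' * ((f : F) * A)) ∈ M := by
    intro f
    set fr := f • r₂ with hfr
    have hfrr : S.form fr fr = 0 := by simp [hfr, show S.form r₂ r₂ = 0 from hr₂]
    have hs₂fr : S.form s₂ fr = 0 := by simp [hfr, hs₂r₂]
    have hsfr : S.form s fr = 0 := by simp [hfr, hsr₂]
    have hS2 := S.ueE_rat_mem hM hs₂ hfrr hs₂fr 1
    rw [OneMemClass.coe_one] at hS2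
    set T₂ := ueE σ h (ratVec P s₂) (ratVec P fr) 1 with hT₂
    have hT₂i : T₂ ∈ isoH h := (ueE_mem H (iso hs₂) (iso hfrr) (orth hs₂fr) 1).1
    have hm₂s₂ : h m₂ (ratVec P s₂) = 0 := by rw [hab, S.herm_rat_combo, hs₂a, hs₂b]; simp
    have e1 : (T₂ : Matrix ι ι F) *ᵥ m₂ = m₂ + ((f : F) * A) • ratVec P s₂ := by
      rw [hT₂, ueE_mulVec H (iso hs₂) (iso hfrr) (orth hs₂fr), hm₂s₂, mul_zero, zero_smul,
        sub_zero, one_mul, hfr, ratVec_smul, herm_smul_right H, (S.fixed _).2 f.2, hab,
        S.herm_rat_combo]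
    have e2 : (T₂ : Matrix ι ι F) *ᵥ ratVec P s = ratVec P s := by
      rw [hT₂, ueE_mulVec H (iso hs₂) (iso hfrr) (orth hs₂fr), orth hsfr, orth hss₂, mul_zero,
        zero_smul, mul_zero, zero_smul, add_zero, sub_zero]
    have h1 := M.mul_mem (M.mul_mem hS2 h2) (M.inv_mem hS2)
    rw [ueE_conj H hT₂i hm₂i (iso hs) hm₂s, e1, e2,
      ← ueE_add_left H hm₂i (by rw [smul_inner H, iso hs₂, mul_zero]) (iso hs)
        (by rw [H.smul_left, eq_zero_of_herm_self H hm₂s₂, mul_zero]) hm₂s
        (by rw [H.smul_left, orth hs₂s, mul_zero])] at h1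
    have h3 := M.mul_mem (M.inv_mem h2) h1
    rwa [inv_mul_cancel_left, ueE_smul_left H (iso hs₂) (iso hs) (orth hs₂s)] at h3
  -- the product is irrational
  set z := c' * A with hz
  have hzσ : σ z - z ≠ 0 := by
    have hσδ : σ δ = -δ := eq_neg_of_add_eq_zero_right S.δskew
    have e : σ z - z = (-2) * δ * (S.form d r₂ : F) := by
      rw [hz, hA, ← hc01]
      simp only [map_mul, map_add, hσδ, (S.fixed _).2 (SetLike.coe_mem _), hd, LinearMap.add_apply,
        map_smul, LinearMap.smul_apply, smul_eq_mul]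
      push_cast
      ring
    rw [e]
    exact mul_ne_zero (mul_ne_zero (neg_ne_zero.2 S.two) S.δ0) (by simpa using hne)
  -- the second vector
  obtain ⟨s₃, hs₃, hs₃p, hs₂₃⟩ := O.exists_sing_ne ![s] (by omega) (a := s₂) (fun e => hs₂out
    (Submodule.span_mono (by
      rintro _ ⟨k, rfl⟩
      fin_cases k
      exact ⟨0, rfl⟩) e))
  have hss₃ : S.form s s₃ = 0 := by simpa using hs₃p 0
  have hs₃s : S.form s₃ s = 0 := by rw [O.symm]; exact hss₃
  refine ⟨s, hs0, hs, iso hs, fun κ hκ => ?_⟩
  set β := (S.form s₂ s₃ : F) with hβ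
  have hβ0 : β ≠ 0 := by simpa [hβ] using hs₂₃
  -- choose the multiple
  set fF := κ / (β * (σ z - z)) with hfF
  have hfmem : fF ∈ F₀ := (S.fixed _).1 (by
    have hβσ : σ β = β := (S.fixed _).2 (SetLike.coe_mem _)
    rw [hfF, map_div₀, map_mul, map_sub, hβσ, H.involutive, eq_neg_of_add_eq_zero_right hκ]
    have : z - σ z ≠ 0 := fun e => hzσ (by linear_combination -e)
    field_simp
    ring)
  have h3 := hfam ⟨fF, hfmem⟩
  have h4 := S.ueE_rat_mem hM hs₃ hs hs₃s (-1)
  rw [NegMemClass.coe_neg, OneMemClass.coe_one] at h4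
  rw [ueE_swap H (iso hs₂) (iso hs) (orth hs₂s)] at h3
  rw [ueE_swap H (iso hs₃) (iso hs) (orth hs₃s)] at h4
  have hσ1 : -σ (-1 : F) = 1 := by simp
  rw [hσ1] at h4
  set d' := -σ (c' * (fF * A)) with hd'
  have h5 := ueE_comm H (iso hs) (iso hs₂) (iso hs₃) (orth hss₂) (orth hss₃) d' 1
  have hk : (1 : F) * σ d' * h (ratVec P s₂) (ratVec P s₃) -
      d' * σ 1 * h (ratVec P s₃) (ratVec P s₂) = κ := by
    rw [← S.form_coe, ← S.form_coe, O.symm s₃ s₂, ← hβ, map_one, hd', map_neg, H.involutive,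
      map_mul, map_mul, (S.fixed _).2 hfmem]
    have e : fF * (β * (σ z - z)) = κ := by
      rw [hfF]; exact div_mul_cancel₀ _ (mul_ne_zero hβ0 hzσ)
    rw [hz, map_mul] at e
    linear_combination e
  rw [hk] at h5
  have h6 := M.mul_mem (M.mul_mem h3 h4) (M.inv_mem (M.mul_mem h4 h3))
  rwa [h5, mul_inv_cancel_right] at h6

/-- One rational centre gives the whole group. -/
lemma OrthRat.iso_sl_le [Finite F] (hn : 13 ≤ Fintype.card ι) {s : ι → F₀} (hs0 : s ≠ 0)
    (hs : S.form s s = 0) (hC : ratVec P s ∈ ucentres σ h M) :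
    isoH h ⊓ specialLinear ι F ≤ M := by
  classical
  have H := S.herm
  have O := S.oddForm
  have iso : ∀ {z : ι → F₀}, S.form z z = 0 → h (ratVec P z) (ratVec P z) = 0 := fun {z} hz => by
    rw [← S.form_coe, hz]; rfl
  have orth : ∀ {z z' : ι → F₀}, S.form z z' = 0 → h (ratVec P z) (ratVec P z') = 0 :=
    fun {z z'} hz => by rw [← S.form_coe, hz]; rfl
  have move : ∀ {x p : ι → F₀}, S.form x x = 0 → ratVec P x ∈ ucentres σ h M → x ≠ 0 →
      S.form p p = 0 → S.form x p = 0 → ratVec P p ∈ ucentres σ h M := by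
    intro x p hx hxC hx0 hp hxp
    by_cases hin : x ∈ Submodule.span F₀ (Set.range ![p - x])
    · rw [Matrix.range_cons, Matrix.range_empty, Set.union_empty,
        Submodule.mem_span_singleton] at hin
      obtain ⟨c, hc⟩ := hin
      have hc0 : c ≠ 0 := fun e => hx0 (by rw [← hc, e, zero_smul])
      have : p = (c⁻¹ + 1) • x := by
        rw [add_smul, one_smul]
        conv_rhs => arg 1; rw [← hc, smul_smul, inv_mul_cancel₀ hc0, one_smul]
        abel
      rw [this, ratVec_smul]
      exact smul_mem_ucentres H _ hxC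
    obtain ⟨r₀, hr₀, hr₀p, hne⟩ := O.exists_sing_ne ![p - x] (by omega) hin
    set r := (S.form x r₀)⁻¹ • r₀ with hr'
    have hrr : S.form r r = 0 := by simp [hr', show S.form r₀ r₀ = 0 from hr₀]
    have hyy : S.form (p - x) (p - x) = 0 := by simp [hx, hp, hxp, O.symm p x]
    have hyr : S.form (p - x) r = 0 := by
      rw [hr', map_smul, show S.form (p - x) r₀ = 0 by simpa using hr₀p 0, smul_zero]
    have hxy : S.form x (p - x) = 0 := by simp [hx, hxp]
    have hxr : S.form x r = 1 := by rw [hr', map_smul, smul_eq_mul, inv_mul_cancel₀ hne]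
    have hm := S.ueE_rat_mem hM hyy hrr hyr 1
    rw [OneMemClass.coe_one] at hm
    have h1 := mulVec_mem_ucentres H hm (ueE_mem H (iso hyy) (iso hrr) (orth hyr) 1).1 hxC
    rwa [ueE_mulVec H (iso hyy) (iso hrr) (orth hyr), orth hxy, ← S.form_coe, hxr,
      OneMemClass.coe_one, mul_one, one_smul, mul_zero, zero_smul, sub_zero, ← ratVec_add,
      add_sub_cancel] at h1
  have hsing : ∀ p : ι → F₀, S.form p p = 0 → ratVec P p ∈ ucentres σ h M := by
    intro p hp
    obtain ⟨v, hv', hvp, hvout⟩ := O.exists_sing_notMem ![s, p] (by omega)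
    have hv0 : v ≠ 0 := fun e => hvout (e ▸ Submodule.zero_mem _)
    have h1 : S.form s v = 0 := by simpa using hvp 0
    have h2 : S.form p v = 0 := by simpa using hvp 1
    exact move hv' (move hs hC hs0 hv' h1) hv0 hp (by rw [O.symm]; exact h2)
  have hσδ : σ δ = -δ := eq_neg_of_add_eq_zero_right S.δskew
  have hnonorth : ∀ {u v : ι → F₀}, S.form u u = 0 → S.form v v = 0 → S.form u v ≠ 0 →
      ratVec P u + δ • ratVec P v ∈ ucentres σ h M := fun {u v} hu hv' huv =>
    add_smul_mem_ucentres H (hsing u hu) (hsing v hv') (by rw [← S.form_coe]; simpa using huv)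
      (by rw [S.herm_combo, hu, hv']; simp)
  have hsingular : ∀ {a b : ι → F₀}, S.form a a = 0 → S.form b b = 0 →
      LinearIndependent F₀ ![a, b] → ratVec P a + δ • ratVec P b ∈ ucentres σ h M := by
    intro a b ha hb hind
    by_cases hab : S.form a b = 0
    swap
    · exact hnonorth ha hb hab
    have hba : b ∉ Submodule.span F₀ (Set.range ![a]) := fun e => by
      rw [Matrix.range_cons, Matrix.range_empty, Set.union_empty,
        Submodule.mem_span_singleton] at e
      obtain ⟨c, hc⟩ := e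
      have := LinearIndependent.pair_iff.1 hind c (-1) (by rw [hc, neg_one_smul, add_neg_cancel])
      exact one_ne_zero (neg_eq_zero.1 this.2)
    obtain ⟨p, hp, hpa, hbp⟩ := O.exists_sing_ne ![a] (by omega) hba
    have hap : S.form a p = 0 := by simpa using hpa 0
    let δ₂ : F₀ := ⟨δ * δ, (S.fixed _).1 (by rw [map_mul, hσδ]; ring)⟩
    have hδ₂ : δ₂ ≠ 0 := fun e => mul_ne_zero S.δ0 S.δ0 (congrArg Subtype.val e)
    set k := δ₂ * S.form b p with hk
    have hk0 : k ≠ 0 := mul_ne_zero hδ₂ hbp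
    have hu : S.form (a - k • p) (a - k • p) = 0 := by
      simp [ha, show S.form p p = 0 from hp, hap, O.symm p a]
    have hub : S.form (a - k • p) b = -(k * S.form b p) := by simp [hab, O.symm p b]
    have h1 := hnonorth hu hb (by rw [hub]; exact neg_ne_zero.2 (mul_ne_zero hk0 hbp))
    have hup : S.form (a - k • p) p = 0 := by simp [hap, show S.form p p = 0 from hp]
    have hh : h (ratVec P (a - k • p) + δ • ratVec P b) (ratVec P p) = δ * (S.form b p : F) := by
      rw [S.herm_rat_combo, hup]; simp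
    have hz : ratVec P a + δ • ratVec P b =
        ratVec P (a - k • p) + δ • ratVec P b + (k : F) • ratVec P p := by
      rw [← ratVec_smul, add_right_comm, ← ratVec_add, sub_add_cancel]
    rw [hz]
    refine add_smul_mem_ucentres H h1 (hsing p hp) ?_ ?_
    · rw [hh]; exact mul_ne_zero S.δ0 (by simpa using hbp)
    · rw [← hz, S.herm_combo, ha, hb]; simp
  refine iso_sl_le_of_ucentres H (by omega) fun z hz => ?_
  obtain ⟨a, b, rfl⟩ := S.exists_combo z
  by_cases hind : LinearIndependent F₀ ![a, b]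
  swap
  · rw [LinearIndependent.pair_iff] at hind
    push Not at hind
    obtain ⟨x, y, hxy, hne⟩ := hind
    have key : ∀ (l : F) (v : ι → F₀), h (l • ratVec P v) (l • ratVec P v) = 0 →
        l • ratVec P v ∈ ucentres σ h M := by
      intro l v hl
      rcases eq_or_ne l 0 with rfl | hl0
      · rw [zero_smul, ← ratVec_zero (F₀ := F₀) (P := P)]
        exact hsing 0 (by simp)
      refine smul_mem_ucentres H l (hsing v (Subtype.ext ?_))
      rw [smul_inner H, ← S.form_coe, mul_eq_zero,
        or_iff_right (mul_ne_zero hl0 ((map_ne_zero σ).2 hl0))] at hl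
      rw [hl]; rfl
    rcases eq_or_ne y 0 with rfl | hy
    · have hx0 : x ≠ 0 := fun e => hne e rfl
      rw [zero_smul, add_zero, smul_eq_zero, or_iff_right hx0] at hxy
      rw [hxy, ratVec_zero, zero_add] at hz ⊢
      exact key δ b hz
    · have hb' : b = (-(x / y)) • a := by
        funext j
        have := congrFun hxy j
        simp only [Pi.add_apply, Pi.smul_apply, Pi.zero_apply, smul_eq_mul] at this ⊢
        field_simp
        linear_combination this
      have e : ratVec P a + δ • ratVec P b = (1 + δ * ((-(x / y) : F₀) : F)) • ratVec P a := by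
        rw [hb', ratVec_smul, smul_smul, add_smul, one_smul]
      rw [e] at hz ⊢
      exact key _ a hz
  have hrel := S.iso_combo hz
  let δ₂ : F₀ := ⟨δ * δ, (S.fixed _).1 (by rw [map_mul, hσδ]; ring)⟩
  have hδ₂ : δ₂ ≠ 0 := fun e => mul_ne_zero S.δ0 S.δ0 (congrArg Subtype.val e)
  have hrel' : S.form a a = δ₂ * S.form b b := Subtype.ext (by rw [Subfield.coe_mul]; exact hrel)
  by_cases hβ : S.form b b = 0
  · exact hsingular (by rw [hrel', hβ, mul_zero]) hβ hind
  have hnot : ∀ {x y : ι → F₀}, LinearIndependent F₀ ![x, y] →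
      x ∉ Submodule.span F₀ (Set.range ![y]) := fun {x y} hi e => by
    rw [Matrix.range_cons, Matrix.range_empty, Set.union_empty,
      Submodule.mem_span_singleton] at e
    obtain ⟨c, hc⟩ := e
    have := LinearIndependent.pair_iff.1 hi (-1) c (by rw [hc, neg_one_smul, neg_add_cancel])
    exact one_ne_zero (neg_eq_zero.1 this.1)
  obtain ⟨p₂, hp₂, hp₂a, hbp₂⟩ := O.exists_sing_ne ![a] (by omega) (a := b)
    (hnot (LinearIndependent.pair_symm_iff.1 hind))
  have hap₂ : S.form a p₂ = 0 := by simpa using hp₂a 0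
  have haout : a ∉ Submodule.span F₀ (Set.range ![b, p₂]) := fun e => by
    rw [Matrix.range_cons, Matrix.range_cons, Matrix.range_empty, Set.union_empty,
      Set.singleton_union, Submodule.mem_span_pair] at e
    obtain ⟨x, y, hxy⟩ := e
    have h1 : x = 0 := by
      have := congrArg (fun v => S.form v p₂) hxy
      simp [hap₂, show S.form p₂ p₂ = 0 from hp₂] at this
      exact this.resolve_right hbp₂
    rw [h1, zero_smul, zero_add] at hxy
    refine mul_ne_zero hδ₂ hβ ?_
    rw [← hrel', ← hxy]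
    simp [show S.form p₂ p₂ = 0 from hp₂]
  obtain ⟨p₁, hp₁, hp₁p, hap₁⟩ := O.exists_sing_ne ![b, p₂] (by omega) haout
  have hbp₁ : S.form b p₁ = 0 := by simpa using hp₁p 0
  have hp₂₁ : S.form p₂ p₁ = 0 := by simpa using hp₁p 1
  set p := p₁ + p₂ with hpdef
  have hpp : S.form p p = 0 := by
    simp [hpdef, show S.form p₁ p₁ = 0 from hp₁, show S.form p₂ p₂ = 0 from hp₂, hp₂₁, O.symm p₁ p₂]
  set A := S.form a p with hA
  set B' := S.form b p with hB
  have hA0 : A ≠ 0 := by simp [hA, hpdef, hap₂, hap₁]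
  have hB0 : B' ≠ 0 := by simp [hB, hpdef, hbp₁, hbp₂]
  have h2 := S.two'
  set f := S.form b b / (2 * A * B') with hf
  set b' := b - (f * A) • p with hb'
  set a' := a - (f * δ₂ * B') • p with ha'
  have hbb : S.form b' b' = 0 := by
    simp [hb', hpp, O.symm p b, ← hB]
    rw [hf]; field_simp; ring
  have haa : S.form a' a' = 0 := by
    simp [ha', hpp, O.symm p a, ← hA, hrel']
    rw [hf]; field_simp; ring
  have hzeq : ratVec P a + δ • ratVec P b = ratVec P a' + δ • ratVec P b' +
      (((f * δ₂ * B' : F₀) : F) + δ * ((f * A : F₀) : F)) • ratVec P p := by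
    conv_lhs => rw [← sub_add_cancel a ((f * δ₂ * B') • p), ← sub_add_cancel b ((f * A) • p),
      ← ha', ← hb', ratVec_add, ratVec_add, ratVec_smul, ratVec_smul]
    module
  have hap' : S.form a' p = A := by simp [ha', hpp, ← hA]
  have hne : h (ratVec P a' + δ • ratVec P b') (ratVec P p) ≠ 0 := by
    rw [S.herm_rat_combo, hap']
    intro e
    have e' := congrArg σ e
    rw [map_add, map_mul, (S.fixed _).2 (SetLike.coe_mem _), (S.fixed _).2 (SetLike.coe_mem _),
      hσδ, map_zero] at e'
    have : 2 * (A : F) = 0 := by linear_combination e + e'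
    exact hA0 (Subtype.ext ((mul_eq_zero.1 this).resolve_left S.two))
  rw [hzeq] at hz ⊢
  refine add_smul_mem_ucentres H ?_ (hsing p hpp) hne hz
  by_cases hind' : LinearIndependent F₀ ![a', b']
  · exact hsingular haa hbb hind'
  rw [LinearIndependent.pair_iff] at hind'
  push Not at hind'
  obtain ⟨x, y, hxy, hne'⟩ := hind'
  rcases eq_or_ne y 0 with rfl | hy
  · have hx0 : x ≠ 0 := fun e => hne' e rfl
    rw [zero_smul, add_zero, smul_eq_zero, or_iff_right hx0] at hxy
    rw [hxy, ratVec_zero, zero_add]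
    exact smul_mem_ucentres H δ (hsing b' hbb)
  · have hb'' : b' = (-(x / y)) • a' := by
      funext j
      have := congrFun hxy j
      simp only [Pi.add_apply, Pi.smul_apply, Pi.zero_apply, smul_eq_mul] at this ⊢
      field_simp
      linear_combination this
    rw [hb'', ratVec_smul, smul_smul]
    have := smul_mem_ucentres H (1 + δ * ((-(x / y) : F₀) : F)) (hsing a' haa)
    rwa [add_smul, one_smul] at this

end Cfsg.Agent.Lib.Forms
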