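import Cfsg.Agent.Lib.Forms.UnitarySimilitude

/-!
The group of unitary similitudes is maximal in `SL`, from dimension six on.
-/

set_option autoImplicit false

namespace Cfsg.Agent.Lib.Forms

open Matrix Cfsg.Geo

variable {ι : Type} [Fintype ι] [DecidableEq ι] {F : Type*} [Field F]
  {σ : F ≃+* F} {h : (ι → F) → (ι → F) → F} (H : IsUnitaryForm σ h)
include H

section Subgroup

variable (M : Subgroup (GL ι F))
  (hM : similarityGroup h ⊓ specialLinear ι F ≤ M)
include hM

/-- An extra functional at an isotropic centre gives all of them. -/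
lemma unitary_full_of_extra_six [Finite F] (hn : 6 ≤ Fintype.card ι) {b e : ι → F} (hb : h b b = 0)
    (he : h b e = 0) (hne : e ∉ Submodule.span F {b}) (hmem : tv b (hv h e) ∈ M) :
    ∀ φ : ι → F, φ ⬝ᵥ b = 0 → tv b φ ∈ M := by
  obtain ⟨κ, hκ0, hκ⟩ := exists_skew H
  let A : Set (ι → F) := {y | h b y = 0 ∧ tv b (hv h y) ∈ M}
  have hd : ∀ {y}, h b y = 0 → hv h y ⬝ᵥ b = 0 := fun hy => by rw [hv_dot H, hy]
  have Asub : ∀ {y z}, y ∈ A → z ∈ A → y - z ∈ A := by
    rintro y z ⟨hy, hy'⟩ ⟨hz, hz'⟩
    refine ⟨by rw [herm_sub_right H, hy, hz, sub_zero], ?_⟩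
    have e1 : hv h (y - z) = hv h y + -hv h z := by
      rw [eq_add_neg_iff_add_eq, ← hv_add H, sub_add_cancel]
    rw [e1, ← tv_add (hd hy) (by rw [neg_dotProduct, hd hz, neg_zero]), ← tv_inv (hd hz)]
    exact M.mul_mem hy' (M.inv_mem hz')
  have Aadd : ∀ {y z}, y ∈ A → z ∈ A → y + z ∈ A := fun {y z} hy hz => by
    simpa using Asub hy (Asub (Asub hy hy) hz)
  -- images of members
  have Aconj : ∀ {y w : ι → F}, y ∈ A → h w w = 0 → h b w = 0 → (κ * h y w) • w ∈ A := by
    intro y w hy hw hbw
    have hmem := utv_mem H M hM hw hκ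
    have hfix : (tv w (κ • hv h w) : Matrix ι ι F) *ᵥ b = b := by
      rw [tv_mulVec (hv_smul_dot_self H hw κ), smul_dotProduct, hv_dot H, hbw, smul_zero, zero_smul,
        add_zero]
    have hc := M.mul_mem (M.mul_mem hmem hy.2) (M.inv_mem hmem)
    rw [tv_conj _ (hd hy.1), hfix, hv_conj H (utv_isometry H hw hκ),
      tv_mulVec (hv_smul_dot_self H hw κ), smul_dotProduct, hv_dot H, smul_eq_mul] at hc
    have hy' : y + (κ * h y w) • w ∈ A :=
      ⟨by rw [herm_add_right H, herm_smul_right H, hy.1, hbw, mul_zero, add_zero], hc⟩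
    simpa using Asub hy' hy
  let A' : Submodule F (ι → F) :=
    { carrier := {y | ∀ c : F, c • y ∈ A}
      add_mem' := fun {y z} hy hz c => by rw [smul_add]; exact Aadd (hy c) (hz c)
      zero_mem' := fun c => by
        rw [smul_zero, ← sub_self e]; exact Asub ⟨he, hmem⟩ ⟨he, hmem⟩
      smul_mem' := fun a y hy c => by rw [smul_smul]; exact hy _ }
  have step : ∀ {y}, y ∈ A → y ∉ Submodule.span F {b} →
      perp H ![b, y] ≤ A' ∧ ∃ v ∈ perp H ![b, y], h v v = 0 ∧
        v ∉ Submodule.span F (Set.range ![b, y]) := by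
    intro y hy hyb
    obtain ⟨z, hz, hzz, x, hx, hzx⟩ := exists_isotropic_perp H ![b, y] (by omega)
    have orth : ∀ p ∈ Submodule.span F (Set.range ![b, y]), ∀ q ∈ perp H ![b, y], h p q = 0 := by
      intro p hp q hq
      induction hp using Submodule.span_induction with
      | mem p hp => obtain ⟨i, rfl⟩ := hp; exact (herm_eq_zero_comm H).1 (hq i)
      | zero => exact herm_zero_left H _
      | add p p' _ _ i1 i2 => rw [H.add_left, i1, i2, add_zero]
      | smul c p _ i1 => rw [H.smul_left, i1, mul_zero]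
    have hzS : z ∉ Submodule.span F (Set.range ![b, y]) := fun hzS => hzx (orth z hzS x hx)
    have good : ∀ v ∈ perp H ![b, y], h v v = 0 → v ∉ Submodule.span F (Set.range ![b, y]) →
        v ∈ A' := by
      intro v hv hvv hvS
      have hvb : h v b = 0 := hv 0
      have hvy : h v y = 0 := hv 1
      obtain ⟨w, hw, hww, hyw⟩ : ∃ w ∈ perp H ![b, v], h w w = 0 ∧ h y w ≠ 0 := by
        by_contra hcon
        push Not at hcon
        have hall : ∀ x ∈ perp H ![b, v], h x y = 0 := by
          intro x hx
          have hspan := span_isotropic_perp H ![b, v] (by omega) hx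
          clear hx
          induction hspan using Submodule.span_induction with
          | mem p hp => exact (herm_eq_zero_comm H).1 (hcon p hp.1 hp.2)
          | zero => exact herm_zero_left H _
          | add p p' _ _ i1 i2 => rw [H.add_left, i1, i2, add_zero]
          | smul c p _ i1 => rw [H.smul_left, i1, mul_zero]
        obtain ⟨cf, hcf⟩ := (Submodule.mem_span_range_iff_exists_fun F).1 (mem_span_of_perp H hall)
        simp [Fin.sum_univ_two] at hcf
        rcases eq_or_ne (cf 1) 0 with h1 | h1
        · exact hyb (Submodule.mem_span_singleton.2 ⟨cf 0, by simpa [h1] using hcf⟩)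
        · refine hvS ((Submodule.mem_span_range_iff_exists_fun F).2
            ⟨![-(cf 1)⁻¹ * cf 0, (cf 1)⁻¹], ?_⟩)
          simp [Fin.sum_univ_two, ← hcf, smul_add, smul_smul, h1]
      have hwb : h b w = 0 := (herm_eq_zero_comm H).1 (hw 0)
      have hwv : h w v = 0 := hw 1
      have hlam : ∀ l : F, (κ * h y w * l) • v ∈ A := by
        intro l
        have h1 := Aconj hy (w := w + l • v)
          (by simp [H.add_left, H.smul_left, herm_add_right H, herm_smul_right H, hww, hvv, hwv,
            (herm_eq_zero_comm H).1 hwv])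
          (by rw [herm_add_right H, herm_smul_right H, hwb, (herm_eq_zero_comm H).1 hvb, mul_zero,
            add_zero])
        have h2 := Aconj hy hww hwb
        have h3 := Asub h1 h2
        rw [herm_add_right H, herm_smul_right H, (herm_eq_zero_comm H).1 hvy, mul_zero, add_zero,
          smul_add, smul_smul, add_sub_cancel_left] at h3
        exact h3
      intro c
      have := hlam (c / (κ * h y w))
      rwa [mul_div_cancel₀ _ (mul_ne_zero hκ0 hyw)] at this
    refine ⟨fun x hx => ?_, z, hz, hzz, hzS⟩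
    refine Submodule.span_le.2 ?_ (span_isotropic_perp H ![b, y] (by omega) hx)
    rintro v ⟨hv, hvv⟩
    by_cases hvS : v ∈ Submodule.span F (Set.range ![b, y])
    · have hvz : h v z = 0 := orth v hvS z hz
      have h1 : v + z ∈ A' := good _ (add_mem hv hz)
        (by simp [H.add_left, herm_add_right H, hvv, hzz, hvz, (herm_eq_zero_comm H).1 hvz])
        (fun hs => hzS (by simpa using sub_mem hs hvS))
      simpa using A'.sub_mem h1 (good z hz hzz hzS)
    · exact good v hv hvv hvS
  obtain ⟨hPe, v₀, hv₀, hv₀v₀, hv₀S⟩ := step ⟨he, hmem⟩ hne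
  have hv₀A : v₀ ∈ A := by simpa using hPe hv₀ 1
  obtain ⟨hPv, -⟩ := step hv₀A fun hs => hv₀S (Submodule.span_mono (by simp) hs)
  obtain ⟨z, hz, hze⟩ : ∃ z ∈ perp H ![b, v₀], h z e ≠ 0 := by
    by_contra hcon
    push Not at hcon
    obtain ⟨cf, hcf⟩ := (Submodule.mem_span_range_iff_exists_fun F).1 (mem_span_of_perp H hcon)
    simp [Fin.sum_univ_two] at hcf
    rcases eq_or_ne (cf 1) 0 with h1 | h1
    · exact hne (Submodule.mem_span_singleton.2 ⟨cf 0, by simpa [h1] using hcf⟩)
    · refine hv₀S ((Submodule.mem_span_range_iff_exists_fun F).2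
        ⟨![-(cf 1)⁻¹ * cf 0, (cf 1)⁻¹], ?_⟩)
      simp [Fin.sum_univ_two, ← hcf, smul_add, smul_smul, h1]
  intro φ hφ
  obtain ⟨y, rfl⟩ := hv_surjective H φ
  rw [hv_dot H] at hφ
  have hyA : y ∈ A' := by
    set s := h y e / h z e
    have h1 : y - s • z ∈ A' := hPe fun i => by
      fin_cases i
      · simp [sub_eq_add_neg, ← neg_smul, H.add_left, H.smul_left, (herm_eq_zero_comm H).1 hφ,
          show h z b = 0 from hz 0]
      · simp [sub_eq_add_neg, ← neg_smul, H.add_left, H.smul_left, s, hze]
    simpa using A'.add_mem h1 (A'.smul_mem s (hPv hz))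
  simpa using (hyA 1).2

/-- The whole special linear group, given one element which is not a similitude. -/
theorem specialLinear_le_of_not_unitary_similitude_six [Finite F] (hn : 6 ≤ Fintype.card ι) {g : GL ι F}
    (hg : g ∈ M)
    (hns : ¬ ∃ c : F, ∀ u v, h ((g : Matrix ι ι F) *ᵥ u) ((g : Matrix ι ι F) *ᵥ v) = c * h u v) :
    specialLinear ι F ≤ M := by
  obtain ⟨κ, hκ0, hκ⟩ := exists_skew H
  let Full : (ι → F) → Prop := fun a => ∀ φ : ι → F, φ ⬝ᵥ a = 0 → tv a φ ∈ M
  have spansTop : ∀ x : ι → F, x ∈ Submodule.span F {v | h v v = 0} := fun x =>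
    Submodule.span_mono (fun v hv => hv.2)
      (span_isotropic_perp H (Fin.elim0 : Fin 0 → (ι → F)) (by omega) (fun i => i.elim0))
  -- a centre with an extra functional
  obtain ⟨b, e, hb0, hb, hbe, hne, hmem⟩ : ∃ b e, b ≠ 0 ∧ h b b = 0 ∧ h b e = 0 ∧
      e ∉ Submodule.span F {b} ∧ tv b (hv h e) ∈ M := by
    by_contra hcon
    push Not at hcon
    apply hns
    have hconj : ∀ a, h a a = 0 → ∃ e, hv h e =
        (κ • hv h a) ᵥ* ((g⁻¹ : GL ι F) : Matrix ι ι F) ∧
        h ((g : Matrix ι ι F) *ᵥ a) e = 0 ∧ tv ((g : Matrix ι ι F) *ᵥ a) (hv h e) ∈ M := by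
      intro a ha
      obtain ⟨e, he⟩ := hv_surjective H ((κ • hv h a) ᵥ* ((g⁻¹ : GL ι F) : Matrix ι ι F))
      have hd := hv_smul_dot_self H ha κ
      refine ⟨e, he, ?_, ?_⟩
      · rw [← hv_dot H, he, vecMul_inv_dot, hd]
      · rw [he, ← tv_conj g hd]
        exact M.mul_mem (M.mul_mem hg (utv_mem H M hM ha hκ)) (M.inv_mem hg)
    -- isotropic vectors go to isotropic vectors
    have hiso : ∀ a, h a a = 0 →
        h ((g : Matrix ι ι F) *ᵥ a) ((g : Matrix ι ι F) *ᵥ a) = 0 := by
      intro a ha
      by_contra hga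
      obtain ⟨e, he, hbe, hmem⟩ := hconj a ha
      have he1 : e ≠ 0 := by
        rintro rfl
        have ha0 : a ≠ 0 := fun h0 => hga (by simp [h0, herm_zero_left H])
        obtain ⟨x, hx⟩ := (H.nondegenerate a ha0).1
        have h1 := congrArg (fun φ => φ ⬝ᵥ ((g : Matrix ι ι F) *ᵥ x)) he
        simp only [vecMul_inv_dot, smul_dotProduct, hv_dot H, herm_zero_right H, smul_eq_mul] at h1
        exact mul_ne_zero hκ0 hx h1.symm
      set b := (g : Matrix ι ι F) *ᵥ a
      have he0 : hv h e ⬝ᵥ b = 0 := by rw [hv_dot H, hbe]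
      obtain ⟨c, hc, hcc, hbc⟩ : ∃ c ∈ perp H ![e], h c c = 0 ∧ h b c ≠ 0 := by
        by_contra hcon'
        push Not at hcon'
        have hbp : b ∈ perp H ![e] := fun i => by fin_cases i; simpa using hbe
        have key : ∀ p ∈ Submodule.span F {v | v ∈ perp H ![e] ∧ h v v = 0}, h b p = 0 := by
          intro p hp
          induction hp using Submodule.span_induction with
          | mem p hp => exact hcon' p hp.1 hp.2
          | zero => exact herm_zero_right H _
          | add p p' _ _ i1 i2 => rw [herm_add_right H, i1, i2, add_zero]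
          | smul s p _ i1 => rw [herm_smul_right H, i1, mul_zero]
        exact hga (key b (span_isotropic_perp H ![e] (by omega) hbp))
      have hec : hv h e ⬝ᵥ c = 0 := by rw [hv_dot H]; simpa using hc 0
      have hcm := utv_mem H M hM hcc hκ
      have := M.mul_mem (M.mul_mem (M.mul_mem hmem hcm) (M.inv_mem hmem)) (M.inv_mem hcm)
      rw [tv_commutator he0 (hv_smul_dot_self H hcc κ) hec, smul_dotProduct, hv_dot H,
        smul_eq_mul] at this
      have hs : -(κ * h b c) ≠ 0 := neg_ne_zero.2 (mul_ne_zero hκ0 hbc)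
      rw [show -(κ * h b c) • hv h e = hv h (σ (-(κ * h b c)) • e) by
        rw [hv_smul H, H.involutive]] at this
      refine hcon c _ (fun h0 => hbc (by rw [h0, herm_zero_right H])) hcc
        (by rw [herm_smul_right H, show h c e = 0 by simpa using hc 0, mul_zero]) (fun hspan => ?_)
        this
      obtain ⟨t, ht⟩ := Submodule.mem_span_singleton.1 hspan
      have e1 : h b (t • c) = 0 := by rw [ht, herm_smul_right H, hbe, mul_zero]
      rw [herm_smul_right H, mul_eq_zero] at e1
      rcases e1 with e1 | e1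
      · have ht0 : t = 0 := by simpa using e1
        rw [ht0, zero_smul, eq_comm, smul_eq_zero] at ht
        rcases ht with h1 | h1
        · exact hs (by simpa using h1)
        · exact he1 h1
      · exact hbc e1
    -- the adjoint fixes every isotropic line
    have heig : ∀ a, h a a = 0 → ∃ s : F, ∀ x,
        h ((g : Matrix ι ι F) *ᵥ x) ((g : Matrix ι ι F) *ᵥ a) = s * h x a := by
      intro a ha
      rcases eq_or_ne a 0 with rfl | ha0
      · exact ⟨0, fun x => by simp [herm_zero_right H]⟩
      obtain ⟨e, he, hbe, hmem⟩ := hconj a ha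
      obtain ⟨t, rfl⟩ : ∃ t : F, t • ((g : Matrix ι ι F) *ᵥ a) = e := by
        by_contra hne
        exact hcon _ e (fun h0 => ha0 (gl_mulVec_injective g (by simpa using h0))) (hiso a ha) hbe (fun hs => hne (Submodule.mem_span_singleton.1 hs)) hmem
      have hkey : ∀ x, σ t * h ((g : Matrix ι ι F) *ᵥ x) ((g : Matrix ι ι F) *ᵥ a) = κ * h x a := by
        intro x
        have := congrArg (fun φ => φ ⬝ᵥ ((g : Matrix ι ι F) *ᵥ x)) he
        simpa only [vecMul_inv_dot, smul_dotProduct, hv_dot H, herm_smul_right H, smul_eq_mul]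
          using this
      have ht : σ t ≠ 0 := by
        intro h0
        obtain ⟨x, hx⟩ := (H.nondegenerate a ha0).1
        have := hkey x
        rw [h0, zero_mul] at this
        exact mul_ne_zero hκ0 hx this.symm
      refine ⟨κ / σ t, fun x => ?_⟩
      rw [div_mul_eq_mul_div, ← hkey x, mul_div_cancel_left₀ _ ht]
    choose! s hs using heig
    -- one value for all non-zero isotropic vectors
    have hsum : ∀ (a a' : ι → F) (c : F), h a a = 0 → h a' a' = 0 → h (a + c • a') (a + c • a') = 0 → c ≠ 0 →
        a' ≠ 0 → (∀ t : F, t • a' ≠ a) → s a = s a' := by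
      intro a a' c ha ha' hac hc0 ha'0 hind
      set u := a + c • a' with hu
      have hlin : ∀ x, (s a - s u) * h x a + σ c * (s a' - s u) * h x a' = 0 := by
        intro x
        have h1 := hs u hac x
        rw [hu, mulVec_add, mulVec_smul, herm_add_right H, herm_smul_right H, hs a ha x,
          hs a' ha' x, herm_add_right H, herm_smul_right H, ← hu] at h1
        linear_combination h1
      have hvec : σ (s a - s u) • a + (c * σ (s a' - s u)) • a' = 0 := by
        by_contra hne0
        obtain ⟨x, hx⟩ := (H.nondegenerate _ hne0).1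
        refine hx ?_
        rw [herm_add_right H, herm_smul_right H, herm_smul_right H, H.involutive, map_mul,
          H.involutive]
        linear_combination hlin x
      have h1 : s a - s u = 0 := by
        by_contra hne'
        have hne'' : σ (s a - s u) ≠ 0 := fun e => hne' (σ.injective (by rw [e, map_zero]))
        apply hind (-((σ (s a - s u))⁻¹ * (c * σ (s a' - s u))))
        rw [neg_smul, mul_smul, eq_neg_of_add_eq_zero_right hvec, smul_neg, neg_neg, smul_smul,
          inv_mul_cancel₀ hne'', one_smul]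
      rw [h1, map_zero, zero_smul, zero_add, smul_eq_zero] at hvec
      rcases hvec with h2 | h2
      · rw [mul_eq_zero] at h2
        have h3 : s a' - s u = 0 := σ.injective (by rw [map_zero]; exact h2.resolve_left hc0)
        linear_combination h1 - h3
      · exact absurd h2 ha'0
    have hconst : ∀ a a', h a a = 0 → h a' a' = 0 → a ≠ 0 → a' ≠ 0 → s a = s a' := by
      intro a a' ha ha' ha0 ha'0
      by_cases hind : ∃ t : F, t • a' = a
      · obtain ⟨t, rfl⟩ := hind
        have ht : t ≠ 0 := fun h0 => ha0 (by simp [h0])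
        obtain ⟨x, hx⟩ := (H.nondegenerate a' ha'0).1
        have h1 := hs _ ha x
        rw [mulVec_smul, herm_smul_right H, herm_smul_right H, hs a' ha' x] at h1
        have h2 : σ t * h x a' * (s (t • a') - s a') = 0 := by linear_combination -h1
        rcases mul_eq_zero.1 h2 with h3 | h3
        · exact absurd h3 (mul_ne_zero (by simpa using ht) hx)
        · exact sub_eq_zero.1 h3
      · push Not at hind
        by_cases hpair : h a a' = 0
        · exact hsum a a' 1 ha ha' (by simp [H.add_left, herm_add_right H, ha, ha', hpair,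
            (herm_eq_zero_comm H).1 hpair]) one_ne_zero ha'0 hind
        · have hp' : σ (h a a') ≠ 0 := by simpa using hpair
          refine hsum a a' (κ / σ (h a a')) ha ha' ?_ (div_ne_zero hκ0 hp') ha'0 hind
          simp only [H.add_left, H.smul_left, herm_add_right H, herm_smul_right H, ha, ha',
            H.herm a' a, map_div₀, H.involutive]
          field_simp
          linear_combination (h a a' * σ (h a a')) * hκ
    obtain ⟨v, -, hvv, x, -, hvx⟩ := exists_isotropic_perp H (Fin.elim0 : Fin 0 → (ι → F)) (by omega)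
    have hv0 : v ≠ 0 := fun h0 => hvx (by rw [h0, herm_zero_left H])
    refine ⟨s v, fun u w => ?_⟩
    induction spansTop w using Submodule.span_induction with
    | mem p hp =>
      rcases eq_or_ne p 0 with rfl | hp0
      · simp [herm_zero_right H]
      · rw [hs p hp, hconst v p hvv hp hv0 hp0]
    | zero => simp [herm_zero_right H]
    | add p p' _ _ i1 i2 =>
      rw [mulVec_add, herm_add_right H, herm_add_right H, i1, i2, mul_add]
    | smul c p _ i1 =>
      rw [mulVec_smul, herm_smul_right H, herm_smul_right H, i1]; ring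
  have hfull : Full b := unitary_full_of_extra_six H M hM hn hb hbe hne hmem
  -- full centres propagate
  have prop : ∀ {a w : ι → F}, h a a = 0 → h w w = 0 → h a w ≠ 0 → Full a → Full w := by
    intro a w haa hww haw ha
    obtain ⟨y, hy, hyy, x, hx, hyx⟩ := exists_isotropic_perp H ![a, w] (by omega)
    have hay : hv h y ⬝ᵥ a = 0 := by
      rw [hv_dot H]; exact (herm_eq_zero_comm H).1 (hy 0)
    have hwy : hv h y ⬝ᵥ w = 0 := by
      rw [hv_dot H]; exact (herm_eq_zero_comm H).1 (hy 1)
    have hm := utv_mem H M hM hww hκ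
    have := M.mul_mem (M.mul_mem (M.mul_mem (ha _ hay) hm) (M.inv_mem (ha _ hay))) (M.inv_mem hm)
    rw [tv_commutator hay (hv_smul_dot_self H hww κ) hwy, smul_dotProduct, hv_dot H,
      smul_eq_mul, show -(κ * h a w) • hv h y = hv h (σ (-(κ * h a w)) • y) by
        rw [hv_smul H, H.involutive]] at this
    refine unitary_full_of_extra_six H M hM hn hww
      (by rw [herm_smul_right H, (herm_eq_zero_comm H).1 (show h y w = 0 from hy 1), mul_zero]) (fun hs => ?_) this
    obtain ⟨t, ht⟩ := Submodule.mem_span_singleton.1 hs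
    have e1 : h a (t • w) = 0 := by
      rw [ht, herm_smul_right H, (herm_eq_zero_comm H).1 (show h y a = 0 from hy 0), mul_zero]
    rw [herm_smul_right H, mul_eq_zero] at e1
    rcases e1 with e1 | e1
    · have ht0 : t = 0 := by simpa using e1
      rw [ht0, zero_smul, eq_comm, smul_eq_zero] at ht
      rcases ht with h1 | h1
      · simp [hκ0, haw] at h1
      · exact hyx (by rw [h1, herm_zero_left H])
    · exact haw e1
  have hall : ∀ a, h a a = 0 → Full a := by
    intro a ha
    rcases eq_or_ne a 0 with rfl | ha0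
    · intro φ _; rw [tv_zero_left]; exact M.one_mem
    -- a vector non-orthogonal to both
    obtain ⟨z1, hz1⟩ := (H.nondegenerate b hb0).1
    obtain ⟨z2, hz2⟩ := (H.nondegenerate a ha0).1
    obtain ⟨z, hzb, hza⟩ : ∃ z, h z b ≠ 0 ∧ h z a ≠ 0 := by
      by_cases e1 : h z1 a = 0
      · by_cases e2 : h z2 b = 0
        · exact ⟨z1 + z2, by simpa [H.add_left, e2] using hz1, by simpa [H.add_left, e1] using hz2⟩
        · exact ⟨z2, e2, hz2⟩
      · exact ⟨z1, hz1, e1⟩
    obtain ⟨v, hv, hvv, x, hx, hvx⟩ := exists_isotropic_perp H ![a, b] (by omega)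
    obtain ⟨z', hzb', hza', hvz'⟩ : ∃ z', h z' b ≠ 0 ∧ h z' a ≠ 0 ∧ h v z' ≠ 0 := by
      by_cases e1 : h v z = 0
      · refine ⟨z + x, ?_, ?_, by rw [herm_add_right H, e1, zero_add]; exact hvx⟩
        · rw [H.add_left, show h x b = 0 from hx 1, add_zero]; exact hzb
        · rw [H.add_left, show h x a = 0 from hx 0, add_zero]; exact hza
      · exact ⟨z, hzb, hza, e1⟩
    obtain ⟨c, hc⟩ := exists_isotropic_translate H hvv hvz'
    have h1 : h (z' + c • v) b ≠ 0 := by
      rw [H.add_left, H.smul_left, show h v b = 0 from hv 1, mul_zero, add_zero]; exact hzb'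
    have h2 : h (z' + c • v) a ≠ 0 := by
      rw [H.add_left, H.smul_left, show h v a = 0 from hv 0, mul_zero, add_zero]; exact hza'
    exact prop hc ha h2 (prop hb hc (fun e => h1 ((herm_eq_zero_comm H).1 e)) hfull)
  refine specialLinear_le_of_tv M fun a φ hφ => ?_
  obtain ⟨u, rfl⟩ := hv_surjective H φ
  have hau : a ∈ perp H ![u] := fun i => by
    fin_cases i; rw [hv_dot H] at hφ; simpa using hφ
  suffices ∀ x ∈ Submodule.span F {v | v ∈ perp H ![u] ∧ h v v = 0},
      hv h u ⬝ᵥ x = 0 ∧ ∀ c : F, tv x (c • hv h u) ∈ M by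
    simpa using (this a (span_isotropic_perp H ![u] (by omega) hau)).2 1
  intro x hx
  induction hx using Submodule.span_induction with
  | mem p hp =>
    have h1 : hv h u ⬝ᵥ p = 0 := by rw [hv_dot H]; simpa using hp.1 0
    exact ⟨h1, fun c => hall p hp.2 _ (by rw [smul_dotProduct, h1, smul_zero])⟩
  | zero => exact ⟨dotProduct_zero _, fun c => by rw [tv_zero_left]; exact M.one_mem⟩
  | add p p' _ _ i1 i2 =>
    refine ⟨by rw [dotProduct_add, i1.1, i2.1, add_zero], fun c => ?_⟩
    rw [← tv_add_center (by rw [smul_dotProduct, i1.1, smul_zero])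
      (by rw [smul_dotProduct, i2.1, smul_zero])]
    exact M.mul_mem (i1.2 c) (i2.2 c)
  | smul d p _ i1 =>
    refine ⟨by rw [dotProduct_smul, i1.1, smul_zero], fun c => ?_⟩
    rw [tv_smul_center d (by rw [smul_dotProduct, i1.1, smul_zero]), smul_smul]
    exact i1.2 _

end Subgroup

/-- The unitary similitude group meets `SL` in a maximal subgroup of `SL`. -/
theorem unitarySimilarityGroup_isMaximalIn_six [Finite F] (hn : 6 ≤ Fintype.card ι) :
    IsMaximalIn (specialLinear ι F) (similarityGroup h ⊓ specialLinear ι F) := by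
  refine isMaximalIn_of inf_le_right ?_ fun M hM h' g hg hgn => ?_
  · -- a transvection with non-isotropic centre is no similitude
    obtain ⟨v, -, hvv, x, -, hvx⟩ := exists_isotropic_perp H (Fin.elim0 : Fin 0 → (ι → F)) (by omega)
    obtain ⟨b, hb⟩ : ∃ b, h b b ≠ 0 := by
      by_contra hcon
      push Not at hcon
      obtain ⟨τ, hτ⟩ := exists_trace_ne_zero H
      have := hcon (x + (τ / h v x) • v)
      simp only [H.add_left, H.smul_left, herm_add_right H, herm_smul_right H, hvv, hcon x,
        H.herm x v, map_div₀] at this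
      refine hτ ?_
      have hσ : σ (h v x) ≠ 0 := by simpa using hvx
      field_simp at this
      exact (mul_eq_zero.1 (by linear_combination this :
        σ (h v x) * h v x * (τ + σ τ) = 0)).resolve_left (mul_ne_zero hσ hvx)
    obtain ⟨y, hy, hy0⟩ : ∃ y ∈ perp H ![b], y ≠ 0 := by
      obtain ⟨v', hv', -, x', -, hvx'⟩ := exists_isotropic_perp H ![b] (by omega)
      exact ⟨v', hv', fun h0 => hvx' (by rw [h0, herm_zero_left H])⟩
    have hd : hv h y ⬝ᵥ b = 0 := by rw [hv_dot H]; exact (herm_eq_zero_comm H).1 (hy 0)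
    refine ⟨tv b (hv h y), tv_mem_specialLinear _ _, fun hs => hb ?_⟩
    obtain ⟨c, hc⟩ := hs.1
    have hc1 : (c : F) = 1 := by
      have := hc b b
      rw [tv_mulVec hd, hd, zero_smul, add_zero] at this
      exact mul_right_cancel₀ hb (by rw [← this, one_mul])
    obtain ⟨z, hz⟩ := (H.nondegenerate y hy0).1
    have := hc z b
    simp only [tv_mulVec hd, hv_dot H, show h b y = 0 from (herm_eq_zero_comm H).1 (hy 0), zero_smul,
      add_zero, H.add_left, H.smul_left, hc1, one_mul] at this
    exact (mul_eq_zero.1 (by linear_combination this : h z y * h b b = 0)).resolve_left hz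
  · refine specialLinear_le_of_not_unitary_similitude_six H M hM hn hg ?_
    rintro ⟨c, hc⟩
    refine hgn ⟨?_, h' hg⟩
    rcases eq_or_ne c 0 with rfl | hc0
    · refine ⟨1, fun u v => ?_⟩
      have hh : ∀ u v, h u v = 0 := fun u v => by
        simpa [mulVec_inv_mulVec] using hc (((g⁻¹ : GL ι F) : Matrix ι ι F) *ᵥ u)
          (((g⁻¹ : GL ι F) : Matrix ι ι F) *ᵥ v)
      simp [hh]
    · exact ⟨Units.mk0 c hc0, fun u v => hc u v⟩

end Cfsg.Agent.Lib.Forms
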