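import Cfsg.Agent.Lib.Forms.SubfieldBasic
import Cfsg.Agent.Lib.Forms.SLTwoGen
import Cfsg.Agent.Lib.Forms.UnitaryPair
import Cfsg.Agent.Lib.Forms.UnitaryNondeg

/-!
The odd degree subfield subgroup is maximal in the special unitary group.
-/

set_option autoImplicit false

namespace Cfsg.Agent.Lib.Forms

open Matrix Cfsg.Geo
open scoped MatrixGroups
open Cfsg.Agent.Lib.PStab (ux uy coe_ux coe_uy mul_apply_two coe_inv_two det_eq)

variable {ι : Type} [Fintype ι] [DecidableEq ι] {F : Type*} [Field F]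
  {σ : F ≃+* F} {h : (ι → F) → (ι → F) → F}

/-- An isotropic vector orthogonal to few vectors and not to a given independent one. -/
lemma exists_iso_ne [Finite F] (H : IsUnitaryForm σ h) {k : ℕ} (u : Fin k → (ι → F))
    (hk : 2 * k + 2 ≤ Fintype.card ι) {a : ι → F} (ha : a ∉ Submodule.span F (Set.range u)) :
    ∃ v, h v v = 0 ∧ (∀ i, h v (u i) = 0) ∧ h v a ≠ 0 := by
  by_contra hcon
  push Not at hcon
  refine ha (mem_span_of_perp H fun x hx => ?_)
  have hx' := span_isotropic_perp H u hk hx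
  clear hx
  induction hx' using Submodule.span_induction with
  | mem v hv => exact hcon v hv.2 hv.1
  | zero => exact herm_zero_left H _
  | add x y _ _ hx hy => rw [H.add_left, hx, hy, add_zero]
  | smul c x _ hx => rw [H.smul_left, hx, mul_zero]

/-- A common isotropic partner for orthogonal independent isotropic vectors. -/
lemma exists_iso_both [Finite F] (H : IsUnitaryForm σ h) (hn : 6 ≤ Fintype.card ι) {q s : ι → F}
    (hq : q ∉ Submodule.span F (Set.range ![s])) (hs : s ∉ Submodule.span F (Set.range ![q]))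
    (hqs : h q s = 0) (hqq : h q q = 0) :
    ∃ p, h p p = 0 ∧ h p q ≠ 0 ∧ h p s ≠ 0 := by
  obtain ⟨p₁, hp₁, hp₁s, hp₁q⟩ := exists_iso_ne H ![s] (by omega) hq
  have hp₁s' : h p₁ s = 0 := hp₁s 0
  obtain ⟨p₂, hp₂, hp₂p, hp₂s⟩ := exists_iso_ne H ![q, p₁] (by omega) (a := s) (fun e => by
    rw [Matrix.range_cons, Matrix.range_cons, Matrix.range_empty, Set.union_empty,
      Set.singleton_union, Submodule.mem_span_pair] at e
    obtain ⟨x, y, hxy⟩ := e
    have h1 := congrArg (fun v => h v q) hxy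
    simp only [H.add_left, H.smul_left, hqq, mul_zero, zero_add, eq_zero_of_herm_self H hqs] at h1
    have hy : y = 0 := (mul_eq_zero.1 h1).resolve_right hp₁q
    rw [hy, zero_smul, add_zero] at hxy
    exact hs (by
      rw [Matrix.range_cons, Matrix.range_empty, Set.union_empty]
      exact Submodule.mem_span_singleton.2 ⟨x, hxy⟩))
  have h21 : h p₂ p₁ = 0 := hp₂p 1
  have h2q : h p₂ q = 0 := hp₂p 0
  refine ⟨p₁ + p₂, ?_, ?_, ?_⟩
  · simp [H.add_left, herm_add_right H, hp₁, hp₂, h21, eq_zero_of_herm_self H h21]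
  · rwa [H.add_left, h2q, add_zero]
  · rwa [H.add_left, hp₁s', zero_add]

variable {F₀ : Subfield F} {P : GL ι F}

/-- A rational unitary structure of prime index. -/
structure UnitRat (σ : F ≃+* F) (h : (ι → F) → (ι → F) → F) (F₀ : Subfield F) (P : GL ι F)
    (r : ℕ) : Prop where
  herm : IsUnitaryForm σ h
  rat : ∀ u v : ι → F₀, h (ratVec P u) (ratVec P v) ∈ F₀
  stable : ∀ c ∈ F₀, σ c ∈ F₀
  moved : ∃ ε ∈ F₀, σ ε ≠ ε
  prime : r.Prime
  three : 3 ≤ r
  card : Nat.card F = Nat.card F₀ ^ r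

variable {r : ℕ} (S : UnitRat σ h F₀ P r)
include S

/-- The automorphism on the subfield. -/
def UnitRat.sig : F₀ ≃+* F₀ where
  toFun c := ⟨σ c, S.stable _ c.2⟩
  invFun c := ⟨σ c, S.stable _ c.2⟩
  left_inv c := Subtype.ext (S.herm.involutive _)
  right_inv c := Subtype.ext (S.herm.involutive _)
  map_mul' c d := Subtype.ext (map_mul σ _ _)
  map_add' c d := Subtype.ext (map_add σ _ _)

/-- The form on the rational vectors. -/
def UnitRat.form (u v : ι → F₀) : F₀ := ⟨h (ratVec P u) (ratVec P v), S.rat u v⟩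

lemma UnitRat.form_coe (u v : ι → F₀) :
    ((S.form u v : F₀) : F) = h (ratVec P u) (ratVec P v) := rfl

lemma UnitRat.sig_coe (c : F₀) : ((S.sig c : F₀) : F) = σ c := rfl

lemma UnitRat.exists_ne {x : ι → F} (hx : x ≠ 0) : ∃ u : ι → F₀, h (ratVec P u) x ≠ 0 := by
  by_contra hcon
  push Not at hcon
  obtain ⟨y, hy⟩ := (S.herm.nondegenerate x hx).1
  apply hy
  rw [← mulVec_inv_mulVec P y, pi_eq_sum_univ' (((P⁻¹ : GL ι F) : Matrix ι ι F) *ᵥ y), mulVec_sum]
  let L : (ι → F) →ₗ[F] F :=
    { toFun := fun z => h z x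
      map_add' := fun a b => S.herm.add_left a b x
      map_smul' := fun c a => S.herm.smul_left c a x }
  show L _ = 0
  rw [map_sum]
  refine Finset.sum_eq_zero fun i _ => ?_
  rw [mulVec_smul, map_smul]
  have := hcon (Pi.single i 1)
  rw [ratVec, show (fun j => ((Pi.single i 1 : ι → F₀) j : F)) = Pi.single i 1 by
    funext j; rcases eq_or_ne j i with rfl | h' <;> simp [*]] at this
  exact smul_eq_zero_of_right _ this

lemma UnitRat.herm₀ : IsUnitaryForm S.sig S.form where
  ne_refl e := by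
    obtain ⟨ε, hε, hne⟩ := S.moved
    exact hne (congrArg Subtype.val (RingEquiv.congr_fun e ⟨ε, hε⟩))
  involutive c := Subtype.ext (S.herm.involutive _)
  add_left x y v := Subtype.ext (by
    rw [Subfield.coe_add, S.form_coe, S.form_coe, S.form_coe, ratVec_add, S.herm.add_left])
  smul_left c x v := Subtype.ext (by
    rw [Subfield.coe_mul, S.form_coe, S.form_coe, ratVec_smul, S.herm.smul_left])
  herm v w := Subtype.ext (by rw [S.sig_coe, S.form_coe, S.form_coe]; exact S.herm.herm _ _)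
  nondegenerate := by
    intro u hu
    obtain ⟨v, hv⟩ := S.exists_ne (ratVec_ne_zero (P := P) hu)
    refine ⟨⟨v, fun e => hv (congrArg Subtype.val e)⟩,
      ⟨v, fun e => hv (eq_zero_of_herm_self S.herm (congrArg Subtype.val e))⟩⟩

variable {M : Subgroup (GL ι F)}
  (hle : subfieldSubgroup F₀ P ⊓ (isoH h ⊓ specialLinear ι F) ≤ M)
include hle

lemma UnitRat.utv_rat_mem {v : ι → F₀} (hv0 : S.form v v = 0) {c : F₀} (hc : c + S.sig c = 0) :
    tv (ratVec P v) ((c : F) • hv h (ratVec P v)) ∈ M := by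
  have H := S.herm
  have h0 : h (ratVec P v) (ratVec P v) = 0 := by rw [← S.form_coe, hv0]; rfl
  have hc' : (c : F) + σ c = 0 := congrArg Subtype.val hc
  refine hle ⟨mem_subfieldSubgroup_iff.2 ⟨tv v (c • hv S.form v), 1, fun x => ?_⟩,
    utvGroup_le H (utv_mem_utvGroup h0 hc')⟩
  rw [utv_mulVec H h0, utv_mulVec S.herm₀ hv0, Units.val_one, one_smul, ratVec_add, ratVec_smul,
    Subfield.coe_mul, S.form_coe]

lemma UnitRat.ueE_rat_mem {a b : ι → F₀} (ha : S.form a a = 0) (hb : S.form b b = 0)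
    (hab : S.form a b = 0) (c : F₀) : ueE σ h (ratVec P a) (ratVec P b) (c : F) ∈ M := by
  have H := S.herm
  have h1 : h (ratVec P a) (ratVec P a) = 0 := by rw [← S.form_coe, ha]; rfl
  have h2 : h (ratVec P b) (ratVec P b) = 0 := by rw [← S.form_coe, hb]; rfl
  have h3 : h (ratVec P a) (ratVec P b) = 0 := by rw [← S.form_coe, hab]; rfl
  refine hle ⟨mem_subfieldSubgroup_iff.2 ⟨ueE S.sig S.form a b c, 1, fun x => ?_⟩,
    ueE_mem H h1 h2 h3 _⟩
  rw [ueE_mulVec H h1 h2 h3, ueE_mulVec S.herm₀ ha hb hab, Units.val_one, one_smul,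
    sub_eq_add_neg _ ((S.sig c * S.form x a) • b), ← neg_smul, ratVec_add, ratVec_add, ratVec_smul,
    ratVec_smul, Subfield.coe_mul, NegMemClass.coe_neg, Subfield.coe_mul, S.form_coe, S.form_coe,
    S.sig_coe]
  module

omit hle in
/-- The multiplier is available at every rational isotropic centre. -/
def UnitRat.AllAt (M : Subgroup (GL ι F)) (k : F) : Prop :=
  ∀ v : ι → F₀, S.form v v = 0 → tv (ratVec P v) (k • hv h (ratVec P v)) ∈ M

/-- A rational transvection moves one centre to a multiple of another. -/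
lemma UnitRat.move_mem [Finite F] {δ : F₀} (hδ0 : δ ≠ 0) (hδ : δ + S.sig δ = 0) {u v : ι → F₀}
    (huu : S.form u u = 0) (hvv : S.form v v = 0) (huv : S.form u v ≠ 0) {k : F}
    (hmem : tv (ratVec P u) (k • hv h (ratVec P u)) ∈ M) :
    tv (ratVec P v) ((k * ((S.form u v : F) / δ * σ ((S.form u v : F) / δ))) • hv h (ratVec P v)) ∈ M := by
  have H := S.herm
  have H₀ := S.herm₀
  set t := δ / S.form u v with ht
  have ht0 : t ≠ 0 := div_ne_zero hδ0 huv
  have htu : S.form (t • u) v = δ := by rw [H₀.smul_left, ht, div_mul_cancel₀ _ huv]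
  set w := v + (-1 : F₀) • (t • u) with hw
  have htt : S.form (t • u) (t • u) = 0 := by rw [smul_inner H₀, huu, mul_zero]
  have hww : S.form w w = 0 := by
    rw [hw, herm_add_smul_self H₀, hvv, htt, H₀.herm v (t • u), htu, H₀.involutive, map_neg, map_one]
    linear_combination (-1 : F₀) * hδ
  have hc : δ⁻¹ + S.sig δ⁻¹ = 0 := by
    rw [map_inv₀, eq_neg_of_add_eq_zero_right hδ, inv_neg, add_neg_cancel]
  have hm := S.utv_rat_mem hle hww hc
  have hu0 : h (ratVec P u) (ratVec P u) = 0 := by rw [← S.form_coe, huu]; rfl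
  have hmi : tv (ratVec P w) (((δ⁻¹ : F₀) : F) • hv h (ratVec P w)) ∈ isoH h :=
    (utvGroup_le H (utv_mem_utvGroup (by rw [← S.form_coe, hww]; rfl) (congrArg Subtype.val hc))).1
  have h2 := mul_mem (mul_mem hm hmem) (inv_mem hm)
  rw [utv_conj H hmi hu0] at h2
  have himg : (tv (ratVec P w) (((δ⁻¹ : F₀) : F) • hv h (ratVec P w)) : Matrix ι ι F) *ᵥ
      ratVec P u = ((t : F))⁻¹ • ratVec P v := by
    have hww' : h (ratVec P w) (ratVec P w) = 0 := by rw [← S.form_coe, hww]; rfl
    have e : h (ratVec P u) (ratVec P w) = (δ : F) / t := by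
      rw [← S.form_coe]
      have e0 : S.form u w = δ / t := by
        rw [hw, herm_add_right H₀, herm_smul_right H₀, herm_smul_right H₀, huu, mul_zero, mul_zero,
          add_zero, ht]
        field_simp
      rw [e0]; push_cast; rfl
    rw [utv_mulVec H hww', e, hw, ratVec_add, ratVec_smul, ratVec_smul, Subfield.coe_inv]
    have ht' : (t : F) ≠ 0 := fun e => ht0 (Subtype.ext e)
    have hδ' : (δ : F) ≠ 0 := fun e => hδ0 (Subtype.ext e)
    push_cast
    match_scalars <;> field_simp <;> ring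
  rw [himg] at h2
  have hv0 : h (ratVec P v) (ratVec P v) = 0 := by rw [← S.form_coe, hvv]; rfl
  convert h2 using 1
  apply gl_ext; intro x
  have hv0' : h ((t : F)⁻¹ • ratVec P v) ((t : F)⁻¹ • ratVec P v) = 0 := by
    rw [smul_inner H, hv0, mul_zero]
  rw [utv_mulVec H hv0, utv_mulVec H hv0', herm_smul_right H, map_inv₀, smul_smul]
  congr 2
  rw [ht]
  push_cast
  rw [map_div₀, map_div₀]
  field_simp

/-- One rational centre gives all. -/
lemma UnitRat.allAt_of_one [Finite F] (hn : 6 ≤ Fintype.card ι) {a : ι → F₀} (ha : a ≠ 0)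
    (haa : S.form a a = 0) {k : F}
    (hmem : ∀ c : F₀, S.sig c = c → tv (ratVec P a) (((c : F) * k) • hv h (ratVec P a)) ∈ M) :
    ∀ c : F₀, S.sig c = c → S.AllAt M ((c : F) * k) := by
  have H := S.herm
  have H₀ := S.herm₀
  obtain ⟨δ, hδ0, hδ⟩ := exists_skew H₀
  let Q : (ι → F₀) → Prop := fun v => ∀ c : F₀, S.sig c = c →
    tv (ratVec P v) (((c : F) * k) • hv h (ratVec P v)) ∈ M
  have step : ∀ u v, S.form u u = 0 → S.form v v = 0 → S.form u v ≠ 0 → Q u → Q v := by
    intro u v huu hvv huv hQ c hc'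
    set f := S.form u v / δ with hf
    have hf0 : f ≠ 0 := div_ne_zero huv hδ0
    have hsf : S.sig f ≠ 0 := by simpa using hf0
    have h1 := S.move_mem hle hδ0 hδ huu hvv huv (hQ (c / (f * S.sig f))
      (by rw [map_div₀, map_mul, H₀.involutive, hc', mul_comm (S.sig f)]))
    convert h1 using 3
    have hf' : (f : F) ≠ 0 := fun e => hf0 (Subtype.ext e)
    have hsf' : σ (f : F) ≠ 0 := by simpa using hf'
    rw [show ((S.form u v : F) / (δ : F)) = (f : F) by rw [hf]; push_cast; rfl]
    push_cast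
    rw [S.sig_coe]
    field_simp
  intro c hc v hvv
  rcases eq_or_ne v 0 with rfl | hv0
  · rw [ratVec_zero, tv_zero_left]; exact M.one_mem
  suffices Q v from this c hc
  by_cases hav : S.form a v = 0
  swap
  · exact step a v haa hvv hav hmem
  by_cases hdep : v ∈ Submodule.span F₀ (Set.range ![a])
  · rw [Matrix.range_cons, Matrix.range_empty, Set.union_empty] at hdep
    obtain ⟨s, rfl⟩ := Submodule.mem_span_singleton.1 hdep
    intro c hc
    have h1 := hmem (c * (s * S.sig s)) (by rw [map_mul, map_mul, H₀.involutive, hc]; ring)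
    convert h1 using 1
    have ha0 : h (ratVec P a) (ratVec P a) = 0 := by rw [← S.form_coe, haa]; rfl
    apply gl_ext; intro x
    rw [utv_mulVec H (by rw [ratVec_smul, smul_inner H, ha0, mul_zero]), utv_mulVec H ha0,
      ratVec_smul, herm_smul_right H, smul_smul]
    congr 2
    push_cast
    rw [S.sig_coe]
    ring
  have hdep' : a ∉ Submodule.span F₀ (Set.range ![v]) := fun e => hdep (by
    rw [Matrix.range_cons, Matrix.range_empty, Set.union_empty] at e ⊢
    obtain ⟨s, hs⟩ := Submodule.mem_span_singleton.1 e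
    have hs0 : s ≠ 0 := fun e' => ha (by rw [← hs, e', zero_smul])
    exact Submodule.mem_span_singleton.2 ⟨s⁻¹, by rw [← hs, smul_smul, inv_mul_cancel₀ hs0, one_smul]⟩)
  obtain ⟨p, hp, hpa, hpv⟩ := exists_iso_both H₀ hn hdep' hdep hav haa
  exact step p v hp hvv hpv (step a p haa hp (fun e => hpa (eq_zero_of_herm_self H₀ e)) hmem)

omit hle in
/-- A functional with values on one rational line comes from a rational vector. -/
lemma UnitRat.exists_rep [Finite F] (L : (ι → F₀) →ₗ[F₀] F₀) :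
    ∃ w, ∀ v, L v = S.form v w := by
  obtain ⟨w, hw⟩ := hv_surjective S.herm₀ (fun i => L (Pi.single i 1))
  refine ⟨w, fun v => ?_⟩
  rw [← hv_dot S.herm₀ w v, hw]
  conv_lhs => rw [pi_eq_sum_univ' v]
  simp [dotProduct, map_sum, mul_comm]

/-- An element outside the subfield group separates an orthogonal isotropic pair. -/
lemma UnitRat.exists_triple [Finite F] (hn : 13 ≤ Fintype.card ι) {g : GL ι F} (hgi : g ∈ isoH h)
    (hgn : g ∉ subfieldSubgroup F₀ P) :
    ∃ a u v : ι → F₀, a ≠ 0 ∧ S.form a a = 0 ∧ S.form u u = 0 ∧ S.form v v = 0 ∧ S.form u v = 0 ∧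
      h ((g : Matrix ι ι F) *ᵥ ratVec P u) (ratVec P a) ≠ 0 ∧
      h ((g : Matrix ι ι F) *ᵥ ratVec P v) (ratVec P a) /
        h ((g : Matrix ι ι F) *ᵥ ratVec P u) (ratVec P a) ∉ F₀ := by
  classical
  by_contra hcon
  push Not at hcon
  have H := S.herm
  have H₀ := S.herm₀
  -- isotropic lines go to rational lines
  have line : ∀ a, S.form a a = 0 → ∃ (c : F) (b : ι → F₀),
      ((g⁻¹ : GL ι F) : Matrix ι ι F) *ᵥ ratVec P a = c • ratVec P b := by
    intro a haa
    rcases eq_or_ne a 0 with rfl | ha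
    · exact ⟨0, 0, by simp [ratVec_zero]⟩
    set φ := fun v : ι → F₀ => h ((g : Matrix ι ι F) *ᵥ ratVec P v) (ratVec P a) with hφ
    have hadd : ∀ v w, φ (v + w) = φ v + φ w := fun v w => by
      simp only [hφ, ratVec_add, mulVec_add, H.add_left]
    have hsmul : ∀ (t : F₀) v, φ (t • v) = (t : F) * φ v := fun t v => by
      simp only [hφ, ratVec_smul, mulVec_smul, H.smul_left]
    have hspan : ∀ {k : ℕ} (u : Fin k → (ι → F₀)), 2 * k + 2 ≤ Fintype.card ι →
        ∀ x, (∀ i, S.form x (u i) = 0) → (∀ w, S.form w w = 0 → (∀ i, S.form w (u i) = 0) → φ w = 0) →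
        φ x = 0 := by
      intro k u hk x hx hw
      have hx' := span_isotropic_perp H₀ u hk (show x ∈ perp H₀ u from hx)
      clear hx
      induction hx' using Submodule.span_induction with
      | mem v hv => exact hw v hv.2 hv.1
      | zero => simpa using hsmul 0 0
      | add x y _ _ ihx ihy => rw [hadd, ihx, ihy, add_zero]
      | smul c x _ ih => rw [hsmul, ih, mul_zero]
    obtain ⟨u₁, hu₁i, hu₁⟩ : ∃ u₁, S.form u₁ u₁ = 0 ∧ φ u₁ ≠ 0 := by
      by_contra hz
      push Not at hz
      have hne : ((g⁻¹ : GL ι F) : Matrix ι ι F) *ᵥ ratVec P a ≠ 0 := fun e =>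
        ratVec_ne_zero (P := P) ha (gl_mulVec_injective g⁻¹ (by simpa using e))
      obtain ⟨v, hv⟩ := S.exists_ne hne
      refine hv ?_
      have h0 := hspan (![] : Fin 0 → (ι → F₀)) (by omega) v (fun i => i.elim0) fun w hw _ => hz w hw
      rw [← hgi, mulVec_inv_mulVec]
      exact h0
    have orth : ∀ u v, S.form u u = 0 → S.form v v = 0 → S.form u v = 0 → φ u ≠ 0 → φ v / φ u ∈ F₀ :=
      fun u v hu hv' huv h' => hcon a u v ha haa hu hv' huv h'
    have rati : ∀ v, S.form v v = 0 → φ v / φ u₁ ∈ F₀ := by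
      intro v hvv
      by_contra hv'
      have h1v : S.form u₁ v ≠ 0 := fun e => hv' (orth u₁ v hu₁i hvv e hu₁)
      have hvanish : ∀ w, S.form w w = 0 → (∀ i, S.form w (![u₁, v] i) = 0) → φ w = 0 := by
        intro w hww hw
        by_contra hne
        refine hv' ?_
        have e1 := orth u₁ w hu₁i hww (eq_zero_of_herm_self H₀ (hw 0)) hu₁
        have e2 := orth w v hww hvv (hw 1) hne
        rw [show φ v / φ u₁ = φ v / φ w * (φ w / φ u₁) by field_simp]
        exact mul_mem e2 e1
      obtain ⟨w, hw, hww, z, hz, hwz⟩ := exists_isotropic_perp H₀ ![u₁, v] (by omega)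
      obtain ⟨c, hc⟩ := exists_isotropic_translate H₀ hww hwz
      set z' := z + c • w with hz'
      have hwz' : S.form w z' = S.form w z := by
        rw [hz', herm_add_right H₀, herm_smul_right H₀, hww, mul_zero, add_zero]
      set l := S.sig (-S.form u₁ v / S.form w z) with hl
      set w' := l • z' with hw'
      have hz'p : ∀ i, S.form z' (![u₁, v] i) = 0 := fun i => by
        rw [hz', H₀.add_left, H₀.smul_left, hz i, hw i, mul_zero, add_zero]
      have hw'p : ∀ i, S.form w' (![u₁, v] i) = 0 := fun i => by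
        rw [hw', H₀.smul_left, hz'p i, mul_zero]
      have hw'w' : S.form w' w' = 0 := by rw [hw', smul_inner H₀, hc, mul_zero]
      have e1 : S.form (u₁ + w) (u₁ + w) = 0 := by
        simp [H₀.add_left, herm_add_right H₀, hu₁i, hww, show S.form w u₁ = 0 from hw 0,
          eq_zero_of_herm_self H₀ (show S.form w u₁ = 0 from hw 0)]
      have e2 : S.form (v + w') (v + w') = 0 := by
        simp [H₀.add_left, herm_add_right H₀, hvv, hw'w', show S.form w' v = 0 from hw'p 1,
          eq_zero_of_herm_self H₀ (show S.form w' v = 0 from hw'p 1)]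
      have e3 : S.form (u₁ + w) (v + w') = 0 := by
        rw [H₀.add_left, herm_add_right H₀, herm_add_right H₀,
          eq_zero_of_herm_self H₀ (show S.form w' u₁ = 0 from hw'p 0), show S.form w v = 0 from hw 1,
          hw', herm_smul_right H₀, hwz', hl, H₀.involutive, div_mul_cancel₀ _ hwz]
        ring
      have h5 := orth _ _ e1 e2 e3 (by rw [hadd, hvanish w hww hw, add_zero]; exact hu₁)
      rw [hadd, hadd, hvanish w hww hw, hvanish w' hw'w' hw'p, add_zero, add_zero] at h5
      exact hv' h5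
    have rat : ∀ v, φ v / φ u₁ ∈ F₀ := by
      intro v
      have hv' := span_isotropic_perp H₀ (![] : Fin 0 → (ι → F₀)) (by omega)
        (show v ∈ perp H₀ ![] from fun i => i.elim0)
      induction hv' using Submodule.span_induction with
      | mem v hv => exact rati v hv.2
      | zero => rw [show φ 0 = 0 by simpa using hsmul 0 0, zero_div]; exact zero_mem _
      | add x y _ _ hx hy => rw [hadd, add_div]; exact add_mem hx hy
      | smul c x _ hx => rw [hsmul, mul_div_assoc]; exact mul_mem c.2 hx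
    let L : (ι → F₀) →ₗ[F₀] F₀ :=
      { toFun := fun v => ⟨φ v / φ u₁, rat v⟩
        map_add' := fun v w => Subtype.ext (by simp [hadd, add_div])
        map_smul' := fun t v => Subtype.ext (by simp [hsmul, mul_div_assoc]) }
    obtain ⟨b, hb⟩ := S.exists_rep L
    refine ⟨σ (φ u₁), b, sub_eq_zero.1 ?_⟩
    by_contra hne
    obtain ⟨v, hv'⟩ := S.exists_ne hne
    refine hv' ?_
    have e : φ v / φ u₁ = (S.form v b : F) := congrArg Subtype.val (hb v)
    rw [herm_sub_right H, herm_smul_right H, H.involutive, ← S.form_coe, ← e, mul_div_cancel₀ _ hu₁,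
      ← hgi, mulVec_inv_mulVec, sub_self]
  -- coherence
  refine hgn ((Subgroup.inv_mem_iff _).1 ?_)
  set g' := g⁻¹ with hg'
  have hgi' : g' ∈ isoH h := Subgroup.inv_mem _ hgi
  have step : ∀ q s, S.form q q = 0 → S.form s s = 0 → S.form q s = 0 →
      q ∉ Submodule.span F₀ (Set.range ![s]) → s ∉ Submodule.span F₀ (Set.range ![q]) →
      ∀ (l : F) (b : ι → F₀), (g' : Matrix ι ι F) *ᵥ ratVec P q = l • ratVec P b →
      ∃ b' : ι → F₀, (g' : Matrix ι ι F) *ᵥ ratVec P s = l • ratVec P b' := by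
    intro q s hqq hss hqs hq hs l b hb
    obtain ⟨p, hpp, hpq, hps⟩ := exists_iso_both H₀ (by omega) hq hs hqs hqq
    obtain ⟨m, e, he⟩ := line p hpp
    obtain ⟨μ, b', hb'⟩ := line s hss
    have e1 := hgi' (ratVec P p) (ratVec P q)
    rw [he, hb, smul_inner H, ← S.form_coe, ← S.form_coe] at e1
    have e2 := hgi' (ratVec P p) (ratVec P s)
    rw [he, hb', smul_inner H, ← S.form_coe, ← S.form_coe] at e2
    have hpq' : (S.form p q : F) ≠ 0 := fun e => hpq (Subtype.ext e)
    have hps' : (S.form p s : F) ≠ 0 := fun e => hps (Subtype.ext e)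
    have hm : m ≠ 0 := fun e' => hpq' (by rw [← e1, e', zero_mul, zero_mul])
    have hl : l ≠ 0 := fun e' => hpq' (by rw [← e1, e', map_zero, mul_zero, zero_mul])
    have hB : (S.form e b : F) ≠ 0 := fun e' => hpq' (by rw [← e1, e', mul_zero])
    have hB' : (S.form e b' : F) ≠ 0 := fun e' => hps' (by rw [← e2, e', mul_zero])
    have hk : μ / l ∈ F₀ := by
      have hσl : σ l ≠ 0 := by simpa using hl
      have h3 : σ (μ / l) = ((S.form p s : F) * (S.form e b : F)) /
          ((S.form p q : F) * (S.form e b' : F)) := by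
        rw [← e1, ← e2, map_div₀]; field_simp
      rw [← H.involutive (μ / l), h3]
      exact S.stable _ (div_mem (mul_mem (SetLike.coe_mem _) (SetLike.coe_mem _))
        (mul_mem (SetLike.coe_mem _) (SetLike.coe_mem _)))
    refine ⟨(⟨μ / l, hk⟩ : F₀) • b', ?_⟩
    rw [hb', ratVec_smul, smul_smul, mul_div_cancel₀ μ hl]
  obtain ⟨q₀, -, hq₀, z₀, -, hqz⟩ := exists_isotropic_perp H₀ (![] : Fin 0 → (ι → F₀)) (by omega)
  have hq₀0 : q₀ ≠ 0 := fun e => hqz (by rw [e, herm_zero_left H₀])
  obtain ⟨l₀, b₀, hb₀⟩ := line q₀ hq₀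
  have all : ∀ s, S.form s s = 0 → ∃ b : ι → F₀, (g' : Matrix ι ι F) *ᵥ ratVec P s = l₀ • ratVec P b := by
    intro s hss
    have one : ∀ {x y : ι → F₀}, x ≠ 0 → x ∈ Submodule.span F₀ (Set.range ![y]) →
        y ∈ Submodule.span F₀ (Set.range ![x]) := by
      intro x y hx e
      rw [Matrix.range_cons, Matrix.range_empty, Set.union_empty] at e ⊢
      obtain ⟨c, hc⟩ := Submodule.mem_span_singleton.1 e
      have hc0 : c ≠ 0 := fun e' => hx (by rw [← hc, e', zero_smul])
      exact Submodule.mem_span_singleton.2 ⟨c⁻¹, by rw [← hc, smul_smul, inv_mul_cancel₀ hc0, one_smul]⟩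
    by_cases hin : s ∈ Submodule.span F₀ (Set.range ![q₀])
    · rw [Matrix.range_cons, Matrix.range_empty, Set.union_empty] at hin
      obtain ⟨c, rfl⟩ := Submodule.mem_span_singleton.1 hin
      exact ⟨c • b₀, by rw [ratVec_smul, ratVec_smul, mulVec_smul, hb₀, smul_comm]⟩
    have hs0 : s ≠ 0 := fun e => hin (e ▸ Submodule.zero_mem _)
    by_cases hqs : S.form q₀ s = 0
    · exact step q₀ s hq₀ hss hqs (fun e => hin (one hq₀0 e)) hin l₀ b₀ hb₀
    obtain ⟨w, hw, hww, z, -, hwz⟩ := exists_isotropic_perp H₀ ![q₀, s] (by omega)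
    have hw0 : w ≠ 0 := fun e => hwz (by rw [e, herm_zero_left H₀])
    have hwq : S.form w q₀ = 0 := hw 0
    have hws : S.form w s = 0 := hw 1
    have nw : ∀ {x y : ι → F₀}, S.form x y ≠ 0 → S.form w y = 0 → S.form w x = 0 →
        w ∉ Submodule.span F₀ (Set.range ![x]) := by
      intro x y hxy hwy _ e
      rw [Matrix.range_cons, Matrix.range_empty, Set.union_empty] at e
      obtain ⟨c, hc⟩ := Submodule.mem_span_singleton.1 e
      rw [← hc, H₀.smul_left, mul_eq_zero, or_iff_left hxy] at hwy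
      exact hw0 (by rw [← hc, hwy, zero_smul])
    have hsq : S.form s q₀ ≠ 0 := fun e => hqs (eq_zero_of_herm_self H₀ e)
    have n1 := nw hqs hws hwq
    have n2 := nw hsq hwq hws
    obtain ⟨bw, hbw⟩ := step q₀ w hq₀ hww (eq_zero_of_herm_self H₀ hwq)
      (fun e => n1 (one hq₀0 e)) n1 l₀ b₀ hb₀
    exact step w s hww hss hws n2 (fun e => n2 (one hs0 e)) l₀ bw hbw
  refine mem_subfieldSubgroup_of_lines fun u hu0 => ⟨l₀, ?_⟩
  clear hu0
  have hu := span_isotropic_perp H₀ (![] : Fin 0 → (ι → F₀)) (by omega)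
    (show u ∈ perp H₀ ![] from fun i => i.elim0)
  induction hu using Submodule.span_induction with
  | mem z hz => exact all z hz.2
  | zero => exact ⟨0, by simp [ratVec_zero]⟩
  | add x y _ _ hx hy =>
    obtain ⟨a, ha⟩ := hx
    obtain ⟨a', ha'⟩ := hy
    exact ⟨a + a', by rw [ratVec_add, ratVec_add, mulVec_add, ha, ha', smul_add]⟩
  | smul c x _ hx =>
    obtain ⟨a, ha⟩ := hx
    exact ⟨c • a, by rw [ratVec_smul, ratVec_smul, mulVec_smul, ha, smul_comm]⟩

end Cfsg.Agent.Lib.Forms
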