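import Cfsg.Agent.Lib.Forms.UnitarySubfieldMax

/-!
The odd degree subfield subgroup is maximal in the special unitary group.
-/

set_option autoImplicit false

namespace Cfsg.Agent.Lib.Forms

open Matrix Cfsg.Geo
open scoped MatrixGroups
open Cfsg.Agent.Lib.PStab (ux uy coe_ux coe_uy mul_apply_two coe_inv_two det_eq)

variable {ι : Type} [Fintype ι] [DecidableEq ι] {F : Type*} [Field F]
  {σ : F ≃+* F} {h : (ι → F) → (ι → F) → F} {F₀ : Subfield F} {P : GL ι F} {r : ℕ}
  (S : UnitRat σ h F₀ P r)
include S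

variable {M : Subgroup (GL ι F)}
  (hle : subfieldSubgroup F₀ P ⊓ (isoH h ⊓ specialLinear ι F) ≤ M) (hM : M ≤ isoH h)
include hle hM

/-- The transvection multipliers at a rational centre are closed under rational rescaling. -/
lemma UnitRat.scaled_mem [Finite F] (hn : 13 ≤ Fintype.card ι) {δ : F₀} (hδ0 : δ ≠ 0)
    (hδ : δ + S.sig δ = 0) {u : ι → F₀} (hu : u ≠ 0) (huu : S.form u u = 0) {k : F}
    (hmem : tv (ratVec P u) (k • hv h (ratVec P u)) ∈ M) (c : F₀) (hc : S.sig c = c) :
    tv (ratVec P u) (((c : F) * k) • hv h (ratVec P u)) ∈ M := by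
  classical
  have H := S.herm
  have H₀ := S.herm₀
  have hu0 : h (ratVec P u) (ratVec P u) = 0 := by rw [← S.form_coe, huu]; rfl
  obtain ⟨v, hvv, -, hvu⟩ := exists_iso_ne H₀ (![] : Fin 0 → (ι → F₀)) (by omega) (a := u)
    (by simpa [Matrix.range_empty] using hu)
  have huv : S.form u v ≠ 0 := fun e => hvu (eq_zero_of_herm_self H₀ e)
  -- squares
  have sq : ∀ e : F₀, S.sig e = e →
      tv (ratVec P u) (((e : F) * e * k) • hv h (ratVec P u)) ∈ M := by
    intro e he
    rcases eq_or_ne e 0 with rfl | he0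
    · simp [tv_zero_right, M.one_mem]
    set f := S.form u v / δ with hf
    have hf0 : f ≠ 0 := div_ne_zero huv hδ0
    set C := f * S.sig f with hC
    have hC0 : C ≠ 0 := mul_ne_zero hf0 (by simpa using hf0)
    have hCσ : S.sig C = C := by rw [hC, map_mul, H₀.involutive, mul_comm]
    obtain ⟨s, hs⟩ := exists_norm_eq H₀ (a := e / C) (by rw [map_div₀, he, hCσ])
    have hs0 : s ≠ 0 := fun h' => by
      rw [h', zero_mul] at hs
      exact div_ne_zero he0 hC0 hs.symm
    have h1 := S.move_mem hle hδ0 hδ huu hvv huv hmem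
    have h2 := S.move_mem hle hδ0 hδ (u := v) (v := s • u) hvv
      (by rw [smul_inner H₀, huu, mul_zero])
      (by rw [herm_smul_right H₀]; exact mul_ne_zero (by simpa using hs0) hvu) h1
    have hsu : h (ratVec P (s • u)) (ratVec P (s • u)) = 0 := by
      rw [ratVec_smul, smul_inner H, hu0, mul_zero]
    convert h2 using 1
    apply gl_ext; intro x
    rw [utv_mulVec H hu0, utv_mulVec H hsu, ratVec_smul, herm_smul_right H, smul_smul]
    congr 2
    have hδ' : (δ : F) ≠ 0 := fun e => hδ0 (Subtype.ext e)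
    have hσd : σ (δ : F) ≠ 0 := by simpa using hδ'
    have hd' : σ (δ : F) = -δ := eq_neg_of_add_eq_zero_right (congrArg Subtype.val hδ)
    have hvals : (e : F) = ((f : F) * σ (f : F)) * ((s : F) * σ (s : F)) := by
      have h3 : C * (s * S.sig s) = e := by rw [hs, mul_div_cancel₀ _ hC0]
      rw [← h3, hC]; push_cast; rw [S.sig_coe, S.sig_coe]
    rw [S.form_coe, S.form_coe v (s • u), ratVec_smul, herm_smul_right H,
      H.herm (ratVec P v) (ratVec P u), ← S.form_coe, hvals, hf]
    push_cast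
    rw [map_div₀, map_div₀, map_mul, H.involutive, H.involutive, hd']
    field_simp
  haveI : Fintype F₀ := Fintype.ofFinite F₀
  let Kx : Subfield F₀ := RingHom.eqLocusField (S.sig : F₀ →+* F₀) (RingHom.id F₀)
  haveI : Fintype Kx := Fintype.ofFinite Kx
  obtain ⟨x, y, hxy⟩ := exists_sum_two_squares (⟨c, hc⟩ : Kx)
  have e : (c : F) = ((x : F₀) : F) * (x : F₀) + ((y : F₀) : F) * (y : F₀) := by
    have := congrArg (fun z : Kx => ((z : F₀) : F)) hxy
    simpa using this
  rw [e, add_mul, add_smul, ← tv_add (hv_smul_dot_self H hu0 _) (hv_smul_dot_self H hu0 _)]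
  exact mul_mem (sq x x.2) (sq y y.2)

/-- One irrational multiplier gives every multiplier. -/
lemma UnitRat.allAt_all [Finite F] (hn : 13 ≤ Fintype.card ι) {δ : F₀} (hδ0 : δ ≠ 0)
    (hδ : δ + S.sig δ = 0) {w : ι → F₀} {k : F} (hw : w ≠ 0) (hww : S.form w w = 0) (hk : σ k = k)
    (hkF : k ∉ F₀) (hmem : tv (ratVec P w) ((k * (δ : F)) • hv h (ratVec P w)) ∈ M)
    (c : F) (hc : c + σ c = 0) : S.AllAt M c := by
  classical
  have H := S.herm
  have H₀ := S.herm₀
  have hd : (δ : F) + σ δ = 0 := congrArg Subtype.val hδ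
  have hδ' : (δ : F) ≠ 0 := fun e => hδ0 (Subtype.ext e)
  have iso : ∀ {y : ι → F₀}, S.form y y = 0 → h (ratVec P y) (ratVec P y) = 0 := fun {y} e => by
    rw [← S.form_coe, e]; rfl
  set K₀ := F₀.comap (fixF σ).subtype
  obtain ⟨-, -, hKcard⟩ := S.card_data
  let R : AddSubgroup (fixF σ) :=
    { carrier := {d | S.AllAt M ((d : F) * δ)}
      zero_mem' := fun v _ => by simp [tv_zero_right, M.one_mem]
      add_mem' := fun {d e} hd' he v hv0 => by
        rw [Subfield.coe_add, add_mul, add_smul,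
          ← tv_add (hv_smul_dot_self H (iso hv0) _) (hv_smul_dot_self H (iso hv0) _)]
        exact mul_mem (hd' v hv0) (he v hv0)
      neg_mem' := fun {d} hd' v hv0 => by
        rw [NegMemClass.coe_neg, neg_mul, neg_smul, ← tv_inv (hv_smul_dot_self H (iso hv0) _)]
        exact inv_mem (hd' v hv0) }
  have hsmul : ∀ t ∈ K₀, ∀ d ∈ R, t * d ∈ R := by
    intro t ht d hd' v hv0
    rcases eq_or_ne v 0 with rfl | hv'
    · rw [ratVec_zero, tv_zero_left]; exact M.one_mem
    rw [Subfield.coe_mul, mul_assoc]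
    exact S.scaled_mem hle hM hn hδ0 hδ hv' hv0 (hd' v hv0) ⟨(t : F), ht⟩ (Subtype.ext t.2)
  have hkR : (⟨k, hk⟩ : fixF σ) ∈ R := by
    intro v hv0
    have h1 := S.allAt_of_one hle (by omega) hw hww
      (fun c hc => S.scaled_mem hle hM hn hδ0 hδ hw hww hmem c hc) 1 (map_one _) v hv0
    rwa [Subfield.coe_one, one_mul] at h1
  have honeR : (1 : fixF σ) ∈ R := fun v hv0 => by
    rw [Subfield.coe_one, one_mul]; exact S.utv_rat_mem hle hv0 hδ
  obtain ⟨u, -, huu, z, -, huz⟩ := exists_isotropic_perp H₀ (![] : Fin 0 → (ι → F₀)) (by omega)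
  have hu : u ≠ 0 := fun e => huz (by rw [e, herm_zero_left H₀])
  obtain ⟨v, hvv, -, hvu⟩ := exists_iso_ne H₀ (![] : Fin 0 → (ι → F₀)) (by omega) (a := u)
    (by simpa [Matrix.range_empty] using hu)
  set a := ratVec P u
  set v' := ratVec P v
  have haa : h a a = 0 := iso huu
  have hbb : h v' v' = 0 := iso hvv
  set f := h a v' with hf
  have hva : h v' a = σ f := H.herm v' a
  have hf0 : f ≠ 0 := fun e => hvu (Subtype.ext (by
    show h (ratVec P v) (ratVec P u) = _
    exact eq_zero_of_herm_self H e))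
  have hσf : σ f ≠ 0 := by simpa using hf0
  set lam := ((δ : F) * σ f)⁻¹ with hlam
  set b' := lam • v' with hb'
  clear_value b'
  let Kg : Subgroup SL(2, fixF σ) :=
    { carrier := {τ | ∃ g ∈ M, (g : Matrix ι ι F) *ᵥ a =
          ((τ.1 0 0 : fixF σ) : F) • a + ((τ.1 1 0 : fixF σ) : F) • b' ∧
          (g : Matrix ι ι F) *ᵥ b' = ((τ.1 0 1 : fixF σ) : F) • a + ((τ.1 1 1 : fixF σ) : F) • b' ∧
          ∀ z, h z a = 0 → h z v' = 0 → (g : Matrix ι ι F) *ᵥ z = z}
      one_mem' := ⟨1, M.one_mem, by simp, by simp, fun z _ _ => by simp⟩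
      mul_mem' := by
        rintro τ τ' ⟨g₁, hg₁, e1, e2, i1⟩ ⟨g₂, hg₂, f1, f2, i2⟩
        refine ⟨g₁ * g₂, mul_mem hg₁ hg₂, ?_, ?_, fun z ha' hb'' => by
          rw [mul_mulVec', i2 z ha' hb'', i1 z ha' hb'']⟩
        · rw [mul_mulVec', f1, mulVec_add, mulVec_smul, mulVec_smul, e1, e2, mul_apply_two, mul_apply_two]
          push_cast; module
        · rw [mul_mulVec', f2, mulVec_add, mulVec_smul, mulVec_smul, e1, e2, mul_apply_two, mul_apply_two]
          push_cast; module
      inv_mem' := by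
        rintro τ ⟨g₁, hg₁, e1, e2, i1⟩
        have hdet : ((τ.1 0 0 : fixF σ) : F) * (τ.1 1 1 : fixF σ) -
            ((τ.1 0 1 : fixF σ) : F) * (τ.1 1 0 : fixF σ) = 1 := congrArg Subtype.val (det_eq τ)
        refine ⟨g₁⁻¹, inv_mem hg₁, ?_, ?_, fun z ha' hb'' => gl_mulVec_injective g₁
          (by simp only [mulVec_inv_mulVec]; exact (i1 z ha' hb'').symm)⟩ <;>
        · refine gl_mulVec_injective g₁ ?_
          simp only [mulVec_inv_mulVec, mulVec_add, mulVec_smul, e1, e2, coe_inv_two,
            Matrix.of_apply, Matrix.cons_val', Matrix.cons_val_zero, Matrix.cons_val_one,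
            Matrix.cons_val_fin_one]
          push_cast
          match_scalars <;> first | (ring; done) | linear_combination hdet | linear_combination -hdet }
  have hAmem : ∀ d ∈ (R : Set (fixF σ)), ux d ∈ Kg := by
    intro d hd'
    refine ⟨_, hd' u huu, ?_, ?_, fun z hza _ => ?_⟩
    · rw [utv_mulVec H haa, haa]; simp [coe_ux]
    · rw [utv_mulVec H haa, hb', H.smul_left, hva]
      simp only [coe_ux, Matrix.of_apply, Matrix.cons_val', Matrix.cons_val_zero, Matrix.cons_val_one,
        Matrix.cons_val_fin_one, OneMemClass.coe_one, one_smul, hlam]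
      match_scalars <;> field_simp
    · rw [utv_mulVec H haa, hza, mul_zero, zero_smul, add_zero]
  set b : fixF σ := ⟨(δ : F) * δ * (f * σ f), by
    rw [mem_fixF, map_mul, map_mul, map_mul, H.involutive, eq_neg_of_add_eq_zero_right hd]; ring⟩ with hb
  have hb0 : b ≠ 0 := fun e =>
    mul_ne_zero (mul_ne_zero hδ' hδ') (mul_ne_zero hf0 hσf) (congrArg Subtype.val e)
  have hyb : uy b ∈ Kg := by
    refine ⟨_, S.utv_rat_mem hle hvv hδ, ?_, ?_, fun z _ hzv => ?_⟩
    · rw [utv_mulVec H hbb, ← hf, hb']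
      simp only [coe_uy, hb, Matrix.of_apply, Matrix.cons_val', Matrix.cons_val_zero,
        Matrix.cons_val_one, Matrix.cons_val_fin_one, OneMemClass.coe_one, one_smul, hlam]
      match_scalars <;> field_simp
    · rw [utv_mulVec H hbb, hb', H.smul_left, hbb]; simp [coe_uy]
    · rw [utv_mulVec H hbb, hzv, mul_zero, zero_smul, add_zero]
  have hq : 2 ≤ Nat.card K₀ := Finite.one_lt_card
  have hAcard : Nat.card K₀ * Nat.card K₀ ≤ (R : Set (fixF σ)).ncard := by
    rw [← Nat.card_prod]
    let e : K₀ × K₀ → (R : Set (fixF σ)) := fun p =>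
      ⟨(p.1 : fixF σ) + (p.2 : fixF σ) * ⟨k, hk⟩,
        R.add_mem (by simpa using hsmul _ p.1.2 1 honeR) (hsmul _ p.2.2 _ hkR)⟩
    refine le_trans (Nat.card_le_card_of_injective e ?_) (le_of_eq (Nat.card_coe_set_eq _))
    rintro ⟨s, t⟩ ⟨s', t'⟩ h'
    have h'' := congrArg Subtype.val h'
    simp only [e] at h''
    rcases eq_or_ne t t' with rfl | ht
    · exact Prod.ext (Subtype.ext (add_right_cancel h'')) rfl
    · exfalso
      have ht' : (t : fixF σ) - t' ≠ 0 := sub_ne_zero.2 fun e => ht (Subtype.ext e)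
      have hk' : (⟨k, hk⟩ : fixF σ) ∈ K₀ := by
        rw [show (⟨k, hk⟩ : fixF σ) = ((s' : fixF σ) - s) / ((t : fixF σ) - t') by
          field_simp; linear_combination h'']
        exact div_mem (sub_mem s'.2 s.2) (sub_mem t.2 t'.2)
      exact hkF hk'
  have hfull : ∀ d, ux d ∈ Kg := by
    refine ux_mem_of_large S.prime hKcard (A := (R : Set (fixF σ))) hAmem hsmul ?_ (by nlinarith) hb0 hyb
    by_cases h2 : (2 : fixF σ) = 0
    · exact Or.inr ⟨h2, by nlinarith⟩
    · left
      have h3 : 3 ≤ Nat.card K₀ := by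
        by_contra h3
        haveI := Fintype.ofFinite K₀
        have hc : Fintype.card K₀ = 2 := by rw [← Nat.card_eq_fintype_card]; omega
        refine h2 ?_
        have h4 := FiniteField.cast_card_eq_zero K₀
        rw [hc] at h4
        exact congrArg Subtype.val (show (2 : K₀) = 0 by exact_mod_cast h4)
      nlinarith
  have hcd : c / (δ : F) ∈ fixF σ := by
    rw [mem_fixF, map_div₀, eq_neg_of_add_eq_zero_right hc, eq_neg_of_add_eq_zero_right hd, neg_div_neg_eq]
  obtain ⟨g, hg, g1, g2, g3⟩ := hfull ⟨_, hcd⟩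
  have hkey : tv a (c • hv h a) ∈ M := by
    convert hg using 1
    refine gl_ext fun x => ?_
    set α := h x v' / f with hα
    set β := h x a / σ f with hβ
    set z := x - α • a - β • v' with hz
    have hgz : (g : Matrix ι ι F) *ᵥ z = z := g3 z
      (by rw [hz, herm_sub_left H, herm_sub_left H, H.smul_left, H.smul_left, haa, hva, hβ]; field_simp; ring)
      (by rw [hz, herm_sub_left H, herm_sub_left H, H.smul_left, H.smul_left, hbb, ← hf, hα]; field_simp; ring)
    have hv' : v' = ((δ : F) * σ f) • b' := by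
      rw [hb', smul_smul, hlam, mul_inv_cancel₀ (mul_ne_zero hδ' hσf), one_smul]
    have hx : x = α • a + β • v' + z := by rw [hz]; module
    have hxa : h x a = β * σ f := by rw [hβ, div_mul_cancel₀ _ hσf]
    clear_value α β z
    rw [utv_mulVec H haa, hxa]
    conv_rhs => rw [hx, mulVec_add, mulVec_add, mulVec_smul, mulVec_smul, g1, hgz, hv', mulVec_smul, g2]
    simp only [coe_ux, Matrix.of_apply, Matrix.cons_val', Matrix.cons_val_zero, Matrix.cons_val_one,
      Matrix.cons_val_fin_one, OneMemClass.coe_one, ZeroMemClass.coe_zero, one_smul, zero_smul, add_zero]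
    conv_lhs => rw [hx, hv']
    match_scalars <;> field_simp
  have h1 := S.allAt_of_one hle (by omega) hu huu
    (fun c' hc' => S.scaled_mem hle hM hn hδ0 hδ hu huu hkey c' hc') 1 (map_one _)
  rwa [Subfield.coe_one, one_mul] at h1

/-- All rational root groups give the special unitary group. -/
lemma UnitRat.iso_sl_le [Finite F] (hn : 13 ≤ Fintype.card ι) {δ : F₀} (hδ0 : δ ≠ 0)
    (hδ : δ + S.sig δ = 0) (hall : ∀ c, c + σ c = 0 → S.AllAt M c) :
    isoH h ⊓ specialLinear ι F ≤ M := by
  classical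
  have H := S.herm
  have H₀ := S.herm₀
  have hd : (δ : F) + σ δ = 0 := congrArg Subtype.val hδ
  have hδ' : (δ : F) ≠ 0 := fun e => hδ0 (Subtype.ext e)
  have iso : ∀ {y : ι → F₀}, S.form y y = 0 → h (ratVec P y) (ratVec P y) = 0 := fun {y} e => by
    rw [← S.form_coe, e]; rfl
  have hcen : ∀ v, S.form v v = 0 → ratVec P v ∈ ucentres σ h M := fun v hv0 =>
    ⟨iso hv0, fun c hc => hall c hc v hv0⟩
  -- all Siegel elements on rational pairs
  have hue : ∀ a b : ι → F₀, S.form a a = 0 → S.form b b = 0 → S.form a b = 0 → ∀ c : F,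
      ueE σ h (ratVec P a) (ratVec P b) c ∈ M := by
    intro a b haa hbb hab c
    have ha' := iso haa
    have hb' := iso hbb
    have hab' : h (ratVec P a) (ratVec P b) = 0 := by rw [← S.form_coe, hab]; rfl
    have hba' := eq_zero_of_herm_self H hab'
    have part : ∀ (k : F) (s : F₀), k + σ k = 0 →
        ueE σ h (ratVec P a) (ratVec P b) (k * σ s) ∈ M := by
      intro k s hk
      have hsum : S.form (a + s • b) (a + s • b) = 0 := by
        simp [H₀.add_left, herm_add_right H₀, H₀.smul_left, herm_smul_right H₀, haa, hbb, hab,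
          eq_zero_of_herm_self H₀ hab]
      have m1 := (hcen _ hsum).2 k hk
      have m2 := (hcen _ haa).2 k hk
      have m3 := (hcen (s • b) (by rw [smul_inner H₀, hbb, mul_zero])).2 k hk
      rw [ratVec_add, ratVec_smul] at m1
      rw [ratVec_smul] at m3
      have e : ueE σ h (ratVec P a) (ratVec P b) (k * σ s) *
          (tv (ratVec P a) (k • hv h (ratVec P a)) *
            tv ((s : F) • ratVec P b) (k • hv h ((s : F) • ratVec P b))) =
          tv (ratVec P a + (s : F) • ratVec P b) (k • hv h (ratVec P a + (s : F) • ratVec P b)) := by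
        apply gl_ext; intro x
        have hz1 : h (ratVec P a + (s : F) • ratVec P b) (ratVec P a + (s : F) • ratVec P b) = 0 := by
          simp [H.add_left, herm_add_right H, H.smul_left, herm_smul_right H, ha', hb', hab', hba']
        simp only [mul_mulVec', utv_mulVec H ha', utv_mulVec H hz1,
          utv_mulVec H (show h ((s : F) • ratVec P b) ((s : F) • ratVec P b) = 0 by
            rw [smul_inner H, hb', mul_zero]),
          ueE_mulVec H ha' hb' hab', H.add_left, H.smul_left, herm_add_right H, herm_smul_right H,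
          ha', hb', hab', hba', map_mul, H.involutive, eq_neg_of_add_eq_zero_right hk]
        module
      have h4 := mul_mem m1 (inv_mem (mul_mem m2 m3))
      rwa [← e, mul_inv_cancel_right] at h4
    obtain ⟨ε, hεF, hε⟩ := S.moved
    obtain ⟨u₀, v₀, e, -⟩ := exists_fix_combo H.involutive hε (c / (δ : F))
    have skew : ∀ t : fixF σ, (t : F) * δ + σ ((t : F) * δ) = 0 := fun t => by
      rw [map_mul, mem_fixF.1 t.2]; linear_combination (t : F) * hd
    have p1 := part _ 1 (skew u₀)
    have p2 := part _ ⟨σ ε, S.stable _ hεF⟩ (skew v₀)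
    simp only [Subfield.coe_one, map_one, mul_one, H.involutive] at p1 p2
    have e' : ueE σ h (ratVec P a) (ratVec P b) c =
        ueE σ h (ratVec P a) (ratVec P b) ((u₀ : F) * δ) *
          ueE σ h (ratVec P a) (ratVec P b) ((v₀ : F) * δ * ε) := by
      have hc : c = (u₀ : F) * δ + (v₀ : F) * δ * ε := by
        have e2 := e
        field_simp at e2
        linear_combination -e2
      apply gl_ext; intro x
      simp only [mul_mulVec', ueE_mulVec H ha' hb' hab', herm_sub_left H, H.add_left, H.smul_left,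
        ha', hb', hab', hba', hc, map_add]
      module
    rw [e']
    exact mul_mem p1 p2
  refine iso_sl_le_of_ucentres H (by omega) fun z hzz => ?_
  rcases eq_or_ne z 0 with rfl | hz0
  · rw [← ratVec_zero (F₀ := F₀) (P := P)]; exact hcen 0 (herm_zero_left H₀ _)
  obtain ⟨e, hee, hze⟩ : ∃ e, S.form e e = 0 ∧ h z (ratVec P e) ≠ 0 := by
    by_contra hcon
    push Not at hcon
    obtain ⟨v, hv'⟩ := S.exists_ne hz0
    refine hv' (eq_zero_of_herm_self H ?_)
    have hsp := span_isotropic_perp H₀ (![] : Fin 0 → (ι → F₀)) (by omega)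
      (show v ∈ perp H₀ ![] from fun i => i.elim0)
    clear hv'
    induction hsp using Submodule.span_induction with
    | mem w hw => exact hcon w hw.2
    | zero => rw [ratVec_zero, herm_zero_right H]
    | add x y _ _ hx hy => rw [ratVec_add, herm_add_right H, hx, hy, add_zero]
    | smul c x _ hx => rw [ratVec_smul, herm_smul_right H, hx, mul_zero]
  have he0 : e ≠ 0 := fun h' => hze (by rw [h', ratVec_zero, herm_zero_right H])
  obtain ⟨f₀, hf₀, -, hfe⟩ := exists_iso_ne H₀ (![] : Fin 0 → (ι → F₀)) (by omega) (a := e)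
    (by simpa [Matrix.range_empty] using he0)
  set f := (S.form f₀ e)⁻¹ • f₀ with hf
  have hff : S.form f f = 0 := by rw [hf, smul_inner H₀, hf₀, mul_zero]
  have hfe1 : S.form f e = 1 := by rw [hf, H₀.smul_left, inv_mul_cancel₀ hfe]
  have hef1 : S.form e f = 1 := by rw [H₀.herm, hfe1, map_one]
  set E := ratVec P e
  set Φ := ratVec P f
  have hEE : h E E = 0 := iso hee
  -- moves
  have move : ∀ v, S.form v e = 0 → S.form v f = 0 → ∀ (μ : F) (y : ι → F), h y y = 0 → h y E ≠ 0 →
      ∃ α : F, h (y + μ • ratVec P v + α • E) (y + μ • ratVec P v + α • E) = 0 ∧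
        (y + μ • ratVec P v + α • E ∈ ucentres σ h M → y ∈ ucentres σ h M) := by
    intro v hve hvf
    have hsp := span_isotropic_perp H₀ ![e, f] (by omega)
      (show v ∈ perp H₀ ![e, f] from fun i => by fin_cases i; exacts [hve, hvf])
    clear hve hvf
    induction hsp using Submodule.span_induction with
    | mem b hb =>
      intro μ y hyy hyE
      obtain ⟨hbp, hbb⟩ := hb
      have hEb : h E (ratVec P b) = 0 := by
        rw [← S.form_coe, eq_zero_of_herm_self H₀ (show S.form b e = 0 from hbp 0)]; rfl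
      set c := σ (-μ / h y E) with hc
      have hU := hue e b hee hbb (eq_zero_of_herm_self H₀ (hbp 0)) c
      have hUi := (ueE_mem H hEE (iso hbb) hEb c).1
      have hval : (ueE σ h E (ratVec P b) c : Matrix ι ι F) *ᵥ y =
          y + μ • ratVec P b + (c * h y (ratVec P b)) • E := by
        rw [ueE_mulVec H hEE (iso hbb) hEb, hc, H.involutive]
        match_scalars <;> field_simp
      refine ⟨c * h y (ratVec P b), ?_, fun hm => ?_⟩
      · rw [← hval, hUi]; exact hyy
      · rw [← hval] at hm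
        have := mulVec_mem_ucentres H (inv_mem hU) (Subgroup.inv_mem _ hUi) hm
        rwa [inv_mulVec_mulVec] at this
    | zero =>
      intro μ y hyy _
      exact ⟨0, by simpa [ratVec_zero] using hyy, by simp [ratVec_zero]⟩
    | add v w hv' hw' ihv ihw =>
      intro μ y hyy hyE
      obtain ⟨α, h1, h2⟩ := ihv μ y hyy hyE
      have hvE : h (ratVec P v) E = 0 := by
        have hv2 : S.form v e = 0 := (Submodule.span_le.2 (fun z hz => hz.1) hv' : v ∈ perp H₀ ![e, f]) 0
        rw [← S.form_coe, hv2]; rfl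
      obtain ⟨α', h3, h4⟩ := ihw μ _ h1 (by
        rwa [H.add_left, H.add_left, H.smul_left, H.smul_left, hvE, hEE, mul_zero, mul_zero, add_zero,
          add_zero])
      have e1 : y + μ • ratVec P (v + w) + (α + α') • E =
          y + μ • ratVec P v + α • E + μ • ratVec P w + α' • E := by rw [ratVec_add]; module
      exact ⟨α + α', by rw [e1]; exact h3, fun hm => h2 (h4 (by rwa [e1] at hm))⟩
    | smul s v _ ih =>
      intro μ y hyy hyE
      obtain ⟨α, h1, h2⟩ := ih (μ * (s : F)) y hyy hyE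
      rw [show μ • ratVec P (s • v) = (μ * (s : F)) • ratVec P v by rw [ratVec_smul, smul_smul]]
      exact ⟨α, h1, h2⟩
  set x := ((P⁻¹ : GL ι F) : Matrix ι ι F) *ᵥ z with hx
  let pr : ι → (ι → F₀) := fun i => Pi.single i 1 + (-S.form (Pi.single i 1) f) • e +
    (-S.form (Pi.single i 1) e) • f
  have hpr1 : ∀ i, S.form (pr i) e = 0 := fun i => by
    simp [pr, H₀.add_left, H₀.smul_left, herm_neg_left H₀, hee, hfe1]
  have hpr2 : ∀ i, S.form (pr i) f = 0 := fun i => by
    simp [pr, H₀.add_left, H₀.smul_left, herm_neg_left H₀, hff, hef1]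
  have steps : ∀ s : Finset ι, ∃ α : F,
      h (z + (∑ i ∈ s, (-x i) • ratVec P (pr i)) + α • E) (z + (∑ i ∈ s, (-x i) • ratVec P (pr i)) + α • E) = 0 ∧
      h (z + (∑ i ∈ s, (-x i) • ratVec P (pr i)) + α • E) E = h z E ∧
      (z + (∑ i ∈ s, (-x i) • ratVec P (pr i)) + α • E ∈ ucentres σ h M → z ∈ ucentres σ h M) := by
    intro s
    induction s using Finset.induction with
    | empty => exact ⟨0, by simpa using hzz, by simp, by simp⟩
    | insert i s hi ih =>
      obtain ⟨α, h1, h2, h3⟩ := ih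
      obtain ⟨α', h4, h5⟩ := move (pr i) (hpr1 i) (hpr2 i) (-x i) _ h1 (by rw [h2]; exact hze)
      have e1 : z + (∑ j ∈ insert i s, (-x j) • ratVec P (pr j)) + (α + α') • E =
          z + (∑ j ∈ s, (-x j) • ratVec P (pr j)) + α • E + (-x i) • ratVec P (pr i) + α' • E := by
        rw [Finset.sum_insert hi]; module
      have hpE : h (ratVec P (pr i)) E = 0 := by rw [← S.form_coe, hpr1 i]; rfl
      refine ⟨α + α', by rw [e1]; exact h4, ?_, fun hm => h3 (h5 (by rwa [e1] at hm))⟩
      rw [e1, H.add_left, H.add_left, h2, H.smul_left, H.smul_left, hpE, hEE]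
      simp
  obtain ⟨α, h1, h2, h3⟩ := steps Finset.univ
  refine h3 ?_
  have hsumz : z = ∑ i, x i • ratVec P (Pi.single i (1 : F₀)) := by
    conv_lhs => rw [← mulVec_inv_mulVec P z, ← hx, pi_eq_sum_univ' x, mulVec_sum]
    refine Finset.sum_congr rfl fun i _ => ?_
    rw [mulVec_smul, ratVec, show (fun j => ((Pi.single i 1 : ι → F₀) j : F)) = Pi.single i 1 by
      funext j; rcases eq_or_ne j i with rfl | h' <;> simp [*]]
  set p := ∑ i, x i * (S.form (Pi.single i 1) f : F)
  set q := ∑ i, x i * (S.form (Pi.single i 1) e : F)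
  have hw : z + (∑ i, (-x i) • ratVec P (pr i)) + α • E = (p + α) • E + q • Φ := by
    have : ∀ i, (-x i) • ratVec P (pr i) = -(x i • ratVec P (Pi.single i (1 : F₀))) +
        ((x i * (S.form (Pi.single i 1) f : F)) • E + (x i * (S.form (Pi.single i 1) e : F)) • Φ) := by
      intro i
      simp only [pr, ratVec_add, ratVec_smul, NegMemClass.coe_neg]
      module
    rw [Finset.sum_congr rfl fun i _ => this i, Finset.sum_add_distrib, Finset.sum_add_distrib,
      Finset.sum_neg_distrib, ← hsumz, ← Finset.sum_smul, ← Finset.sum_smul]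
    module
  rw [hw] at h1 h2 ⊢
  have hΦE : h Φ E = 1 := by rw [← S.form_coe, hfe1]; rfl
  have hq : q ≠ 0 := fun hq => hze (by
    rw [← h2, H.add_left, H.smul_left, H.smul_left, hEE, hq]; simp)
  have hiso : h (Φ + ((p + α) / q) • E) (Φ + ((p + α) / q) • E) = 0 := by
    have := h1
    rw [show (p + α) • E + q • Φ = q • (Φ + ((p + α) / q) • E) by
      rw [smul_add, smul_smul, mul_div_cancel₀ _ hq, add_comm], smul_inner H, mul_eq_zero] at this
    exact this.resolve_left (mul_ne_zero hq (by simpa using hq))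
  have := smul_mem_ucentres H q (add_smul_mem_ucentres H (hcen f hff) (hcen e hee)
    (by rw [hΦE]; exact one_ne_zero) hiso)
  rwa [smul_add, smul_smul, mul_div_cancel₀ _ hq, add_comm] at this

omit hle hM in
/-- The subfield group is maximal. -/
theorem UnitRat.isMaximalIn [Finite F] (hn : 13 ≤ Fintype.card ι) (hodd : Odd r) :
    IsMaximalIn (isoH h ⊓ specialLinear ι F)
      (subfieldSubgroup F₀ P ⊓ (isoH h ⊓ specialLinear ι F)) := by
  classical
  have H := S.herm
  have H₀ := S.herm₀
  obtain ⟨δ, hδ0, hδ⟩ := exists_skew H₀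
  have hd : (δ : F) + σ δ = 0 := congrArg Subtype.val hδ
  refine isMaximalIn_of inf_le_right ?_ fun M hle hM g hg hgn => ?_
  · obtain ⟨k, hk⟩ : ∃ k : fixF σ, (k : F) ∉ F₀ := by
      by_contra hc; push Not at hc
      obtain ⟨-, -, hq⟩ := S.card_data
      have e : F₀.comap (fixF σ).subtype = ⊤ := eq_top_iff.2 fun z _ => hc z
      have hcard : Nat.card (F₀.comap (fixF σ).subtype) = Nat.card (fixF σ) := by
        rw [e]; exact Nat.card_congr Subfield.topEquiv.toEquiv
      rw [hcard] at hq
      exact S.prime.ne_one (Nat.pow_right_injective (a := Nat.card (fixF σ)) Finite.one_lt_card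
        (show _ ^ 1 = _ ^ r by rwa [pow_one])).symm
    obtain ⟨s, -, hss, z, -, hsz⟩ := exists_isotropic_perp H₀ (![] : Fin 0 → (ι → F₀)) (by omega)
    have hs0 : s ≠ 0 := fun e => hsz (by rw [e, herm_zero_left H₀])
    have hvv : h (ratVec P s) (ratVec P s) = 0 := by rw [← S.form_coe, hss]; rfl
    have hzs : (S.form z s : F) ≠ 0 := fun e => hsz (eq_zero_of_herm_self H₀ (Subtype.ext e))
    refine ⟨tv (ratVec P s) (((k : F) * δ) • hv h (ratVec P s)), utvGroup_le H (utv_mem_utvGroup hvv
      (by rw [map_mul, mem_fixF.1 k.2]; linear_combination (k : F) * hd)), fun hsub => hk ?_⟩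
    obtain ⟨g₀, c, hgc⟩ := mem_subfieldSubgroup_iff.1 hsub.1
    obtain ⟨i, hi⟩ := Function.ne_iff.1 hs0
    have hi' : (s i : F) ≠ 0 := fun e => hi (Subtype.ext e)
    have e1 := hgc s
    rw [utv_mulVec H hvv, hvv, mul_zero, zero_smul, add_zero] at e1
    simp only [ratVec, ← mulVec_smul] at e1
    have e1' := congrFun (gl_mulVec_injective P e1) i
    simp only [Pi.smul_apply, smul_eq_mul] at e1'
    have hc : (c : F) ∈ F₀ := by
      rw [eq_div_of_mul_eq (fun e => hi' (by rw [e1', e, mul_zero])) e1'.symm]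
      exact div_mem (SetLike.coe_mem _) (SetLike.coe_mem _)
    have e2 := hgc z
    rw [utv_mulVec H hvv, ← S.form_coe] at e2
    simp only [ratVec, ← mulVec_smul, ← mulVec_add] at e2
    have e2' := congrFun (gl_mulVec_injective P e2) i
    simp only [Pi.add_apply, Pi.smul_apply, smul_eq_mul] at e2'
    have hne : (δ : F) * ((S.form z s : F) * (s i : F)) ≠ 0 :=
      mul_ne_zero (fun e => hδ0 (Subtype.ext e)) (mul_ne_zero hzs hi')
    rw [eq_div_of_mul_eq hne (show (k : F) * ((δ : F) * ((S.form z s : F) * (s i : F))) =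
      (c : F) * (((g₀ : Matrix ι ι F₀) *ᵥ z) i : F) - (z i : F) by linear_combination e2')]
    exact div_mem (sub_mem (mul_mem hc (SetLike.coe_mem _)) (SetLike.coe_mem _))
      (mul_mem δ.2 (mul_mem (SetLike.coe_mem _) (SetLike.coe_mem _)))
  · have hMi : M ≤ isoH h := fun k hk => (hM hk).1
    obtain ⟨w, k, hw, hww, hk, hkF, hmem⟩ := S.exists_multiplier hle hMi hn hodd hδ0 hδ hg
      fun e => hgn ⟨e, hM hg⟩
    exact S.iso_sl_le hle hMi hn hδ0 hδ fun c hc =>
      S.allAt_all hle hMi hn hδ0 hδ hw hww hk hkF hmem c hc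

end Cfsg.Agent.Lib.Forms
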