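import Cfsg.Agent.Lib.Forms.UnitarySubfield
import Cfsg.Agent.Lib.Forms.SympSubfield

/-!
Root multipliers for the unitary subfield group.
-/

set_option autoImplicit false

namespace Cfsg.Agent.Lib.Forms

open Matrix Cfsg.Geo
open scoped MatrixGroups
open Cfsg.Agent.Lib.PStab (ux uy coe_ux coe_uy mul_apply_two coe_inv_two det_eq)

variable {ι : Type} [Fintype ι] [DecidableEq ι] {F : Type*} [Field F]
  {σ : F ≃+* F} {h : (ι → F) → (ι → F) → F} {F₀ : Subfield F} {P : GL ι F} {r : ℕ}

/-- The fixed field of the automorphism. -/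
def fixF (σ : F ≃+* F) : Subfield F := RingHom.eqLocusField (σ : F →+* F) (RingHom.id F)

lemma mem_fixF {c : F} : c ∈ fixF σ ↔ σ c = c := Iff.rfl

/-- Every element splits over the fixed field. -/
lemma exists_fix_combo (hinv : ∀ c, σ (σ c) = c) {ε : F} (hε : σ ε ≠ ε) (c : F) :
    ∃ u v : fixF σ, (u : F) + (v : F) * ε = c ∧ (v : F) = (c - σ c) / (ε - σ ε) := by
  have hne : ε - σ ε ≠ 0 := sub_ne_zero.2 (Ne.symm hε)
  have hne' : σ ε - ε ≠ 0 := sub_ne_zero.2 hε
  have hv : (c - σ c) / (ε - σ ε) ∈ fixF σ := by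
    rw [mem_fixF, map_div₀, map_sub, map_sub, hinv, hinv]
    field_simp
    ring
  refine ⟨⟨c - (c - σ c) / (ε - σ ε) * ε, ?_⟩, ⟨_, hv⟩, ?_, rfl⟩
  · rw [mem_fixF, map_sub, map_mul, mem_fixF.1 hv]
    field_simp
    ring
  · ring

variable (S : UnitRat σ h F₀ P r)
include S

lemma UnitRat.card_data [Finite F] :
    Nat.card F = Nat.card (fixF σ) * Nat.card (fixF σ) ∧
    Nat.card F₀ = Nat.card (F₀.comap (fixF σ).subtype) * Nat.card (F₀.comap (fixF σ).subtype) ∧
    Nat.card (fixF σ) = Nat.card (F₀.comap (fixF σ).subtype) ^ r := by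
  obtain ⟨ε, hεF, hε⟩ := S.moved
  have hne : ε - σ ε ≠ 0 := sub_ne_zero.2 (Ne.symm hε)
  have inj : ∀ u v u' v' : fixF σ, (u : F) + (v : F) * ε = (u' : F) + (v' : F) * ε → u = u' ∧ v = v' := by
    intro u v u' v' e
    have e' := congrArg σ e
    rw [map_add, map_add, map_mul, map_mul, mem_fixF.1 u.2, mem_fixF.1 v.2, mem_fixF.1 u'.2,
      mem_fixF.1 v'.2] at e'
    have hv : v = v' := Subtype.ext (mul_right_cancel₀ hne
      (show (v : F) * (ε - σ ε) = (v' : F) * (ε - σ ε) by linear_combination e - e'))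
    subst hv
    exact ⟨Subtype.ext (add_right_cancel e), rfl⟩
  have h1 : Nat.card F = Nat.card (fixF σ) * Nat.card (fixF σ) := by
    rw [← Nat.card_prod]
    refine (Nat.card_eq_of_bijective
      (fun p : fixF σ × fixF σ => (p.1 : F) + (p.2 : F) * ε) ⟨fun p p' e => ?_, fun c => ?_⟩).symm
    · obtain ⟨e1, e2⟩ := inj _ _ _ _ e; exact Prod.ext e1 e2
    · obtain ⟨u, v, e, -⟩ := exists_fix_combo S.herm.involutive hε c; exact ⟨(u, v), e⟩
  set K₀ := F₀.comap (fixF σ).subtype
  have h2 : Nat.card F₀ = Nat.card K₀ * Nat.card K₀ := by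
    rw [← Nat.card_prod]
    refine (Nat.card_eq_of_bijective (fun p : K₀ × K₀ => (⟨((p.1 : fixF σ) : F) + ((p.2 : fixF σ) : F) * ε,
      add_mem p.1.2 (mul_mem p.2.2 hεF)⟩ : F₀)) ⟨fun p p' e => ?_, fun c => ?_⟩).symm
    · obtain ⟨e1, e2⟩ := inj _ _ _ _ (congrArg Subtype.val e)
      exact Prod.ext (Subtype.ext e1) (Subtype.ext e2)
    · obtain ⟨u, v, e, hv'⟩ := exists_fix_combo S.herm.involutive hε (c : F)
      have hvm : v ∈ K₀ := show (v : F) ∈ F₀ by
        rw [hv']; exact div_mem (sub_mem c.2 (S.stable _ c.2)) (sub_mem hεF (S.stable _ hεF))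
      have hum : u ∈ K₀ := show (u : F) ∈ F₀ by
        rw [show (u : F) = c - v * ε by linear_combination e]
        exact sub_mem c.2 (mul_mem hvm hεF)
      exact ⟨(⟨u, hum⟩, ⟨v, hvm⟩), Subtype.ext e⟩
  refine ⟨h1, h2, Nat.pow_left_injective two_ne_zero (?_ : _ ^ 2 = _ ^ 2)⟩
  rw [sq, ← h1, S.card, h2, ← pow_mul, mul_comm r, pow_mul, sq]

variable {M : Subgroup (GL ι F)}
  (hle : subfieldSubgroup F₀ P ⊓ (isoH h ⊓ specialLinear ι F) ≤ M) (hM : M ≤ isoH h)
include hle hM

/-- A centre orthogonal to a rational isotropic vector is rational, or there is an irrational multiplier. -/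
lemma UnitRat.centre_rational [Finite F] (hn : 13 ≤ Fintype.card ι) {δ : F₀}
    (hδ0 : δ ≠ 0) (hδ : δ + S.sig δ = 0)
    (hno : ∀ (w : ι → F₀) (k : F), w ≠ 0 → S.form w w = 0 → σ k = k →
      tv (ratVec P w) ((k * (δ : F)) • hv h (ratVec P w)) ∈ M → k ∈ F₀)
    {z : ι → F} (hzz : h z z = 0) (hz0 : z ≠ 0) (hzc : tv z ((δ : F) • hv h z) ∈ M) {a : ι → F₀}
    (ha : a ≠ 0) (haa : S.form a a = 0) (hza : h (ratVec P a) z = 0) :
    ∃ (w : ι → F₀) (ν : F), z = ν • ratVec P w ∧ ν * σ ν ∈ F₀ := by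
  classical
  have H := S.herm
  have H₀ := S.herm₀
  have hd : (δ : F) + σ δ = 0 := congrArg Subtype.val hδ
  have iso : ∀ {y : ι → F₀}, S.form y y = 0 → h (ratVec P y) (ratVec P y) = 0 := fun {y} e => by
    rw [← S.form_coe, e]; rfl
  -- scalar case
  have scal : ∀ (w : ι → F₀) (ν : F), z = ν • ratVec P w → ν * σ ν ∈ F₀ := by
    intro w ν e
    have hν : ν ≠ 0 := fun e' => hz0 (by rw [e, e', zero_smul])
    have hw0 : w ≠ 0 := fun e' => hz0 (by rw [e, e', ratVec_zero, smul_zero])
    have hww : h (ratVec P w) (ratVec P w) = 0 := by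
      rw [e, smul_inner H, mul_eq_zero] at hzz
      exact hzz.resolve_left (mul_ne_zero hν (by simpa using hν))
    refine hno w _ hw0 (Subtype.ext hww) (by rw [map_mul, H.involutive, mul_comm]) ?_
    convert hzc using 1
    apply gl_ext; intro x
    rw [utv_mulVec H hww, utv_mulVec H hzz, e, herm_smul_right H, smul_smul]
    congr 2
    ring
  -- the pairing products are rational
  have prods : ∀ a' : ι → F₀, a' ≠ 0 → S.form a' a' = 0 → h (ratVec P a') z = 0 →
      ∀ b b' : ι → F₀, S.form b b = 0 → S.form b' b' = 0 → S.form b a' = 0 → S.form b' a' = 0 →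
      h (ratVec P b) z * σ (h (ratVec P b') z) ∈ F₀ := by
    intro a' ha' ha'a' hza' b b' hbb hb'b' hba hb'a
    have hA := iso ha'a'
    have hza'' := eq_zero_of_herm_self H hza'
    set A := ratVec P a' with hAdef
    have hiso : ∀ θ : F, h (z + θ • A) (z + θ • A) = 0 := fun θ => by
      simp [H.add_left, herm_add_right H, H.smul_left, herm_smul_right H, hzz, hA, hza', hza'']
    have shift : ∀ (θ : F) (y : ι → F₀) (c : F₀), S.form y y = 0 → S.form y a' = 0 →
        tv (z + θ • A) ((δ : F) • hv h (z + θ • A)) ∈ M →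
        tv (z + (θ + (c : F) * h z (ratVec P y)) • A)
          ((δ : F) • hv h (z + (θ + (c : F) * h z (ratVec P y)) • A)) ∈ M := by
      intro θ y c hyy hya hm
      have hay : h A (ratVec P y) = 0 :=
        eq_zero_of_herm_self H (by rw [hAdef, ← S.form_coe, hya]; rfl)
      have hU := S.ueE_rat_mem hle ha'a' hyy (eq_zero_of_herm_self H₀ hya) c
      have hUi := (ueE_mem H hA (iso hyy) hay (c : F)).1
      have h1 := mul_mem (mul_mem hU hm) (inv_mem hU)
      rw [utv_conj H hUi (hiso θ), ueE_mulVec H hA (iso hyy) hay, H.add_left, H.smul_left, hay,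
        H.add_left, H.smul_left, hza'', hA] at h1
      rwa [show z + θ • A + ((c : F) * (h z (ratVec P y) + θ * 0)) • A -
        (σ (c : F) * (0 + θ * 0)) • ratVec P y = z + (θ + (c : F) * h z (ratVec P y)) • A by module] at h1
    have key : ∀ c : F₀, (c : F) * (h z (ratVec P b) * σ (h z (ratVec P b'))) +
        σ ((c : F) * (h z (ratVec P b) * σ (h z (ratVec P b')))) ∈ F₀ := by
      intro c
      set θ := (c : F) * h z (ratVec P b) with hθ
      set θ' := h z (ratVec P b') with hθ'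
      have m0 : tv (z + (0 : F) • A) ((δ : F) • hv h (z + (0 : F) • A)) ∈ M := by
        rwa [zero_smul, add_zero]
      have m1 := shift 0 b c hbb hba m0
      have m2 := shift 0 b' 1 hb'b' hb'a m0
      rw [zero_add, ← hθ] at m1
      rw [zero_add, Subfield.coe_one, one_mul, ← hθ'] at m2
      have m3 := shift θ b' 1 hb'b' hb'a m1
      rw [Subfield.coe_one, one_mul, ← hθ'] at m3
      refine hno a' _ ha' ha'a' (by rw [map_add, H.involutive, add_comm]) ?_
      have eqn : tv A (((((c : F) * (h z (ratVec P b) * σ θ')) +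
          σ ((c : F) * (h z (ratVec P b) * σ θ'))) * (δ : F)) • hv h A) *
          (tv (z + θ • A) ((δ : F) • hv h (z + θ • A)) * tv (z + θ' • A) ((δ : F) • hv h (z + θ' • A))) =
          tv (z + (θ + θ') • A) ((δ : F) • hv h (z + (θ + θ') • A)) *
            tv (z + (0 : F) • A) ((δ : F) • hv h (z + (0 : F) • A)) := by
        apply gl_ext; intro x
        simp only [mul_mulVec', utv_mulVec H (hiso _), utv_mulVec H hA, H.add_left, H.smul_left,
          herm_add_right H, herm_smul_right H, hzz, hA, hza', hza'', hθ, map_mul, map_add, map_zero,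
          H.involutive]
        module
      have h4 := mul_mem (mul_mem m3 m0) (inv_mem (mul_mem m1 m2))
      rw [← eqn, mul_inv_cancel_right] at h4
      exact h4
    obtain ⟨ε, hεF, hε⟩ := S.moved
    set p := h z (ratVec P b) * σ (h z (ratVec P b'))
    have k1 := key 1
    have k2 := key ⟨ε, hεF⟩
    rw [Subfield.coe_one, one_mul] at k1
    change ε * p + σ (ε * p) ∈ F₀ at k2
    have hne : ε - σ ε ≠ 0 := sub_ne_zero.2 (Ne.symm hε)
    have hp : p ∈ F₀ := by
      rw [show p = (ε * p + σ (ε * p) - σ ε * (p + σ p)) / (ε - σ ε) by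
        rw [map_mul]; field_simp; ring]
      exact div_mem (sub_mem k2 (mul_mem (S.stable _ hεF) k1)) (sub_mem hεF (S.stable _ hεF))
    have := S.stable _ hp
    rw [map_mul, H.involutive, ← H.herm] at this
    rwa [← H.herm]
  obtain ⟨f, -, hf⟩ : ∃ f, S.form f f = 0 ∧ S.form f a ≠ 0 := by
    obtain ⟨f, hff, -, hfa⟩ := exists_iso_ne H₀ (![] : Fin 0 → (ι → F₀)) (by omega) (a := a)
      (by simpa [Matrix.range_empty] using ha)
    exact ⟨f, hff, hfa⟩
  by_cases hzero : ∀ b, S.form b b = 0 → S.form b a = 0 → h (ratVec P b) z = 0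
  · -- a multiple of `a`
    have hall : ∀ b, S.form b a = 0 → h (ratVec P b) z = 0 := by
      intro b hb
      have hb' := span_isotropic_perp H₀ ![a] (by omega)
        (show b ∈ perp H₀ ![a] from fun i => by fin_cases i; exact hb)
      clear hb
      induction hb' using Submodule.span_induction with
      | mem v hv => exact hzero v hv.2 (hv.1 0)
      | zero => rw [ratVec_zero, herm_zero_left H]
      | add x y _ _ hx hy => rw [ratVec_add, H.add_left, hx, hy, add_zero]
      | smul c x _ hx => rw [ratVec_smul, H.smul_left, hx, mul_zero]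
    set ν := σ (h (ratVec P f) z / (S.form f a : F)) with hν
    have e : z = ν • ratVec P a := by
      refine sub_eq_zero.1 ?_
      by_contra hne
      obtain ⟨v, hv'⟩ := S.exists_ne hne
      refine hv' ?_
      have hfa : (S.form f a : F) ≠ 0 := fun e => hf (Subtype.ext e)
      have h1 := hall (v + (-(S.form v a / S.form f a)) • f)
        (by rw [H₀.add_left, H₀.smul_left]; field_simp; ring)
      rw [ratVec_add, ratVec_smul, H.add_left, H.smul_left] at h1
      push_cast at h1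
      rw [herm_sub_right H, herm_smul_right H, hν, H.involutive, ← S.form_coe]
      field_simp at h1 ⊢
      linear_combination h1
    exact ⟨a, ν, e, scal a ν e⟩
  push Not at hzero
  obtain ⟨b₀, hb₀, hb₀a, hψ⟩ := hzero
  set ψ₀ := h (ratVec P b₀) z with hψ₀
  have hσψ : σ ψ₀ ≠ 0 := by simpa using hψ
  have hvals : ∀ b, S.form b a = 0 → h (ratVec P b) z / ψ₀ ∈ F₀ := by
    intro b hb
    have hb' := span_isotropic_perp H₀ ![a] (by omega)
      (show b ∈ perp H₀ ![a] from fun i => by fin_cases i; exact hb)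
    clear hb
    induction hb' using Submodule.span_induction with
    | mem v hv =>
      have e1 := prods a ha haa hza v b₀ hv.2 hb₀ (hv.1 0) hb₀a
      have e2 := prods a ha haa hza b₀ b₀ hb₀ hb₀ hb₀a hb₀a
      rw [show h (ratVec P v) z / ψ₀ = (h (ratVec P v) z * σ ψ₀) / (ψ₀ * σ ψ₀) by field_simp]
      exact div_mem e1 e2
    | zero => rw [ratVec_zero, herm_zero_left H, zero_div]; exact zero_mem _
    | add x y _ _ hx hy => rw [ratVec_add, H.add_left, add_div]; exact add_mem hx hy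
    | smul c x _ hx => rw [ratVec_smul, H.smul_left, mul_div_assoc]; exact mul_mem c.2 hx
  let proj : (ι → F₀) →ₗ[F₀] (ι → F₀) :=
    { toFun := fun v => v + (-(S.form v a / S.form f a)) • f
      map_add' := fun v w => by rw [H₀.add_left, add_div]; module
      map_smul' := fun c v => by rw [H₀.smul_left, RingHom.id_apply, mul_div_assoc]; module }
  have hproj : ∀ v, S.form (proj v) a = 0 := fun v => by
    show S.form (v + _ • f) a = 0
    rw [H₀.add_left, H₀.smul_left]; field_simp; ring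
  let L : (ι → F₀) →ₗ[F₀] F₀ :=
    { toFun := fun v => ⟨h (ratVec P (proj v)) z / ψ₀, hvals _ (hproj v)⟩
      map_add' := fun v w => Subtype.ext (by
        simp [map_add, ratVec_add, H.add_left, add_div])
      map_smul' := fun c v => Subtype.ext (by
        simp [map_smul, ratVec_smul, H.smul_left, mul_div_assoc]) }
  obtain ⟨w, hw⟩ := S.exists_rep L
  set ν := σ ψ₀ with hν
  set μ := σ ((h (ratVec P f) z - ψ₀ * (S.form f w : F)) / (S.form f a : F)) with hμ
  have hfa : (S.form f a : F) ≠ 0 := fun e => hf (Subtype.ext e)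
  have e : z = μ • ratVec P a + ν • ratVec P w := by
    refine sub_eq_zero.1 ?_
    by_contra hne
    obtain ⟨v, hv'⟩ := S.exists_ne hne
    refine hv' ?_
    have h1 : h (ratVec P (proj v)) z / ψ₀ = (S.form v w : F) := congrArg Subtype.val (hw v)
    have hp : proj f = 0 := by
      show f + _ • f = 0
      rw [div_self hf, neg_one_smul, add_neg_cancel]
    have h0 : S.form f w = 0 := by
      rw [← hw f]; exact Subtype.ext (by simp [L, hp, ratVec_zero, herm_zero_left H])
    rw [herm_sub_right H, herm_add_right H, herm_smul_right H, herm_smul_right H, hν, hμ,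
      H.involutive, H.involutive, ← S.form_coe, ← S.form_coe, ← h1, h0]
    show h (ratVec P v) z - _ = 0
    rw [show proj v = v + (-(S.form v a / S.form f a)) • f from rfl, ratVec_add, ratVec_smul,
      H.add_left, H.smul_left]
    push_cast
    field_simp
    ring
  have hν0 : ν ≠ 0 := hσψ
  have haw : S.form a w = 0 := by
    have := hza
    rw [e, herm_add_right H, herm_smul_right H, herm_smul_right H, iso haa, mul_zero, zero_add,
      mul_eq_zero, or_iff_right (by simpa using hν0)] at this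
    exact Subtype.ext this
  have haw' : h (ratVec P a) (ratVec P w) = 0 := by rw [← S.form_coe, haw]; rfl
  have hww : S.form w w = 0 := by
    have := hzz
    rw [e, H.add_left, herm_add_right H, herm_add_right H, smul_inner H, smul_inner H, smul_inner H,
      smul_inner H, iso haa, haw', eq_zero_of_herm_self H haw', mul_zero, mul_zero, mul_zero,
      zero_add, zero_add, zero_add, mul_eq_zero,
      or_iff_right (mul_ne_zero hν0 (by simpa using hν0))] at this
    exact Subtype.ext this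
  by_cases hdep : w ∈ Submodule.span F₀ (Set.range ![a])
  · rw [Matrix.range_cons, Matrix.range_empty, Set.union_empty] at hdep
    obtain ⟨c, rfl⟩ := Submodule.mem_span_singleton.1 hdep
    have e' : z = (μ + ν * (c : F)) • ratVec P a := by rw [e, ratVec_smul, smul_smul, add_smul]
    exact ⟨a, _, e', scal a _ e'⟩
  -- compare the two coefficients from a third vector
  obtain ⟨a', ha'p, ha'a', x₁, hx₁p, hx₁⟩ := exists_isotropic_perp H₀ ![a, w] (by omega)
  have ha'0 : a' ≠ 0 := fun e' => hx₁ (by rw [e', herm_zero_left H₀])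
  have hwa : S.form w a = 0 := eq_zero_of_herm_self H₀ haw
  have ha'a : S.form a' a = 0 := ha'p 0
  have ha'w : S.form a' w = 0 := ha'p 1
  have hza' : h (ratVec P a') z = 0 := by
    rw [e, herm_add_right H, herm_smul_right H, herm_smul_right H, ← S.form_coe, ← S.form_coe,
      ha'a, ha'w]
    simp
  have haperp : ∀ x y : F₀, a' ≠ x • a + y • w := fun x y e' => hx₁ (by
    rw [e', H₀.add_left, H₀.smul_left, H₀.smul_left,
      eq_zero_of_herm_self H₀ (show S.form x₁ a = 0 from hx₁p 0),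
      eq_zero_of_herm_self H₀ (show S.form x₁ w = 0 from hx₁p 1), mul_zero, mul_zero, add_zero])
  have hout : ∀ p q : ι → F₀, (p = a ∧ q = w) ∨ (p = w ∧ q = a) →
      p ∉ Submodule.span F₀ (Set.range ![a', q]) := by
    intro p q hpq e'
    rw [Matrix.range_cons, Matrix.range_cons, Matrix.range_empty, Set.union_empty,
      Set.singleton_union, Submodule.mem_span_pair] at e'
    obtain ⟨x, y, hxy⟩ := e'
    rcases eq_or_ne x 0 with rfl | hx
    · rw [zero_smul, zero_add] at hxy
      refine hdep ?_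
      rw [Matrix.range_cons, Matrix.range_empty, Set.union_empty]
      rcases hpq with ⟨rfl, rfl⟩ | ⟨rfl, rfl⟩
      · have hy : y ≠ 0 := fun hy => ha (by rw [← hxy, hy, zero_smul])
        exact Submodule.mem_span_singleton.2 ⟨y⁻¹, by rw [← hxy, smul_smul, inv_mul_cancel₀ hy, one_smul]⟩
      · exact Submodule.mem_span_singleton.2 ⟨y, hxy⟩
    · have h3 : a' = x⁻¹ • p + (-(x⁻¹ * y)) • q := by
        rw [← hxy, smul_add, smul_smul, smul_smul, inv_mul_cancel₀ hx, one_smul, neg_smul,
          add_neg_cancel_right]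
      rcases hpq with ⟨rfl, rfl⟩ | ⟨rfl, rfl⟩
      · exact haperp _ _ h3
      · exact haperp _ _ (h3.trans (add_comm _ _))
  obtain ⟨b, hb, hbp, hba⟩ := exists_iso_ne H₀ ![a', w] (by omega) (hout a w (Or.inl ⟨rfl, rfl⟩))
  obtain ⟨b', hb', hb'p, hb'w⟩ := exists_iso_ne H₀ ![a', a] (by omega) (hout w a (Or.inr ⟨rfl, rfl⟩))
  have hpr := prods a' ha'0 ha'a' hza' b b' hb hb' (hbp 0) (hb'p 0)
  have v1 : h (ratVec P b) z = σ μ * (S.form b a : F) := by
    rw [e, herm_add_right H, herm_smul_right H, herm_smul_right H, ← S.form_coe, ← S.form_coe,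
      show S.form b w = 0 from hbp 1]
    simp
  have v2 : h (ratVec P b') z = σ ν * (S.form b' w : F) := by
    rw [e, herm_add_right H, herm_smul_right H, herm_smul_right H, ← S.form_coe, ← S.form_coe,
      show S.form b' a = 0 from hb'p 1]
    simp
  rw [v1, v2, map_mul, show σ (σ ν) = ν from H.involutive ν] at hpr
  have hνν : ν * σ ν ∈ F₀ := by
    rw [hν, H.involutive, mul_comm]
    exact prods a ha haa hza b₀ b₀ hb₀ hb₀ hb₀a hb₀a
  have hA : (S.form b a : F) ≠ 0 := fun e' => hba (Subtype.ext e')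
  have hB : σ (S.form b' w : F) ≠ 0 := by simpa using (fun e' => hb'w (Subtype.ext e') : (S.form b' w : F) ≠ 0)
  have hσν : σ ν ≠ 0 := by simpa using hν0
  have hrat : μ / ν ∈ F₀ := by
    have h4 : σ μ / σ ν = (σ μ * (S.form b a : F) * (ν * σ (S.form b' w : F))) /
        ((S.form b a : F) * σ (S.form b' w : F) * (ν * σ ν)) := by
      field_simp
    rw [← H.involutive (μ / ν), map_div₀, h4]
    exact S.stable _ (div_mem hpr
      (mul_mem (mul_mem (SetLike.coe_mem _) (S.stable _ (SetLike.coe_mem _))) hνν))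
  refine ⟨(⟨μ / ν, hrat⟩ : F₀) • a + w, ν, ?_, hνν⟩
  rw [e, ratVec_add, ratVec_smul, smul_add, smul_smul, mul_div_cancel₀ _ hν0]

omit hle hM in
lemma UnitRat.scalar_mem {c : F} {v w : ι → F₀} (hv : v ≠ 0) (e : c • ratVec P v = ratVec P w) :
    c ∈ F₀ := by
  obtain ⟨i, hi⟩ := Function.ne_iff.1 hv
  simp only [ratVec, ← mulVec_smul] at e
  have e' := congrFun (gl_mulVec_injective P e) i
  simp only [Pi.smul_apply, smul_eq_mul] at e'
  have hi' : (v i : F) ≠ 0 := fun h => hi (Subtype.ext h)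
  rw [eq_div_of_mul_eq hi' e']
  exact div_mem (SetLike.coe_mem _) (SetLike.coe_mem _)

omit hle hM in
/-- Rational square classes exhaust the fixed field. -/
lemma UnitRat.exists_sq_class [Finite F] (hodd : Odd r) (w : fixF σ) :
    ∃ k ∈ F₀.comap (fixF σ).subtype, ∃ μ : fixF σ, w = k * (μ * μ) := by
  classical
  set K₀ := F₀.comap (fixF σ).subtype
  haveI := Fintype.ofFinite (fixF σ)
  haveI := Fintype.ofFinite K₀
  rcases eq_or_ne (ringChar (fixF σ)) 2 with h2 | h2
  · obtain ⟨μ, hμ⟩ := FiniteField.isSquare_of_char_two h2 w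
    exact ⟨1, one_mem _, μ, by rw [one_mul, hμ]⟩
  by_cases hw : IsSquare w
  · obtain ⟨μ, hμ⟩ := hw
    exact ⟨1, one_mem _, μ, by rw [one_mul, hμ]⟩
  have hch : ringChar K₀ ≠ 2 := by
    intro e
    haveI : CharP K₀ 2 := ringChar.of_eq e
    haveI : CharP (fixF σ) 2 := charP_of_injective_ringHom K₀.subtype_injective 2
    exact h2 (ringChar.eq (fixF σ) 2)
  obtain ⟨k₀, hk₀⟩ := FiniteField.exists_nonsquare hch
  have hk0 : k₀ ≠ 0 := fun e => hk₀ (e ▸ IsSquare.zero)
  have hnsq : ¬ IsSquare (k₀ : fixF σ) := by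
    rintro ⟨m, hm⟩
    obtain ⟨-, -, hq⟩ := S.card_data
    rw [Nat.card_eq_fintype_card, Nat.card_eq_fintype_card] at hq
    have hodd₀ := FiniteField.odd_card_of_char_ne_two hch
    have he : (k₀ : fixF σ) ^ (Fintype.card K₀ / 2) = -1 := by
      rcases FiniteField.pow_dichotomy hch hk0 with e | e
      · exact absurd ((FiniteField.isSquare_iff hch hk0).2 e) hk₀
      · simpa using congrArg Subtype.val e
    have hfr : m ^ Fintype.card K₀ = -m := by
      rw [show Fintype.card K₀ = 2 * (Fintype.card K₀ / 2) + 1 by omega, pow_succ, pow_mul, pow_two,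
        ← hm, he, neg_one_mul]
    have hiter : ∀ j : ℕ, m ^ (Fintype.card K₀ ^ j) = (-1) ^ j * m := by
      intro j
      induction j with
      | zero => simp
      | succ j ih =>
        rw [pow_succ, pow_mul, ih, mul_pow, hfr, ← pow_mul, mul_comm j, pow_mul,
          Odd.neg_one_pow (Nat.odd_iff.2 hodd₀), pow_succ]
        ring
    have h3 := hiter r
    rw [← hq, FiniteField.pow_card, hodd.neg_one_pow, neg_one_mul] at h3
    have hm0 : m ≠ 0 := fun e => hk0 (Subtype.ext (by rw [hm, e, mul_zero]; rfl))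
    exact Ring.two_ne_zero h2 (mul_right_cancel₀ hm0 (show (2 : fixF σ) * m = 0 * m by
      linear_combination h3))
  have hw0 : w ≠ 0 := fun e => hw (e ▸ IsSquare.zero)
  have hk0' : (k₀ : fixF σ) ≠ 0 := fun e => hk0 (Subtype.ext e)
  have hsq : IsSquare (w * (k₀ : fixF σ)⁻¹) := by
    rw [FiniteField.isSquare_iff h2 (mul_ne_zero hw0 (inv_ne_zero hk0')), mul_pow, inv_pow,
      (FiniteField.pow_dichotomy h2 hw0).resolve_left fun e => hw ((FiniteField.isSquare_iff h2 hw0).2 e),
      (FiniteField.pow_dichotomy h2 hk0').resolve_left fun e =>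
        hnsq ((FiniteField.isSquare_iff h2 hk0').2 e)]
    simp
  obtain ⟨μ, hμ⟩ := hsq
  exact ⟨k₀, k₀.2, μ, by rw [← hμ]; field_simp⟩

/-- An element outside the subfield group gives an irrational multiplier. -/
lemma UnitRat.exists_multiplier [Finite F] (hn : 13 ≤ Fintype.card ι) (hodd : Odd r) {δ : F₀}
    (hδ0 : δ ≠ 0) (hδ : δ + S.sig δ = 0) {g : GL ι F} (hg : g ∈ M)
    (hgn : g ∉ subfieldSubgroup F₀ P) :
    ∃ (w : ι → F₀) (k : F), w ≠ 0 ∧ S.form w w = 0 ∧ σ k = k ∧ k ∉ F₀ ∧
      tv (ratVec P w) ((k * (δ : F)) • hv h (ratVec P w)) ∈ M := by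
  classical
  by_contra hcon
  push Not at hcon
  have hno : ∀ (w : ι → F₀) (k : F), w ≠ 0 → S.form w w = 0 → σ k = k →
      tv (ratVec P w) ((k * (δ : F)) • hv h (ratVec P w)) ∈ M → k ∈ F₀ := fun w k hw hww hk hm => by
    by_contra hk'
    exact hcon w k hw hww hk hk' hm
  have H := S.herm
  have H₀ := S.herm₀
  obtain ⟨a₀, u, v, ha0, haa₀, huu, hvv, huv, hne, hκ⟩ := S.exists_triple hle hn (hM hg) hgn
  set a := ratVec P a₀ with ha
  set x := (g : Matrix ι ι F) *ᵥ ratVec P u with hx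
  set y := (g : Matrix ι ι F) *ᵥ ratVec P v with hy
  set fa := h a x with hfadef
  set κ := h y a / h x a with hκdef
  set R := y - κ • x with hR
  have iso : ∀ {w : ι → F₀}, S.form w w = 0 → h (ratVec P w) (ratVec P w) = 0 := fun {w} e => by
    rw [← S.form_coe, e]; rfl
  have haa : h a a = 0 := iso haa₀
  have hxx : h x x = 0 := by rw [hx, hM hg]; exact iso huu
  have hyy : h y y = 0 := by rw [hy, hM hg]; exact iso hvv
  have hxy : h x y = 0 := by rw [hx, hy, hM hg, ← S.form_coe, huv]; rfl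
  have hyx := eq_zero_of_herm_self H hxy
  have hxa : h x a = σ fa := by rw [hfadef]; exact H.herm x a
  have hfa0 : fa ≠ 0 := fun e => hne (by rw [hxa, e, map_zero])
  have hya : h y a = κ * σ fa := by rw [← hxa, hκdef, div_mul_cancel₀ _ hne]
  have hay : h a y = σ κ * fa := by rw [H.herm, hya, map_mul, H.involutive]
  have hRa : h R a = 0 := by rw [hR, herm_sub_left H, H.smul_left, hya, hxa, sub_self]
  have haR := eq_zero_of_herm_self H hRa
  have hRx : h R x = 0 := by rw [hR, herm_sub_left H, H.smul_left, hxx, hyx, mul_zero, sub_zero]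
  have hxR := eq_zero_of_herm_self H hRx
  have hRy : h R y = 0 := by rw [hR, herm_sub_left H, H.smul_left, hyy, hxy, mul_zero, sub_zero]
  have hyR : y = κ • x + R := by rw [hR]; abel
  have hu0 : u ≠ 0 := fun e => hne (by rw [hx, e, ratVec_zero, mulVec_zero, herm_zero_left H])
  have hRne : ∀ ρ : F, R ≠ ρ • a := by
    intro ρ e
    have h1 := hxR
    rw [e, herm_smul_right H, hxa, mul_eq_zero] at h1
    rcases h1 with h1 | h1
    · have hρ : ρ = 0 := by simpa using h1
      rw [hρ, zero_smul, hR, sub_eq_zero, hy, hx, ← mulVec_smul] at e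
      exact hκ (S.scalar_mem hu0 (gl_mulVec_injective g e).symm)
    · exact hfa0 (by simpa using h1)
  set lam := ((δ : F) * fa)⁻¹ with hlam
  have hδ' : (δ : F) ≠ 0 := fun e => hδ0 (Subtype.ext e)
  have hd : (δ : F) + σ δ = 0 := congrArg Subtype.val hδ
  have hlam0 : lam ≠ 0 := inv_ne_zero (mul_ne_zero hδ' hfa0)
  set a' := lam • a with ha'
  clear_value a'
  set K₀ := F₀.comap (fixF σ).subtype with hK₀
  obtain ⟨-, hF₀card, hKcard⟩ := S.card_data
  -- transvections at the image plane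
  have hT : ∀ (c : K₀) (c₁ c₂ : F₀), tv ((c₁ : F) • x + (c₂ : F) • y)
      ((((c : fixF σ) : F) * (δ : F)) • hv h ((c₁ : F) • x + (c₂ : F) • y)) ∈ M := by
    intro c c₁ c₂
    have hww : S.form (c₁ • u + c₂ • v) (c₁ • u + c₂ • v) = 0 := by
      simp [H₀.add_left, herm_add_right H₀, H₀.smul_left, herm_smul_right H₀, huu, hvv, huv,
        eq_zero_of_herm_self H₀ huv]
    have hc : (⟨((c : fixF σ) : F), c.2⟩ : F₀) * δ + S.sig (⟨((c : fixF σ) : F), c.2⟩ * δ) = 0 :=
      Subtype.ext (by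
        push_cast
        rw [S.sig_coe, Subfield.coe_mul, map_mul, mem_fixF.1 (c : fixF σ).2]
        linear_combination ((c : fixF σ) : F) * hd)
    have h1 := mul_mem (mul_mem hg (S.utv_rat_mem hle hww hc)) (inv_mem hg)
    rw [utv_conj H (hM hg) (iso hww), ratVec_add, ratVec_smul, ratVec_smul, mulVec_add,
      mulVec_smul, mulVec_smul] at h1
    exact h1
  let Kg : Subgroup SL(2, fixF σ) :=
    { carrier := {τ | ∃ k ∈ M, (k : Matrix ι ι F) *ᵥ R = R ∧ ∃ ρ₁ ρ₂ : F,
          (k : Matrix ι ι F) *ᵥ x = ((τ.1 0 0 : fixF σ) : F) • x + ((τ.1 1 0 : fixF σ) : F) • a' + ρ₁ • R ∧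
          (k : Matrix ι ι F) *ᵥ a' = ((τ.1 0 1 : fixF σ) : F) • x + ((τ.1 1 1 : fixF σ) : F) • a' + ρ₂ • R}
      one_mem' := ⟨1, M.one_mem, by simp, 0, 0, by simp, by simp⟩
      mul_mem' := by
        rintro τ τ' ⟨g₁, hg₁, r1, p, q, e1, e2⟩ ⟨g₂, hg₂, r2, p', q', f1, f2⟩
        refine ⟨g₁ * g₂, mul_mem hg₁ hg₂, by rw [mul_mulVec', r2, r1],
          ((τ'.1 0 0 : fixF σ) : F) * p + ((τ'.1 1 0 : fixF σ) : F) * q + p',
          ((τ'.1 0 1 : fixF σ) : F) * p + ((τ'.1 1 1 : fixF σ) : F) * q + q', ?_, ?_⟩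
        · rw [mul_mulVec', f1]; simp only [mulVec_add, mulVec_smul]
          rw [e1, e2, r1, mul_apply_two, mul_apply_two]
          push_cast
          module
        · rw [mul_mulVec', f2]; simp only [mulVec_add, mulVec_smul]
          rw [e1, e2, r1, mul_apply_two, mul_apply_two]
          push_cast
          module
      inv_mem' := by
        rintro τ ⟨g₁, hg₁, r1, p, q, e1, e2⟩
        have hdet : ((τ.1 0 0 : fixF σ) : F) * (τ.1 1 1 : fixF σ) -
            ((τ.1 0 1 : fixF σ) : F) * (τ.1 1 0 : fixF σ) = 1 := congrArg Subtype.val (det_eq τ)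
        refine ⟨g₁⁻¹, inv_mem hg₁, gl_mulVec_injective g₁ (by simp [mulVec_inv_mulVec, r1]),
          ((τ.1 1 0 : fixF σ) : F) * q - ((τ.1 1 1 : fixF σ) : F) * p,
          ((τ.1 0 1 : fixF σ) : F) * p - ((τ.1 0 0 : fixF σ) : F) * q, ?_, ?_⟩ <;>
        · refine gl_mulVec_injective g₁ ?_
          simp only [mulVec_inv_mulVec, mulVec_add, mulVec_smul, e1, e2, r1, coe_inv_two,
            Matrix.of_apply, Matrix.cons_val', Matrix.cons_val_zero, Matrix.cons_val_one,
            Matrix.cons_val_fin_one]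
          push_cast
          match_scalars <;> first | (ring; done) | linear_combination hdet | linear_combination -hdet }
  -- the lower element
  have hbmem : (δ : F) * (δ : F) * (fa * σ fa) ∈ fixF σ := by
    rw [mem_fixF, map_mul, map_mul, map_mul, H.involutive, eq_neg_of_add_eq_zero_right hd]; ring
  set b : fixF σ := ⟨_, hbmem⟩ with hb
  have hb0 : b ≠ 0 := fun e =>
    mul_ne_zero (mul_ne_zero hδ' hδ') (mul_ne_zero hfa0 (by simpa using hfa0)) (congrArg Subtype.val e)
  have hyb : uy b ∈ Kg := by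
    refine ⟨_, S.utv_rat_mem hle haa₀ hδ, by rw [utv_mulVec H haa, hRa]; simp, 0, 0, ?_, ?_⟩
    · rw [utv_mulVec H haa, hxa, ha', smul_smul]
      simp only [coe_uy, hb, Matrix.of_apply, Matrix.cons_val', Matrix.cons_val_zero,
        Matrix.cons_val_one, Matrix.cons_val_fin_one, OneMemClass.coe_one, ZeroMemClass.coe_zero]
      rw [hlam]
      match_scalars <;> field_simp <;> ring
    · rw [utv_mulVec H haa, ha', H.smul_left, haa]
      simp [coe_uy]
  let G : Set (fixF σ) := {d | ∃ (c : K₀) (c₁ c₂ : F₀),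
    (d : F) = ((c : fixF σ) : F) * (((c₁ : F) + (c₂ : F) * κ) * σ ((c₁ : F) + (c₂ : F) * κ))}
  let A : Set (fixF σ) := AddSubgroup.closure G
  have hAmem : ∀ w ∈ A, ux w ∈ Kg := by
    intro w hw
    rw [← mem_upperParams]
    induction hw using AddSubgroup.closure_induction with
    | mem d hd' =>
      obtain ⟨c, c₁, c₂, hdd⟩ := hd'
      have hz : h ((c₁ : F) • x + (c₂ : F) • y) ((c₁ : F) • x + (c₂ : F) • y) = 0 := by
        simp [H.add_left, herm_add_right H, H.smul_left, herm_smul_right H, hxx, hyy, hxy, hyx]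
      refine ⟨_, hT c c₁ c₂, ?_, 0, ((c : fixF σ) : F) * σ ((c₁ : F) + (c₂ : F) * κ) * c₂, ?_, ?_⟩
      · rw [utv_mulVec H hz, herm_add_right H, herm_smul_right H, herm_smul_right H, hRx, hRy]; simp
      · rw [utv_mulVec H hz, herm_add_right H, herm_smul_right H, herm_smul_right H, hxx, hxy]
        simp [coe_ux]
      · rw [utv_mulVec H hz, ha', H.smul_left, herm_add_right H, herm_smul_right H, herm_smul_right H,
          ← hfadef, hay, hyR]
        simp only [coe_ux, Matrix.of_apply, Matrix.cons_val', Matrix.cons_val_zero,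
          Matrix.cons_val_one, Matrix.cons_val_fin_one, OneMemClass.coe_one, hdd, map_add, map_mul]
        rw [hlam]
        match_scalars <;> field_simp <;> ring
    | zero => exact AddSubgroup.zero_mem _
    | add d e _ _ hd' he => exact AddSubgroup.add_mem _ hd' he
    | neg d _ hd' => exact AddSubgroup.neg_mem _ hd'
  have hsmul : ∀ t ∈ K₀, ∀ w ∈ A, t * w ∈ A := by
    intro t ht w hw
    induction hw using AddSubgroup.closure_induction with
    | mem d hd' =>
      obtain ⟨c, c₁, c₂, hdd⟩ := hd'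
      exact AddSubgroup.subset_closure ⟨⟨t, ht⟩ * c, c₁, c₂, by push_cast; rw [hdd]; ring⟩
    | zero => rw [mul_zero]; exact AddSubgroup.zero_mem _
    | add d e _ _ hd' he => rw [mul_add]; exact AddSubgroup.add_mem _ hd' he
    | neg d _ hd' => rw [mul_neg]; exact AddSubgroup.neg_mem _ hd'
  have gen : ∀ (c₁ c₂ : F₀) (e : fixF σ),
      (e : F) = ((c₁ : F) + (c₂ : F) * κ) * σ ((c₁ : F) + (c₂ : F) * κ) → e ∈ A :=
    fun c₁ c₂ e he => AddSubgroup.subset_closure ⟨1, c₁, c₂, by simp [he]⟩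
  have hone : (1 : fixF σ) ∈ A := gen 1 0 1 (by simp)
  -- an irrational parameter
  have htr : ∀ t : F₀, (⟨(t : F) * κ + σ ((t : F) * κ), by
      rw [mem_fixF, map_add, H.involutive, add_comm]⟩ : fixF σ) ∈ A := by
    intro t
    have memN : ∀ z : F, z * σ z ∈ fixF σ := fun z => by
      rw [mem_fixF, map_mul, H.involutive, mul_comm]
    have g1 := gen 1 t ⟨_, memN ((1 : F) + (t : F) * κ)⟩ (by simp)
    have g2 := gen 0 t ⟨_, memN ((t : F) * κ)⟩ (by simp)
    have e := AddSubgroup.sub_mem _ (AddSubgroup.sub_mem _ g1 hone) g2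
    show _ ∈ AddSubgroup.closure G
    convert e using 1
    apply Subtype.ext
    push_cast
    rw [map_add, map_one, map_mul]
    ring
  obtain ⟨μ₀, hμ₀A, hμ₀⟩ : ∃ μ₀ : fixF σ, μ₀ ∈ A ∧ μ₀ ∉ K₀ := by
    by_contra hall
    push Not at hall
    obtain ⟨ε, hεF, hε⟩ := S.moved
    have k1 : (1 : F) * κ + σ (1 * κ) ∈ F₀ := hall _ (htr 1)
    have k2 : ε * κ + σ (ε * κ) ∈ F₀ := hall _ (htr ⟨ε, hεF⟩)
    have hne' : ε - σ ε ≠ 0 := sub_ne_zero.2 (Ne.symm hε)
    rw [one_mul] at k1
    refine hκ ?_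
    rw [show κ = (ε * κ + σ (ε * κ) - σ ε * (κ + σ κ)) / (ε - σ ε) by
      rw [map_mul]; field_simp; ring]
    exact div_mem (sub_mem k2 (mul_mem (S.stable _ hεF) k1)) (sub_mem hεF (S.stable _ hεF))
  have hAcard : Nat.card K₀ * Nat.card K₀ ≤ A.ncard := by
    rw [← Nat.card_prod]
    let e : K₀ × K₀ → A := fun p => ⟨(p.1 : fixF σ) + (p.2 : fixF σ) * μ₀,
      AddSubgroup.add_mem _ (show (p.1 : fixF σ) ∈ A by simpa using hsmul _ p.1.2 1 hone) (hsmul _ p.2.2 _ hμ₀A)⟩
    refine le_trans (Nat.card_le_card_of_injective e ?_) (le_of_eq (Nat.card_coe_set_eq A))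
    rintro ⟨s, t⟩ ⟨s', t'⟩ h'
    have h'' := congrArg Subtype.val h'
    simp only [e] at h''
    rcases eq_or_ne t t' with rfl | ht
    · exact Prod.ext (Subtype.ext (add_right_cancel h'')) rfl
    · exfalso
      have ht' : (t : fixF σ) - t' ≠ 0 := sub_ne_zero.2 fun e => ht (Subtype.ext e)
      apply hμ₀
      rw [show μ₀ = ((s' : fixF σ) - s) / ((t : fixF σ) - t') by field_simp; linear_combination h'']
      exact div_mem (sub_mem s'.2 s.2) (sub_mem t.2 t'.2)
  have hq : 2 ≤ Nat.card K₀ := Finite.one_lt_card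
  have hfull : ∀ w, ux w ∈ Kg := by
    refine ux_mem_of_large S.prime hKcard (A := A) hAmem hsmul ?_ (by nlinarith) hb0 hyb
    by_cases h2 : (2 : fixF σ) = 0
    · exact Or.inr ⟨h2, by nlinarith⟩
    · left
      have h3 : 3 ≤ Nat.card K₀ := by
        by_contra h3
        haveI := Fintype.ofFinite K₀
        have hc : Fintype.card K₀ = 2 := by rw [← Nat.card_eq_fintype_card]; omega
        refine h2 ?_
        have h4 := FiniteField.cast_card_eq_zero K₀
        rw [hc] at h4
        exact congrArg Subtype.val (show (2 : K₀) = 0 by exact_mod_cast h4)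
      nlinarith
  -- rational points of the plane of `a` and `R`
  let W2 : F → Prop := fun p => ∃ (w : ι → F₀) (q : F), w ≠ 0 ∧ ratVec P w = p • a + q • R
  obtain ⟨p₁, hp₁⟩ : ∃ p₁ : F, ∀ p, W2 p → ∃ α β : F₀, p = (α : F) + (β : F) * p₁ := by
    by_cases hex : ∃ (w₁ : ι → F₀) (p₁ q₁ : F), q₁ ≠ 0 ∧ ratVec P w₁ = p₁ • a + q₁ • R
    · obtain ⟨w₁, p₁, q₁, hq₁, hw₁⟩ := hex
      refine ⟨p₁, ?_⟩
      rintro p ⟨w, q, -, hw⟩
      have hout : w₁ ∉ Submodule.span F₀ (Set.range ![a₀]) := fun e => by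
        rw [Matrix.range_cons, Matrix.range_empty, Set.union_empty] at e
        obtain ⟨c, rfl⟩ := Submodule.mem_span_singleton.1 e
        rw [ratVec_smul, ← ha] at hw₁
        refine hRne (((c : F) - p₁) / q₁) ?_
        have e1 : q₁ • R = ((c : F) - p₁) • a := by rw [sub_smul, hw₁]; abel
        rw [div_eq_inv_mul, ← smul_smul, ← e1, smul_smul, inv_mul_cancel₀ hq₁, one_smul]
      obtain ⟨bb, hbb, hbba, hbbw⟩ := exists_iso_ne H₀ ![a₀] (by omega) hout
      have e0 : h (ratVec P bb) a = 0 := by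
        rw [ha, ← S.form_coe, show S.form bb a₀ = 0 from hbba 0]; rfl
      have e1 : (S.form bb w₁ : F) = σ q₁ * h (ratVec P bb) R := by
        rw [S.form_coe, hw₁, herm_add_right H, herm_smul_right H, herm_smul_right H, e0, mul_zero, zero_add]
      have e2 : (S.form bb w : F) = σ q * h (ratVec P bb) R := by
        rw [S.form_coe, hw, herm_add_right H, herm_smul_right H, herm_smul_right H, e0, mul_zero, zero_add]
      have hne1 : (S.form bb w₁ : F) ≠ 0 := fun e => hbbw (Subtype.ext e)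
      have hbR : h (ratVec P bb) R ≠ 0 := fun e => hne1 (by rw [e1, e, mul_zero])
      have hσq₁ : σ q₁ ≠ 0 := by simpa using hq₁
      have hβ : q / q₁ ∈ F₀ := by
        rw [← H.involutive (q / q₁), map_div₀,
          show σ q / σ q₁ = (S.form bb w : F) / (S.form bb w₁ : F) by rw [e1, e2]; field_simp]
        exact S.stable _ (div_mem (SetLike.coe_mem _) (SetLike.coe_mem _))
      have hα : p - q / q₁ * p₁ ∈ F₀ := by
        refine S.scalar_mem (v := a₀) (w := w + (-(⟨q / q₁, hβ⟩ : F₀)) • w₁) ha0 ?_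
        rw [ratVec_add, ratVec_smul, hw, hw₁, ← ha, NegMemClass.coe_neg]
        match_scalars <;> field_simp <;> ring
      exact ⟨⟨_, hα⟩, ⟨_, hβ⟩, (sub_add_cancel _ _).symm⟩
    · push Not at hex
      refine ⟨0, ?_⟩
      rintro p ⟨w, q, hw0, hw⟩
      have hq0 : q = 0 := by
        by_contra hq'
        exact hex w p q hq' hw
      rw [hq0, zero_smul, add_zero, ha] at hw
      exact ⟨⟨p, S.scalar_mem ha0 hw.symm⟩, 0, by simp⟩
  -- too few rational norms
  have memN : ∀ z : F, z * σ z ∈ fixF σ := fun z => by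
    rw [mem_fixF, map_mul, H.involutive, mul_comm]
  let V : Option ({k : K₀ // k ≠ 0} × Option F₀) → fixF σ := fun o => o.elim 0 fun p =>
    ((p.1 : K₀) : fixF σ) * p.2.elim 1 fun t => ⟨_, memN ((t : F) + p₁)⟩
  obtain ⟨w₀, hw₀⟩ : ∃ w₀, w₀ ∉ Set.range V := by
    by_contra hall
    push Not at hall
    have h1 := Nat.card_le_card_of_surjective V hall
    rw [Finite.card_option, Nat.card_prod, Finite.card_option, hKcard, hF₀card] at h1
    have h2 : Nat.card {k : K₀ // k ≠ 0} + 1 = Nat.card K₀ := by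
      rw [← Finite.card_option, Nat.card_congr (Equiv.optionSubtypeNe (0 : K₀))]
    have h3 : Nat.card K₀ ^ 3 ≤ Nat.card K₀ ^ r := Nat.pow_le_pow_right (by omega) S.three
    generalize Nat.card {k : K₀ // k ≠ 0} = m at h1 h2
    rw [← h2] at h1 h3 hq
    nlinarith
  obtain ⟨k, hk, μ, hkμ⟩ := S.exists_sq_class hodd w₀
  have hw₀0 : w₀ ≠ 0 := fun e => hw₀ ⟨none, e.symm⟩
  have hk0 : k ≠ 0 := fun e => hw₀0 (by rw [hkμ, e, zero_mul])
  have hμ0 : μ ≠ 0 := fun e => hw₀0 (by rw [hkμ, e, mul_zero, mul_zero])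
  obtain ⟨s, hs⟩ := exists_norm_eq H₀ (a := (⟨(k : F), hk⟩ : F₀))
    (Subtype.ext (mem_fixF.1 k.2))
  have hs' : (s : F) * σ s = k := congrArg Subtype.val hs
  have hs0 : (s : F) ≠ 0 := fun e => hk0 (Subtype.ext (by rw [← hs', e, zero_mul]; rfl))
  obtain ⟨τ, hτ, e⟩ := diag_mem_of_full hfull (uy_and_diag_of_full hfull hb0 hyb) (inv_ne_zero hμ0)
  obtain ⟨m, hm, -, ρ₁, ρ₂, -, hma⟩ := hτ
  rw [e] at hma
  simp only [Matrix.of_apply, Matrix.cons_val', Matrix.cons_val_zero, Matrix.cons_val_one,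
    Matrix.cons_val_fin_one, inv_inv, ZeroMemClass.coe_zero, zero_smul, zero_add, ha', mulVec_smul] at hma
  have hma' : (m : Matrix ι ι F) *ᵥ a = (μ : F) • a + (ρ₂ / lam) • R := by
    have := congrArg (fun w => lam⁻¹ • w) hma
    simp only [smul_smul, smul_add, inv_mul_cancel₀ hlam0, one_smul] at this
    rw [this]
    match_scalars <;> field_simp
  set z := (s : F) • (m : Matrix ι ι F) *ᵥ a with hz
  have hzc : tv z ((δ : F) • hv h z) ∈ M := by
    have h1 := mul_mem (mul_mem hm (S.utv_rat_mem hle (v := s • a₀)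
      (by rw [smul_inner H₀, haa₀, mul_zero]) hδ)) (inv_mem hm)
    rw [utv_conj H (hM hm) (by rw [ratVec_smul, smul_inner H, ← ha, haa, mul_zero]), ratVec_smul,
      mulVec_smul, ← ha] at h1
    exact h1
  have hzz : h z z = 0 := by rw [hz, smul_inner H, hM hm, haa, mul_zero]
  have hμ0' : (μ : F) ≠ 0 := fun e => hμ0 (Subtype.ext e)
  have hz0 : z ≠ 0 := fun e => by
    have h1 := congrArg (fun w => h w x) e
    simp only [hz, hma', H.smul_left, H.add_left, hRx, ← hfadef, herm_zero_left H, mul_zero,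
      add_zero] at h1
    exact mul_ne_zero hs0 (mul_ne_zero hμ0' hfa0) h1
  have hza : h a z = 0 := by
    rw [hz, herm_smul_right H, hma', herm_add_right H, herm_smul_right H, herm_smul_right H, haa,
      haR]; simp
  obtain ⟨w, ν, hzw, hν⟩ := S.centre_rational hle hM hn hδ0 hδ hno hzz hz0 hzc ha0 haa₀ hza
  have hν0 : ν ≠ 0 := fun e => hz0 (by rw [hzw, e, zero_smul])
  have hw0 : w ≠ 0 := fun e => hz0 (by rw [hzw, e, ratVec_zero, smul_zero])
  obtain ⟨α, β, hp⟩ := hp₁ ((s : F) * μ / ν) ⟨w, (s : F) * (ρ₂ / lam) / ν, hw0, by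
    have e1 := congrArg (fun y => ν⁻¹ • y) hzw
    simp only [smul_smul, inv_mul_cancel₀ hν0, one_smul] at e1
    rw [← e1, hz, hma']
    match_scalars <;> field_simp⟩
  refine hw₀ ?_
  have hσν : σ ν ≠ 0 := by simpa using hν0
  have hval : (w₀ : F) = ν * σ ν * (((α : F) + (β : F) * p₁) * σ ((α : F) + (β : F) * p₁)) := by
    rw [hkμ, Subfield.coe_mul, Subfield.coe_mul, ← hs', ← hp, map_div₀, map_mul, mem_fixF.1 μ.2]
    field_simp
  have mk : ∀ (l : F) (hl : l ∈ F₀) (hl' : σ l = l), (⟨l, hl'⟩ : fixF σ) ∈ K₀ := fun l hl _ => hl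
  rcases eq_or_ne β 0 with rfl | hβ
  · rw [ZeroMemClass.coe_zero, zero_mul, add_zero] at hval
    have hmem : w₀ ∈ K₀ := show (w₀ : F) ∈ F₀ by
      rw [hval]; exact mul_mem hν (mul_mem α.2 (S.stable _ α.2))
    exact ⟨some (⟨⟨w₀, hmem⟩, fun e => hw₀0 (congrArg Subtype.val e)⟩, none), by simp [V]⟩
  · have hβ' : (β : F) ≠ 0 := fun e => hβ (Subtype.ext e)
    have hσβ : σ (β : F) ≠ 0 := by simpa using hβ'
    have hl : ν * σ ν * ((β : F) * σ β) ∈ F₀ := mul_mem hν (mul_mem β.2 (S.stable _ β.2))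
    have hl' : σ (ν * σ ν * ((β : F) * σ β)) = ν * σ ν * ((β : F) * σ β) := by
      rw [map_mul, map_mul, map_mul, H.involutive, H.involutive]; ring
    refine ⟨some (⟨⟨⟨_, hl'⟩, mk _ hl hl'⟩, fun e => ?_⟩, some (α / β)), Subtype.ext ?_⟩
    · exact mul_ne_zero (mul_ne_zero hν0 hσν) (mul_ne_zero hβ' hσβ)
        (congrArg (fun c : K₀ => ((c : fixF σ) : F)) e)
    · simp [V]
      rw [hval]
      simp only [map_add, map_mul]
      field_simp

end Cfsg.Agent.Lib.Forms
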