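import Cfsg.Agent.Lib.Forms.SubfieldBasic
import Cfsg.Agent.Lib.Forms.UnitaryMax
import Cfsg.Agent.Lib.Forms.Symplectic
import Cfsg.Agent.Lib.Forms.Alternating

/-!
The symplectic subfield subgroup is maximal in the special unitary group.
-/

set_option autoImplicit false

namespace Cfsg.Agent.Lib.Forms

open Matrix Cfsg.Geo

variable {ι : Type} [Fintype ι] [DecidableEq ι] {F : Type*} [Field F]
  {σ : F ≃+* F} {h : (ι → F) → (ι → F) → F} {F₀ : Subfield F} {P : GL ι F} {ζ : F}

/-- A rational symplectic structure inside a Hermitian space. -/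
structure SympRat (σ : F ≃+* F) (h : (ι → F) → (ι → F) → F) (F₀ : Subfield F) (P : GL ι F)
    (ζ : F) : Prop where
  herm : IsUnitaryForm σ h
  fixed : ∀ c : F, σ c = c ↔ c ∈ F₀
  split : ∃ ε : F, ε ∉ F₀ ∧ ∀ c : F, ∃ a b : F₀, (a : F) + (b : F) * ε = c
  ζ0 : ζ ≠ 0
  ζskew : ζ + σ ζ = 0
  rat : ∀ u v : ι → F₀, ζ * h (ratVec P u) (ratVec P v) ∈ F₀
  alt : ∀ u : ι → F₀, h (ratVec P u) (ratVec P u) = 0

variable (S : SympRat σ h F₀ P ζ)
include S

/-- The alternating form on the rational vectors. -/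
def SympRat.form : LinearMap.BilinForm F₀ (ι → F₀) :=
  LinearMap.mk₂ F₀ (fun u v => (⟨ζ * h (ratVec P u) (ratVec P v), S.rat u v⟩ : F₀))
    (fun u u' v => Subtype.ext (by
      rw [Subfield.coe_add]; simp only
      rw [ratVec_add, S.herm.add_left, mul_add]))
    (fun c u v => Subtype.ext (by
      rw [smul_eq_mul, Subfield.coe_mul]; simp only
      rw [ratVec_smul, S.herm.smul_left]; ring))
    (fun u v v' => Subtype.ext (by
      rw [Subfield.coe_add]; simp only
      rw [ratVec_add, herm_add_right S.herm, mul_add]))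
    (fun c u v => Subtype.ext (by
      rw [smul_eq_mul, Subfield.coe_mul]; simp only
      rw [ratVec_smul, herm_smul_right S.herm, (S.fixed _).2 c.2]; ring))

lemma SympRat.form_coe (u v : ι → F₀) :
    ((S.form u v : F₀) : F) = ζ * h (ratVec P u) (ratVec P v) := rfl

lemma SympRat.herm_rat (u v : ι → F₀) : h (ratVec P u) (ratVec P v) = (S.form u v : F) / ζ := by
  rw [S.form_coe, mul_div_cancel_left₀ _ S.ζ0]

lemma SympRat.form_alt : S.form.IsAlt := fun u => Subtype.ext (by
  rw [S.form_coe, S.alt, mul_zero]; rfl)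

lemma SympRat.eq_zero_of_rat {x : ι → F} (hx : ∀ u : ι → F₀, h (ratVec P u) x = 0) : x = 0 := by
  by_contra hx0
  obtain ⟨y, hy⟩ := (S.herm.nondegenerate x hx0).1
  apply hy
  rw [← mulVec_inv_mulVec P y, pi_eq_sum_univ' (((P⁻¹ : GL ι F) : Matrix ι ι F) *ᵥ y), mulVec_sum]
  let L : (ι → F) →ₗ[F] F :=
    { toFun := fun z => h z x
      map_add' := fun a b => S.herm.add_left a b x
      map_smul' := fun c a => S.herm.smul_left c a x }
  show L _ = 0
  rw [map_sum]
  refine Finset.sum_eq_zero fun i _ => ?_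
  rw [mulVec_smul, map_smul]
  have := hx (Pi.single i 1)
  rw [ratVec, show (fun j => ((Pi.single i 1 : ι → F₀) j : F)) = Pi.single i 1 by
    funext j; rcases eq_or_ne j i with rfl | h' <;> simp [*]] at this
  exact smul_eq_zero_of_right _ this

lemma SympRat.form_nd : S.form.Nondegenerate := by
  refine ⟨fun u hu => ?_, fun v hv' => ?_⟩
  · refine ratVec_injective (P := P) ?_
    rw [ratVec_zero]
    refine S.eq_zero_of_rat fun v => (herm_eq_zero_comm S.herm).1 ?_
    rw [S.herm_rat, show S.form u v = 0 from hu v, ZeroMemClass.coe_zero, zero_div]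
  · refine ratVec_injective (P := P) ?_
    rw [ratVec_zero]
    refine S.eq_zero_of_rat fun u => ?_
    rw [S.herm_rat, show S.form u v = 0 from hv' u, ZeroMemClass.coe_zero, zero_div]

lemma SympRat.exists_combo (x : ι → F) {ε : F} (hε : ∀ c : F, ∃ a b : F₀, (a : F) + (b : F) * ε = c) :
    ∃ u w : ι → F₀, x = ratVec P u + ε • ratVec P w := by
  choose a b hab using fun i => hε ((((P⁻¹ : GL ι F) : Matrix ι ι F) *ᵥ x) i)
  refine ⟨a, b, ?_⟩
  conv_lhs => rw [← mulVec_inv_mulVec P x]
  rw [ratVec, ratVec, ← mulVec_smul, ← mulVec_add]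
  congr 1
  funext i
  rw [Pi.add_apply, Pi.smul_apply, smul_eq_mul, ← hab i, mul_comm]

lemma SympRat.iso_combo {ε : F} (hε : ε ∉ F₀) (u w : ι → F₀) :
    h (ratVec P u + ε • ratVec P w) (ratVec P u + ε • ratVec P w) = 0 ↔ S.form u w = 0 := by
  have hσε : σ ε - ε ≠ 0 := fun e => hε ((S.fixed ε).1 (sub_eq_zero.1 e))
  have hσ0 : σ (S.form u w : F) = (S.form u w : F) := (S.fixed _).2 (SetLike.coe_mem _)
  have hσζ : σ ζ = -ζ := eq_neg_of_add_eq_zero_right S.ζskew
  have hζ := S.ζ0
  have e : h (ratVec P u + ε • ratVec P w) (ratVec P u + ε • ratVec P w) =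
      (σ ε - ε) * ((S.form u w : F) / ζ) := by
    rw [S.herm.add_left, herm_add_right S.herm, herm_add_right S.herm, S.herm.smul_left,
      S.herm.smul_left, herm_smul_right S.herm, herm_smul_right S.herm, S.alt, S.alt,
      S.herm.herm (ratVec P w) (ratVec P u), S.herm_rat, map_div₀, hσ0, hσζ]
    field_simp
    ring
  rw [e]
  simp [hσε, hζ]

lemma SympRat.mulVec_combo {k : GL ι F} {g₀ : GL ι F₀}
    (hk : ∀ v, (k : Matrix ι ι F) *ᵥ ratVec P v = ratVec P ((g₀ : Matrix ι ι F₀) *ᵥ v))
    (ε : F) (u w : ι → F₀) :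
    (k : Matrix ι ι F) *ᵥ (ratVec P u + ε • ratVec P w) =
      ratVec P ((g₀ : Matrix ι ι F₀) *ᵥ u) + ε • ratVec P ((g₀ : Matrix ι ι F₀) *ᵥ w) := by
  rw [mulVec_add, mulVec_smul, hk, hk]

/-- The natural embedding of the rational isometries. -/
noncomputable def ratEmb (F₀ : Subfield F) (P : GL ι F) : GL ι F₀ →* GL ι F :=
  (MulAut.conj P).toMonoidHom.comp (Matrix.GeneralLinearGroup.map (F₀.subtype : F₀ →+* F))

omit S in
lemma ratEmb_ratVec (g₀ : GL ι F₀) (v : ι → F₀) :
    (ratEmb F₀ P g₀ : Matrix ι ι F) *ᵥ ratVec P v = ratVec P ((g₀ : Matrix ι ι F₀) *ᵥ v) := by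
  show ((P * Matrix.GeneralLinearGroup.map (F₀.subtype : F₀ →+* F) g₀ * P⁻¹ : GL ι F) :
    Matrix ι ι F) *ᵥ ratVec P v = _
  rw [ratVec, mul_mulVec', inv_mulVec_mulVec, mul_mulVec', ratVec]
  congr 1
  exact mulVec_map_mulVec _ _

theorem SympRat.isMaximalIn [Finite F] (hn : 4 ≤ Fintype.card ι) :
    IsMaximalIn (isoH h ⊓ specialLinear ι F)
      (subfieldSubgroup F₀ P ⊓ (isoH h ⊓ specialLinear ι F)) := by
  classical
  obtain ⟨ε, hε, hεs⟩ := S.split
  have H := S.herm
  have hσζ : σ ζ = -ζ := eq_neg_of_add_eq_zero_right S.ζskew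
  have hskew : ∀ c : F, c + σ c = 0 → ∃ c₀ : F₀, c = (c₀ : F) * ζ := fun c hc => by
    refine ⟨⟨c / ζ, (S.fixed _).1 ?_⟩, (div_mul_cancel₀ c S.ζ0).symm⟩
    rw [map_div₀, eq_neg_of_add_eq_zero_right hc, hσζ, neg_div_neg_eq]
  have htrans : ∀ (u : ι → F₀) (c : F₀),
      tv (ratVec P u) (((c : F) * ζ) • hv h (ratVec P u)) = ratEmb F₀ P (sympT S.form u c) := by
    intro u c
    refine gl_ext_ratVec (F₀ := F₀) (P := P) fun v => ?_
    rw [utv_mulVec H (S.alt u), ratEmb_ratVec, sympT_mulVec S.form_alt, ratVec_add, ratVec_smul]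
    congr 2
    rw [MulMemClass.coe_mul, S.form_coe]
    ring
  refine isMaximalIn_of inf_le_right ?_ fun M hle hM g hg hgn => ?_
  · -- a transvection outside
    obtain ⟨i⟩ : Nonempty ι := Fintype.card_pos_iff.1 (by omega)
    set u : ι → F₀ := Pi.single i 1
    have hu : u ≠ 0 := by simp [u]
    obtain ⟨w, hw, hwu⟩ : ∃ w, S.form u w = 0 ∧ w ∉ Submodule.span F₀ {u} := by
      by_contra hcon
      push Not at hcon
      have h1 := Submodule.finrank_mono (show LinearMap.ker (S.form u) ≤ Submodule.span F₀ {u}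
        from fun w hw => hcon w hw)
      have h2 := LinearMap.finrank_range_add_finrank_ker (S.form u)
      have h3 := Submodule.finrank_le (LinearMap.range (S.form u))
      rw [Module.finrank_self] at h3
      rw [finrank_span_singleton hu] at h1
      rw [Module.finrank_fintype_fun_eq_card] at h2
      omega
    obtain ⟨a, hau, haw⟩ : ∃ a, S.form a u = 0 ∧ S.form a w ≠ 0 := by
      by_contra hcon
      push Not at hcon
      obtain ⟨z, hz⟩ : ∃ z, S.form z u = 1 := by
        obtain ⟨z, hz⟩ : ∃ z, S.form z u ≠ 0 := by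
          by_contra h'; push Not at h'; exact hu (S.form_nd.2 u h')
        exact ⟨(S.form z u)⁻¹ • z, by simp [hz]⟩
      refine hwu (Submodule.mem_span_singleton.2 ⟨S.form z w, (sub_eq_zero.1 ?_).symm⟩)
      refine S.form_nd.2 _ fun y => ?_
      have := hcon (y - S.form y u • z) (by simp [hz])
      simp only [map_sub, map_smul, LinearMap.sub_apply, LinearMap.smul_apply, smul_eq_mul] at this ⊢
      linear_combination this
    set v := ratVec P u + ε • ratVec P w
    have hvv : h v v = 0 := (S.iso_combo hε u w).2 hw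
    refine ⟨tv v (ζ • hv h v), utvGroup_le H (utv_mem_utvGroup hvv S.ζskew), fun hs => ?_⟩
    obtain ⟨g₀, c, hg⟩ := mem_subfieldSubgroup_iff.1 hs.1
    have e := hg a
    set a' := (g₀ : Matrix ι ι F₀) *ᵥ a
    set d : F := ζ * (σ ε * ((S.form a w : F) / ζ))
    have hd : d ≠ 0 := by
      have hσε : σ ε ≠ 0 := (map_ne_zero σ).2 fun e' => hε (e' ▸ zero_mem _)
      have : (S.form a w : F) ≠ 0 := by simpa using haw
      simp [d, S.ζ0, hσε, this]
    rw [utv_mulVec H hvv, show ζ * h (ratVec P a) v = d by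
      rw [herm_add_right H, herm_smul_right H, S.herm_rat, S.herm_rat, hau, ZeroMemClass.coe_zero,
        zero_div, zero_add]] at e
    simp only [v, ratVec, ← mulVec_smul, ← mulVec_add] at e
    have hj := fun j => congrFun (gl_mulVec_injective P e) j
    -- kernels of the functionals below
    have hind : LinearIndependent F₀ ![u, w, a] := by
      rw [Fintype.linearIndependent_iff]
      intro s hs'
      simp [Fin.sum_univ_three] at hs'
      have hz : s 2 = 0 := by
        have h1 := congrArg (fun y => S.form y w) hs'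
        simpa [hw, S.form_alt.self_eq_zero, haw] using h1
      have hy : s 1 = 0 := by
        by_contra h0
        refine hwu (Submodule.mem_span_singleton.2 ⟨-(s 0 / s 1), ?_⟩)
        rw [hz, zero_smul, add_zero] at hs'
        funext k
        have := congrFun hs' k
        simp only [Pi.add_apply, Pi.smul_apply, Pi.zero_apply, smul_eq_mul] at this ⊢
        field_simp
        linear_combination -this
      have hx : s 0 = 0 := by
        rw [hz, hy, zero_smul, zero_smul, add_zero, add_zero] at hs'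
        simpa [hu] using hs'
      intro k
      fin_cases k <;> assumption
    have hext : ∀ t : Fin 3 → F₀, ∃ f : (ι → F₀) →ₗ[F₀] F₀, ∀ k, f (![u, w, a] k) = t k :=
      fun t => by
        let b := Module.Basis.span hind
        obtain ⟨f, hf⟩ := LinearMap.exists_extend (b.constr F₀ t)
        refine ⟨f, fun k => ?_⟩
        have h1 := LinearMap.congr_fun hf (b k)
        rw [Module.Basis.constr_basis, LinearMap.comp_apply, Submodule.subtype_apply,
          Module.Basis.span_apply] at h1
        exact h1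
    obtain ⟨fa, hfa⟩ := hext ![0, 0, 1]
    obtain ⟨fb, hfb⟩ := hext ![1, 0, 0]
    obtain ⟨fc, hfc⟩ := hext ![0, 1, 0]
    have happ : ∀ f : (ι → F₀) →ₗ[F₀] F₀, (f a : F) + d * ((f u : F) + ε * (f w : F)) =
        (c : F) * (f a' : F) := by
      intro f
      have hrep : ∀ y : ι → F₀, (f y : F) = ∑ j, (y j : F) * (f (Pi.single j 1) : F) := fun y => by
        conv_lhs => rw [pi_eq_sum_univ' y]
        rw [map_sum, AddSubmonoidClass.coe_finsetSum]
        refine Finset.sum_congr rfl fun j _ => ?_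
        rw [map_smul, smul_eq_mul, Subfield.coe_mul]
      rw [hrep a, hrep u, hrep w, hrep a']
      simp only [Finset.mul_sum, mul_add, ← Finset.sum_add_distrib]
      refine Finset.sum_congr rfl fun j _ => ?_
      have := hj j
      simp only [Pi.add_apply, Pi.smul_apply, smul_eq_mul] at this
      linear_combination (f (Pi.single j 1) : F) * this
    have ea := happ fa
    have eb := happ fb
    have ec := happ fc
    have a1 : fa u = 0 := hfa 0
    have a2 : fa w = 0 := hfa 1
    have a3 : fa a = 1 := hfa 2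
    have b1 : fb u = 1 := hfb 0
    have b2 : fb w = 0 := hfb 1
    have b3 : fb a = 0 := hfb 2
    have c1 : fc u = 0 := hfc 0
    have c2 : fc w = 1 := hfc 1
    have c3 : fc a = 0 := hfc 2
    rw [a1, a2, a3] at ea; rw [b1, b2, b3] at eb; rw [c1, c2, c3] at ec
    simp only [ZeroMemClass.coe_zero, OneMemClass.coe_one, mul_zero, add_zero, zero_add, mul_one] at ea eb ec
    have hq : ε = (fc a' : F) / (fb a' : F) := by
      have hb0 : (fb a' : F) ≠ 0 := fun h0 => hd (by rw [eb, h0, mul_zero])
      field_simp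
      exact mul_left_cancel₀ c.ne_zero (by linear_combination ec - ε * eb)
    exact hε (hq ▸ div_mem (SetLike.coe_mem _) (SetLike.coe_mem _))
  have hgi : g ∈ isoH h := (hM hg).1
  have hC : ∀ u : ι → F₀, ratVec P u ∈ ucentres σ h M := fun u => ⟨S.alt u, fun c hc => by
    obtain ⟨c₀, rfl⟩ := hskew c hc
    refine hle ⟨?_, utvGroup_le H (utv_mem_utvGroup (S.alt u) hc)⟩
    exact mem_subfieldSubgroup_iff.2 ⟨sympT S.form u c₀, 1, fun v => by
      rw [htrans, ratEmb_ratVec, Units.val_one, one_smul]⟩⟩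
  have hiso_emb : ∀ g₀ ∈ isoGroup S.form, ratEmb F₀ P g₀ ∈ M ∧ ratEmb F₀ P g₀ ∈ isoH h := by
    intro g₀ hg₀
    have : isoGroup S.form ≤ (M ⊓ isoH h).comap (ratEmb F₀ P) :=
      isoGroup_le_of_sympT S.form_alt _ S.form_nd fun w c => by
        rw [Subgroup.mem_comap, ← htrans]
        have hc : (c : F) * ζ + σ ((c : F) * ζ) = 0 := by
          rw [map_mul, (S.fixed _).2 c.2, hσζ]; ring
        exact ⟨(hC w).2 _ hc, (utvGroup_le H (utv_mem_utvGroup (S.alt w) hc)).1⟩
    exact this hg₀
  obtain ⟨u, w, hx, hind⟩ : ∃ u w : ι → F₀, ratVec P u + ε • ratVec P w ∈ ucentres σ h M ∧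
      LinearIndependent F₀ ![u, w] := by
    by_contra hcon
    push Not at hcon
    refine hgn ⟨mem_subfieldSubgroup_of_lines fun z _ => ?_, hM hg⟩
    obtain ⟨u, w, huw⟩ := S.exists_combo ((g : Matrix ι ι F) *ᵥ ratVec P z) hεs
    have hdep := hcon u w (huw ▸ mulVec_mem_ucentres H hg hgi (hC z))
    rw [LinearIndependent.pair_iff] at hdep
    push Not at hdep
    obtain ⟨s, t, hst, hne⟩ := hdep
    rcases eq_or_ne t 0 with rfl | ht
    · have hs0 : s ≠ 0 := fun e => hne e rfl
      rw [zero_smul, add_zero, smul_eq_zero, or_iff_right hs0] at hst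
      exact ⟨ε, w, by rw [huw, hst, ratVec_zero, zero_add]⟩
    · refine ⟨1 + ε * ((-(s / t) : F₀) : F), u, ?_⟩
      have hw' : w = (-(s / t)) • u := by
        funext j
        have := congrFun hst j
        simp only [Pi.add_apply, Pi.smul_apply, Pi.zero_apply, smul_eq_mul] at this ⊢
        field_simp
        linear_combination this
      rw [huw, hw', ratVec_smul, smul_smul, add_smul, one_smul]
  have hB : S.form u w = 0 := (S.iso_combo hε u w).1 hx.1
  refine iso_sl_le_of_ucentres H hn fun z hz => ?_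
  obtain ⟨u', w', rfl⟩ := S.exists_combo z hεs
  by_cases hind' : LinearIndependent F₀ ![u', w']
  swap
  · rw [LinearIndependent.pair_iff] at hind'
    push Not at hind'
    obtain ⟨s, t, hst, hne⟩ := hind'
    rcases eq_or_ne t 0 with rfl | ht
    · have hs0 : s ≠ 0 := fun e => hne e rfl
      rw [zero_smul, add_zero, smul_eq_zero, or_iff_right hs0] at hst
      rw [hst, ratVec_zero, zero_add]
      exact smul_mem_ucentres H ε (hC w')
    · have hw' : w' = (-(s / t)) • u' := by
        funext j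
        have := congrFun hst j
        simp only [Pi.add_apply, Pi.smul_apply, Pi.zero_apply, smul_eq_mul] at this ⊢
        field_simp
        linear_combination this
      rw [hw', ratVec_smul, smul_smul]
      have := smul_mem_ucentres H (1 + ε * ((-(s / t) : F₀) : F)) (hC u')
      rwa [add_smul, one_smul] at this
  have hB' : S.form u' w' = 0 := (S.iso_combo hε u' w').1 hz
  let b := Module.Basis.span hind
  let φ : Submodule.span F₀ (Set.range ![u, w]) →ₗ[F₀] (ι → F₀) := b.constr F₀ ![u', w']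
  have hbk : ∀ k, (b k : ι → F₀) = ![u, w] k := fun k =>
    congrArg Subtype.val (Module.Basis.span_apply hind k)
  have hφb : ∀ k, φ (b k) = ![u', w'] k := fun k => Module.Basis.constr_basis _ _ _ _
  have hinj : Function.Injective φ := by
    rw [← LinearMap.ker_eq_bot, LinearMap.ker_eq_bot']
    intro y hy
    rw [← b.sum_repr y, map_sum] at hy
    simp only [map_smul, hφb] at hy
    exact b.repr.map_eq_zero_iff.1 (Finsupp.ext fun k => Fintype.linearIndependent_iff.1 hind' _ hy k)
  have f0 : φ (b 0) = u' := hφb 0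
  have f1 : φ (b 1) = w' := hφb 1
  have k0 : (b 0 : ι → F₀) = u := hbk 0
  have k1 : (b 1 : ι → F₀) = w := hbk 1
  have hpres : ∀ y y', S.form (φ y) (φ y') = S.form y y' := by
    intro y y'
    rw [← b.sum_repr y, ← b.sum_repr y']
    simp only [map_sum, map_smul, hφb, LinearMap.sum_apply, LinearMap.smul_apply,
      Submodule.coe_sum, Submodule.coe_smul, hbk, Fin.sum_univ_two]
    simp [f0, f1, k0, k1, S.form_alt.self_eq_zero, hB, hB', ← S.form_alt.neg_eq u w, ← S.form_alt.neg_eq u' w']
  obtain ⟨e, he, hex⟩ := witt_alt S.form S.form_nd S.form_alt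
    (Module.finrank F₀ (ι → F₀) - Module.finrank F₀ (Submodule.span F₀ (Set.range ![u, w])))
    _ φ (by have := Submodule.finrank_le (Submodule.span F₀ (Set.range ![u, w])); omega) hinj hpres
  obtain ⟨g₀, hg₀⟩ : IsUnit (LinearMap.toMatrix' e.toLinearMap) :=
    Matrix.mulVec_injective_iff_isUnit.1 fun x y h' => e.injective (by simpa using h')
  have hg₀v : ∀ y, (g₀ : Matrix ι ι F₀) *ᵥ y = e y := fun y => by
    rw [hg₀, LinearMap.toMatrix'_mulVec]; rfl
  obtain ⟨h1, h2⟩ := hiso_emb g₀ (mem_isoGroup.2 fun x y => by rw [hg₀v, hg₀v, he])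
  have := mulVec_mem_ucentres H h1 h2 hx
  rw [S.mulVec_combo (ratEmb_ratVec g₀), hg₀v, hg₀v] at this
  have e0 : e u = u' := by
    have := hex (b 0); rw [hbk, hφb] at this; exact this
  have e1 : e w = w' := by
    have := hex (b 1); rw [hbk, hφb] at this; exact this
  rwa [e0, e1] at this

end Cfsg.Agent.Lib.Forms
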