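import Cfsg.Agent.Lib.Forms.UnitaryTI

/-!
Stabilisers of totally isotropic subspaces in the unitary groups.
-/

set_option autoImplicit false

namespace Cfsg.Agent.Lib.Forms

open Matrix Cfsg.Agent.Lib.Classical

variable {F : Type*} [Field F] [Fintype F] {q : ℕ}

/-- Norm-one scalars are quotients of conjugates. -/
lemma exists_hilbert90 (hF : Fintype.card F = q ^ 2) {l : Fˣ} (hl : l ^ (q + 1) = 1) :
    ∃ a : Fˣ, a / a ^ q = l := by
  obtain ⟨g, hg⟩ := IsCyclic.exists_generator (α := Fˣ)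
  obtain ⟨k, hk⟩ := mem_powers_iff_mem_zpowers.2 (hg l⁻¹)
  have hk' : g ^ k = l⁻¹ := hk
  have ho : orderOf g = (q - 1) * (q + 1) := by
    rw [orderOf_eq_card_of_forall_mem_zpowers hg, Herm.card_units hF, mul_comm]
  have hd : (q - 1) * (q + 1) ∣ k * (q + 1) :=
    ho ▸ orderOf_dvd_of_pow_eq_one (by rw [pow_mul, hk', inv_pow, hl, inv_one])
  obtain ⟨j, hj⟩ := Nat.dvd_of_mul_dvd_mul_right (Nat.succ_pos q) hd
  refine ⟨g ^ j, ?_⟩
  obtain ⟨r, hr⟩ : ∃ r, q = r + 1 := ⟨q - 1, by have := Herm.two_le_q hF; omega⟩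
  subst hr
  rw [Nat.add_sub_cancel, mul_comm] at hj
  rw [pow_succ, div_mul_cancel_right, ← pow_mul, ← hj, hk', inv_inv]

/-- The subgroup of `GU` stabilising a subspace. -/
def guStab (n : ℕ) (F : Type*) [Field F] (q : ℕ) (W : Submodule F (Fin n → F)) :
    Subgroup ↥(Cfsg.GU n F q) :=
  (Cfsg.stabilizing (Cfsg.glToMat (Fin n) F) (W : Set (Fin n → F))).subgroupOf (Cfsg.GU n F q)

lemma mem_guStab {n : ℕ} {W : Submodule F (Fin n → F)} {g : ↥(Cfsg.GU n F q)} :
    g ∈ guStab n F q W ↔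
      ∀ w ∈ W, ((g : GL (Fin n) F) : Matrix (Fin n) (Fin n) F) *ᵥ w ∈ W := by
  rw [guStab, Subgroup.mem_subgroupOf, mem_stabilizing_iff_mapsTo]
  rfl

lemma mem_guStab_of_basis {n k : ℕ} {W : Submodule F (Fin n → F)} (b : Module.Basis (Fin k) F W)
    {g : ↥(Cfsg.GU n F q)}
    (hg : ∀ i, ((g : GL (Fin n) F) : Matrix (Fin n) (Fin n) F) *ᵥ (b i : Fin n → F) ∈ W) :
    g ∈ guStab n F q W := by
  rw [mem_guStab]
  intro w hw
  have := congrArg W.subtype (b.sum_repr ⟨w, hw⟩).symm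
  rw [map_sum] at this
  rw [show w = ∑ i, W.subtype (b.repr ⟨w, hw⟩ i • b i) from this, Matrix.mulVec_sum]
  refine W.sum_mem fun i _ => ?_
  rw [map_smul, Submodule.subtype_apply, Matrix.mulVec_smul]
  exact W.smul_mem _ (hg i)

theorem card_guStab_mul (hF : Fintype.card F = q ^ 2) {n k : ℕ} (W : Submodule F (Fin n → F))
    (hWk : Module.finrank F W = k) (hW : ∀ u ∈ W, ∀ v ∈ W, Cfsg.hermForm n F q u v = 0) :
    Nat.card (guStab n F q W) * Nat.card (TIFrame (Cfsg.hermForm n F q) k) =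
      Nat.card ↥(Cfsg.GU n F q) * ∏ i : Fin k, ((q ^ 2) ^ k - (q ^ 2) ^ (i : ℕ)) := by
  classical
  let b := Module.finBasisOfFinrankEq F W hWk
  let u : TIFrame (Cfsg.hermForm n F q) k :=
    ⟨fun i => (b i : Fin n → F), b.linearIndependent.map' W.subtype W.ker_subtype,
      fun i j => hW _ (b i).2 _ (b j).2⟩
  have hinj : ∀ g : ↥(Cfsg.GU n F q), LinearMap.ker
      (Matrix.toLin' ((g : GL (Fin n) F) : Matrix (Fin n) (Fin n) F)) = ⊥ := fun g => by
    rw [LinearMap.ker_eq_bot]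
    intro x y hxy
    have := congrArg (fun w => (((g⁻¹ : ↥(Cfsg.GU n F q)) : GL (Fin n) F) : Matrix (Fin n) (Fin n) F) *ᵥ w) hxy
    simpa [Matrix.toLin'_apply, mulVec_mulVec, ← Units.val_mul] using this
  have h1 : Nat.card ↥(Cfsg.GU n F q) =
      Nat.card (TIFrame (Cfsg.hermForm n F q) k) * Nat.card (fixGU n F q u.1) := by
    refine card_eq_card_mul _ (fun g => (⟨fun i => ((g : GL (Fin n) F) : Matrix (Fin n) (Fin n) F) *ᵥ u.1 i,
      u.2.1.map' _ (hinj g), fun i j => ?_⟩ : TIFrame (Cfsg.hermForm n F q) k)) (fun g h => ?_) fun v => ?_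
    · rw [Herm.mem_GU.1 g.2, u.2.2]
    · rw [← fixGU_fibre]
      exact ⟨fun e i => congrFun (congrArg Subtype.val e) i, fun e => Subtype.ext (funext e)⟩
    · obtain ⟨g, hg, hgv⟩ := exists_GU_frame hF u v
      exact ⟨⟨g, hg⟩, Subtype.ext (funext hgv)⟩
  set S := guStab n F q W
  have hsub : fixGU n F q u.1 ≤ S := fun g hg => mem_guStab_of_basis b fun i => by
    rw [show ((g : GL (Fin n) F) : Matrix (Fin n) (Fin n) F) *ᵥ (b i : Fin n → F) = b i from hg i]
    exact (b i).2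
  let f : S → {s : Fin k → W // LinearIndependent F s} := fun g =>
    ⟨fun i => ⟨(((g : ↥(Cfsg.GU n F q)) : GL (Fin n) F) : Matrix (Fin n) (Fin n) F) *ᵥ (b i : Fin n → F),
        mem_guStab.1 g.2 _ (b i).2⟩,
      LinearIndependent.of_comp W.subtype (u.2.1.map' _ (hinj g.1))⟩
  have h2 : Nat.card S = Nat.card {s : Fin k → W // LinearIndependent F s} * Nat.card (fixGU n F q u.1) := by
    rw [card_eq_card_mul ((fixGU n F q u.1).subgroupOf S) f (fun g h => ?_) fun s => ?_]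
    · congr 1
      exact Nat.card_congr (Subgroup.subgroupOfEquivOfLe hsub).toEquiv
    · rw [Subgroup.mem_subgroupOf, Subgroup.coe_mul, Subgroup.coe_inv, ← fixGU_fibre]
      exact ⟨fun e i => congrArg Subtype.val (congrFun (congrArg Subtype.val e) i),
        fun e => Subtype.ext (funext fun i => Subtype.ext (e i))⟩
    · obtain ⟨g, hg, hgv⟩ := exists_GU_frame hF u ⟨fun i => (s.1 i : Fin n → F),
        s.2.map' W.subtype W.ker_subtype, fun i j => hW _ (s.1 i).2 _ (s.1 j).2⟩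
      have hgS : (⟨g, hg⟩ : ↥(Cfsg.GU n F q)) ∈ S := mem_guStab_of_basis b fun i => by
        have e : (g : Matrix (Fin n) (Fin n) F) *ᵥ (b i : Fin n → F) = (s.1 i : Fin n → F) := hgv i
        change (g : Matrix (Fin n) (Fin n) F) *ᵥ (b i : Fin n → F) ∈ W
        rw [e]; exact (s.1 i).2
      exact ⟨⟨⟨g, hg⟩, hgS⟩, Subtype.ext (funext fun i => Subtype.ext (hgv i))⟩
  rw [card_linearIndependent (K := F) (V := W) (by rw [hWk]), hWk, hF] at h2
  rw [h2, h1]
  ring

/-- The determinant takes every norm-one value on the stabiliser. -/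
theorem exists_guStab_det (hF : Fintype.card F = q ^ 2) {n : ℕ} (hn : 1 ≤ n)
    (W : Submodule F (Fin n → F)) (hW : ∀ u ∈ W, ∀ v ∈ W, Cfsg.hermForm n F q u v = 0)
    {l : Fˣ} (hl : l ^ (q + 1) = 1) :
    ∃ g : guStab n F q W,
      Herm.detGU n F q (g : ↥(Cfsg.GU n F q)) = l := by
  classical
  by_cases h0 : W = ⊥
  · have := Herm.range_detGU (F := F) hF hn
    have hl' : l ∈ (Herm.detGU n F q).range := by rw [this]; exact hl
    obtain ⟨g, hg⟩ := hl'
    refine ⟨⟨g, mem_guStab.2 fun w hw => ?_⟩, hg⟩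
    rw [h0, Submodule.mem_bot] at hw ⊢
    rw [hw, Matrix.mulVec_zero]
  obtain ⟨u, huW, hu0⟩ := Submodule.exists_mem_ne_zero_of_ne_bot h0
  have H := hermData hF n
  set h := Cfsg.hermForm n F q with hh
  obtain ⟨z, hz⟩ := H.sep u hu0
  have huu : h u u = 0 := hW u huW u huW
  obtain ⟨t, ht⟩ := H.exists_iso_shift (v := conjQ hF (h u z)⁻¹ • z) huu
    (by rw [H.smul_right, H.involutive, inv_mul_cancel₀ hz])
  set v := conjQ hF (h u z)⁻¹ • z + t • u with hv_def
  have huv : h u v = 1 := by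
    rw [hv_def, H.add_right, H.smul_right, H.smul_right, H.involutive, inv_mul_cancel₀ hz, huu,
      mul_zero, add_zero]
  have hvu : h v u = 1 := by rw [H.herm, huv, map_one]
  obtain ⟨a, ha⟩ := exists_hilbert90 hF hl
  set b : F := ((a : F) ^ q)⁻¹ with hb_def
  let U : Matrix (Fin n) (Fin 2) F :=
    Matrix.of fun i j => ![((a : F) - 1) * u i, (b - 1) * v i] j
  let V : Matrix (Fin 2) (Fin n) F := Matrix.of fun j i => ![v i ^ q, u i ^ q] j
  set M := 1 + U * V with hM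
  have hVx : ∀ x, V *ᵥ x = ![h x v, h x u] := fun x => by
    funext j
    fin_cases j <;> simp [V, hh, Cfsg.hermForm, Matrix.mulVec, dotProduct, mul_comm]
  have hMx : ∀ x, M *ᵥ x = x + (((a : F) - 1) * h x v) • u + ((b - 1) * h x u) • v := fun x => by
    rw [hM, Matrix.add_mulVec, Matrix.one_mulVec, ← Matrix.mulVec_mulVec, hVx, add_assoc]
    congr 1
    funext i
    simp [U, Matrix.mulVec, dotProduct, Fin.sum_univ_two]
    ring
  have hVU : (1 : Matrix (Fin 2) (Fin 2) F) + V * U = Matrix.diagonal ![(a : F), b] := by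
    ext i j
    have e : ∀ (p : Fin n → F) (r : Fin n → F) (c : F), ∑ l, r l ^ q * (c * p l) = c * h p r :=
      fun p r c => by
        rw [hh, Cfsg.hermForm, Finset.mul_sum]
        exact Finset.sum_congr rfl fun l _ => by ring
    fin_cases i <;> fin_cases j <;>
      simp [V, U, Matrix.mul_apply, e, huu, ht, huv, hvu]
  have hdet : M.det = (a : F) * b := by
    rw [hM, Matrix.det_one_add_mul_comm, hVU, Matrix.det_diagonal, Fin.prod_univ_two]
    rfl
  have hab : (a : F) * b = (l : F) := by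
    rw [← ha, hb_def, div_eq_mul_inv, Units.val_mul, Units.val_inv_eq_inv_val,
      Units.val_pow_eq_pow_val]
  have hdet0 : M.det ≠ 0 := by rw [hdet, hab]; exact l.ne_zero
  let G : GL (Fin n) F := Matrix.GeneralLinearGroup.mkOfDetNeZero M hdet0
  have hGU : G ∈ Cfsg.GU n F q := by
    rw [Herm.mem_GU]
    intro x y
    change h (M *ᵥ x) (M *ᵥ y) = h x y
    rw [hMx, hMx]
    simp only [H.add_left, H.add_right, H.smul_left, H.smul_right, huu, ht, huv, hvu]
    have hb1 : conjQ hF b = (a : F)⁻¹ := by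
      rw [hb_def, map_inv₀, conjQ_apply]
      exact congrArg (·⁻¹) (Herm.conj_conj hF (a : F))
    have ha1 : conjQ hF (a : F) = b⁻¹ := by rw [hb_def, inv_inv, conjQ_apply]
    have hb0 : b ≠ 0 := inv_ne_zero (pow_ne_zero _ a.ne_zero)
    simp only [map_mul, map_sub, map_one, ← H.herm, hb1, ha1]
    field_simp
    ring
  refine ⟨⟨⟨G, hGU⟩, mem_guStab.2 fun w hw => ?_⟩, Units.ext ?_⟩
  · change M *ᵥ w ∈ W
    rw [hMx, show h w u = 0 from hW w hw u huW, mul_zero, zero_smul, add_zero]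
    exact W.add_mem hw (W.smul_mem _ huW)
  · change M.det = (l : F)
    rw [hdet, hab]

theorem card_suStab_mul (hF : Fintype.card F = q ^ 2) {n : ℕ} (hn : 1 ≤ n)
    (W : Submodule F (Fin n → F)) (hW : ∀ u ∈ W, ∀ v ∈ W, Cfsg.hermForm n F q u v = 0) :
    (q + 1) * Nat.card ↥((Cfsg.stabilizing (Cfsg.slToMat n F) (W : Set (Fin n → F))).subgroupOf
      (Cfsg.SU n F q)) = Nat.card (guStab n F q W) := by
  classical
  set d : guStab n F q W →* Fˣ := (Herm.detGU n F q).comp (guStab n F q W).subtype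
  have hr : d.range = (powMonoidHom (q + 1) : Fˣ →* Fˣ).ker := by
    refine le_antisymm ?_ fun l hl => ?_
    · rintro _ ⟨g, rfl⟩
      exact Units.ext (by simpa [d, Herm.detGU] using Herm.det_norm hF g.1.2)
    · exact exists_guStab_det hF hn W hW hl
  rw [← d.ker.card_mul_index, Subgroup.index_ker, hr, Herm.card_norm_one hF, mul_comm]
  congr 1
  symm
  refine Nat.card_eq_of_bijective (fun g : d.ker =>
    (⟨⟨⟨(((g.1.1 : ↥(Cfsg.GU n F q)) : GL (Fin n) F) : Matrix (Fin n) (Fin n) F),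
      by simpa [d, Herm.detGU] using congrArg Units.val g.2⟩, Herm.mem_GU.1 g.1.1.2⟩,
      Subgroup.mem_subgroupOf.2 ?_⟩ :
      ↥((Cfsg.stabilizing (Cfsg.slToMat n F) (W : Set (Fin n → F))).subgroupOf (Cfsg.SU n F q))))
    ⟨fun a b e => ?_, ?_⟩
  · rw [mem_stabilizing_iff_mapsTo]
    exact mem_guStab.1 g.1.2
  · exact Subtype.ext (Subtype.ext (Subtype.ext (Units.ext (congrArg (fun x :
      ↥((Cfsg.stabilizing (Cfsg.slToMat n F) (W : Set (Fin n → F))).subgroupOf (Cfsg.SU n F q)) =>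
        ((x.1 : SpecialLinearGroup (Fin n) F) : Matrix (Fin n) (Fin n) F)) e))))
  · rintro ⟨⟨A, hA⟩, hA'⟩
    have hm := (mem_stabilizing_iff_mapsTo _ _ _).1 (Subgroup.mem_subgroupOf.1 hA')
    let G : ↥(Cfsg.GU n F q) := ⟨SpecialLinearGroup.toGL A, hA⟩
    exact ⟨⟨⟨G, mem_guStab.2 hm⟩, Units.ext (by simpa [d, Herm.detGU, G] using A.2)⟩, rfl⟩

end Cfsg.Agent.Lib.Forms
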